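import Mathlib
import Cfsg.Prelude.Def_ClassicalGeometry
import Cfsg.Agent.Lib.Helper94.Basic

set_option autoImplicit false

/-!
# Piece statements for S5664 (`Sp_{2n}(q^r).r` is maximal in `Sp_{2nr}(q)`)

Abstract setting.  `L / F` a field extension, `W n L = Fin n ⊕ Fin n → L` with its `L`-symplectic
form `B = Cfsg.sympForm n L` and the `F`-valued alternating form `f x y = τ (B x y)`,
`τ : L →ₗ[F] F` nonzero.  `c : Ctx F L n` carries `τ` and a subgroup `c.M` of the `F`-linear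
automorphisms of `W n L` which preserves `f` (`c.isom`) and contains every `L`-linear
`B`-isometry (`c.hsub`).

The proof: an element of `c.M` that does not map `L`-lines to `L`-lines gives (START) data
`(g, v, u)` with `1 ≤ rk g v u ≤ r - 1`, `rk` the `F`-rank of `θ c = B (g (c • v)) u`; REDUCE
lowers the rank to `1`; NF, COMMA, COMMB turn rank-one data into a "Siegel element"
`x ↦ x + f x w • d + f x d • w + (c₀ * f x d) • d` of `c.M` with `B w d ≠ 0`; ORBIT moves `w`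
inside `w + d^⊥`; TVODD / TVBIG / TVEVEN1 produce an `F`-transvection `x ↦ x + (s * f x d) • d`
in `c.M`; ALLTV gives all of them.

Useful library (all on main): `Cfsg.Agent.Lib.Helper94.Basic` (`sympForm_add_left`,
`sympForm_smul_left`, `sympForm_self`, `sympForm_skew`, ... for `Cfsg.sympForm m F` over ANY
field - use them with the field `L`), `Cfsg.Agent.Lib.Helper94.SympStd.sympForm_isSymplectic`,
`Cfsg.Agent.Lib.Helper94.SympAbs.exists_rep` (every functional is `B (·) a`), `exists_map`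
(transitivity), `Cfsg.Agent.Lib.Helper94.SympGen.exists_hyp_perp`,
`Cfsg.Agent.Lib.Helper40.KStr.exists_rep τ hτ φ : ∃ c, ∀ a, φ a = τ (a * c)` and
`KStr.tau_inj τ hτ c c' : (∀ a, τ (a * c) = τ (a * c')) → c = c'`.
In this file: `ltv u a` (the `L`-transvection), `ff_*` lemmas, `smulF` (how `s : F` acts on `W`).
-/

namespace Cfsg.Agent.Lib.Helper40.SFStmt

open Cfsg.Agent.Lib.Helper94.Basic

universe u

/-- the space `L ^ (2 n)` -/
abbrev W (n : ℕ) (L : Type u) : Type u := Fin n ⊕ Fin n → L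

section defs
variable {F L : Type u} [Field F] [Field L] [Algebra F L] {n : ℕ}

/-- `s : F` acts on `W n L` as `algebraMap F L s` -/
theorem smulF (s : F) (x : W n L) : s • x = (algebraMap F L s) • x :=
  (algebraMap_smul L s x).symm

/-- the `F`-valued form `f x y = τ (B x y)` -/
def ff (τ : L →ₗ[F] F) (x y : W n L) : F := τ (Cfsg.sympForm n L x y)

theorem ff_add_left (τ : L →ₗ[F] F) (x x' y : W n L) : ff τ (x + x') y = ff τ x y + ff τ x' y := by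
  unfold ff
  rw [sympForm_add_left, map_add]

theorem ff_add_right (τ : L →ₗ[F] F) (x y y' : W n L) : ff τ x (y + y') = ff τ x y + ff τ x y' := by
  unfold ff
  rw [sympForm_add_right, map_add]

theorem ff_smul_left (τ : L →ₗ[F] F) (s : F) (x y : W n L) : ff τ (s • x) y = s * ff τ x y := by
  unfold ff
  rw [smulF, sympForm_smul_left, ← Algebra.smul_def, map_smul, smul_eq_mul]

theorem ff_smul_right (τ : L →ₗ[F] F) (s : F) (x y : W n L) : ff τ x (s • y) = s * ff τ x y := by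
  unfold ff
  rw [smulF, sympForm_smul_right, ← Algebra.smul_def, map_smul, smul_eq_mul]

theorem ff_self (τ : L →ₗ[F] F) (x : W n L) : ff τ x x = 0 := by
  unfold ff
  rw [sympForm_self, map_zero]

theorem ff_skew (τ : L →ₗ[F] F) (x y : W n L) : ff τ x y = - ff τ y x := by
  unfold ff
  rw [sympForm_skew, map_neg]

/-- `f (a • x) y = τ (a * B x y)` for `a : L` -/
theorem ff_lsmul_left (τ : L →ₗ[F] F) (a : L) (x y : W n L) :
    ff τ (a • x) y = τ (a * Cfsg.sympForm n L x y) := by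
  unfold ff
  rw [sympForm_smul_left]

theorem ff_lsmul_right (τ : L →ₗ[F] F) (a : L) (x y : W n L) :
    ff τ x (a • y) = τ (a * Cfsg.sympForm n L x y) := by
  unfold ff
  rw [sympForm_smul_right]

/-- the `L`-transvection `x ↦ x + (a * B x u) • u` -/
def ltv (u : W n L) (a : L) : W n L ≃ₗ[L] W n L :=
  LinearEquiv.ofLinear (sympTvLin u a) (sympTvLin u (-a))
    (by rw [sympTvLin_comp, add_neg_cancel, sympTvLin_zero])
    (by rw [sympTvLin_comp, neg_add_cancel, sympTvLin_zero])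

theorem ltv_apply (u : W n L) (a : L) (x : W n L) :
    ltv u a x = x + (a * Cfsg.sympForm n L x u) • u := rfl

theorem ltv_symm_apply (u : W n L) (a : L) (x : W n L) :
    (ltv u a).symm x = x + (-a * Cfsg.sympForm n L x u) • u := rfl

theorem ltv_isom (u : W n L) (a : L) (x y : W n L) :
    Cfsg.sympForm n L (ltv u a x) (ltv u a y) = Cfsg.sympForm n L x y := by
  simp only [ltv_apply, sympForm_add_left, sympForm_add_right, sympForm_smul_left,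
    sympForm_smul_right, sympForm_self]
  rw [sympForm_skew u y]
  ring

/-- the setting: `τ`, and a subgroup `M` of `F`-linear `f`-isometries containing all `L`-linear
`B`-isometries -/
structure Ctx (F L : Type u) [Field F] [Field L] [Algebra F L] (n : ℕ) where
  τ : L →ₗ[F] F
  M : Subgroup (W n L ≃ₗ[F] W n L)
  hτ : τ ≠ 0
  isom : ∀ g ∈ M, ∀ x y : W n L, ff τ (g x) (g y) = ff τ x y
  hsub : ∀ h : W n L ≃ₗ[L] W n L,
    (∀ x y : W n L, Cfsg.sympForm n L (h x) (h y) = Cfsg.sympForm n L x y) →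
      h.restrictScalars F ∈ M

/-- `θ c = B (g (c • v)) u`, an `F`-linear map `L → L` -/
def theta (g : W n L ≃ₗ[F] W n L) (v u : W n L) : L →ₗ[F] L where
  toFun c := Cfsg.sympForm n L (g (c • v)) u
  map_add' c c' := by rw [add_smul, map_add, sympForm_add_left]
  map_smul' s c := by
    rw [smul_assoc, map_smul, RingHom.id_apply, smulF, sympForm_smul_left, ← Algebra.smul_def]

theorem theta_apply (g : W n L ≃ₗ[F] W n L) (v u : W n L) (c : L) :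
    theta g v u c = Cfsg.sympForm n L (g (c • v)) u := rfl

/-- the `F`-rank of `theta g v u` -/
noncomputable def rk (g : W n L ≃ₗ[F] W n L) (v u : W n L) : ℕ :=
  Module.finrank F (LinearMap.range (theta g v u))

/-- `e` is the Siegel element `x ↦ x + f x w • d + f x d • w + (c₀ * f x d) • d` -/
def IsSiegel (τ : L →ₗ[F] F) (e : W n L ≃ₗ[F] W n L) (d w : W n L) (c₀ : F) : Prop :=
  ∀ x : W n L, e x = x + ff τ x w • d + ff τ x d • w + (c₀ * ff τ x d) • d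

/-- `e` is the `F`-transvection `x ↦ x + (s * f x d) • d` -/
def IsTv (τ : L →ₗ[F] F) (e : W n L ≃ₗ[F] W n L) (d : W n L) (s : F) : Prop :=
  ∀ x : W n L, e x = x + (s * ff τ x d) • d

end defs

/-! ## the pieces -/

/-- [SPREAD] an `F`-linear bijection mapping `L`-lines into `L`-lines is `L`-semilinear (the
kernel of a spread is the field).  Fix `a`; for `x ≠ 0` let `μ x` be an `a'` with
`g (a • x) = a' • g x`.  If `g x, g y` are `L`-independent then (hypothesis for `x + y`)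
`μ (x + y) • (g x + g y) = μ x • g x + μ y • g y`, so `μ x = μ y`.  If `g y = b • g x`, take `z`
with `g z ∉ L (g x)` (`g` is onto and one of `Pi.single (Sum.inl 0) 1`, `Pi.single (Sum.inr 0) 1`
is not in `L (g x)`; this is where `1 ≤ n` is used): `μ x = μ z = μ y`.  So `μ` is constant on
nonzero vectors; `x = 0` is trivial. -/
def Spread : Prop :=
  ∀ (F L : Type u) [Field F] [Field L] [Algebra F L] (n : ℕ), 1 ≤ n →
    ∀ g : W n L ≃ₗ[F] W n L, (∀ (x : W n L) (a : L), ∃ a' : L, g (a • x) = a' • g x) →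
      ∀ a : L, ∃ a' : L, ∀ x : W n L, g (a • x) = a' • g x

/-- [SEP] `b ∉ L w` is separated from `w` by some `B (·) u`.  (`w = 0`: nondegeneracy,
`SympStd.sympForm_isSymplectic.nondegenerate`.  Else a functional `φ` with `φ w = 0`,
`φ b ≠ 0` (`Submodule.exists_le_ker_of_notMem` / `Submodule.exists_dual_map_eq_bot_of_notMem`
for `span L {w}`), and `φ = B (·) u` by `SympAbs.exists_rep`.) -/
def Sep : Prop :=
  ∀ (L : Type u) [Field L] (n : ℕ) (w b : W n L), (∀ a : L, b ≠ a • w) →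
    ∃ u : W n L, Cfsg.sympForm n L w u = 0 ∧ Cfsg.sympForm n L b u ≠ 0

/-- [START] (from `Sep`) if `g (a • x) ∉ L (g x)`: `v = x`, `u` from `Sep` for `w = g x`,
`b = g (a • x)`.  Then `theta g v u 1 = 0` (so the kernel is nonzero and
`rk + 1 ≤ finrank F L` by `LinearMap.finrank_range_add_finrank_ker`) and
`theta g v u a ≠ 0` (so `1 ≤ rk`). -/
def Start : Prop :=
  ∀ (F L : Type u) [Field F] [Field L] [Algebra F L] [FiniteDimensional F L] (n : ℕ)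
    (g : W n L ≃ₗ[F] W n L),
    (¬ ∀ (x : W n L) (a : L), ∃ a' : L, g (a • x) = a' • g x) →
    ∃ v u : W n L, 1 ≤ rk g v u ∧ rk g v u + 1 ≤ Module.finrank F L

/-- [FIELD] `[L : F] = r` prime, `Λ` an `F`-subspace with `2 ≤ dim Λ ≤ r - 1`: some
`x₀ ∈ Λ \ 0` and `x₁, x₂ ∈ Λ` have `x₁ x₂ ∉ x₀ Λ`.  (Otherwise fix `x₀ ∈ Λ \ 0`: for all
`y ∈ Λ \ 0`, `y Λ ⊆ Λ Λ ⊆ x₀ Λ`, so `y Λ = x₀ Λ` (dimensions) and `(y / x₀) Λ = Λ`.  Then
`x₀⁻¹ Λ` contains `1` and is closed under multiplication: a subalgebra of dimension `dim Λ`,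
strictly between `1` and `r`; impossible: `subalgebraEquivIntermediateField` and
`IntermediateField.isSimpleOrder_of_finrank_prime`, or the tower law.) -/
def FieldLem : Prop :=
  ∀ (F L : Type u) [Field F] [Field L] [Algebra F L], (Module.finrank F L).Prime →
    ∀ Λ : Submodule F L, 2 ≤ Module.finrank F Λ → Module.finrank F Λ + 1 ≤ Module.finrank F L →
      ∃ x₀ ∈ Λ, x₀ ≠ 0 ∧ ∃ x₁ ∈ Λ, ∃ x₂ ∈ Λ, ∀ y ∈ Λ, x₁ * x₂ ≠ x₀ * y

/-- [REDUCE] (from `FieldLem`) rank reduction.  `θ = theta g v u`, `Λ = range θ`; `x₀, x₁, x₂`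
from `FieldLem`; `a : L` with `τ (a * x₀ * y) = 0` for `y ∈ Λ` and `τ (a * x₁ * x₂) ≠ 0` (a
functional vanishing on `x₀ Λ` but not at `x₁ x₂`, written as `τ (· * a)` by `KStr.exists_rep`).
`t = (ltv u a).restrictScalars F ∈ c.M`, `g' = g⁻¹ * t * g`, `v' = v`, `u' = v`,
`θ' = theta g' v v`.  Then for all `c c'`:
`τ (c' * θ' c) = f (g' (c • v)) (c' • v) = f (t (g (c • v))) (g (c' • v))`
`= f (c • v) (c' • v) + τ (a * θ c * B u (g (c' • v))) = - τ (a * θ c * θ c')`.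
Hence `ker θ ≤ ker θ'` (`KStr.tau_inj`), `c₀ ∈ ker θ' \ ker θ` for `θ c₀ = x₀`, and
`θ' c₁ ≠ 0` for `θ c₁ = x₁`: `1 ≤ rk' < rk` by rank-nullity. -/
def Reduce : Prop :=
  ∀ (F L : Type u) [Field F] [Field L] [Algebra F L] [FiniteDimensional F L] (n : ℕ)
    (c : Ctx F L n), (Module.finrank F L).Prime →
    ∀ g ∈ c.M, ∀ v u : W n L, 2 ≤ rk g v u → rk g v u + 1 ≤ Module.finrank F L →
      ∃ g' ∈ c.M, ∃ v' u' : W n L, 1 ≤ rk g' v' u' ∧ rk g' v' u' < rk g v u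

/-- [NF] normal form of rank-one data.  `range (theta g v u) = F ℓ₀`, `θ c = ϑ c • ℓ₀` with
`ϑ : L →ₗ[F] F` nonzero; `a : L` with `τ (a * ℓ₀ * ℓ₀) ≠ 0`; `t = (ltv u a).restrictScalars F`,
`γ = g⁻¹ * t * g ∈ c.M`, `κ = - τ (a * ℓ₀ * ℓ₀)`.  If `ϑ c = 0` then `t (g (c • v)) = g (c • v)`,
so `γ (c • v) = c • v`; and `f (γ (c • v)) (c' • v) = f (t (g (c • v))) (g (c' • v))
= - τ (a * θ c * θ c') = κ * ϑ c * ϑ c'`. -/
def NF : Prop :=
  ∀ (F L : Type u) [Field F] [Field L] [Algebra F L] [FiniteDimensional F L] (n : ℕ)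
    (c : Ctx F L n), ∀ g ∈ c.M, ∀ v u : W n L, rk g v u = 1 →
      ∃ γ ∈ c.M, ∃ (ϑ : L →ₗ[F] F) (κ : F), ϑ ≠ 0 ∧ κ ≠ 0 ∧
        (∀ a : L, ϑ a = 0 → γ (a • v) = a • v) ∧
        (∀ a a' : L, ff c.τ (γ (a • v)) (a' • v) = κ * ϑ a * ϑ a')

/-- [COMMA] the commutator identity.  With `N₁ = s₁ - 1`, `N₂ = s₂ - 1`: if
`N₁ N₂ = κ f(·, e₂) e₁`, `N₂ N₁ = - κ f(·, e₁) e₂`, `f (N₁ x) e₁ = f (N₂ x) e₁ = f (N₂ x) e₂ = 0`,
`f (N₁ x) e₂ = - κ f x e₁`, `f e₂ e₁ = 0`, then `s₁ s₂ (s₂ s₁)⁻¹` is the Siegel element for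
`d = e₁`, `w = κ • e₂`, `c₀ = κ ^ 2`.  (Put `y = s₂ (s₁ x) = x + N₁ x + N₂ x + N₂ N₁ x`; then
`f y e₁ = f x e₁`, `f y e₂ = f x e₂ - κ f x e₁`, and
`y + f y w • d + f y d • w + (c₀ * f y d) • d = x + N₁ x + N₂ x + N₁ N₂ x = s₁ (s₂ x)`.) -/
def CommA : Prop :=
  ∀ (F L : Type u) [Field F] [Field L] [Algebra F L] (n : ℕ) (τ : L →ₗ[F] F)
    (s₁ s₂ : W n L ≃ₗ[F] W n L) (e₁ e₂ : W n L) (κ : F),
    (∀ x, s₁ (s₂ x) - s₂ x - s₁ x + x = (κ * ff τ x e₂) • e₁) →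
    (∀ x, s₂ (s₁ x) - s₁ x - s₂ x + x = (-(κ * ff τ x e₁)) • e₂) →
    (∀ x, ff τ (s₁ x - x) e₁ = 0) → (∀ x, ff τ (s₂ x - x) e₁ = 0) →
    (∀ x, ff τ (s₂ x - x) e₂ = 0) → (∀ x, ff τ (s₁ x - x) e₂ = -(κ * ff τ x e₁)) →
    ff τ e₂ e₁ = 0 →
    IsSiegel τ (s₁ * s₂ * (s₂ * s₁)⁻¹) e₁ (κ • e₂) (κ ^ 2)

/-- [COMMB] (from `CommA`) the Siegel element.  Let `e* : L` with `ϑ a = τ (a * e*)`
(`KStr.exists_rep`; `e* ≠ 0`), `δ₁ ≠ 0` with `ϑ δ₁ = 0` (`2 ≤ finrank`), `δ₂` with `ϑ δ₂ = 1`,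
`a₁ = e*⁻¹ * δ₁`, `a₂ = e*⁻¹ * δ₂`, `s₁ = (ltv v a₁).restrictScalars F ∈ c.M`,
`s₂ = γ * (ltv v a₂).restrictScalars F * γ⁻¹ ∈ c.M`, `e₁ = δ₁ • v`, `e₂ = γ (δ₂ • v)`.
Facts (`KStr.tau_inj`): `B (γ (a • v)) v = (κ * ϑ a) • e*` and `B (γ⁻¹ (a • v)) v = -(κ * ϑ a) • e*`
(the second from `f (γ⁻¹ x) y = f x (γ y)`).  With `N₁ x = (a₁ * B x v) • v`,
`N₂ x = γ ((a₂ * B (γ⁻¹ x) v) • v)`: `N₁ (γ (a • v)) = (κ * ϑ a) • e₁`,
`N₂ (a • v) = -(κ * ϑ a) • e₂`, `ϑ (a₂ * B (γ⁻¹ x) v) = f x e₂`, `ϑ (a₁ * B x v) = f x e₁`; these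
give the hypotheses of `CommA`.  Result: `e = s₁ * s₂ * (s₂ * s₁)⁻¹`, `d = e₁`, `w = κ • e₂`,
`c₀ = κ ^ 2`; `f w d = κ * f (γ (δ₂ • v)) (δ₁ • v) = 0`, `B w d = κ² δ₁ e* ≠ 0`; `v ≠ 0` as
`f (γ (a • v)) (a' • v) ≠ 0` for some `a, a'`. -/
def CommB : Prop :=
  ∀ (F L : Type u) [Field F] [Field L] [Algebra F L] [FiniteDimensional F L] (n : ℕ)
    (c : Ctx F L n), 2 ≤ Module.finrank F L →
    ∀ γ ∈ c.M, ∀ (v : W n L) (ϑ : L →ₗ[F] F) (κ : F), ϑ ≠ 0 → κ ≠ 0 →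
      (∀ a : L, ϑ a = 0 → γ (a • v) = a • v) →
      (∀ a a' : L, ff c.τ (γ (a • v)) (a' • v) = κ * ϑ a * ϑ a') →
      ∃ e ∈ c.M, ∃ (d w : W n L) (c₀ : F), d ≠ 0 ∧ ff c.τ w d = 0 ∧
        Cfsg.sympForm n L w d ≠ 0 ∧ IsSiegel c.τ e d w c₀

/-- [ORBIT] `ℓ = B w d ≠ 0`, `B u d = 0`: with `y = ℓ⁻¹ • u`, `ε = - B w y / ℓ`, the `L`-linear
isometry `h = ltv (y + d) 1 * ltv y (-1) * ltv d (ε - 1)` (as composition; the three commute) is
`x ↦ x + B x d • y + B x y • d + (ε * B x d) • d`; `h d = d`, `h w = w + u`.  Then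
`e' = h' * e * h'⁻¹` (`h' = h.restrictScalars F ∈ c.M`) is the Siegel element for `d`, `w + u`,
`c₀`, because `f (h'⁻¹ x) z = f x (h' z)`. -/
def Orbit : Prop :=
  ∀ (F L : Type u) [Field F] [Field L] [Algebra F L] (n : ℕ) (c : Ctx F L n),
    ∀ e ∈ c.M, ∀ (d w : W n L) (c₀ : F), IsSiegel c.τ e d w c₀ →
      Cfsg.sympForm n L w d ≠ 0 → ∀ u : W n L, Cfsg.sympForm n L u d = 0 →
        ∃ e' ∈ c.M, IsSiegel c.τ e' d (w + u) c₀

/-- [TVODD] (from `Orbit` with `u = d`) characteristic not two: `e' * e⁻¹` is the transvection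
`x ↦ x + (2 * f x d) • d` (`e' x = e x + (2 * f x d) • d` and `f (e x) d = f x d` as
`f w d = 0`). -/
def TvOdd : Prop :=
  ∀ (F L : Type u) [Field F] [Field L] [Algebra F L] (n : ℕ) (c : Ctx F L n), (2 : F) ≠ 0 →
    ∀ e ∈ c.M, ∀ (d w : W n L) (c₀ : F), IsSiegel c.τ e d w c₀ → d ≠ 0 → ff c.τ w d = 0 →
      Cfsg.sympForm n L w d ≠ 0 →
        ∃ k ∈ c.M, ∃ (d' : W n L) (s : F), d' ≠ 0 ∧ s ≠ 0 ∧ IsTv c.τ k d' s

/-- [TVBIG] (from `Orbit`) `2 ≤ n`: there are `u, u'` with `B u d = 0 = B u' d` and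
`f u' u ≠ 0` (`SympGen.exists_hyp_perp` gives `B u' u ≠ 0`; rescale `u'` by `a : L` with
`τ (a * B u' u) ≠ 0`).  With `e_z` the Siegel element for `d`, `w + z`, `c₀` (`Orbit`;
`e_0 = e`): `k = e_u * e⁻¹ * e_u' * e_(u+u')⁻¹` is the transvection `x ↦ x + (f u' u * f x d) • d`.
(Siegel elements for the same `d` multiply by
`g(w, c) ∘ g(w', c') = g(w + w', c + c' + f w' w)` when `f w d = f w' d = 0`,
and `g(w, c)⁻¹ = g(-w, -c)`.) -/
def TvBig : Prop :=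
  ∀ (F L : Type u) [Field F] [Field L] [Algebra F L] (n : ℕ) (c : Ctx F L n), 2 ≤ n →
    ∀ e ∈ c.M, ∀ (d w : W n L) (c₀ : F), IsSiegel c.τ e d w c₀ → d ≠ 0 → ff c.τ w d = 0 →
      Cfsg.sympForm n L w d ≠ 0 →
        ∃ k ∈ c.M, ∃ (d' : W n L) (s : F), d' ≠ 0 ∧ s ≠ 0 ∧ IsTv c.τ k d' s

/-- [HUA] characteristic two, `[L : F] ≥ 3`, `S` an `F`-hyperplane of `L` containing `1`: some
`s ∈ S \ 0` has `s⁻¹ ∉ S`.  (Otherwise for `a, b ∈ S \ 0`, `a b ≠ 1`: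
`a⁻¹ + (b⁻¹ - a)⁻¹ = (a (1 - a b))⁻¹`, so `a - a² b ∈ S` and `a² b ∈ S`; squaring is injective
`S → S`, hence onto (`L` finite), so `S S ⊆ S`: a subalgebra of dimension `r - 1`, which must
divide `r` (tower law / cardinalities); impossible for `r ≥ 3`.) -/
def Hua : Prop :=
  ∀ (F L : Type u) [Field F] [Field L] [Algebra F L] [Finite L], (2 : F) = 0 →
    3 ≤ Module.finrank F L → ∀ S : Submodule F L, (1 : L) ∈ S →
      Module.finrank F S + 1 = Module.finrank F L → ∃ s ∈ S, s ≠ 0 ∧ s⁻¹ ∉ S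

/-- [TRANS] the `L`-linear isometries are transitive on nonzero vectors
(`SympAbs.exists_map SympStd.sympForm_isSymplectic`; turn the matrix into a linear equivalence,
e.g. `LinearEquiv.ofLinear (Matrix.toLin' h) (Matrix.toLin' h⁻¹)`). -/
def Trans : Prop :=
  ∀ (L : Type u) [Field L] (n : ℕ) (x y : W n L), x ≠ 0 → y ≠ 0 →
    ∃ h : W n L ≃ₗ[L] W n L,
      (∀ a b : W n L, Cfsg.sympForm n L (h a) (h b) = Cfsg.sympForm n L a b) ∧ h x = y

/-- [TVEVEN1] (from `Orbit`, `Hua`, `Trans`) characteristic two, `[L : F] ≥ 3`.  `ℓ = B w d`,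
`S = ker (a ↦ τ (a * ℓ))` (a hyperplane; `1 ∈ S` as `f w d = 0`), `υ ∈ S \ 0` with `υ⁻¹ ∉ S`.
`k₁ = e_(υ • d) * e⁻¹` is `x ↦ x + f x (υ • d) • d + f x d • (υ • d)` (as `f w (υ • d) = 0`) and
`k₂ = e_(υ⁻¹ • d) * e⁻¹` is `x ↦ x + f x (υ⁻¹ • d) • d + f x d • (υ⁻¹ • d) + (ν * f x d) • d`,
`ν = f w (υ⁻¹ • d) ≠ 0`.  `h` an `L`-linear isometry with `h d = υ • d` (`Trans`),
`P = h' * k₂ * h'⁻¹ : x ↦ x + f x d • (υ • d) + f x (υ • d) • d + (ν * f x (υ • d)) • (υ • d)`.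
Then `k₁ * P` is the transvection `x ↦ x + (ν * f x (υ • d)) • (υ • d)` (`2 = 0`). -/
def TvEven1 : Prop :=
  ∀ (F L : Type u) [Field F] [Field L] [Algebra F L] [Finite L] (n : ℕ) (c : Ctx F L n),
    (2 : F) = 0 → 3 ≤ Module.finrank F L →
    ∀ e ∈ c.M, ∀ (d w : W n L) (c₀ : F), IsSiegel c.τ e d w c₀ → d ≠ 0 → ff c.τ w d = 0 →
      Cfsg.sympForm n L w d ≠ 0 →
        ∃ k ∈ c.M, ∃ (d' : W n L) (s : F), d' ≠ 0 ∧ s ≠ 0 ∧ IsTv c.τ k d' s

/-- [ALLTV] (from `Trans`) one transvection gives all.  Conjugating by `L`-linear isometries: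
`Tv(d, s₀) ∈ M` for all `d ≠ 0`; `Tv(t • d, s₀) = Tv(d, s₀ t²)`; `Tv(d, s) ∘ Tv(d, s') =
Tv(d, s + s')`; every element of a finite field is a sum of two squares
(`FiniteField.sq_add_sq` / `FiniteField.isSquare_add_isSquare...`); `Tv(0, s) = Tv(d, 0) = 1`. -/
def AllTv : Prop :=
  ∀ (F L : Type u) [Field F] [Finite F] [Field L] [Algebra F L] (n : ℕ) (c : Ctx F L n),
    (∃ k ∈ c.M, ∃ (d : W n L) (s : F), d ≠ 0 ∧ s ≠ 0 ∧ IsTv c.τ k d s) →
    ∀ (d : W n L) (s : F), ∃ k ∈ c.M, IsTv c.τ k d s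

end Cfsg.Agent.Lib.Helper40.SFStmt
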