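import Mathlib
import Cfsg.Agent.S2568
import Cfsg.Agent.Lib.Helper40.GUReal
import Cfsg.Agent.Lib.Helper40.RecipPoly
import Cfsg.Agent.Lib.Helper40.CycloVal
import Cfsg.Agent.Lib.Helper40.HermAdj

set_option autoImplicit false

namespace Cfsg.Agent.Lib.Helper40.HPoly

open Polynomial UniqueFactorizationMonoid Cfsg.Agent.Lib.Helper40.RecipPoly
  Cfsg.Agent.Lib.Helper40.GUReal Cfsg.Agent.Lib.Helper40.HermAdj

section cyclo

/-- The irreducible factors of `X^r - 1` over the field with `q²` elements and the twisted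
reciprocal. -/
theorem gu_cyclo_facts {K : Type*} [Field K] [Fintype K] {p q : ℕ} [Fact p.Prime] [CharP K p]
    (hK : Fintype.card K = q ^ 2) (φ : K →+* K) (hφ : ∀ x, φ x = x ^ q) (hφ2 : ∀ x, φ (φ x) = x)
    (r : ℕ) (hr : r.Prime) (hr2 : r ≠ 2) (hrp : r ≠ p) (i : ℕ) (hi : i = orderOf (q : ZMod r)) :
    ∃ (b : ℕ) (S : Finset K[X]), 0 < i ∧ b = (if Odd i then i else i / 2) ∧ S.Nonempty ∧
      (X - C (1 : K)) ∉ S ∧
      (∀ P ∈ S, Irreducible P ∧ P.Monic ∧ P.natDegree = b ∧ P.coeff 0 ≠ 0) ∧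
      (∀ P : K[X], Irreducible P → P.Monic → (P ∣ X ^ r - C (1 : K) ↔ P = X - C 1 ∨ P ∈ S)) ∧
      (∀ P ∈ S, rstar φ P ∈ S) ∧ (∀ P ∈ S, (rstar φ P = P ↔ i % 4 = 2)) := by
  classical
  have hp : p.Prime := Fact.out
  have hr0 : (r : K) ≠ 0 := by
    rw [Ne, CharP.cast_eq_zero_iff K p]
    intro h
    exact hrp ((Nat.prime_dvd_prime_iff_eq hp hr).mp h).symm
  obtain ⟨f, -, hf⟩ := FiniteField.card K p
  have hqdvd : q ∣ p ^ (f : ℕ) := by
    rw [← hf, hK]
    exact dvd_pow_self q two_ne_zero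
  obtain ⟨e, -, hqe⟩ := (Nat.dvd_prime_pow hp).mp hqdvd
  have : Fact r.Prime := ⟨hr⟩
  have hx0 : (q : ZMod r) ≠ 0 := by
    rw [Ne, ZMod.natCast_eq_zero_iff, hqe]
    intro h
    exact hrp ((Nat.prime_dvd_prime_iff_eq hr hp).mp (hr.dvd_of_dvd_pow h))
  have hipos : 0 < i := by
    rw [hi]
    exact Cfsg.Agent.Lib.Helper40.CycloVal.order_pos q r
      (fun h => hx0 ((ZMod.natCast_eq_zero_iff _ _).mpr h))
  obtain ⟨b, hb⟩ : ∃ b, b = if Odd i then i else i / 2 := ⟨_, rfl⟩
  have hb' : b = orderOf ((Fintype.card K : ℕ) : ZMod r) := by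
    rw [hK, Nat.cast_pow, orderOf_pow' _ two_ne_zero, ← hi, hb]
    split_ifs with hodd
    · rw [Nat.Coprime.gcd_eq_one (Nat.Coprime.symm (Nat.coprime_two_left.mpr hodd)), Nat.div_one]
    · rw [Nat.gcd_eq_right (even_iff_two_dvd.mp (Nat.not_odd_iff_even.mp hodd))]
  have hbdvd : b ∣ r - 1 := by
    rw [hb']
    apply orderOf_dvd_of_pow_eq_one
    apply ZMod.pow_card_sub_one_eq_one
    rw [hK, Nat.cast_pow]
    exact pow_ne_zero _ hx0
  obtain ⟨s, hs'⟩ := hbdvd
  have hs : s * b = r - 1 := by rw [hs', mul_comm]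
  obtain ⟨S, hScard, hLS, hS, hSdvd⟩ :=
    Cfsg.Agent.S2568.cyclo_facts (F := K) (p := p) r b s hr hrp hb' hs
  have hLS0 := hLS
  have hSdvd0 := hSdvd
  obtain ⟨L, hL⟩ : ∃ L : K[X], L = X - C (1 : K) := ⟨_, rfl⟩
  have hLirr : Irreducible L := hL ▸ irreducible_X_sub_C 1
  have hLm : L.Monic := hL ▸ monic_X_sub_C 1
  have hLd : L.natDegree = 1 := hL ▸ natDegree_X_sub_C 1
  rw [← hL] at hLS hSdvd
  have hLs : rstar φ L = L := by
    rw [hL]
    exact rstar_X_sub_one φ
  have hL0 : L.coeff 0 ≠ 0 := by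
    rw [hL, coeff_sub, coeff_X_zero, coeff_C_zero, zero_sub]
    exact neg_ne_zero.mpr one_ne_zero
  have hXr0 : (X ^ r - C (1 : K)).coeff 0 ≠ 0 := by
    rw [coeff_sub, coeff_X_pow, coeff_C_zero, if_neg hr.ne_zero.symm, zero_sub]
    exact neg_ne_zero.mpr one_ne_zero
  have hSd : ∀ P ∈ S, P ∣ X ^ r - C (1 : K) := fun P hP =>
    (hSdvd P (hS P hP).1 (hS P hP).2.1).mpr (Or.inr hP)
  have hS0 : ∀ P ∈ S, P.coeff 0 ≠ 0 := fun P hP => coeff0_of_dvd (hSd P hP) hXr0
  have hSs : ∀ P ∈ S, rstar φ P ∈ S := by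
    intro P hP
    obtain ⟨Q, hQ⟩ := hSd P hP
    have h1 : rstar φ P ∣ X ^ r - C (1 : K) := by
      have h2 := rstar_X_pow_sub_one φ r hr.pos
      rw [hQ, rstar_mul] at h2
      exact ⟨rstar φ Q, by rw [hQ]; exact h2.symm⟩
    rcases (hSdvd _ (rstar_irreducible φ hφ2 P (hS P hP).1 (hS P hP).2.1 (hS0 P hP))
      (rstar_monic φ P (hS0 P hP))).mp h1 with h | h
    · exfalso
      have h2 := rstar_star φ hφ2 P (hS P hP).2.1 (hS0 P hP)
      rw [h, hLs] at h2
      exact hLS (h2 ▸ hP)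
    · exact h
  have hSss : ∀ P ∈ S, rstar φ (rstar φ P) = P := fun P hP =>
    rstar_star φ hφ2 P (hS P hP).2.1 (hS0 P hP)
  have hcrit : ∀ P ∈ S, (rstar φ P = P ↔ ∃ k : ℕ, r ∣ Fintype.card K ^ k + q) := by
    intro P hP
    exact rstar_eq_iff (p := p) φ q e hqe hφ hφ2 r hr P (hS P hP).1 (hS P hP).2.1
      (fun h => hLS (by rw [hL, ← h]; exact hP)) (hSd P hP)
  have h2ne : (2 : ZMod r) ≠ 0 := by
    intro h
    have h7 : ((2 : ℕ) : ZMod r) = 0 := by
      rw [Nat.cast_ofNat]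
      exact h
    have h8 := (ZMod.natCast_eq_zero_iff _ _).mp h7
    exact hr2 ((Nat.prime_dvd_prime_iff_eq hr Nat.prime_two).mp h8)
  have hcast : ∀ k : ℕ, (r ∣ Fintype.card K ^ k + q ↔
      (q : ZMod r) ^ (2 * k) + (q : ZMod r) = 0) := by
    intro k
    rw [← ZMod.natCast_eq_zero_iff, hK, Nat.cast_add, Nat.cast_pow, Nat.cast_pow, ← pow_mul]
  have hiff : (∃ k : ℕ, r ∣ Fintype.card K ^ k + q) ↔ i % 4 = 2 := by
    constructor
    · rintro ⟨k, hk⟩
      rw [hcast] at hk
      rcases Nat.eq_zero_or_pos k with hk0 | hkpos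
      · subst hk0
        rw [mul_zero, pow_zero] at hk
        have h1 : (q : ZMod r) = -1 := by linear_combination hk
        have h2 : (q : ZMod r) ^ 2 = 1 := by rw [h1, neg_one_sq]
        have h3 : i ∣ 2 := by
          rw [hi]
          exact orderOf_dvd_of_pow_eq_one h2
        rcases (Nat.dvd_prime Nat.prime_two).mp h3 with h | h
        · exfalso
          rw [hi, orderOf_eq_one_iff] at h
          rw [h] at h1
          apply h2ne
          linear_combination h1
        · rw [h]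
      · have h1 : (q : ZMod r) ^ (2 * k - 1) = -1 := by
          have h2 : ((q : ZMod r) ^ (2 * k - 1) + 1) * (q : ZMod r) = 0 := by
            have h3 : (q : ZMod r) ^ (2 * k) = (q : ZMod r) ^ (2 * k - 1) * (q : ZMod r) := by
              rw [← pow_succ]
              congr 1
              omega
            rw [h3] at hk
            linear_combination hk
          rcases mul_eq_zero.mp h2 with h | h
          · exact eq_neg_of_add_eq_zero_left h
          · exact absurd h hx0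
        have h3 : i ∣ 2 * (2 * k - 1) := by
          rw [hi]
          apply orderOf_dvd_of_pow_eq_one
          rw [mul_comm, pow_mul, h1, neg_one_sq]
        have h4 : ¬ i ∣ 2 * k - 1 := by
          intro h
          rw [hi] at h
          have h5 := orderOf_dvd_iff_pow_eq_one.mp h
          rw [h1] at h5
          apply h2ne
          linear_combination -h5
        by_contra hmod
        rcases Nat.even_or_odd i with hev | hodd
        · obtain ⟨c, hc⟩ := h3
          obtain ⟨a, ha⟩ : ∃ a, i = 4 * a := ⟨i / 4, by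
            have := hev.two_dvd
            omega⟩
          rw [ha] at hc
          have h6 : 4 * a * c = 4 * (a * c) := by ring
          omega
        · exact h4 (Nat.Coprime.dvd_of_dvd_mul_left
            (Nat.Coprime.symm (Nat.coprime_two_left.mpr hodd)) h3)
    · intro hmod
      obtain ⟨j, hj⟩ : ∃ j, i = 2 * j := ⟨i / 2, by omega⟩
      refine ⟨(j + 1) / 2, ?_⟩
      rw [hcast]
      have h1 : ((q : ZMod r) ^ j) ^ 2 = 1 := by
        rw [← pow_mul, mul_comm, ← hj, hi, pow_orderOf_eq_one]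
      have h2 : (q : ZMod r) ^ j ≠ 1 := by
        apply pow_ne_one_of_lt_orderOf
        · omega
        · rw [← hi]
          omega
      have h3 : (q : ZMod r) ^ j = -1 := by
        have h4 : ((q : ZMod r) ^ j - 1) * ((q : ZMod r) ^ j + 1) = 0 := by
          linear_combination h1
        rcases mul_eq_zero.mp h4 with h | h
        · exact absurd (sub_eq_zero.mp h) h2
        · exact eq_neg_of_add_eq_zero_left h
      have h5 : 2 * ((j + 1) / 2) = j + 1 := by omega
      rw [h5, pow_succ, h3]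
      ring
  refine ⟨b, S, hipos, hb, ?_, hLS0,
    fun P hP => ⟨(hS P hP).1, (hS P hP).2.1, (hS P hP).2.2, hS0 P hP⟩, hSdvd0, hSs,
    fun P hP => (hcrit P hP).trans hiff⟩
  rw [← Finset.card_pos, hScard]
  rcases Nat.eq_zero_or_pos s with h | h
  · subst h
    have := hr.two_le
    omega
  · exact h

end cyclo

section poly
variable {K : Type*} [Field K]

theorem rstar_X_pow_sub_C (φ : K →+* K) (k : ℕ) (hk : 0 < k) (z : K) (hz : z ≠ 0) :
    rstar φ (X ^ k - C z) = X ^ k - C (φ z)⁻¹ := by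
  have h1 : (X ^ k - C z).reverse = 1 - C z * X ^ k := by
    rw [reverse, natDegree_X_pow_sub_C, reflect_sub, reflect_monomial, reflect_C,
      revAt_le le_rfl, Nat.sub_self, pow_zero]
  have hφz : φ z ≠ 0 := (map_ne_zero φ).mpr hz
  have h2 : C (φ z)⁻¹ * C (φ z) = (1 : K[X]) := by rw [← C_mul, inv_mul_cancel₀ hφz, C_1]
  unfold rstar
  rw [h1, coeff_sub, coeff_X_pow, coeff_C_zero, if_neg hk.ne, zero_sub, map_neg, inv_neg,
    Polynomial.map_sub, Polynomial.map_one, Polynomial.map_mul, Polynomial.map_C,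
    Polynomial.map_pow, map_X, C_neg]
  linear_combination (X ^ k) * h2

theorem rstar_X_pow_sub_C_fix (φ : K →+* K) (k : ℕ) (hk : 0 < k) (z : K) (hz : φ z * z = 1) :
    rstar φ (X ^ k - C z) = X ^ k - C z := by
  have hz0 : z ≠ 0 := right_ne_zero_of_mul_eq_one hz
  rw [rstar_X_pow_sub_C φ k hk z hz0, inv_eq_of_mul_eq_one_right hz]

theorem rstar_X_sub_C (φ : K →+* K) (a : K) (ha : a ≠ 0) :
    rstar φ (X - C a) = X - C (φ a)⁻¹ := by
  have h := rstar_X_pow_sub_C φ 1 one_pos a ha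
  rwa [pow_one] at h

/-- **Chain lemma.** A self-dual monic polynomial all of whose atoms (self-dual irreducible
factors, or products of an irreducible factor with its distinct dual) have degree `c` has degree
a multiple of `c`, and self-dual monic divisors of every smaller multiple of `c`. -/
theorem chain [DecidableEq K] (φ : K →+* K) (hφ : ∀ x, φ (φ x) = x) (c : ℕ) :
    ∀ (d : ℕ) (χ : K[X]), χ.Monic → rstar φ χ = χ → χ.coeff 0 ≠ 0 → χ.natDegree = d →
      (∀ P : K[X], Irreducible P → P.Monic → P ∣ χ →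
        (rstar φ P = P ∧ P.natDegree = c) ∨ (rstar φ P ≠ P ∧ 2 * P.natDegree = c)) →
      ∃ j, d = j * c ∧ ∀ j' ≤ j, ∃ D : K[X], D.Monic ∧ rstar φ D = D ∧
        D.natDegree = j' * c ∧ D ∣ χ := by
  intro d
  induction d using Nat.strong_induction_on with
  | _ d ih =>
    intro χ hχm hχs hχ0 hχd hat
    rcases Nat.eq_zero_or_pos d with hd0 | hdpos
    · refine ⟨0, by omega, ?_⟩
      intro j' hj'
      have hj0 : j' = 0 := by omega
      subst hj0
      exact ⟨1, monic_one, rstar_one φ, by simp, one_dvd _⟩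
    · have hne : normalizedFactors χ ≠ 0 := by
        intro h0
        have h1 := Cfsg.Agent.S2568.prod_nf χ hχm
        rw [h0, Multiset.prod_zero] at h1
        rw [← h1, natDegree_one] at hχd
        omega
      obtain ⟨P, hP⟩ := Multiset.exists_mem_of_ne_zero hne
      have hPirr := irreducible_of_normalized_factor P hP
      have hPm := Cfsg.Agent.S2568.monic_of_mem_nf χ P hP
      have hPdvd := dvd_of_mem_normalizedFactors hP
      have hP0 : P.coeff 0 ≠ 0 := coeff0_of_dvd hPdvd hχ0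
      have hPdeg : 0 < P.natDegree := hPirr.natDegree_pos
      obtain ⟨Q, hQm, hQs, hQd, hQdvd⟩ : ∃ Q : K[X], Q.Monic ∧ rstar φ Q = Q ∧
          Q.natDegree = c ∧ Q ∣ χ := by
        rcases hat P hPirr hPm hPdvd with ⟨h1, h2⟩ | ⟨h1, h2⟩
        · exact ⟨P, hPm, h1, h2, hPdvd⟩
        · have hsm : (rstar φ P).Monic := rstar_monic φ P hP0
          have hsirr : Irreducible (rstar φ P) := rstar_irreducible φ hφ P hPirr hPm hP0
          have hsdvd : rstar φ P ∣ χ := by
            obtain ⟨E, hE⟩ := hPdvd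
            have h3 : rstar φ χ = rstar φ P * rstar φ E := by rw [hE, rstar_mul]
            rw [hχs] at h3
            exact ⟨_, h3⟩
          have hcop : IsCoprime P (rstar φ P) := by
            apply (Irreducible.coprime_iff_not_dvd hPirr).mpr
            intro hdvd
            exact h1 (eq_of_monic_of_associated hPm hsm
              (hPirr.associated_of_dvd hsirr hdvd)).symm
          refine ⟨P * rstar φ P, hPm.mul hsm, ?_, ?_, hcop.mul_dvd hPdvd hsdvd⟩
          · rw [rstar_mul, rstar_star φ hφ P hPm hP0, mul_comm]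
          · rw [hPm.natDegree_mul hsm, rstar_natDegree φ P hP0]
            omega
      have hcpos : 0 < c := by
        rcases hat P hPirr hPm hPdvd with ⟨h1, h2⟩ | ⟨h1, h2⟩ <;> omega
      obtain ⟨χ', hχ'⟩ := hQdvd
      have hχ'm : χ'.Monic := Monic.of_mul_monic_left hQm (hχ' ▸ hχm)
      have hQχ : χ' ∣ χ := ⟨Q, by rw [hχ', mul_comm]⟩
      have hχ'0 : χ'.coeff 0 ≠ 0 := coeff0_of_dvd hQχ hχ0
      have hχ's : rstar φ χ' = χ' := by
        have h1 := hχs
        rw [hχ', rstar_mul, hQs] at h1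
        exact mul_left_cancel₀ hQm.ne_zero h1
      have hdeg : d = c + χ'.natDegree := by
        rw [← hχd, hχ', hQm.natDegree_mul hχ'm, hQd]
      obtain ⟨j, hj, hjD⟩ := ih (d - c) (by omega) χ' hχ'm hχ's hχ'0 (by omega)
        (fun P' hPi hPm' hPd => hat P' hPi hPm' (hPd.trans hQχ))
      have hd' : d = (j + 1) * c := by
        rw [add_mul, one_mul, ← hj]
        omega
      refine ⟨j + 1, hd', ?_⟩
      intro j' hj'
      rcases Nat.lt_or_ge j' (j + 1) with hlt | hge
      · obtain ⟨D, hD1, hD2, hD3, hD4⟩ := hjD j' (by omega)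
        exact ⟨D, hD1, hD2, hD3, hD4.trans hQχ⟩
      · have hj1 : j' = j + 1 := by omega
        subst hj1
        exact ⟨χ, hχm, hχs, by rw [hχd, hd'], dvd_rfl⟩

/-- **Atom decomposition.** A self-dual monic polynomial with nonzero constant term is a product of
atoms: self-dual irreducible factors, or products of an irreducible factor with its distinct
dual. -/
theorem atoms [DecidableEq K] (φ : K →+* K) (hφ : ∀ x, φ (φ x) = x) :
    ∀ (d : ℕ) (χ : K[X]), χ.Monic → rstar φ χ = χ → χ.coeff 0 ≠ 0 → χ.natDegree = d →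
      ∃ s : Multiset K[X], s.prod = χ ∧ ∀ Q ∈ s, ∃ P : K[X], Irreducible P ∧ P.Monic ∧ P ∣ χ ∧
        ((rstar φ P = P ∧ Q = P) ∨ (rstar φ P ≠ P ∧ Q = P * rstar φ P)) := by
  intro d
  induction d using Nat.strong_induction_on with
  | _ d ih =>
    intro χ hχm hχs hχ0 hχd
    rcases Nat.eq_zero_or_pos d with hd0 | hdpos
    · refine ⟨0, ?_, by simp⟩
      rw [Multiset.prod_zero]
      exact (hχm.natDegree_eq_zero.mp (by omega)).symm
    · have hne : normalizedFactors χ ≠ 0 := by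
        intro h0
        have h1 := Cfsg.Agent.S2568.prod_nf χ hχm
        rw [h0, Multiset.prod_zero] at h1
        rw [← h1, natDegree_one] at hχd
        omega
      obtain ⟨P, hP⟩ := Multiset.exists_mem_of_ne_zero hne
      have hPirr := irreducible_of_normalized_factor P hP
      have hPm := Cfsg.Agent.S2568.monic_of_mem_nf χ P hP
      have hPdvd := dvd_of_mem_normalizedFactors hP
      have hP0 : P.coeff 0 ≠ 0 := coeff0_of_dvd hPdvd hχ0
      have hPdeg : 0 < P.natDegree := hPirr.natDegree_pos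
      obtain ⟨Q, hQm, hQs, hQpos, hQdvd, hQform⟩ : ∃ Q : K[X], Q.Monic ∧ rstar φ Q = Q ∧
          0 < Q.natDegree ∧ Q ∣ χ ∧
          ((rstar φ P = P ∧ Q = P) ∨ (rstar φ P ≠ P ∧ Q = P * rstar φ P)) := by
        by_cases h1 : rstar φ P = P
        · exact ⟨P, hPm, h1, hPdeg, hPdvd, Or.inl ⟨h1, rfl⟩⟩
        · have hsm : (rstar φ P).Monic := rstar_monic φ P hP0
          have hsirr : Irreducible (rstar φ P) := rstar_irreducible φ hφ P hPirr hPm hP0
          have hsdvd : rstar φ P ∣ χ := by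
            obtain ⟨E, hE⟩ := hPdvd
            have h3 : rstar φ χ = rstar φ P * rstar φ E := by rw [hE, rstar_mul]
            rw [hχs] at h3
            exact ⟨_, h3⟩
          have hcop : IsCoprime P (rstar φ P) := by
            apply (Irreducible.coprime_iff_not_dvd hPirr).mpr
            intro hdvd
            exact h1 (eq_of_monic_of_associated hPm hsm
              (hPirr.associated_of_dvd hsirr hdvd)).symm
          refine ⟨P * rstar φ P, hPm.mul hsm, ?_, ?_, hcop.mul_dvd hPdvd hsdvd,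
            Or.inr ⟨h1, rfl⟩⟩
          · rw [rstar_mul, rstar_star φ hφ P hPm hP0, mul_comm]
          · rw [hPm.natDegree_mul hsm]
            omega
      obtain ⟨χ', hχ'⟩ := hQdvd
      have hχ'm : χ'.Monic := Monic.of_mul_monic_left hQm (hχ' ▸ hχm)
      have hQχ : χ' ∣ χ := ⟨Q, by rw [hχ', mul_comm]⟩
      have hχ'0 : χ'.coeff 0 ≠ 0 := coeff0_of_dvd hQχ hχ0
      have hχ's : rstar φ χ' = χ' := by
        have h1 := hχs
        rw [hχ', rstar_mul, hQs] at h1
        exact mul_left_cancel₀ hQm.ne_zero h1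
      have hdeg : d = Q.natDegree + χ'.natDegree := by
        rw [← hχd, hχ', hQm.natDegree_mul hχ'm]
      obtain ⟨s, hs1, hs2⟩ := ih χ'.natDegree (by omega) χ' hχ'm hχ's hχ'0 rfl
      refine ⟨Q ::ₘ s, by rw [Multiset.prod_cons, hs1, hχ'], ?_⟩
      intro Q' hQ'
      rcases Multiset.mem_cons.mp hQ' with hQQ | hQ'
      · rw [hQQ]
        exact ⟨P, hPirr, hPm, hPdvd, hQform⟩
      · obtain ⟨P', h1, h2, h3, h4⟩ := hs2 Q' hQ'
        exact ⟨P', h1, h2, h3.trans hQχ, h4⟩

theorem dvd_ann [DecidableEq K] {ι : Type*} [Fintype ι] [DecidableEq ι] (g : Matrix ι ι K)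
    (D₀ : K[X]) (hD : aeval g D₀ = 0) (P : K[X]) (hPirr : Irreducible P) (hPm : P.Monic)
    (hPdvd : P ∣ g.charpoly) : P ∣ D₀ := by
  apply dvd_of_mem_nf_charpoly' g D₀ hD P
  rw [UniqueFactorizationMonoid.mem_normalizedFactors_iff' (Matrix.charpoly_monic g).ne_zero]
  exact ⟨hPirr, hPm.normalize_eq_self, hPdvd⟩

/-- A matrix of order prime to `p` all of whose characteristic factors divide `X^r - z` has
`r`-th power `z`. -/
theorem pow_eq_smul_of_charpoly [DecidableEq K] {p : ℕ} [Fact p.Prime] [CharP K p]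
    {ι : Type*} [Fintype ι] [DecidableEq ι] (G : Matrix ι ι K) (r N M' : ℕ) (z : K)
    (hN : N.Coprime p) (hGN : G ^ N = 1) (hM' : M'.Coprime p) (hzM : z ^ M' = 1)
    (h : ∀ P ∈ normalizedFactors G.charpoly, P ∣ X ^ r - C z) :
    G ^ r = z • (1 : Matrix ι ι K) := by
  have hp : p.Prime := Fact.out
  have hM0 : M' ≠ 0 := by
    rintro rfl
    rw [Nat.coprime_zero_left] at hM'
    exact hp.one_lt.ne' hM'
  have hN0 : N ≠ 0 := by
    rintro rfl
    rw [Nat.coprime_zero_left] at hN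
    exact hp.one_lt.ne' hN
  have hz0 : z ≠ 0 := by
    rintro rfl
    rw [zero_pow hM0] at hzM
    exact zero_ne_one hzM
  obtain ⟨k, hk⟩ : ∃ k, k = Multiset.card (normalizedFactors G.charpoly) := ⟨_, rfl⟩
  have h1 : G.charpoly ∣ (X ^ r - C z) ^ k := by
    conv_lhs => rw [← Cfsg.Agent.S2568.prod_nf G.charpoly (Matrix.charpoly_monic G)]
    rw [hk]
    exact Cfsg.Agent.S2568.prod_dvd_pow _ _ h
  have h2 : aeval G ((X ^ r - C z) ^ k) = 0 := by
    obtain ⟨e, he⟩ := h1
    rw [he, map_mul, Matrix.aeval_self_charpoly, zero_mul]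
  have h3 : (X ^ r - C z) ^ (p ^ k) = (X ^ r) ^ (p ^ k) - C (z ^ (p ^ k)) := by
    rw [sub_pow_char_pow, C_pow]
  have hkp : k ≤ p ^ k := (Nat.lt_pow_self hp.one_lt).le
  have h4 : aeval G ((X ^ r - C z) ^ (p ^ k)) = 0 := by
    rw [← Nat.sub_add_cancel hkp, pow_add, map_mul, h2, mul_zero]
  rw [h3] at h4
  simp only [map_sub, map_pow, aeval_X, aeval_C] at h4
  have h5 : (G ^ r) ^ (p ^ k) = (algebraMap K (Matrix ι ι K) z) ^ (p ^ k) := sub_eq_zero.mp h4
  obtain ⟨T, hT⟩ : ∃ T : Matrix ι ι K, T = z⁻¹ • G ^ r := ⟨_, rfl⟩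
  have hT1 : T ^ (p ^ k) = 1 := by
    rw [hT, _root_.smul_pow, h5, Algebra.algebraMap_eq_smul_one, _root_.smul_pow, one_pow,
      smul_smul, inv_pow, inv_mul_cancel₀ (pow_ne_zero _ hz0), one_smul]
  have hT2 : T ^ (N * M') = 1 := by
    have e1 : (G ^ r) ^ (N * M') = 1 := by
      rw [← pow_mul, mul_comm r, pow_mul, pow_mul, hGN, one_pow, one_pow]
    have e2 : (z⁻¹) ^ (N * M') = 1 := by
      rw [inv_pow, mul_comm N, pow_mul, hzM, one_pow, inv_one]
    rw [hT, _root_.smul_pow, e1, e2, one_smul]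
  obtain ⟨U, hU⟩ : ∃ U : (Matrix ι ι K)ˣ, (U : Matrix ι ι K) = T :=
    ⟨(IsUnit.of_pow_eq_one hT2 (Nat.mul_ne_zero hN0 hM0)).unit, rfl⟩
  have hU1 : U ^ (p ^ k) = 1 := by
    apply Units.ext
    rw [Units.val_pow_eq_pow_val, hU, hT1]
    rfl
  have hU2 : U ^ (N * M') = 1 := by
    apply Units.ext
    rw [Units.val_pow_eq_pow_val, hU, hT2]
    rfl
  have h7 := pow_gcd_eq_one.mpr ⟨hU1, hU2⟩
  have hg : Nat.gcd (p ^ k) (N * M') = 1 :=
    Nat.Coprime.pow_left k (Nat.Coprime.mul_right hN.symm hM'.symm)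
  rw [hg, pow_one] at h7
  have h8 : T = 1 := by
    rw [← hU, h7]
    rfl
  rw [hT] at h8
  have h9 : z • (z⁻¹ • G ^ r) = z • (1 : Matrix ι ι K) := by rw [h8]
  rw [smul_smul, mul_inv_cancel₀ hz0, one_smul] at h9
  exact h9

end poly

section arith

/-- If `w^a = 1 = w^Q` and the `r`-adic valuation of `a` is smaller than that of `Q`, then
`w^(Q/r) = 1`. -/
theorem pow_div_eq_one {M : Type*} [Monoid M] (r : ℕ) [Fact r.Prime] (w : M) (a Q : ℕ)
    (ha : a ≠ 0) (hQ : Q ≠ 0) (hwa : w ^ a = 1) (hwQ : w ^ Q = 1)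
    (hlt : padicValNat r a < padicValNat r Q) : w ^ (Q / r) = 1 := by
  have hr : r.Prime := Fact.out
  have h1 : orderOf w ∣ Nat.gcd a Q :=
    Nat.dvd_gcd (orderOf_dvd_of_pow_eq_one hwa) (orderOf_dvd_of_pow_eq_one hwQ)
  obtain ⟨g, hg⟩ : ∃ g, g = Nat.gcd a Q := ⟨_, rfl⟩
  have hga : g ∣ a := hg ▸ Nat.gcd_dvd_left a Q
  have hgQ : g ∣ Q := hg ▸ Nat.gcd_dvd_right a Q
  obtain ⟨s, hs⟩ := hgQ
  have hg0 : g ≠ 0 := by
    rintro rfl
    rw [zero_mul] at hs
    exact hQ hs
  have hs0 : s ≠ 0 := by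
    rintro rfl
    rw [mul_zero] at hs
    exact hQ hs
  have hrs : r ∣ s := by
    by_contra hns
    have h2 : padicValNat r Q = padicValNat r g := by
      rw [hs, padicValNat.mul hg0 hs0, padicValNat.eq_zero_of_not_dvd hns, add_zero]
    have h3 : padicValNat r g ≤ padicValNat r a := by
      rw [← padicValNat_dvd_iff_le ha]
      exact pow_padicValNat_dvd.trans hga
    omega
  obtain ⟨s', hs'⟩ := hrs
  have h4 : Q / r = g * s' := by
    rw [hs, hs', ← mul_assoc, mul_comm g r, mul_assoc, Nat.mul_div_cancel_left _ hr.pos]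
  rw [h4, pow_mul]
  have h5 : w ^ g = 1 := by
    rw [hg]
    exact orderOf_dvd_iff_pow_eq_one.mp h1
  rw [h5, one_pow]

end arith

end Cfsg.Agent.Lib.Helper40.HPoly
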