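import Mathlib
import Cfsg.Agent.Lib.Helper40.FExt
import Cfsg.Agent.Lib.Helper40.SSConj
import Cfsg.Agent.Lib.Helper40.CycloVal

set_option autoImplicit false

namespace Cfsg.Agent.Lib.Helper40.FExtIdx

open Matrix Polynomial
open Cfsg.Agent.Lib.Helper40.SympConj Cfsg.Agent.Lib.Helper40.FExt

section pw
variable {F : Type*} [Field F] {n : Type*} [Fintype n] [DecidableEq n]

theorem J_pow_odd (J : Matrix n n F) (l : F) (hJJ : J * J = l • 1) (k : ℕ) :
    J ^ (2 * k + 1) = l ^ k • J := by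
  rw [pow_succ, pow_mul, pow_two, hJJ, _root_.smul_pow, one_pow, Matrix.smul_mul, Matrix.one_mul]

theorem lin_mul (J : Matrix n n F) (l : F) (hJJ : J * J = l • 1) (a b : F) :
    (a • (1 : Matrix n n F) + b • (-J)) * (a • 1 + b • J) = (a * a - l * (b * b)) • 1 := by
  rw [add_mul, mul_add, mul_add]
  simp only [Matrix.mul_smul, Matrix.smul_mul, Matrix.mul_one, Matrix.one_mul, smul_smul,
    Matrix.neg_mul, hJJ, smul_neg]
  module

theorem lin_quad (J : Matrix n n F) (l : F) (hJJ : J * J = l • 1) (a b : F)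
    (hab : a * a - l * (b * b) = 1) :
    (a • (1 : Matrix n n F) + b • J) * (a • 1 + b • J) - (2 * a) • (a • 1 + b • J) + 1 = 0 := by
  have h1 : (a • (1 : Matrix n n F) + b • J) * (a • 1 + b • J) - (2 * a) • (a • 1 + b • J) +
      (a * a - l * (b * b)) • 1 = 0 := by
    rw [add_mul, mul_add, mul_add]
    simp only [Matrix.mul_smul, Matrix.smul_mul, Matrix.mul_one, Matrix.one_mul, smul_smul, hJJ]
    module
  rw [hab, one_smul] at h1
  exact h1

theorem cancel2 (S Si N : Matrix n n F) (hSiS : Si * S = 1) : Si * (S * N * Si) * S = N := by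
  calc Si * (S * N * Si) * S = (Si * S) * N * (Si * S) := by simp only [Matrix.mul_assoc]
    _ = N := by rw [hSiS, Matrix.one_mul, Matrix.mul_one]

theorem conj_swap (S Si J J₀ : Matrix n n F) (hSSi : S * Si = 1) (hSiS : Si * S = 1)
    (hSJ : S * J = J₀ * S) : Si * J₀ = J * Si := by
  symm
  calc J * Si = (Si * S) * J * Si := by rw [hSiS, Matrix.one_mul]
    _ = Si * (S * J) * Si := by simp only [Matrix.mul_assoc]
    _ = Si * J₀ * (S * Si) := by
        rw [hSJ]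
        simp only [Matrix.mul_assoc]
    _ = Si * J₀ := by rw [hSSi, Matrix.mul_one]

end pw

section fin
variable {F : Type*} [Field F] [Fintype F] {n : Type*} [Fintype n] [DecidableEq n]

theorem J_pow_q {q : ℕ} (hF : Fintype.card F = q) (hodd : Odd q) (J : Matrix n n F) (l : F)
    (hl : ¬ IsSquare l) (hJJ : J * J = l • 1) : J ^ q = -J := by
  obtain ⟨k, hk⟩ := hodd
  rw [hk, J_pow_odd J l hJJ k, euler hF l hl k hk, neg_smul, one_smul]

theorem lin_pow_q {q : ℕ} (hF : Fintype.card F = q) (J : Matrix n n F) (a b : F) :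
    (a • (1 : Matrix n n F) + b • J) ^ q = a • 1 + b • J ^ q := by
  have h1 : (C a + C b * X : F[X]) ^ q = C a + C b * X ^ q := by
    rw [← hF, ← FiniteField.expand_card]
    simp
  have h2 := congrArg (aeval J) h1
  rw [map_pow, map_add, map_add, map_mul, map_mul, map_pow, aeval_C, aeval_C, aeval_X] at h2
  rw [Algebra.algebraMap_eq_smul_one, Algebra.algebraMap_eq_smul_one, Matrix.smul_mul,
    Matrix.smul_mul, Matrix.one_mul, Matrix.one_mul] at h2
  exact h2

theorem U_pow {q : ℕ} (hF : Fintype.card F = q) (hodd : Odd q) (J : Matrix n n F) (l : F)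
    (hl : ¬ IsSquare l) (hJJ : J * J = l • 1) (a b : F) (hab : a * a - l * (b * b) = 1) :
    (a • (1 : Matrix n n F) + b • J) ^ (q + 1) = 1 := by
  rw [pow_succ, lin_pow_q hF, J_pow_q hF hodd J l hl hJJ, lin_mul J l hJJ, hab, one_smul]

omit [Fintype F] in
theorem irred_g (l : F) (hl : ¬ IsSquare l) (a b : F) (hb : b ≠ 0)
    (hab : a * a - l * (b * b) = 1) : Irreducible (X ^ 2 - C (2 * a) * X + 1 : F[X]) := by
  have hdeg : (X ^ 2 - C (2 * a) * X + 1 : F[X]).natDegree = 2 := by compute_degree!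
  apply Polynomial.irreducible_of_degree_le_three_of_not_isRoot
  · rw [hdeg]
    decide
  · intro t ht
    have h1 : t ^ 2 - 2 * a * t + 1 = 0 := by
      simpa [IsRoot] using ht
    apply hl
    refine ⟨(t - a) / b, ?_⟩
    field_simp
    linear_combination -h1 - hab

omit [Fintype F] in
theorem charpoly_of_quad [DecidableEq F] {m : ℕ} (g : F[X]) (hg : Irreducible g) (hgm : g.Monic)
    (hgd : g.natDegree = 2) (y : Matrix (Fin m ⊕ Fin m) (Fin m ⊕ Fin m) F) (hy : aeval y g = 0) :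
    y.charpoly = g ^ m := by
  obtain ⟨k, hk⟩ := Cfsg.Agent.Lib.Helper40.SpGU.charpoly_of_irred y g hg hgm hy
  have h1 := congrArg natDegree hk
  rw [Matrix.charpoly_natDegree_eq_dim, Fintype.card_sum, Fintype.card_fin, hgm.natDegree_pow,
    hgd] at h1
  have h2 : k = m := by omega
  rw [hk, h2]

/-- Symplectic matrices of order prime to the characteristic with the same characteristic
polynomial are conjugate under a symplectic matrix. -/
theorem sp_conj_mat {m : ℕ} (A B : Matrix (Fin m ⊕ Fin m) (Fin m ⊕ Fin m) F)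
    (hA : sadj A * A = 1) (hB : sadj B * B = 1) (N : ℕ) (hN : (N : F) ≠ 0) (hAN : A ^ N = 1)
    (hBN : B ^ N = 1) (hcp : A.charpoly = B.charpoly) :
    ∃ S Si : Matrix (Fin m ⊕ Fin m) (Fin m ⊕ Fin m) F,
      sadj S * S = 1 ∧ S * Si = 1 ∧ Si * S = 1 ∧ S * A = B * S := by
  obtain ⟨P, Q, hPQ, -, hPA⟩ :=
    Cfsg.Agent.Lib.Helper40.SSConj.matrix_conj A B N hN hAN hBN hcp
  have hc := symp_conj (⟨A, (mem_symp_iff A).mpr hA⟩ : Matrix.symplecticGroup (Fin m) F)
    ⟨B, (mem_symp_iff B).mpr hB⟩ N hN hAN P (IsUnit.of_mul_eq_one Q hPQ) hPA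
  obtain ⟨c, hc⟩ := isConj_iff.mp hc
  refine ⟨c.1, (c⁻¹).1, (mem_symp_iff _).mp c.2, congrArg Subtype.val (mul_inv_cancel c),
    congrArg Subtype.val (inv_mul_cancel c), ?_⟩
  have h1 := mul_inv_eq_iff_eq_mul.mp hc
  exact congrArg Subtype.val h1

theorem exists_conj_std [DecidableEq F] {q : ℕ} (hF : Fintype.card F = q) (hodd : Odd q) {m : ℕ}
    (J : Matrix (Fin m ⊕ Fin m) (Fin m ⊕ Fin m) F) (l : F) (hl : ¬ IsSquare l)
    (hJJ : J * J = l • 1) (hJs : sadj J = -J) :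
    ∃ S Si : Matrix (Fin m ⊕ Fin m) (Fin m ⊕ Fin m) F,
      sadj S * S = 1 ∧ S * Si = 1 ∧ Si * S = 1 ∧ S * J = Tl l 0 1 * S := by
  have h2 : (2 : F) ≠ 0 := two_ne_zero_of hF hodd
  have hl1 : 1 - l ≠ 0 := by
    intro h
    apply hl
    refine ⟨1, ?_⟩
    rw [mul_one]
    linear_combination -h
  obtain ⟨a, ha⟩ : ∃ a : F, a = (1 + l) / (1 - l) := ⟨_, rfl⟩
  obtain ⟨b, hb⟩ : ∃ b : F, b = 2 / (1 - l) := ⟨_, rfl⟩
  have hab : a * a - l * (b * b) = 1 := by
    rw [ha, hb]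
    field_simp
    ring
  have hb0 : b ≠ 0 := by
    rw [hb]
    exact div_ne_zero h2 hl1
  obtain ⟨g, hg⟩ : ∃ g : F[X], g = X ^ 2 - C (2 * a) * X + 1 := ⟨_, rfl⟩
  have hgi : Irreducible g := hg ▸ irred_g l hl a b hb0 hab
  have hgd : g.natDegree = 2 := by
    rw [hg]
    compute_degree!
  have hgm : g.Monic := by
    rw [hg]
    monicity!
  have hq1 : ((q + 1 : ℕ) : F) ≠ 0 := by
    rw [Nat.cast_add, Nat.cast_one, ← hF, FiniteField.cast_card_eq_zero, zero_add]
    exact one_ne_zero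
  have key : ∀ J' : Matrix (Fin m ⊕ Fin m) (Fin m ⊕ Fin m) F, J' * J' = l • 1 → sadj J' = -J' →
      sadj (a • 1 + b • J') * (a • 1 + b • J') = 1 ∧
      (a • (1 : Matrix (Fin m ⊕ Fin m) (Fin m ⊕ Fin m) F) + b • J') ^ (q + 1) = 1 ∧
      (a • (1 : Matrix (Fin m ⊕ Fin m) (Fin m ⊕ Fin m) F) + b • J').charpoly = g ^ m := by
    intro J' hJJ' hJs'
    refine ⟨?_, U_pow hF hodd J' l hl hJJ' a b hab, ?_⟩
    · rw [sadj_add, sadj_smul, sadj_smul, sadj_one, hJs', lin_mul J' l hJJ', hab, one_smul]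
    · apply charpoly_of_quad g hgi hgm hgd
      rw [hg]
      rw [map_add, map_sub, map_mul, map_pow, aeval_X, aeval_C, map_one]
      have h3 := lin_quad J' l hJJ' a b hab
      rw [pow_two, Algebra.algebraMap_eq_smul_one, Matrix.smul_mul, Matrix.one_mul]
      exact h3
  obtain ⟨h1, h2', h3⟩ := key J hJJ hJs
  obtain ⟨h4, h5, h6⟩ := key (Tl l 0 1) (Tl_sq l) (sadj_Tl_J l)
  obtain ⟨S, Si, hS, hSSi, hSiS, hSU⟩ :=
    sp_conj_mat _ _ h1 h4 (q + 1) hq1 h2' h5 (h3.trans h6.symm)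
  refine ⟨S, Si, hS, hSSi, hSiS, ?_⟩
  rw [Matrix.mul_add, Matrix.add_mul, Matrix.mul_smul, Matrix.mul_smul, Matrix.smul_mul,
    Matrix.smul_mul, Matrix.mul_one, Matrix.one_mul] at hSU
  have h7 := add_left_cancel hSU
  have h8 := congrArg (fun M => b⁻¹ • M) h7
  simp only [smul_smul, inv_mul_cancel₀ hb0, one_smul] at h8
  exact h8

omit [Fintype F] in
theorem transport {m : ℕ} (S Si J J₀ N : Matrix (Fin m ⊕ Fin m) (Fin m ⊕ Fin m) F)
    (hS : sadj S * S = 1) (hSSi : S * Si = 1) (hSiS : Si * S = 1) (hSJ : S * J = J₀ * S)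
    (hN : sadj N * N = 1 ∧ N * J = J * N) :
    sadj (S * N * Si) * (S * N * Si) = 1 ∧ (S * N * Si) * J₀ = J₀ * (S * N * Si) := by
  have hsS : sadj S = Si := by
    calc sadj S = sadj S * (S * Si) := by rw [hSSi, Matrix.mul_one]
      _ = Si := by rw [← Matrix.mul_assoc, hS, Matrix.one_mul]
  have hsSi : sadj Si = S := by rw [← hsS, sadj_sadj]
  have hJSi : Si * J₀ = J * Si := conj_swap S Si J J₀ hSSi hSiS hSJ
  constructor
  · rw [sadj_mul, sadj_mul, hsSi, hsS]
    calc S * (sadj N * Si) * (S * N * Si) = S * sadj N * (Si * S) * N * Si := by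
          simp only [Matrix.mul_assoc]
      _ = S * (sadj N * N) * Si := by
          rw [hSiS, Matrix.mul_one]
          simp only [Matrix.mul_assoc]
      _ = 1 := by rw [hN.1, Matrix.mul_one, hSSi]
  · calc S * N * Si * J₀ = S * N * (Si * J₀) := by simp only [Matrix.mul_assoc]
      _ = S * (N * J) * Si := by
          rw [hJSi]
          simp only [Matrix.mul_assoc]
      _ = (S * J) * N * Si := by
          rw [hN.2]
          simp only [Matrix.mul_assoc]
      _ = J₀ * (S * N * Si) := by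
          rw [hSJ]
          simp only [Matrix.mul_assoc]

theorem card_comm [DecidableEq F] {q : ℕ} (hF : Fintype.card F = q) (hodd : Odd q) {m : ℕ}
    (J : Matrix (Fin m ⊕ Fin m) (Fin m ⊕ Fin m) F) (l : F) (hl : ¬ IsSquare l)
    (hJJ : J * J = l • 1) (hJs : sadj J = -J) :
    Nat.card {N : Matrix (Fin m ⊕ Fin m) (Fin m ⊕ Fin m) F // sadj N * N = 1 ∧ N * J = J * N} =
      q ^ (m * (m - 1) / 2) *
        ∏ i ∈ Finset.range m, (if Even i then q ^ (i + 1) + 1 else q ^ (i + 1) - 1) := by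
  obtain ⟨S, Si, hS, hSSi, hSiS, hSJ⟩ := exists_conj_std hF hodd J l hl hJJ hJs
  rw [← card_std hF hodd l hl m]
  have hsS : sadj S = Si := by
    calc sadj S = sadj S * (S * Si) := by rw [hSSi, Matrix.mul_one]
      _ = Si := by rw [← Matrix.mul_assoc, hS, Matrix.one_mul]
  have hsSi : sadj Si = S := by rw [← hsS, sadj_sadj]
  have hSi : sadj Si * Si = 1 := by
    rw [hsSi]
    exact hSSi
  have hSiJ : Si * Tl l 0 1 = J * Si := conj_swap S Si J (Tl l 0 1) hSSi hSiS hSJ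
  apply Nat.card_eq_of_bijective
    (fun N : {N : Matrix (Fin m ⊕ Fin m) (Fin m ⊕ Fin m) F // sadj N * N = 1 ∧ N * J = J * N} =>
      (⟨S * N.1 * Si, transport S Si J (Tl l 0 1) N.1 hS hSSi hSiS hSJ N.2⟩ :
        {N : Matrix (Fin m ⊕ Fin m) (Fin m ⊕ Fin m) F //
          sadj N * N = 1 ∧ N * Tl l 0 1 = Tl l 0 1 * N}))
  constructor
  · rintro ⟨N, hN⟩ ⟨N', hN'⟩ h
    have h1 : S * N * Si = S * N' * Si := congrArg Subtype.val h
    apply Subtype.ext
    show N = N'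
    calc N = Si * (S * N * Si) * S := (cancel2 S Si N hSiS).symm
      _ = Si * (S * N' * Si) * S := by rw [h1]
      _ = N' := cancel2 S Si N' hSiS
  · rintro ⟨N', hN'⟩
    refine ⟨⟨Si * N' * S, transport Si S (Tl l 0 1) J N' hSi hSiS hSSi hSiJ hN'⟩, ?_⟩
    apply Subtype.ext
    exact cancel2 Si S N' hSSi

end fin

section grp
variable {F : Type*} [Field F] {m : ℕ}

/-- The centralizer of a matrix in the general linear group. -/
def Cent (J : Matrix (Fin m ⊕ Fin m) (Fin m ⊕ Fin m) F) : Subgroup (GL (Fin m ⊕ Fin m) F) where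
  carrier := {g | g.val * J = J * g.val}
  mul_mem' := by
    intro a b ha hb
    have ha' : a.val * J = J * a.val := ha
    have hb' : b.val * J = J * b.val := hb
    show (a * b).val * J = J * (a * b).val
    rw [Units.val_mul, Matrix.mul_assoc, hb', ← Matrix.mul_assoc, ha', Matrix.mul_assoc]
  one_mem' := by
    show (1 : GL (Fin m ⊕ Fin m) F).val * J = J * (1 : GL (Fin m ⊕ Fin m) F).val
    rw [Units.val_one, Matrix.one_mul, Matrix.mul_one]
  inv_mem' := by
    intro a ha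
    have ha' : a.val * J = J * a.val := ha
    show (a⁻¹).val * J = J * (a⁻¹).val
    calc (a⁻¹).val * J = (a⁻¹).val * J * (a.val * (a⁻¹).val) := by
          rw [Units.mul_inv, Matrix.mul_one]
      _ = (a⁻¹).val * (J * a.val) * (a⁻¹).val := by simp only [Matrix.mul_assoc]
      _ = ((a⁻¹).val * a.val) * J * (a⁻¹).val := by
          rw [← ha']
          simp only [Matrix.mul_assoc]
      _ = J * (a⁻¹).val := by rw [Units.inv_mul, Matrix.one_mul]

theorem card_Cent (J : Matrix (Fin m ⊕ Fin m) (Fin m ⊕ Fin m) F) :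
    Nat.card ↥(Cent J ⊓ Cfsg.spGL m F) =
      Nat.card {N : Matrix (Fin m ⊕ Fin m) (Fin m ⊕ Fin m) F //
        sadj N * N = 1 ∧ N * J = J * N} := by
  apply Nat.card_eq_of_bijective (fun g : ↥(Cent J ⊓ Cfsg.spGL m F) =>
    (⟨g.1.val, (mem_spGL_iff g.1).mp (Subgroup.mem_inf.mp g.2).2, (Subgroup.mem_inf.mp g.2).1⟩ :
      {N : Matrix (Fin m ⊕ Fin m) (Fin m ⊕ Fin m) F // sadj N * N = 1 ∧ N * J = J * N}))
  constructor
  · intro g h hgh
    exact Subtype.ext (Units.ext (congrArg Subtype.val hgh))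
  · rintro ⟨N, hN1, hN2⟩
    have hN3 : N * sadj N = 1 := mul_eq_one_comm.mp hN1
    exact ⟨⟨⟨N, sadj N, hN3, hN1⟩, Subgroup.mem_inf.mpr ⟨hN2, (mem_spGL_iff _).mpr hN1⟩⟩, rfl⟩

theorem card_spGL [Fintype F] (m : ℕ) :
    Nat.card ↥(Cfsg.spGL m F) = Fintype.card F ^ (m ^ 2) *
      ∏ i ∈ Finset.range m, (Fintype.card F ^ (2 * (i + 1)) - 1) := by
  rw [← Cfsg.Agent.Lib.Helper5.SpCard.card_symplectic m]
  apply Nat.card_eq_of_bijective (fun g : ↥(Cfsg.spGL m F) =>
    (⟨g.1.val, (mem_symp_iff _).mpr ((mem_spGL_iff g.1).mp g.2)⟩ :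
      Matrix.symplecticGroup (Fin m) F))
  constructor
  · intro g h hgh
    exact Subtype.ext (Units.ext (congrArg Subtype.val hgh))
  · rintro ⟨N, hN⟩
    have hN1 := (mem_symp_iff N).mp hN
    exact ⟨⟨⟨N, sadj N, mul_eq_one_comm.mp hN1, hN1⟩, (mem_spGL_iff _).mpr hN1⟩, rfl⟩

theorem idx_dvd (K : Subalgebra F (Matrix (Fin m ⊕ Fin m) (Fin m ⊕ Fin m) F))
    (J : Matrix (Fin m ⊕ Fin m) (Fin m ⊕ Fin m) F)
    (hKJ : ∀ k, k ∈ K ↔ ∃ a b : F, k = a • 1 + b • J) (r : ℕ)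
    (hΩ : r ∣ (Cfsg.Geo.subalgebraNormalizer K).relIndex (Cfsg.spGL m F)) :
    Nat.card {N : Matrix (Fin m ⊕ Fin m) (Fin m ⊕ Fin m) F // sadj N * N = 1 ∧ N * J = J * N} * r ∣
      Nat.card ↥(Cfsg.spGL m F) := by
  rw [← card_Cent J]
  have hle : Cent J ⊓ Cfsg.spGL m F ≤ Cfsg.Geo.subalgebraNormalizer K ⊓ Cfsg.spGL m F := by
    intro g hg
    obtain ⟨hg1, hg2⟩ := Subgroup.mem_inf.mp hg
    refine Subgroup.mem_inf.mpr ⟨?_, hg2⟩
    have hg1' : g.val * J = J * g.val := hg1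
    exact mem_normalizer K J hKJ g 1 one_ne_zero (by rw [one_smul]; exact hg1')
  have h1 := Subgroup.card_dvd_of_le hle
  have h2 := Subgroup.relIndex_mul_relIndex (⊥ : Subgroup (GL (Fin m ⊕ Fin m) F))
    (Cfsg.Geo.subalgebraNormalizer K ⊓ Cfsg.spGL m F) (Cfsg.spGL m F) bot_le inf_le_right
  rw [Subgroup.relIndex_bot_left, Subgroup.relIndex_bot_left, Subgroup.inf_relIndex_right] at h2
  rw [← h2]
  exact mul_dvd_mul h1 hΩ

end grp

section arith

theorem arith (q d r : ℕ) (hq : 2 ≤ q) (hr : r.Prime)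
    (h : q ^ (d * (d - 1) / 2) *
        (∏ i ∈ Finset.range d, (if Even i then q ^ (i + 1) + 1 else q ^ (i + 1) - 1)) * r ∣
      q ^ (d ^ 2) * ∏ i ∈ Finset.range d, (q ^ (2 * (i + 1)) - 1)) :
    r ∣ q ∨ ∃ j < d, r ∣ (if Even j then q ^ (j + 1) - 1 else q ^ (j + 1) + 1) := by
  have hfac : ∀ i, q ^ (2 * (i + 1)) - 1 =
      (if Even i then q ^ (i + 1) + 1 else q ^ (i + 1) - 1) *
        (if Even i then q ^ (i + 1) - 1 else q ^ (i + 1) + 1) := by
    intro i
    have h1 : 1 ≤ q ^ (i + 1) := Nat.one_le_pow _ _ (by omega)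
    obtain ⟨c, hc⟩ : ∃ c, q ^ (i + 1) = c + 1 := ⟨q ^ (i + 1) - 1, by omega⟩
    have h2 : q ^ (2 * (i + 1)) = (c + 1) * (c + 1) := by
      rw [mul_comm 2, pow_mul, hc, pow_two]
    rw [h2, hc]
    have h3 : (c + 1) * (c + 1) - 1 = (c + 1 + 1) * c := Nat.sub_eq_of_eq_add (by ring)
    split_ifs
    · rw [h3, Nat.add_sub_cancel]
    · rw [h3, Nat.add_sub_cancel, mul_comm]
  have hPA : 0 < ∏ i ∈ Finset.range d, (if Even i then q ^ (i + 1) + 1 else q ^ (i + 1) - 1) := by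
    apply Finset.prod_pos
    intro i _
    have h1 : 2 ≤ q ^ (i + 1) := le_trans hq (Nat.le_self_pow (by omega) q)
    split_ifs <;> omega
  rw [Finset.prod_congr rfl (fun i _ => hfac i), Finset.prod_mul_distrib] at h
  obtain ⟨PA, hPAdef⟩ : ∃ PA, PA = ∏ i ∈ Finset.range d,
      (if Even i then q ^ (i + 1) + 1 else q ^ (i + 1) - 1) := ⟨_, rfl⟩
  obtain ⟨PB, hPBdef⟩ : ∃ PB, PB = ∏ i ∈ Finset.range d,
      (if Even i then q ^ (i + 1) - 1 else q ^ (i + 1) + 1) := ⟨_, rfl⟩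
  rw [← hPAdef, ← hPBdef] at h
  rw [← hPAdef] at hPA
  obtain ⟨c, hc⟩ := h
  have h3 : r ∣ q ^ (d ^ 2) * PB := by
    refine ⟨q ^ (d * (d - 1) / 2) * c, ?_⟩
    apply Nat.eq_of_mul_eq_mul_left hPA
    calc PA * (q ^ (d ^ 2) * PB) = q ^ (d ^ 2) * (PA * PB) := by ring
      _ = q ^ (d * (d - 1) / 2) * PA * r * c := hc
      _ = PA * (r * (q ^ (d * (d - 1) / 2) * c)) := by ring
  rcases (Nat.Prime.dvd_mul hr).mp h3 with h4 | h4
  · left
    exact Nat.Prime.dvd_of_dvd_pow hr h4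
  · right
    rw [hPBdef] at h4
    obtain ⟨j, hj, hjd⟩ := (Prime.dvd_finsetProd_iff hr.prime _).mp h4
    exact ⟨j, Finset.mem_range.mp hj, hjd⟩

theorem order_cases (q d r : ℕ) [Fact r.Prime] (hq : 1 ≤ q) (hr2 : r ≠ 2) (hrq : ¬ r ∣ q) (j : ℕ)
    (hj : j < d) (h : r ∣ (if Even j then q ^ (j + 1) - 1 else q ^ (j + 1) + 1)) :
    (Odd (orderOf (q : ZMod r)) ∧ orderOf (q : ZMod r) ≤ d) ∨
    (4 ∣ orderOf (q : ZMod r) ∧ orderOf (q : ZMod r) ≤ 2 * d) := by
  have hi := Cfsg.Agent.Lib.Helper40.CycloVal.order_pos q r hrq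
  split_ifs at h with hje
  · left
    have h1 := (Cfsg.Agent.Lib.Helper40.CycloVal.dvd_pow_sub_one_iff q r hq (j + 1)).mp h
    constructor
    · exact Odd.of_dvd_nat (Even.add_one hje) h1
    · exact le_trans (Nat.le_of_dvd (by omega) h1) (by omega)
  · right
    have hjo : Odd j := Nat.not_even_iff_odd.mp hje
    have h1 : ((q : ZMod r)) ^ (j + 1) = -1 := by
      have h0 := (ZMod.natCast_eq_zero_iff (q ^ (j + 1) + 1) r).mpr h
      push_cast at h0
      exact eq_neg_of_add_eq_zero_left h0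
    have h2 : ¬ orderOf (q : ZMod r) ∣ j + 1 := by
      intro hd
      rw [orderOf_dvd_iff_pow_eq_one, h1] at hd
      have h20 : (2 : ZMod r) = 0 := by linear_combination -hd
      have h3 : ((2 : ℕ) : ZMod r) = 0 := by exact_mod_cast h20
      rw [ZMod.natCast_eq_zero_iff] at h3
      exact hr2 ((Nat.prime_dvd_prime_iff_eq (Fact.out) Nat.prime_two).mp h3)
    have h3 : orderOf (q : ZMod r) ∣ 2 * (j + 1) := by
      rw [orderOf_dvd_iff_pow_eq_one, mul_comm, pow_mul, h1]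
      norm_num
    obtain ⟨c, hc⟩ := h3
    have hco : Odd c := by
      rw [← Nat.not_even_iff_odd]
      rintro ⟨c', hc'⟩
      apply h2
      refine ⟨c', ?_⟩
      subst hc'
      have h4 : 2 * (j + 1) = 2 * (orderOf (q : ZMod r) * c') := by
        rw [hc]
        ring
      exact Nat.eq_of_mul_eq_mul_left (by norm_num : 0 < 2) h4
    constructor
    · have h4 : 4 ∣ orderOf (q : ZMod r) * c := by
        rw [← hc]
        obtain ⟨j', hj'⟩ := hjo
        exact ⟨j' + 1, by rw [hj']; ring⟩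
      have hcop : Nat.Coprime 4 c := by
        have h5 : Nat.Coprime (2 ^ 2) c := Nat.Coprime.pow_left 2 (Nat.coprime_two_left.mpr hco)
        simpa using h5
      exact hcop.dvd_of_dvd_mul_right h4
    · have hc1 : 1 ≤ c := by
        rcases hco with ⟨c', rfl⟩
        omega
      calc orderOf (q : ZMod r) ≤ orderOf (q : ZMod r) * c := Nat.le_mul_of_pos_right _ (by omega)
        _ = 2 * (j + 1) := hc.symm
        _ ≤ 2 * d := by omega

theorem dvd_half (q r : ℕ) [Fact r.Prime] (hi : Even (orderOf (q : ZMod r)))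
    (hpos : 0 < orderOf (q : ZMod r)) : r ∣ q ^ (orderOf (q : ZMod r) / 2) + 1 := by
  obtain ⟨m, hm⟩ := hi
  have hm2 : orderOf (q : ZMod r) / 2 = m := by omega
  rw [hm2]
  have h1 : ((q : ZMod r) ^ m - 1) * ((q : ZMod r) ^ m + 1) = 0 := by
    have h2 := pow_orderOf_eq_one (q : ZMod r)
    rw [hm, pow_add] at h2
    linear_combination h2
  rcases mul_eq_zero.mp h1 with h | h
  · exfalso
    have h3 : orderOf (q : ZMod r) ∣ m := orderOf_dvd_of_pow_eq_one (sub_eq_zero.mp h)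
    have h4 := Nat.le_of_dvd (by omega) h3
    omega
  · rw [← ZMod.natCast_eq_zero_iff]
    push_cast
    exact h

end arith

end Cfsg.Agent.Lib.Helper40.FExtIdx
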