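import Mathlib
import Cfsg.Prelude.Def_ClassicalGeometry
import Cfsg.Agent.Lib.Helper13.SympMat
import Cfsg.Agent.Lib.Helper40.InvDims
import Cfsg.Agent.Lib.Helper40.RecipPoly
import Cfsg.Agent.Lib.Helper40.SUCount

set_option autoImplicit false

namespace Cfsg.Agent.Lib.Helper40.SpTI

open Polynomial Matrix Cfsg.Agent.Lib.Helper13.SympMat Cfsg.Agent.Lib.Helper40.InvDims
  Cfsg.Agent.Lib.Helper40.RecipPoly

section
variable {F : Type*} [Field F] {d : ℕ}

/-- The monic reciprocal polynomial. -/
noncomputable abbrev pstar (D : F[X]) : F[X] := rstar (RingHom.id F) D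

theorem pstar_eq (D : F[X]) : pstar D = C (D.coeff 0)⁻¹ * D.reverse := by
  unfold pstar rstar
  rw [Polynomial.map_id]
  rfl

theorem form_skew (u v : Fin d ⊕ Fin d → F) : form d F u v = -form d F v u :=
  ((form_alt (F := F) d).neg_eq v u).symm

theorem form_isometry (A : Matrix (Fin d ⊕ Fin d) (Fin d ⊕ Fin d) F)
    (hA : A ∈ Matrix.symplecticGroup (Fin d) F) (u v : Fin d ⊕ Fin d → F) :
    form d F (Matrix.toLin' A u) (Matrix.toLin' A v) = form d F u v := by
  rw [Matrix.toLin'_apply, Matrix.toLin'_apply]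
  exact (mem_symp_iff d A).mp hA u v

/-- An invariant subspace of a symplectic matrix is mapped onto itself. -/
theorem exists_preimage (A : Matrix (Fin d ⊕ Fin d) (Fin d ⊕ Fin d) F)
    (hA : A ∈ Matrix.symplecticGroup (Fin d) F) (W : Submodule F (Fin d ⊕ Fin d → F))
    (hW : W ∈ Module.End.invtSubmodule (Matrix.toLin' A)) :
    ∀ w ∈ W, ∃ w' ∈ W, Matrix.toLin' A w' = w := by
  have h1 : W.map (Matrix.toLin' A) ≤ W := by
    rw [Module.End.mem_invtSubmodule] at hW
    exact Submodule.map_le_iff_le_comap.mpr hW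
  have hcoe : ((Φ d ⟨A, hA⟩ : (Fin d ⊕ Fin d → F) ≃ₗ[F] (Fin d ⊕ Fin d → F)) :
      (Fin d ⊕ Fin d → F) →ₗ[F] (Fin d ⊕ Fin d → F)) = Matrix.toLin' A := by
    apply LinearMap.ext
    intro v
    rw [LinearEquiv.coe_coe, Φ_apply, Matrix.toLin'_apply]
  have h2 : Module.finrank F (W.map (Matrix.toLin' A)) = Module.finrank F W := by
    rw [← hcoe]
    exact LinearEquiv.finrank_map_eq _ W
  have h3 : W.map (Matrix.toLin' A) = W := Submodule.eq_of_le_of_finrank_eq h1 h2
  intro w hw
  rw [← h3] at hw
  obtain ⟨w', hw', h⟩ := hw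
  exact ⟨w', hw', h⟩

theorem orthogonal_invt (A : Matrix (Fin d ⊕ Fin d) (Fin d ⊕ Fin d) F)
    (hA : A ∈ Matrix.symplecticGroup (Fin d) F) (W : Submodule F (Fin d ⊕ Fin d → F))
    (hW : W ∈ Module.End.invtSubmodule (Matrix.toLin' A)) :
    (form d F).orthogonal W ∈ Module.End.invtSubmodule (Matrix.toLin' A) := by
  rw [Module.End.mem_invtSubmodule]
  intro v hv
  rw [Submodule.mem_comap, LinearMap.BilinForm.mem_orthogonal_iff]
  intro w hw
  obtain ⟨w', hw', rfl⟩ := exists_preimage A hA W hW w hw
  rw [form_isometry A hA]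
  exact hv w' hw'

/-- The characteristic polynomial of an invertible matrix and of its inverse. -/
theorem charpoly_inv_eq {m : ℕ} (M N : Matrix (Fin m) (Fin m) F) (h : M * N = 1) :
    N.charpoly = pstar M.charpoly := by
  have h1 := Cfsg.Agent.Lib.Helper40.SUCount.reverse_charpoly_of_inv M N h
  have hdet : M.det ≠ 0 := by
    intro h0
    have h2 := congrArg Matrix.det h
    rw [Matrix.det_mul, h0, zero_mul, Matrix.det_one] at h2
    exact zero_ne_one h2
  have hc0 : M.charpoly.coeff 0 = M.det * (-1) ^ m := by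
    have h2 := Matrix.det_eq_sign_charpoly_coeff M
    rw [Fintype.card_fin] at h2
    rw [h2]
    have h3 : ((-1 : F) ^ m) * (-1) ^ m = 1 := by
      rw [← mul_pow, neg_mul_neg, one_mul, one_pow]
    linear_combination (-(M.charpoly.coeff 0)) * h3
  have hne : M.det * (-1) ^ m ≠ 0 := mul_ne_zero hdet (pow_ne_zero _ (neg_ne_zero.mpr one_ne_zero))
  rw [pstar_eq, h1, hc0, ← mul_assoc, ← C_mul, inv_mul_cancel₀ hne, C_1, one_mul]

/-- **Key lemma**, abstract form. -/
theorem dvd_of_ti_aux (φ : Module.End F (Fin d ⊕ Fin d → F))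
    (hiso : ∀ u v, form d F (φ u) (φ v) = form d F u v)
    (hs : Module.End.IsSemisimple φ) (W : Submodule F (Fin d ⊕ Fin d → F))
    (hW : W ∈ Module.End.invtSubmodule φ)
    (hWp : (form d F).orthogonal W ∈ Module.End.invtSubmodule φ)
    (hti : ∀ u ∈ W, ∀ v ∈ W, Cfsg.sympForm d F u v = 0) :
    (res φ W hW).charpoly * pstar (res φ W hW).charpoly ∣ φ.charpoly := by
  classical
  obtain ⟨Cc, hC, hcompl⟩ := (Module.End.isSemisimple_iff.mp hs) _ hWp
  have hWle : W ≤ (form d F).orthogonal W := by
    intro u hu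
    rw [LinearMap.BilinForm.mem_orthogonal_iff]
    intro w hw
    rw [form_apply]
    exact hti w hw u hu
  have hdisj : W ⊓ Cc = ⊥ := by
    apply le_antisymm _ bot_le
    rw [← hcompl.inf_eq_bot]
    exact inf_le_inf_right _ hWle
  have hfinV : Module.finrank F (Fin d ⊕ Fin d → F) = 2 * d := by
    rw [Module.finrank_pi, Fintype.card_sum, Fintype.card_fin]
    ring
  have hWd : Module.finrank F W ≤ Module.finrank F (Fin d ⊕ Fin d → F) := Submodule.finrank_le W
  have hCm : Module.finrank F Cc = Module.finrank F W := by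
    have h1 := Submodule.finrank_add_eq_of_isCompl hcompl
    have h2 := LinearMap.BilinForm.finrank_orthogonal (form_nondeg (F := F) d) W
    omega
  have hS : W ⊔ Cc ∈ Module.End.invtSubmodule φ := Sublattice.sup_mem hW hC
  have hdvd : (res φ W hW).charpoly * (res φ Cc hC).charpoly ∣ φ.charpoly := by
    rw [← charpoly_sup φ W Cc hW hC hdisj hS]
    exact charpoly_restrict_dvd φ hs _ hS
  have hstar : (res φ Cc hC).charpoly = pstar (res φ W hW).charpoly := by
    obtain ⟨m, hm⟩ : ∃ m, m = Module.finrank F W := ⟨_, rfl⟩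
    let bW : Module.Basis (Fin m) F W := Module.finBasisOfFinrankEq F W hm.symm
    let bC : Module.Basis (Fin m) F Cc := Module.finBasisOfFinrankEq F Cc (hCm.trans hm.symm)
    obtain ⟨MW, hMW⟩ : ∃ MW, MW = LinearMap.toMatrix bW bW (res φ W hW) := ⟨_, rfl⟩
    obtain ⟨MC, hMC⟩ : ∃ MC, MC = LinearMap.toMatrix bC bC (res φ Cc hC) := ⟨_, rfl⟩
    obtain ⟨G, hG⟩ : ∃ G : Matrix (Fin m) (Fin m) F,
        G = Matrix.of (fun a b => form d F (bC a : Fin d ⊕ Fin d → F) (bW b)) := ⟨_, rfl⟩
    have eW : ∀ b, φ (bW b : Fin d ⊕ Fin d → F) =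
        ∑ b', MW b' b • (bW b' : Fin d ⊕ Fin d → F) := by
      intro b
      have h1 : (res φ W hW) (bW b) = ∑ b', MW b' b • bW b' := by
        rw [hMW]
        simp_rw [LinearMap.toMatrix_apply]
        exact (bW.sum_repr _).symm
      have h2 := congrArg (Subtype.val) h1
      rw [AddSubmonoidClass.coe_finsetSum] at h2
      exact h2
    have eC : ∀ a, φ (bC a : Fin d ⊕ Fin d → F) =
        ∑ a', MC a' a • (bC a' : Fin d ⊕ Fin d → F) := by
      intro a
      have h1 : (res φ Cc hC) (bC a) = ∑ a', MC a' a • bC a' := by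
        rw [hMC]
        simp_rw [LinearMap.toMatrix_apply]
        exact (bC.sum_repr _).symm
      have h2 := congrArg (Subtype.val) h1
      rw [AddSubmonoidClass.coe_finsetSum] at h2
      exact h2
    have key : MCᵀ * G * MW = G := by
      ext a b
      have h1 := hiso (bC a : Fin d ⊕ Fin d → F) (bW b)
      rw [eC, eW] at h1
      rw [hG, Matrix.of_apply, ← h1]
      simp only [Matrix.mul_apply, Matrix.transpose_apply, Matrix.of_apply, map_sum,
        LinearMap.sum_apply, map_smul, LinearMap.smul_apply, smul_eq_mul, Finset.sum_mul,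
        Finset.mul_sum]
      apply Finset.sum_congr rfl
      intro a' _
      apply Finset.sum_congr rfl
      intro b' _
      ring
    have hGdet : G.det ≠ 0 := by
      intro h0
      obtain ⟨v, hv, hGv⟩ := Matrix.exists_mulVec_eq_zero_iff.mpr h0
      apply hv
      obtain ⟨w, hw⟩ : ∃ w : W, w = ∑ b, v b • bW b := ⟨_, rfl⟩
      have hwC : ∀ a, form d F (bC a : Fin d ⊕ Fin d → F) (w : Fin d ⊕ Fin d → F) = 0 := by
        intro a
        have h1 := congrFun hGv a
        rw [hw, AddSubmonoidClass.coe_finsetSum, map_sum]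
        rw [Matrix.mulVec, dotProduct] at h1
        rw [Pi.zero_apply] at h1
        rw [← h1]
        apply Finset.sum_congr rfl
        intro b _
        rw [Submodule.coe_smul, map_smul, smul_eq_mul, hG, Matrix.of_apply, mul_comm]
      have hw0 : (w : Fin d ⊕ Fin d → F) = 0 := by
        have hall : ∀ u, form d F u (w : Fin d ⊕ Fin d → F) = 0 := by
          intro u
          have hu : u ∈ (form d F).orthogonal W ⊔ Cc := by
            rw [hcompl.sup_eq_top]
            exact Submodule.mem_top
          obtain ⟨u1, hu1, u2, hu2, rfl⟩ := Submodule.mem_sup.mp hu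
          rw [map_add, LinearMap.add_apply]
          have e1 : form d F u1 (w : Fin d ⊕ Fin d → F) = 0 := by
            rw [form_skew]
            rw [LinearMap.BilinForm.mem_orthogonal_iff] at hu1
            rw [hu1 w w.2, neg_zero]
          have e2 : form d F u2 (w : Fin d ⊕ Fin d → F) = 0 := by
            have h3 : (⟨u2, hu2⟩ : Cc) ∈ Submodule.span F (Set.range bC) := by
              rw [bC.span_eq]
              exact Submodule.mem_top
            have h4 : ∀ c : Cc, form d F (c : Fin d ⊕ Fin d → F) (w : Fin d ⊕ Fin d → F) = 0 := by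
              intro c
              have hc : c ∈ Submodule.span F (Set.range bC) := by
                rw [bC.span_eq]
                exact Submodule.mem_top
              refine Submodule.span_induction ?_ ?_ ?_ ?_ hc
              · rintro _ ⟨a, rfl⟩
                exact hwC a
              · rw [Submodule.coe_zero, map_zero, LinearMap.zero_apply]
              · intro x y _ _ hx hy
                rw [Submodule.coe_add, map_add, LinearMap.add_apply, hx, hy, add_zero]
              · intro c x _ hx
                rw [Submodule.coe_smul, map_smul, LinearMap.smul_apply, hx, smul_zero]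
            exact h4 ⟨u2, hu2⟩
          rw [e1, e2, add_zero]
        have hnd := form_nondeg (F := F) d
        exact hnd.2 _ hall
      have hw0' : w = 0 := Subtype.ext hw0
      rw [hw] at hw0'
      have hli := bW.linearIndependent
      rw [Fintype.linearIndependent_iff] at hli
      funext b
      exact hli v hw0' b
    have hdetrel : MCᵀ.det * G.det * MW.det = G.det := by
      rw [← Matrix.det_mul, ← Matrix.det_mul, key]
    have hMWdet : MW.det ≠ 0 := by
      intro h0
      rw [h0, mul_zero] at hdetrel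
      exact hGdet hdetrel.symm
    have hMWu : IsUnit MW.det := isUnit_iff_ne_zero.mpr hMWdet
    have hGu : IsUnit G.det := isUnit_iff_ne_zero.mpr hGdet
    have h1 : MCᵀ = G * MW⁻¹ * G⁻¹ := by
      have h2 : MCᵀ * G = G * MW⁻¹ := by
        have h3 : MCᵀ * G * MW * MW⁻¹ = G * MW⁻¹ := by rw [key]
        rw [Matrix.mul_assoc (MCᵀ * G), Matrix.mul_nonsing_inv _ hMWu, Matrix.mul_one] at h3
        exact h3
      rw [← h2, Matrix.mul_assoc, Matrix.mul_nonsing_inv _ hGu, Matrix.mul_one]
    have h2 : MC.charpoly = MW⁻¹.charpoly := by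
      rw [← Matrix.charpoly_transpose, h1, Matrix.mul_assoc, Matrix.charpoly_mul_comm,
        Matrix.mul_assoc, Matrix.nonsing_inv_mul _ hGu, Matrix.mul_one]
    have h3 : MW⁻¹.charpoly = pstar MW.charpoly :=
      charpoly_inv_eq MW MW⁻¹ (Matrix.mul_nonsing_inv _ hMWu)
    rw [← LinearMap.charpoly_toMatrix (res φ Cc hC) bC, ← LinearMap.charpoly_toMatrix
      (res φ W hW) bW, ← hMW, ← hMC, h2, h3]
  rw [← hstar]
  exact hdvd

/-- **Key lemma.** If `W` is a totally isotropic invariant subspace of a semisimple symplectic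
matrix, then `D * D^*` divides the characteristic polynomial, `D` the characteristic polynomial
on `W`. -/
theorem dvd_of_ti (A : Matrix (Fin d ⊕ Fin d) (Fin d ⊕ Fin d) F)
    (hA : A ∈ Matrix.symplecticGroup (Fin d) F)
    (hs : Module.End.IsSemisimple (Matrix.toLin' A)) (W : Submodule F (Fin d ⊕ Fin d → F))
    (hW : W ∈ Module.End.invtSubmodule (Matrix.toLin' A))
    (hti : ∀ u ∈ W, ∀ v ∈ W, Cfsg.sympForm d F u v = 0) :
    (res (Matrix.toLin' A) W hW).charpoly * pstar (res (Matrix.toLin' A) W hW).charpoly ∣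
      A.charpoly := by
  have h := dvd_of_ti_aux (Matrix.toLin' A) (form_isometry A hA) hs W hW
    (orthogonal_invt A hA W hW) hti
  rwa [Matrix.charpoly_toLin'] at h

end

end Cfsg.Agent.Lib.Helper40.SpTI
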