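import Mathlib
import Cfsg.Prelude.Def_ClassicalGeometry
import Cfsg.Agent.Lib.Helper13.SympMat
import Cfsg.Agent.Lib.Helper40.SpTI
import Cfsg.Agent.Lib.Helper40.SpReal
import Cfsg.Agent.Lib.Helper40.SSCount
import Cfsg.Agent.Lib.Helper40.SSConj
import Cfsg.Agent.Lib.Helper40.SympConj

set_option autoImplicit false

namespace Cfsg.Agent.Lib.Helper40.SpModel

open Polynomial Matrix Cfsg.Agent.Lib.Helper13.SympMat Cfsg.Agent.Lib.Helper40.RecipPoly
  Cfsg.Agent.Lib.Helper40.SpTI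

section
variable {F : Type*} [Field F]

/-- Every monic palindromic polynomial of degree `2n` is the characteristic polynomial of a
symplectic matrix of order prime to the characteristic. -/
theorem exists_symp_of_palindromic [Fintype F] (p : ℕ) [Fact p.Prime] [CharP F p] (n : ℕ)
    (c : F[X]) (hcm : c.Monic) (hcd : c.natDegree = 2 * n) (hc : c.reverse = c) :
    ∃ g : Matrix.symplecticGroup (Fin n) F, (orderOf g).Coprime p ∧
      (g : Matrix (Fin n ⊕ Fin n) (Fin n ⊕ Fin n) F).charpoly = c := by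
  obtain ⟨M, hM, hMc⟩ := Cfsg.Agent.Lib.Helper40.SpReal.exists_symp_coeffs n
    (fun i => c.coeff (i + 1))
  have h1 : M.charpoly = c := eq_of_coeff_symm n M.charpoly c (Matrix.charpoly_monic M) hcm
    (by rw [Matrix.charpoly_natDegree_eq_dim, Fintype.card_sum, Fintype.card_fin]; ring) hcd
    (Cfsg.Agent.Lib.Helper40.SpReal.charpoly_reverse M hM) hc hMc
  obtain ⟨g, hg, hgc⟩ := Cfsg.Agent.Lib.Helper40.SpReal.exists_pprime p
    (⟨M, hM⟩ : Matrix.symplecticGroup (Fin n) F)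
  exact ⟨g, hg, hgc.trans h1⟩

/-- The index equivalence for the orthogonal direct sum of two symplectic spaces. -/
def eqv (m k : ℕ) : (Fin m ⊕ Fin m) ⊕ (Fin k ⊕ Fin k) ≃ Fin (m + k) ⊕ Fin (m + k) :=
  (Equiv.sumSumSumComm (Fin m) (Fin m) (Fin k) (Fin k)).trans
    (Equiv.sumCongr finSumFinEquiv finSumFinEquiv)

theorem J_submatrix (m k : ℕ) : (J (Fin (m + k)) F).submatrix (eqv m k) (eqv m k) =
    Matrix.fromBlocks (J (Fin m) F) 0 0 (J (Fin k) F) := by
  ext ((a | a) | (b | b)) ((a' | a') | (b' | b')) <;>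
    simp [eqv, Matrix.J, Matrix.one_apply, Fin.ext_iff] <;> omega

/-- The orthogonal direct sum of two matrices. -/
def dsum {m k : ℕ} (H : Matrix (Fin m ⊕ Fin m) (Fin m ⊕ Fin m) F)
    (Y : Matrix (Fin k ⊕ Fin k) (Fin k ⊕ Fin k) F) :
    Matrix (Fin (m + k) ⊕ Fin (m + k)) (Fin (m + k) ⊕ Fin (m + k)) F :=
  (Matrix.fromBlocks H 0 0 Y).submatrix (eqv m k).symm (eqv m k).symm

theorem dsum_mul {m k : ℕ} (H H' : Matrix (Fin m ⊕ Fin m) (Fin m ⊕ Fin m) F)
    (Y Y' : Matrix (Fin k ⊕ Fin k) (Fin k ⊕ Fin k) F) :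
    dsum H Y * dsum H' Y' = dsum (H * H') (Y * Y') := by
  unfold dsum
  rw [Matrix.submatrix_mul_equiv, Matrix.fromBlocks_multiply]
  simp

theorem dsum_one {m k : ℕ} :
    dsum (1 : Matrix (Fin m ⊕ Fin m) (Fin m ⊕ Fin m) F)
      (1 : Matrix (Fin k ⊕ Fin k) (Fin k ⊕ Fin k) F) = 1 := by
  unfold dsum
  rw [Matrix.fromBlocks_one, Matrix.submatrix_one_equiv]

theorem dsum_pow {m k : ℕ} (H : Matrix (Fin m ⊕ Fin m) (Fin m ⊕ Fin m) F)
    (Y : Matrix (Fin k ⊕ Fin k) (Fin k ⊕ Fin k) F) (n : ℕ) :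
    dsum H Y ^ n = dsum (H ^ n) (Y ^ n) := by
  induction n with
  | zero => rw [pow_zero, pow_zero, pow_zero, dsum_one]
  | succ n ih => rw [pow_succ, ih, dsum_mul, pow_succ, pow_succ]

theorem dsum_transpose {m k : ℕ} (H : Matrix (Fin m ⊕ Fin m) (Fin m ⊕ Fin m) F)
    (Y : Matrix (Fin k ⊕ Fin k) (Fin k ⊕ Fin k) F) :
    (dsum H Y)ᵀ = dsum Hᵀ Yᵀ := by
  unfold dsum
  rw [Matrix.transpose_submatrix, Matrix.fromBlocks_transpose, Matrix.transpose_zero]
  simp only [Matrix.transpose_zero]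

theorem J_eq (m k : ℕ) : J (Fin (m + k)) F = dsum (J (Fin m) F) (J (Fin k) F) := by
  unfold dsum
  rw [← J_submatrix, Matrix.submatrix_submatrix]
  simp

theorem dsum_mem {m k : ℕ} (H : Matrix (Fin m ⊕ Fin m) (Fin m ⊕ Fin m) F)
    (Y : Matrix (Fin k ⊕ Fin k) (Fin k ⊕ Fin k) F)
    (hH : H ∈ Matrix.symplecticGroup (Fin m) F) (hY : Y ∈ Matrix.symplecticGroup (Fin k) F) :
    dsum H Y ∈ Matrix.symplecticGroup (Fin (m + k)) F := by
  rw [SymplecticGroup.mem_iff', J_eq, dsum_transpose, dsum_mul, dsum_mul,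
    SymplecticGroup.mem_iff'.mp hH, SymplecticGroup.mem_iff'.mp hY]

theorem dsum_charpoly {m k : ℕ} (H : Matrix (Fin m ⊕ Fin m) (Fin m ⊕ Fin m) F)
    (Y : Matrix (Fin k ⊕ Fin k) (Fin k ⊕ Fin k) F) :
    (dsum H Y).charpoly = H.charpoly * Y.charpoly := by
  have h1 : dsum H Y = Matrix.reindex (eqv m k) (eqv m k) (Matrix.fromBlocks H 0 0 Y) := rfl
  rw [h1, Matrix.charpoly_reindex, Matrix.charpoly_fromBlocks_zero₁₂]

/-- The embedding of `F^m` as a totally isotropic subspace. -/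
def iota (m k : ℕ) : (Fin m → F) →ₗ[F] (Fin (m + k) ⊕ Fin (m + k) → F) where
  toFun u := (Sum.elim (Sum.elim u (0 : Fin m → F)) (0 : Fin k ⊕ Fin k → F)) ∘ (eqv m k).symm
  map_add' u v := by
    funext x
    simp only [Function.comp_apply, Pi.add_apply]
    generalize (eqv m k).symm x = y
    rcases y with ((a | a) | (b | b)) <;> simp
  map_smul' c u := by
    funext x
    simp only [Function.comp_apply, Pi.smul_apply, RingHom.id_apply]
    generalize (eqv m k).symm x = y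
    rcases y with ((a | a) | (b | b)) <;> simp

theorem iota_apply (m k : ℕ) (u : Fin m → F) :
    iota m k u = (Sum.elim (Sum.elim u (0 : Fin m → F)) (0 : Fin k ⊕ Fin k → F)) ∘
      (eqv m k).symm := rfl

theorem iota_injective (m k : ℕ) : Function.Injective (iota (F := F) m k) := by
  intro u v huv
  funext a
  have h := congrFun huv (eqv m k (Sum.inl (Sum.inl a)))
  rw [iota_apply, iota_apply] at h
  simpa using h

theorem dsum_mulVec_iota {m k : ℕ} (g g' : Matrix (Fin m) (Fin m) F)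
    (Y : Matrix (Fin k ⊕ Fin k) (Fin k ⊕ Fin k) F) (u : Fin m → F) :
    dsum (Matrix.fromBlocks g 0 0 g') Y *ᵥ iota m k u = iota m k (g *ᵥ u) := by
  unfold dsum
  rw [Matrix.submatrix_mulVec_equiv, iota_apply, iota_apply]
  congr 1
  have h1 : ((Sum.elim (Sum.elim u (0 : Fin m → F)) (0 : Fin k ⊕ Fin k → F)) ∘
      (eqv m k).symm) ∘ (eqv m k).symm.symm =
      Sum.elim (Sum.elim u (0 : Fin m → F)) (0 : Fin k ⊕ Fin k → F) := by
    funext x
    simp
  rw [h1, Matrix.fromBlocks_mulVec, Sum.elim_comp_inl, Sum.elim_comp_inr, Matrix.fromBlocks_mulVec,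
    Sum.elim_comp_inl, Sum.elim_comp_inr]
  simp

theorem sympForm_iota (m k : ℕ) (u v : Fin m → F) :
    Cfsg.sympForm (m + k) F (iota m k u) (iota m k v) = 0 := by
  unfold Cfsg.sympForm
  rw [J_eq]
  unfold dsum
  rw [Matrix.submatrix_mulVec_equiv, iota_apply, iota_apply]
  have h1 : ((Sum.elim (Sum.elim v (0 : Fin m → F)) (0 : Fin k ⊕ Fin k → F)) ∘
      (eqv m k).symm) ∘ (eqv m k).symm.symm =
      Sum.elim (Sum.elim v (0 : Fin m → F)) (0 : Fin k ⊕ Fin k → F) := by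
    funext x
    simp
  rw [h1, Matrix.fromBlocks_mulVec, Sum.elim_comp_inl, Sum.elim_comp_inr, Matrix.J,
    Matrix.fromBlocks_mulVec, Sum.elim_comp_inl, Sum.elim_comp_inr,
    comp_equiv_symm_dotProduct]
  have h2 : ∀ w : (Fin m ⊕ Fin m) ⊕ (Fin k ⊕ Fin k) → F, (w ∘ (eqv m k).symm) ∘ (eqv m k) = w := by
    intro w
    funext x
    simp
  rw [h2]
  simp

theorem cast_ne_zero_of_coprime (p : ℕ) [Fact p.Prime] [CharP F p] (N : ℕ) (hN : N.Coprime p) :
    (N : F) ≠ 0 := by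
  have hpp : p.Prime := Fact.out
  intro h0
  have h1 := (CharP.cast_eq_zero_iff F p N).mp h0
  have h3 : p ∣ Nat.gcd N p := Nat.dvd_gcd h1 dvd_rfl
  rw [Nat.Coprime.gcd_eq_one hN] at h3
  exact hpp.one_lt.ne' (Nat.dvd_one.mp h3)

theorem reverse_mul_pstar (D : F[X]) (hD0 : D.coeff 0 ≠ 0) :
    (D * pstar D).reverse = D * pstar D := by
  rw [pstar_eq, reverse_mul_of_domain, reverse_C_mul', reverse_reverse' D hD0]
  ring

/-- **Model lemma.** If `D * D^*` divides the characteristic polynomial of a symplectic matrix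
`x` of order prime to the characteristic, then `x` fixes a totally isotropic subspace of
dimension `deg D`. -/
theorem exists_ti_of_dvd [Fintype F] (p : ℕ) [Fact p.Prime] [CharP F p] {d : ℕ}
    (x : Matrix (Fin d ⊕ Fin d) (Fin d ⊕ Fin d) F) (hx : x ∈ Matrix.symplecticGroup (Fin d) F)
    (N : ℕ) (hN : (N : F) ≠ 0) (hxN : x ^ N = 1)
    (D : F[X]) (hDm : D.Monic) (hD0 : D.coeff 0 ≠ 0) (hdvd : D * pstar D ∣ x.charpoly) :
    ∃ W : Submodule F (Fin d ⊕ Fin d → F), Module.finrank F W = D.natDegree ∧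
      (∀ u ∈ W, ∀ v ∈ W, Cfsg.sympForm d F u v = 0) ∧ W.map (Matrix.toLin' x) ≤ W := by
  classical
  have hpp : p.Prime := Fact.out
  have hsm : (pstar D).Monic := rstar_monic (RingHom.id F) D hD0
  have hsd : (pstar D).natDegree = D.natDegree := rstar_natDegree (RingHom.id F) D hD0
  have hDDm : (D * pstar D).Monic := hDm.mul hsm
  have hxd : x.charpoly.natDegree = 2 * d := by
    rw [Matrix.charpoly_natDegree_eq_dim, Fintype.card_sum, Fintype.card_fin]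
    ring
  obtain ⟨χ₀, hχ₀⟩ := hdvd
  have hχm : χ₀.Monic := Monic.of_mul_monic_left hDDm (hχ₀ ▸ Matrix.charpoly_monic x)
  have hdeg : 2 * d = 2 * D.natDegree + χ₀.natDegree := by
    rw [← hxd, hχ₀, hDDm.natDegree_mul hχm, hDm.natDegree_mul hsm, hsd]
    ring
  obtain ⟨k, rfl⟩ : ∃ k, d = D.natDegree + k := ⟨d - D.natDegree, by omega⟩
  have hχd : χ₀.natDegree = 2 * k := by omega
  have hχr : χ₀.reverse = χ₀ := by
    have h1 := Cfsg.Agent.Lib.Helper40.SpReal.charpoly_reverse x hx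
    rw [hχ₀, reverse_mul_of_domain, reverse_mul_pstar D hD0] at h1
    exact mul_left_cancel₀ hDDm.ne_zero h1
  obtain ⟨y₀, hy₀o, hy₀c⟩ := exists_symp_of_palindromic p k χ₀ hχm hχd hχr
  obtain ⟨g, hgc, N₁, hN₁pos, hN₁c, hgN₁⟩ :=
    Cfsg.Agent.Lib.Helper40.SSCount.exists_charpoly (F := F) p D.natDegree D hDm rfl hD0
  obtain ⟨gi, hgi⟩ : ∃ gi, gi = g ^ (N₁ - 1) := ⟨_, rfl⟩
  have hggi : g * gi = 1 := by
    rw [hgi, ← pow_succ', Nat.sub_add_cancel hN₁pos, hgN₁]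
  have hgig : gi * g = 1 := mul_eq_one_comm.mp hggi
  obtain ⟨H, hH⟩ : ∃ H : Matrix (Fin D.natDegree ⊕ Fin D.natDegree)
      (Fin D.natDegree ⊕ Fin D.natDegree) F, H = Matrix.fromBlocks g 0 0 giᵀ := ⟨_, rfl⟩
  have hHmem : H ∈ Matrix.symplecticGroup (Fin D.natDegree) F := by
    rw [SymplecticGroup.mem_iff, hH, Matrix.J, Matrix.fromBlocks_transpose,
      Matrix.fromBlocks_multiply, Matrix.fromBlocks_multiply]
    have h1 : giᵀ * gᵀ = 1 := by rw [← Matrix.transpose_mul, hggi, Matrix.transpose_one]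
    simp [hggi, h1]
  have hHc : H.charpoly = D * pstar D := by
    rw [hH, Matrix.charpoly_fromBlocks_zero₁₂, Matrix.charpoly_transpose,
      charpoly_inv_eq g gi hggi, hgc]
  have hHN : H ^ N₁ = 1 := by
    rw [hH, Matrix.fromBlocks_diagonal_pow, hgN₁, ← Matrix.transpose_pow, hgi, ← pow_mul,
      mul_comm, pow_mul, hgN₁, one_pow, Matrix.transpose_one, Matrix.fromBlocks_one]
  obtain ⟨N₂, hN₂⟩ : ∃ N₂, N₂ = orderOf y₀ := ⟨_, rfl⟩
  have hy₀N : (y₀ : Matrix (Fin k ⊕ Fin k) (Fin k ⊕ Fin k) F) ^ N₂ = 1 := by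
    have h1 : y₀ ^ N₂ = 1 := by rw [hN₂, pow_orderOf_eq_one]
    exact congrArg Subtype.val h1
  obtain ⟨y, hy⟩ : ∃ y, y = dsum H (y₀ : Matrix (Fin k ⊕ Fin k) (Fin k ⊕ Fin k) F) := ⟨_, rfl⟩
  have hymem : y ∈ Matrix.symplecticGroup (Fin (D.natDegree + k)) F := by
    rw [hy]
    exact dsum_mem H _ hHmem y₀.2
  have hyc : y.charpoly = x.charpoly := by
    rw [hy, dsum_charpoly, hHc, hy₀c, hχ₀]
  obtain ⟨M, hM⟩ : ∃ M, M = N * (N₁ * N₂) := ⟨_, rfl⟩
  have hMF : (M : F) ≠ 0 := by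
    rw [hM, Nat.cast_mul, Nat.cast_mul]
    exact mul_ne_zero hN (mul_ne_zero (cast_ne_zero_of_coprime p N₁ hN₁c)
      (cast_ne_zero_of_coprime p N₂ (hN₂ ▸ hy₀o)))
  have hxM : x ^ M = 1 := by rw [hM, pow_mul, hxN, one_pow]
  have hyM : y ^ M = 1 := by
    rw [hM, mul_comm, pow_mul, hy, dsum_pow, pow_mul, hHN, one_pow, mul_comm, pow_mul, hy₀N,
      one_pow, dsum_one, one_pow]
  obtain ⟨P, Q, hPQ, hQP, hPA⟩ := Cfsg.Agent.Lib.Helper40.SSConj.matrix_conj x y M hMF hxM hyM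
    hyc.symm
  have hconj := Cfsg.Agent.Lib.Helper40.SympConj.symp_conj
    (⟨x, hx⟩ : Matrix.symplecticGroup (Fin (D.natDegree + k)) F) ⟨y, hymem⟩ M hMF hxM P
    (IsUnit.of_mul_eq_one Q hPQ) hPA
  obtain ⟨S, hS⟩ := isConj_iff.mp hconj
  have hS' : (⟨x, hx⟩ : Matrix.symplecticGroup (Fin (D.natDegree + k)) F) * S⁻¹ =
      S⁻¹ * ⟨y, hymem⟩ := by
    rw [← hS]
    group
  have hS'' : x * (S⁻¹ : Matrix.symplecticGroup (Fin (D.natDegree + k)) F).1 =
      (S⁻¹ : Matrix.symplecticGroup (Fin (D.natDegree + k)) F).1 * y :=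
    congrArg Subtype.val hS'
  obtain ⟨T, hT⟩ : ∃ T : Matrix.symplecticGroup (Fin (D.natDegree + k)) F, T = S⁻¹ := ⟨_, rfl⟩
  rw [← hT] at hS''
  have hcoe : ((Φ (D.natDegree + k) T : (Fin (D.natDegree + k) ⊕ Fin (D.natDegree + k) → F) ≃ₗ[F]
      (Fin (D.natDegree + k) ⊕ Fin (D.natDegree + k) → F)) :
      (Fin (D.natDegree + k) ⊕ Fin (D.natDegree + k) → F) →ₗ[F]
        (Fin (D.natDegree + k) ⊕ Fin (D.natDegree + k) → F)) = Matrix.toLin' T.1 := by
    apply LinearMap.ext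
    intro v
    rw [LinearEquiv.coe_coe, Φ_apply, Matrix.toLin'_apply]
  refine ⟨(LinearMap.range (iota (F := F) D.natDegree k)).map (Matrix.toLin' T.1), ?_, ?_, ?_⟩
  · rw [← hcoe, LinearEquiv.finrank_map_eq,
      LinearMap.finrank_range_of_inj (iota_injective D.natDegree k), Module.finrank_fin_fun]
  · intro u hu v hv
    obtain ⟨u', hu', rfl⟩ := Submodule.mem_map.mp hu
    obtain ⟨v', hv', rfl⟩ := Submodule.mem_map.mp hv
    obtain ⟨a, rfl⟩ := LinearMap.mem_range.mp hu'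
    obtain ⟨b, rfl⟩ := LinearMap.mem_range.mp hv'
    rw [← form_apply, form_isometry T.1 T.2, form_apply]
    exact sympForm_iota D.natDegree k a b
  · intro w hw
    obtain ⟨w', hw', rfl⟩ := Submodule.mem_map.mp hw
    obtain ⟨u', hu', rfl⟩ := Submodule.mem_map.mp hw'
    obtain ⟨a, rfl⟩ := LinearMap.mem_range.mp hu'
    rw [Matrix.toLin'_apply, Matrix.toLin'_apply, Matrix.mulVec_mulVec, hS'',
      ← Matrix.mulVec_mulVec, hy, hH, dsum_mulVec_iota]
    exact Submodule.mem_map.mpr ⟨_, LinearMap.mem_range.mpr ⟨_, rfl⟩, Matrix.toLin'_apply _ _⟩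

end

end Cfsg.Agent.Lib.Helper40.SpModel
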