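import Mathlib
import Cfsg.Agent.S2568
import Cfsg.Agent.Lib.Helper40.RecipPoly
import Cfsg.Agent.Lib.Helper40.SpTI

set_option autoImplicit false

namespace Cfsg.Agent.Lib.Helper40.SpPoly

open Polynomial UniqueFactorizationMonoid Cfsg.Agent.Lib.Helper40.RecipPoly
  Cfsg.Agent.Lib.Helper40.SpTI

section basic
variable {F : Type*} [Field F]

theorem pstar_mul (a b : F[X]) : pstar (a * b) = pstar a * pstar b := rstar_mul _ a b

theorem pstar_one : pstar (1 : F[X]) = 1 := rstar_one _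

theorem pstar_pow (a : F[X]) (n : ℕ) : pstar (a ^ n) = pstar a ^ n := by
  induction n with
  | zero => rw [pow_zero, pow_zero, pstar_one]
  | succ n ih => rw [pow_succ, pstar_mul, ih, pow_succ]

theorem pstar_L : pstar (X - C (1 : F)) = X - C 1 := rstar_X_sub_one _

theorem pstar_pstar (a : F[X]) (ha : a.Monic) (h0 : a.coeff 0 ≠ 0) : pstar (pstar a) = a :=
  rstar_star (RingHom.id F) (fun _ => rfl) a ha h0

theorem pstar_monic (a : F[X]) (h0 : a.coeff 0 ≠ 0) : (pstar a).Monic := rstar_monic _ a h0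

theorem pstar_natDegree (a : F[X]) (h0 : a.coeff 0 ≠ 0) : (pstar a).natDegree = a.natDegree :=
  rstar_natDegree _ a h0

theorem pstar_coeff_zero (a : F[X]) (ha : a.Monic) (h0 : a.coeff 0 ≠ 0) :
    (pstar a).coeff 0 ≠ 0 := by
  have h := rstar_coeff_zero (RingHom.id F) a ha
  show (rstar (RingHom.id F) a).coeff 0 ≠ 0
  rw [h]
  exact inv_ne_zero h0

theorem pstar_irreducible (P : F[X]) (hP : Irreducible P) (hm : P.Monic) (h0 : P.coeff 0 ≠ 0) :
    Irreducible (pstar P) := rstar_irreducible (RingHom.id F) (fun _ => rfl) P hP hm h0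

theorem L_coeff_zero : (X - C (1 : F)).coeff 0 ≠ 0 := by
  rw [coeff_sub, coeff_X_zero, coeff_C_zero, zero_sub]
  exact neg_ne_zero.mpr one_ne_zero

theorem L_reverse : (X - C (1 : F)).reverse = -(X - C 1) := by
  have h1 := pstar_L (F := F)
  rw [pstar_eq] at h1
  have h2 : (X - C (1 : F)).coeff 0 = -1 := by
    rw [coeff_sub, coeff_X_zero, coeff_C_zero, zero_sub]
  rw [h2] at h1
  simp only [inv_neg, inv_one, map_neg, map_one, neg_mul, one_mul] at h1
  exact neg_eq_iff_eq_neg.mp h1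

theorem L_pow_reverse (e : ℕ) (he : Even e) :
    ((X - C (1 : F)) ^ e).reverse = (X - C 1) ^ e := by
  rw [reverse_pow', L_reverse, Even.neg_pow he]

/-- A monic palindromic polynomial is fixed by `pstar` and has constant term `1`. -/
theorem star_of_pal (c : F[X]) (hcm : c.Monic) (hc : c.reverse = c) :
    c.coeff 0 = 1 ∧ pstar c = c := by
  have h1 := coeff_zero_reverse c
  rw [hc, hcm.leadingCoeff] at h1
  refine ⟨h1, ?_⟩
  rw [pstar_eq, h1, hc, inv_one, C_1, one_mul]

/-- A polynomial fixed by `pstar` which does not vanish at `1` is palindromic. -/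
theorem pal_of_star (Q : F[X]) (hQ0 : Q.coeff 0 ≠ 0) (hQs : pstar Q = Q) (h1 : Q.eval 1 ≠ 0) :
    Q.reverse = Q := by
  have h2 : Q.reverse = C (Q.coeff 0) * Q := by
    have h3 := pstar_eq Q
    rw [hQs] at h3
    calc Q.reverse = C (Q.coeff 0) * (C (Q.coeff 0)⁻¹ * Q.reverse) := by
          rw [← mul_assoc, ← C_mul, mul_inv_cancel₀ hQ0, C_1, one_mul]
      _ = C (Q.coeff 0) * Q := by rw [← h3]
  have h3 := reverse_eval_one Q
  rw [h2, eval_mul, eval_C] at h3
  have h4 : Q.coeff 0 = 1 := by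
    have h5 : (Q.coeff 0 - 1) * Q.eval 1 = 0 := by linear_combination h3
    rcases mul_eq_zero.mp h5 with h | h
    · exact sub_eq_zero.mp h
    · exact absurd h h1
  rw [h2, h4, C_1, one_mul]

end basic

section nf
variable {F : Type*} [Field F] [DecidableEq F]

theorem nf_pstar (c : F[X]) (hc : c.Monic) (h0 : c.coeff 0 ≠ 0) :
    normalizedFactors (pstar c) = (normalizedFactors c).map pstar :=
  nf_star (RingHom.id F) (fun _ => rfl) c hc h0

theorem irr_of_mem_nf (c P : F[X]) (hP : P ∈ normalizedFactors c) : Irreducible P :=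
  irreducible_of_normalized_factor P hP

theorem nf_le_of_dvd (a b : F[X]) (ha : a.Monic) (hb : b.Monic) (h : a ∣ b) :
    normalizedFactors a ≤ normalizedFactors b :=
  (dvd_iff_normalizedFactors_le_normalizedFactors ha.ne_zero hb.ne_zero).mp h

theorem nf_mul' (a b : F[X]) (ha : a.Monic) (hb : b.Monic) :
    normalizedFactors (a * b) = normalizedFactors a + normalizedFactors b :=
  normalizedFactors_mul ha.ne_zero hb.ne_zero

theorem nf_single_sub (T : Finset F[X]) (hT : ∀ P ∈ T, Irreducible P ∧ P.Monic) (P : F[X])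
    (hP : P ∈ T) : ∀ Q ∈ normalizedFactors P, Q ∈ T := by
  intro Q hQ
  rw [normalizedFactors_irreducible (hT P hP).1, (hT P hP).2.normalize_eq_self,
    Multiset.mem_singleton] at hQ
  exact hQ ▸ hP

theorem nf_pair_sub (T : Finset F[X]) (hT : ∀ P ∈ T, Irreducible P ∧ P.Monic) (P P' : F[X])
    (hP : P ∈ T) (hP' : P' ∈ T) : ∀ Q ∈ normalizedFactors (P * P'), Q ∈ T := by
  intro Q hQ
  rw [nf_mul' P P' (hT P hP).2 (hT P' hP').2] at hQ
  rcases Multiset.mem_add.mp hQ with h | h
  · exact nf_single_sub T hT P hP Q h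
  · exact nf_single_sub T hT P' hP' Q h

/-- The polynomial `(X - 1)^e * R`. -/
theorem adm_mk (e : ℕ) (he : Even e) (R : F[X]) (hRm : R.Monic) (hR0 : R.coeff 0 ≠ 0)
    (hRs : pstar R = R) (hR1 : R.eval 1 ≠ 0) :
    ((X - C (1 : F)) ^ e * R).Monic ∧ ((X - C (1 : F)) ^ e * R).natDegree = e + R.natDegree ∧
      ((X - C (1 : F)) ^ e * R).reverse = (X - C (1 : F)) ^ e * R ∧
      normalizedFactors ((X - C (1 : F)) ^ e * R) =
        Multiset.replicate e (X - C (1 : F)) + normalizedFactors R := by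
  have hLm : ((X - C (1 : F)) ^ e).Monic := (monic_X_sub_C 1).pow e
  refine ⟨hLm.mul hRm, ?_, ?_, ?_⟩
  · rw [hLm.natDegree_mul hRm, natDegree_pow, natDegree_X_sub_C, mul_one]
  · rw [reverse_mul_of_domain, L_pow_reverse e he, pal_of_star R hR0 hRs hR1]
  · rw [nf_mul' _ _ hLm hRm, normalizedFactors_pow,
      normalizedFactors_irreducible (irreducible_X_sub_C 1), (monic_X_sub_C 1).normalize_eq_self,
      Multiset.nsmul_singleton]

end nf

section comb
variable {F : Type*} [Field F] [DecidableEq F]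

theorem count_le_count_map' {α β : Type*} [DecidableEq α] [DecidableEq β] (f : α → β)
    (s : Multiset α) (a : α) : Multiset.count a s ≤ Multiset.count (f a) (s.map f) := by
  induction s using Multiset.induction_on with
  | empty => simp
  | cons b s ih =>
    rw [Multiset.map_cons, Multiset.count_cons, Multiset.count_cons]
    by_cases h : a = b
    · subst h
      rw [if_pos rfl, if_pos rfl]
      omega
    · rw [if_neg h]
      split_ifs <;> omega

/-- Structure of a polynomial `D` with `D * D^*` dividing `χ`. -/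
theorem struct_of_dvd (T : Finset F[X]) (i : ℕ)
    (hT : ∀ P ∈ T, P.natDegree = i) (hLT : (X - C (1 : F)) ∉ T)
    (χ D : F[X]) (hχm : χ.Monic) (hχ0 : χ.coeff 0 ≠ 0) (hDm : D.Monic)
    (hdvd : D * pstar D ∣ χ)
    (hχf : ∀ P ∈ normalizedFactors χ, P = X - C (1 : F) ∨ P ∈ T) :
    ∃ (l : ℕ) (w : Multiset F[X]), normalizedFactors D = Multiset.replicate l (X - C 1) + w ∧
      (∀ P ∈ w, P ∈ T) ∧ D.natDegree = l + i * Multiset.card w ∧
      2 * l ≤ Multiset.count (X - C 1) (normalizedFactors χ) ∧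
      (∀ P ∈ T, pstar P = P → 2 * Multiset.count P w ≤ Multiset.count P (normalizedFactors χ)) := by
  have hD0 : D.coeff 0 ≠ 0 := coeff0_of_dvd (Dvd.dvd.mul_right (dvd_refl D) _ |>.trans hdvd) hχ0
  have hsm : (pstar D).Monic := pstar_monic D hD0
  have hle : normalizedFactors D + (normalizedFactors D).map pstar ≤ normalizedFactors χ := by
    rw [← nf_pstar D hDm hD0, ← nf_mul' D _ hDm hsm]
    exact nf_le_of_dvd _ _ (hDm.mul hsm) hχm hdvd
  have hDle : normalizedFactors D ≤ normalizedFactors χ :=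
    le_trans (Multiset.le_add_right _ _) hle
  obtain ⟨w, hw⟩ : ∃ w, w = Multiset.filter (fun P => ¬ P = X - C (1 : F)) (normalizedFactors D) :=
    ⟨_, rfl⟩
  have hsplit : normalizedFactors D =
      Multiset.replicate (Multiset.count (X - C 1) (normalizedFactors D)) (X - C 1) + w := by
    conv_lhs => rw [← Multiset.filter_add_not (fun P => P = X - C (1 : F)) (normalizedFactors D)]
    rw [Multiset.filter_eq', hw]
  have hwT : ∀ P ∈ w, P ∈ T := by
    intro P hP
    rw [hw, Multiset.mem_filter] at hP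
    rcases hχf P (Multiset.mem_of_le hDle hP.1) with h | h
    · exact absurd h hP.2
    · exact h
  refine ⟨_, w, hsplit, hwT, ?_, ?_, ?_⟩
  · rw [Cfsg.Agent.S2568.natDegree_eq_sum_nf D hDm]
    conv_lhs => rw [hsplit]
    rw [Multiset.map_add, Multiset.sum_add, Multiset.map_replicate, Multiset.sum_replicate,
      natDegree_X_sub_C, smul_eq_mul, mul_one,
      Multiset.map_congr rfl (fun P hP => hT P (hwT P hP)), Multiset.map_const',
      Multiset.sum_replicate, smul_eq_mul, mul_comm]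
  · have h1 := Multiset.count_le_of_le (X - C (1 : F)) hle
    rw [Multiset.count_add] at h1
    have h2 := count_le_count_map' pstar (normalizedFactors D) (X - C (1 : F))
    rw [pstar_L] at h2
    omega
  · intro P hP hPs
    have h1 := Multiset.count_le_of_le P hle
    rw [Multiset.count_add] at h1
    have h2 := count_le_count_map' pstar (normalizedFactors D) P
    rw [hPs] at h2
    have h3 : Multiset.count P w = Multiset.count P (normalizedFactors D) := by
      rw [hw]
      exact Multiset.count_filter_of_pos (fun h => hLT (h ▸ hP))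
    omega

/-- One step of the greedy construction. -/
theorem greedy_step (T : Finset F[X]) (i : ℕ)
    (hT : ∀ P ∈ T, Irreducible P ∧ P.Monic ∧ P.natDegree = i ∧ P.coeff 0 ≠ 0)
    (E P : F[X]) (hEm : E.Monic) (hEf : ∀ Q ∈ normalizedFactors E, Q ∈ T) (hP : P ∈ T)
    (hdvd : P * pstar P ∣ E) :
    ∃ E' : F[X], E = P * pstar P * E' ∧ E'.Monic ∧ (∀ Q ∈ normalizedFactors E', Q ∈ T) ∧
      Multiset.card (normalizedFactors E') + 2 = Multiset.card (normalizedFactors E) := by
  obtain ⟨E', hE'⟩ := hdvd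
  have hPm := (hT P hP).2.1
  have hsm : (pstar P).Monic := pstar_monic P (hT P hP).2.2.2
  have hPPm : (P * pstar P).Monic := hPm.mul hsm
  have hE'm : E'.Monic := Monic.of_mul_monic_left hPPm (hE' ▸ hEm)
  have hnf : normalizedFactors E = {P} + {pstar P} + normalizedFactors E' := by
    rw [hE', nf_mul' _ _ hPPm hE'm, nf_mul' _ _ hPm hsm,
      normalizedFactors_irreducible (hT P hP).1, hPm.normalize_eq_self,
      normalizedFactors_irreducible (pstar_irreducible P (hT P hP).1 hPm (hT P hP).2.2.2),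
      hsm.normalize_eq_self]
  refine ⟨E', hE', hE'm, ?_, ?_⟩
  · intro Q hQ
    apply hEf
    rw [hnf]
    exact Multiset.mem_add.mpr (Or.inr hQ)
  · rw [hnf, Multiset.card_add, Multiset.card_add, Multiset.card_singleton,
      Multiset.card_singleton]
    omega

omit [DecidableEq F] in
theorem greedy_finish (i j : ℕ) (P D' E' : F[X]) (hPm : P.Monic) (hP0 : P.coeff 0 ≠ 0)
    (hPd : P.natDegree = i) (hD'm : D'.Monic) (hD'0 : D'.coeff 0 ≠ 0)
    (hD'd : D'.natDegree = i * j) (hdvd : D' * pstar D' ∣ E') :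
    (P * D').Monic ∧ (P * D').coeff 0 ≠ 0 ∧ (P * D').natDegree = i * (j + 1) ∧
      (P * D') * pstar (P * D') ∣ P * pstar P * E' := by
  refine ⟨hPm.mul hD'm, ?_, ?_, ?_⟩
  · rw [mul_coeff_zero]
    exact mul_ne_zero hP0 hD'0
  · rw [hPm.natDegree_mul hD'm, hPd, hD'd]
    ring
  · rw [pstar_mul]
    have h1 : P * D' * (pstar P * pstar D') = P * pstar P * (D' * pstar D') := by ring
    rw [h1]
    exact mul_dvd_mul_left _ hdvd

/-- Greedy construction when `pstar` has no fixed point on `T`. -/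
theorem greedy_odd (T : Finset F[X]) (i : ℕ)
    (hT : ∀ P ∈ T, Irreducible P ∧ P.Monic ∧ P.natDegree = i ∧ P.coeff 0 ≠ 0)
    (hfp : ∀ P ∈ T, pstar P ≠ P) :
    ∀ (j : ℕ) (E : F[X]), E.Monic → (∀ Q ∈ normalizedFactors E, Q ∈ T) → pstar E = E →
      2 * j ≤ Multiset.card (normalizedFactors E) →
      ∃ D : F[X], D.Monic ∧ D.coeff 0 ≠ 0 ∧ D.natDegree = i * j ∧ D * pstar D ∣ E := by
  intro j
  induction j with
  | zero =>
    intro E _ _ _ _
    refine ⟨1, monic_one, ?_, ?_, ?_⟩
    · rw [coeff_one_zero]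
      exact one_ne_zero
    · rw [natDegree_one, mul_zero]
    · rw [pstar_one, mul_one]
      exact one_dvd E
  | succ j ih =>
    intro E hEm hEf hEs hcard
    have hE0 : E.coeff 0 ≠ 0 := by
      rw [← Cfsg.Agent.S2568.prod_nf E hEm, coeff_zero_eq_eval_zero, eval_multiset_prod]
      apply Multiset.prod_ne_zero
      intro h0
      obtain ⟨Q, hQ, hQ0⟩ := Multiset.mem_map.mp h0
      rw [← coeff_zero_eq_eval_zero] at hQ0
      exact (hT Q (hEf Q hQ)).2.2.2 hQ0
    have hne : normalizedFactors E ≠ 0 := by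
      intro h0
      rw [h0, Multiset.card_zero] at hcard
      omega
    obtain ⟨P, hP⟩ := Multiset.exists_mem_of_ne_zero hne
    have hPT := hEf P hP
    have hPm := (hT P hPT).2.1
    have hsP : pstar P ∈ normalizedFactors E := by
      have h1 := nf_pstar E hEm hE0
      rw [hEs] at h1
      rw [h1]
      exact Multiset.mem_map_of_mem _ hP
    have hsm : (pstar P).Monic := pstar_monic P (hT P hPT).2.2.2
    have hcop : IsCoprime P (pstar P) := by
      apply (Irreducible.coprime_iff_not_dvd (hT P hPT).1).mpr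
      intro hd
      apply hfp P hPT
      exact (eq_of_monic_of_associated hPm hsm ((hT P hPT).1.associated_of_dvd
        (irr_of_mem_nf E _ hsP) hd)).symm
    have hdvd : P * pstar P ∣ E :=
      hcop.mul_dvd (dvd_of_mem_normalizedFactors hP) (dvd_of_mem_normalizedFactors hsP)
    obtain ⟨E', hE', hE'm, hE'f, hE'c⟩ := greedy_step T i hT E P hEm hEf hPT hdvd
    have hE's : pstar E' = E' := by
      have h1 := hEs
      rw [hE', pstar_mul, pstar_mul, pstar_pstar P hPm (hT P hPT).2.2.2] at h1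
      have h2 : P * pstar P * pstar E' = P * pstar P * E' := by
        rw [← h1]
        ring
      exact mul_left_cancel₀ (hPm.mul hsm).ne_zero h2
    obtain ⟨D', hD'm, hD'0, hD'd, hD'dvd⟩ := ih E' hE'm hE'f hE's (by omega)
    obtain ⟨h1, h2, h3, h4⟩ := greedy_finish i j P D' E' hPm (hT P hPT).2.2.2 (hT P hPT).2.2.1
      hD'm hD'0 hD'd hD'dvd
    exact ⟨P * D', h1, h2, h3, hE' ▸ h4⟩

/-- Greedy construction when `pstar` fixes every member of `T`. -/
theorem greedy_even (T : Finset F[X]) (i : ℕ)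
    (hT : ∀ P ∈ T, Irreducible P ∧ P.Monic ∧ P.natDegree = i ∧ P.coeff 0 ≠ 0)
    (hfix : ∀ P ∈ T, pstar P = P) :
    ∀ (j : ℕ) (E : F[X]), E.Monic → (∀ Q ∈ normalizedFactors E, Q ∈ T) →
      (j = 0 ∨ 2 * j + T.card ≤ Multiset.card (normalizedFactors E) + 1) →
      ∃ D : F[X], D.Monic ∧ D.coeff 0 ≠ 0 ∧ D.natDegree = i * j ∧ D * pstar D ∣ E := by
  intro j
  induction j with
  | zero =>
    intro E _ _ _
    refine ⟨1, monic_one, ?_, ?_, ?_⟩
    · rw [coeff_one_zero]
      exact one_ne_zero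
    · rw [natDegree_one, mul_zero]
    · rw [pstar_one, mul_one]
      exact one_dvd E
  | succ j ih =>
    intro E hEm hEf hcard
    have hcard' : 2 * (j + 1) + T.card ≤ Multiset.card (normalizedFactors E) + 1 := by
      rcases hcard with h | h
      · omega
      · exact h
    have hex : ∃ P, 2 ≤ Multiset.count P (normalizedFactors E) := by
      by_contra hcon
      push Not at hcon
      have hnd : (normalizedFactors E).Nodup := by
        rw [Multiset.nodup_iff_count_le_one]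
        intro P
        have := hcon P
        omega
      have h1 : (normalizedFactors E).toFinset ⊆ T := by
        intro Q hQ
        exact hEf Q (Multiset.mem_toFinset.mp hQ)
      have h2 := Finset.card_le_card h1
      rw [Multiset.toFinset_card_of_nodup hnd] at h2
      omega
    obtain ⟨P, hP2⟩ := hex
    have hP : P ∈ normalizedFactors E := Multiset.count_pos.mp (by omega)
    have hPT := hEf P hP
    have hPm := (hT P hPT).2.1
    have hdvd : P * pstar P ∣ E := by
      rw [hfix P hPT]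
      have h1 : Multiset.replicate 2 P ≤ normalizedFactors E :=
        Multiset.le_count_iff_replicate_le.mp hP2
      have h2 := Multiset.prod_dvd_prod_of_le h1
      rw [Multiset.prod_replicate, Cfsg.Agent.S2568.prod_nf E hEm, pow_two] at h2
      exact h2
    obtain ⟨E', hE', hE'm, hE'f, hE'c⟩ := greedy_step T i hT E P hEm hEf hPT hdvd
    obtain ⟨D', hD'm, hD'0, hD'd, hD'dvd⟩ := ih E' hE'm hE'f (by omega)
    obtain ⟨h1, h2, h3, h4⟩ := greedy_finish i j P D' E' hPm (hT P hPT).2.2.2 (hT P hPT).2.2.1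
      hD'm hD'0 hD'd hD'dvd
    exact ⟨P * D', h1, h2, h3, hE' ▸ h4⟩

/-- Admissible polynomials: the characteristic polynomials of the non-trivial elements. -/
def Adm (T : Finset F[X]) (d : ℕ) (χ : F[X]) : Prop :=
  χ.Monic ∧ χ.natDegree = 2 * d ∧ χ.reverse = χ ∧
    (∀ P ∈ normalizedFactors χ, P = X - C (1 : F) ∨ P ∈ T) ∧ ∃ P ∈ normalizedFactors χ, P ∈ T

/-- `χ` has a divisor `D * D^*` with `D` of degree `m`. -/
def HasD (m : ℕ) (χ : F[X]) : Prop :=
  ∃ D : F[X], D.Monic ∧ D.natDegree = m ∧ D.coeff 0 ≠ 0 ∧ D * pstar D ∣ χ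

theorem coeff0_of_nf (T : Finset F[X]) (hT : ∀ P ∈ T, P.coeff 0 ≠ 0) (E : F[X]) (hEm : E.Monic)
    (hEf : ∀ Q ∈ normalizedFactors E, Q ∈ T) : E.coeff 0 ≠ 0 := by
  rw [← Cfsg.Agent.S2568.prod_nf E hEm, coeff_zero_eq_eval_zero, eval_multiset_prod]
  apply Multiset.prod_ne_zero
  intro h0
  obtain ⟨Q, hQ, hQ0⟩ := Multiset.mem_map.mp h0
  rw [← coeff_zero_eq_eval_zero] at hQ0
  exact hT Q (hEf Q hQ) hQ0

theorem eval1_of_nf (T : Finset F[X]) (hT : ∀ P ∈ T, Irreducible P ∧ P.Monic)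
    (hLT : (X - C (1 : F)) ∉ T) (E : F[X]) (hEm : E.Monic)
    (hEf : ∀ Q ∈ normalizedFactors E, Q ∈ T) : E.eval 1 ≠ 0 := by
  rw [← Cfsg.Agent.S2568.prod_nf E hEm, eval_multiset_prod]
  apply Multiset.prod_ne_zero
  intro h0
  obtain ⟨Q, hQ, hQ0⟩ := Multiset.mem_map.mp h0
  have hQT := hEf Q hQ
  have h1 : (X - C (1 : F)) ∣ Q := dvd_iff_isRoot.mpr hQ0
  have h2 := eq_of_monic_of_associated (monic_X_sub_C 1) (hT Q hQT).2
    ((irreducible_X_sub_C 1).associated_of_dvd (hT Q hQT).1 h1)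
  exact hLT (h2 ▸ hQT)

/-- Splitting off the power of `X - 1`. -/
theorem adm_split (T : Finset F[X]) (i : ℕ)
    (hT : ∀ P ∈ T, Irreducible P ∧ P.Monic ∧ P.natDegree = i ∧ P.coeff 0 ≠ 0)
    (hLT : (X - C (1 : F)) ∉ T) (χ : F[X]) (hχm : χ.Monic)
    (hχf : ∀ P ∈ normalizedFactors χ, P = X - C (1 : F) ∨ P ∈ T) :
    ∃ (e : ℕ) (R : F[X]), χ = (X - C 1) ^ e * R ∧ R.Monic ∧
      (∀ Q ∈ normalizedFactors R, Q ∈ T) ∧
      e + i * Multiset.card (normalizedFactors R) = χ.natDegree ∧
      (pstar χ = χ → pstar R = R) ∧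
      ((∃ P ∈ normalizedFactors χ, P ∈ T) → normalizedFactors R ≠ 0) ∧
      e = Multiset.count (X - C (1 : F)) (normalizedFactors χ) := by
  obtain ⟨w, hw⟩ : ∃ w, w = Multiset.filter (fun P => ¬ P = X - C (1 : F)) (normalizedFactors χ) :=
    ⟨_, rfl⟩
  obtain ⟨e, he⟩ : ∃ e, e = Multiset.count (X - C (1 : F)) (normalizedFactors χ) := ⟨_, rfl⟩
  have hsplit : normalizedFactors χ = Multiset.replicate e (X - C 1) + w := by
    conv_lhs => rw [← Multiset.filter_add_not (fun P => P = X - C (1 : F)) (normalizedFactors χ)]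
    rw [Multiset.filter_eq', hw, he]
  have hwT : ∀ P ∈ w, P ∈ T := by
    intro P hP
    rw [hw, Multiset.mem_filter] at hP
    rcases hχf P hP.1 with h | h
    · exact absurd h hP.2
    · exact h
  have hwnf : normalizedFactors w.prod = w :=
    Cfsg.Agent.S2568.nf_prod w (fun P hP => ⟨(hT P (hwT P hP)).1, (hT P (hwT P hP)).2.1⟩)
  have hwm : w.prod.Monic := by
    have h := monic_multiset_prod_of_monic w id (fun P hP => (hT P (hwT P hP)).2.1)
    rwa [Multiset.map_id] at h
  have hχe : χ = (X - C 1) ^ e * w.prod := by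
    conv_lhs => rw [← Cfsg.Agent.S2568.prod_nf χ hχm, hsplit]
    rw [Multiset.prod_add, Multiset.prod_replicate]
  refine ⟨e, w.prod, hχe, hwm, ?_, ?_, ?_, ?_, he⟩
  · rw [hwnf]
    exact hwT
  · rw [hwnf, Cfsg.Agent.S2568.natDegree_eq_sum_nf χ hχm]
    conv_rhs => rw [hsplit]
    rw [Multiset.map_add, Multiset.sum_add, Multiset.map_replicate, Multiset.sum_replicate,
      natDegree_X_sub_C, smul_eq_mul, mul_one,
      Multiset.map_congr rfl (fun P hP => (hT P (hwT P hP)).2.2.1), Multiset.map_const',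
      Multiset.sum_replicate, smul_eq_mul, mul_comm]
  · intro hs
    have h1 := hs
    conv_lhs at h1 => rw [hχe]
    conv_rhs at h1 => rw [hχe]
    rw [pstar_mul, pstar_pow, pstar_L] at h1
    exact mul_left_cancel₀ (pow_ne_zero e (monic_X_sub_C (1 : F)).ne_zero) h1
  · rintro ⟨P, hP, hPT⟩
    rw [hwnf]
    intro h0
    rw [hsplit, h0, add_zero] at hP
    exact hLT (Multiset.eq_of_mem_replicate hP ▸ hPT)

omit [DecidableEq F] in
theorem hasD_mk (e l : ℕ) (R Dj : F[X]) (m : ℕ) (hl : 2 * l ≤ e) (hDm : Dj.Monic)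
    (hD0 : Dj.coeff 0 ≠ 0) (hdeg : l + Dj.natDegree = m) (hdvd : Dj * pstar Dj ∣ R) :
    HasD m ((X - C (1 : F)) ^ e * R) := by
  have hLm : ((X - C (1 : F)) ^ l).Monic := (monic_X_sub_C 1).pow l
  refine ⟨(X - C 1) ^ l * Dj, hLm.mul hDm, ?_, ?_, ?_⟩
  · rw [hLm.natDegree_mul hDm, natDegree_pow, natDegree_X_sub_C, mul_one, hdeg]
  · rw [mul_coeff_zero]
    apply mul_ne_zero _ hD0
    rw [coeff_zero_eq_eval_zero, eval_pow, eval_sub, eval_X, eval_C]
    exact pow_ne_zero _ (by simp)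
  · rw [pstar_mul, pstar_pow, pstar_L]
    have h1 : (X - C (1 : F)) ^ l * Dj * ((X - C 1) ^ l * pstar Dj) =
        (X - C 1) ^ (2 * l) * (Dj * pstar Dj) := by ring
    rw [h1]
    exact mul_dvd_mul (pow_dvd_pow _ hl) hdvd

/-- If `pstar` has no fixed point on `T`, a `pstar`-invariant product of members of `T` has an
even number of factors. -/
theorem even_card_odd (T : Finset F[X]) (i : ℕ)
    (hT : ∀ P ∈ T, Irreducible P ∧ P.Monic ∧ P.natDegree = i ∧ P.coeff 0 ≠ 0)
    (hfp : ∀ P ∈ T, pstar P ≠ P) :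
    ∀ (n : ℕ) (E : F[X]), E.Monic → (∀ Q ∈ normalizedFactors E, Q ∈ T) → pstar E = E →
      Multiset.card (normalizedFactors E) = n → Even n := by
  intro n
  induction n using Nat.strong_induction_on with
  | _ n ih =>
    intro E hEm hEf hEs hcard
    rcases Nat.lt_or_ge n 2 with hn | hn
    · rcases Nat.eq_zero_or_pos n with h0 | h0
      · rw [h0]
        exact Even.zero
      · exfalso
        have hn1 : n = 1 := by omega
        obtain ⟨D, hDm, hD0, hDd, hDdvd⟩ := greedy_odd T i hT hfp 0 E hEm hEf hEs (by omega)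
        obtain ⟨P, hP⟩ := Multiset.card_eq_one.mp (hn1 ▸ hcard)
        have hPT : P ∈ T := hEf P (by rw [hP]; exact Multiset.mem_singleton_self P)
        have hEP : E = P := by
          rw [← Cfsg.Agent.S2568.prod_nf E hEm, hP, Multiset.prod_singleton]
        have h1 := nf_pstar E hEm (coeff0_of_nf T (fun Q hQ => (hT Q hQ).2.2.2) E hEm hEf)
        rw [hEs, hP, Multiset.map_singleton] at h1
        exact hfp P hPT (Multiset.singleton_inj.mp h1).symm
    · obtain ⟨D, hDm, hD0, hDd, hDdvd⟩ := greedy_odd T i hT hfp 1 E hEm hEf hEs (by omega)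
      have hne : normalizedFactors E ≠ 0 := by
        intro h0
        rw [h0, Multiset.card_zero] at hcard
        omega
      obtain ⟨P, hP⟩ := Multiset.exists_mem_of_ne_zero hne
      have hPT := hEf P hP
      have hPm := (hT P hPT).2.1
      have hE0 : E.coeff 0 ≠ 0 := coeff0_of_nf T (fun Q hQ => (hT Q hQ).2.2.2) E hEm hEf
      have hsP : pstar P ∈ normalizedFactors E := by
        have h1 := nf_pstar E hEm hE0
        rw [hEs] at h1
        rw [h1]
        exact Multiset.mem_map_of_mem _ hP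
      have hsm : (pstar P).Monic := pstar_monic P (hT P hPT).2.2.2
      have hcop : IsCoprime P (pstar P) := by
        apply (Irreducible.coprime_iff_not_dvd (hT P hPT).1).mpr
        intro hd
        apply hfp P hPT
        exact (eq_of_monic_of_associated hPm hsm ((hT P hPT).1.associated_of_dvd
          (irr_of_mem_nf E _ hsP) hd)).symm
      have hdvd : P * pstar P ∣ E :=
        hcop.mul_dvd (dvd_of_mem_normalizedFactors hP) (dvd_of_mem_normalizedFactors hsP)
      obtain ⟨E', hE', hE'm, hE'f, hE'c⟩ := greedy_step T i hT E P hEm hEf hPT hdvd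
      have hE's : pstar E' = E' := by
        have h1 := hEs
        rw [hE', pstar_mul, pstar_mul, pstar_pstar P hPm (hT P hPT).2.2.2] at h1
        have h2 : P * pstar P * pstar E' = P * pstar P * E' := by
          rw [← h1]
          ring
        exact mul_left_cancel₀ (hPm.mul hsm).ne_zero h2
      have h3 := ih (n - 2) (by omega) E' hE'm hE'f hE's (by omega)
      obtain ⟨a, ha⟩ := h3
      exact ⟨a + 1, by omega⟩

/-- The criterion is sufficient, `pstar` without fixed points on `T`. -/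
theorem hasD_of_odd (T : Finset F[X]) (i : ℕ)
    (hT : ∀ P ∈ T, Irreducible P ∧ P.Monic ∧ P.natDegree = i ∧ P.coeff 0 ≠ 0)
    (hLT : (X - C (1 : F)) ∉ T) (hfp : ∀ P ∈ T, pstar P ≠ P) (d m : ℕ) (hmd : m ≤ d)
    (hcrit : 2 * (m % i) ≤ (2 * d) % (2 * i)) (χ : F[X]) (hχ : Adm T d χ) : HasD m χ := by
  obtain ⟨hχm, hχd, hχr, hχf, hχT⟩ := hχ
  obtain ⟨e, R, hχe, hRm, hRf, hdeg, hRs, -, -⟩ := adm_split T i hT hLT χ hχm hχf
  have hRs' := hRs (star_of_pal χ hχm hχr).2
  obtain ⟨A, hA⟩ : ∃ A, A = Multiset.card (normalizedFactors R) := ⟨_, rfl⟩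
  obtain ⟨a, ha⟩ := even_card_odd T i hT hfp A R hRm hRf hRs' hA.symm
  rw [← hA, hχd, ha] at hdeg
  have hia : i * (a + a) = 2 * (i * a) := by ring
  have hmm := Nat.div_add_mod m i
  rw [hχe]
  rcases Nat.lt_or_ge a (m / i) with hlt | hge
  · -- j = a
    obtain ⟨Dj, hDm, hD0, hDd, hDdvd⟩ := greedy_odd T i hT hfp a R hRm hRf hRs' (by omega)
    have h1 : i * a ≤ i * (m / i) := Nat.mul_le_mul_left i hlt.le
    exact hasD_mk e (m - i * a) R Dj m (by omega) hDm hD0 (by rw [hDd]; omega) hDdvd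
  · -- j = m / i
    obtain ⟨Dj, hDm, hD0, hDd, hDdvd⟩ := greedy_odd T i hT hfp (m / i) R hRm hRf hRs' (by omega)
    have h1 : (2 * d) % (2 * i) ≤ e := by
      rw [← hdeg, hia, ← mul_assoc, Nat.add_mul_mod_self_left]
      exact Nat.mod_le _ _
    exact hasD_mk e (m % i) R Dj m (by omega) hDm hD0 (by rw [hDd]; omega) hDdvd

/-- The criterion is sufficient, `pstar` fixing every member of `T`. -/
theorem hasD_of_even (T : Finset F[X]) (i : ℕ)
    (hT : ∀ P ∈ T, Irreducible P ∧ P.Monic ∧ P.natDegree = i ∧ P.coeff 0 ≠ 0)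
    (hLT : (X - C (1 : F)) ∉ T) (hfix : ∀ P ∈ T, pstar P = P) (d m : ℕ)
    (hcrit1 : 2 * (m % i) ≤ (2 * d) % i) (hcrit2 : T.card + 2 * (m / i) ≤ (2 * d) / i)
    (χ : F[X]) (hχ : Adm T d χ) : HasD m χ := by
  obtain ⟨hχm, hχd, hχr, hχf, hχT⟩ := hχ
  obtain ⟨e, R, hχe, hRm, hRf, hdeg, -, -, -⟩ := adm_split T i hT hLT χ hχm hχf
  obtain ⟨A, hA⟩ : ∃ A, A = Multiset.card (normalizedFactors R) := ⟨_, rfl⟩
  rw [← hA, hχd] at hdeg
  have hmm := Nat.div_add_mod m i
  have hnn := Nat.div_add_mod (2 * d) i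
  have hit : i * T.card + 2 * (i * (m / i)) ≤ i * ((2 * d) / i) := by
    have h1 := Nat.mul_le_mul_left i hcrit2
    have h2 : i * (T.card + 2 * (m / i)) = i * T.card + 2 * (i * (m / i)) := by ring
    omega
  have hek : (2 * d) % i ≤ e := by
    rw [← hdeg, Nat.add_mul_mod_self_left]
    exact Nat.mod_le _ _
  rw [hχe]
  by_cases hc : 2 * (m / i) + T.card ≤ A + 1
  · obtain ⟨Dj, hDm, hD0, hDd, hDdvd⟩ := greedy_even T i hT hfix (m / i) R hRm hRf
      (Or.inr (by rw [← hA]; exact hc))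
    exact hasD_mk e (m % i) R Dj m (by omega) hDm hD0 (by rw [hDd]; omega) hDdvd
  · obtain ⟨j, hj⟩ : ∃ j, j = (A + 1 - T.card) / 2 := ⟨_, rfl⟩
    obtain ⟨Dj, hDm, hD0, hDd, hDdvd⟩ := greedy_even T i hT hfix j R hRm hRf
      (by rw [← hA]; omega)
    have h1 : i * j ≤ i * (m / i) := Nat.mul_le_mul_left i (by omega)
    have h2 : i * A ≤ i * (T.card + 2 * j) := Nat.mul_le_mul_left i (by omega)
    have h3 : i * (T.card + 2 * j) = i * T.card + 2 * (i * j) := by ring
    exact hasD_mk e (m - i * j) R Dj m (by omega) hDm hD0 (by rw [hDd]; omega) hDdvd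

/-- Necessity of the congruence condition: the element `(X - 1)^k * Q^s`. -/
theorem crit_mod (T : Finset F[X]) (i : ℕ)
    (hT : ∀ P ∈ T, Irreducible P ∧ P.Monic ∧ P.natDegree = i ∧ P.coeff 0 ≠ 0)
    (hLT : (X - C (1 : F)) ∉ T) (d m c : ℕ) (Q : F[X]) (hQm : Q.Monic) (hQs : pstar Q = Q)
    (hQf : ∀ P ∈ normalizedFactors Q, P ∈ T) (hQd : Q.natDegree = c) (hc0 : 0 < c)
    (hci : c ≤ 2 * i) (hce : Even c) (hcd : c ≤ 2 * d)
    (H : ∀ χ, Adm T d χ → HasD m χ) : 2 * (m % i) ≤ (2 * d) % c := by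
  obtain ⟨s, hs⟩ : ∃ s, s = (2 * d) / c := ⟨_, rfl⟩
  obtain ⟨k, hk⟩ : ∃ k, k = (2 * d) % c := ⟨_, rfl⟩
  have hdm := Nat.div_add_mod (2 * d) c
  rw [← hs, ← hk] at hdm
  have hs1 : 1 ≤ s := by
    rw [hs]
    exact Nat.div_pos hcd hc0
  have hkc : k < c := hk ▸ Nat.mod_lt _ hc0
  have hke : Even k := by
    obtain ⟨c', hc'⟩ := hce
    have h1 : c * s = 2 * (c' * s) := by rw [hc']; ring
    exact ⟨d - c' * s, by omega⟩
  have hT0 : ∀ P ∈ T, P.coeff 0 ≠ 0 := fun P hP => (hT P hP).2.2.2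
  have hTi : ∀ P ∈ T, Irreducible P ∧ P.Monic := fun P hP => ⟨(hT P hP).1, (hT P hP).2.1⟩
  have hQ0 : Q.coeff 0 ≠ 0 := coeff0_of_nf T hT0 Q hQm hQf
  have hQ1 : Q.eval 1 ≠ 0 := eval1_of_nf T hTi hLT Q hQm hQf
  obtain ⟨R, hR⟩ : ∃ R, R = Q ^ s := ⟨_, rfl⟩
  have hRm : R.Monic := hR ▸ hQm.pow s
  have hRnf : normalizedFactors R = s • normalizedFactors Q := by
    rw [hR, normalizedFactors_pow]
  have hRf : ∀ P ∈ normalizedFactors R, P ∈ T := by
    intro P hP
    rw [hRnf] at hP
    exact hQf P (Multiset.mem_of_mem_nsmul hP)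
  have hR0 : R.coeff 0 ≠ 0 := coeff0_of_nf T hT0 R hRm hRf
  have hR1 : R.eval 1 ≠ 0 := eval1_of_nf T hTi hLT R hRm hRf
  have hRs : pstar R = R := by rw [hR, pstar_pow, hQs]
  have hRd : R.natDegree = c * s := by
    rw [hR, natDegree_pow, hQd, mul_comm]
  obtain ⟨h1, h2, h3, h4⟩ := adm_mk k hke R hRm hR0 hRs hR1
  have hQne : normalizedFactors Q ≠ 0 := by
    intro h0
    have h5 := Cfsg.Agent.S2568.prod_nf Q hQm
    rw [h0, Multiset.prod_zero] at h5
    rw [← h5, natDegree_one] at hQd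
    omega
  obtain ⟨P₀, hP₀⟩ := Multiset.exists_mem_of_ne_zero hQne
  have hadm : Adm T d ((X - C (1 : F)) ^ k * R) := by
    refine ⟨h1, ?_, h3, ?_, ?_⟩
    · rw [h2, hRd]
      omega
    · intro P hP
      rw [h4] at hP
      rcases Multiset.mem_add.mp hP with h | h
      · exact Or.inl (Multiset.eq_of_mem_replicate h)
      · exact Or.inr (hRf P h)
    · refine ⟨P₀, ?_, hQf P₀ hP₀⟩
      rw [h4, hRnf]
      apply Multiset.mem_add.mpr
      right
      rw [Multiset.mem_nsmul_of_ne_zero (by omega)]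
      exact hP₀
  obtain ⟨D, hDm, hDd, hD0, hDdvd⟩ := H _ hadm
  have hχ0 : ((X - C (1 : F)) ^ k * R).coeff 0 ≠ 0 := by
    rw [(star_of_pal _ h1 h3).1]
    exact one_ne_zero
  obtain ⟨l, w, -, -, hdeg, hl, -⟩ := struct_of_dvd T i (fun P hP => (hT P hP).2.2.1) hLT _ D h1
    hχ0 hDm hDdvd (by
      intro P hP
      rw [h4] at hP
      rcases Multiset.mem_add.mp hP with h | h
      · exact Or.inl (Multiset.eq_of_mem_replicate h)
      · exact Or.inr (hRf P h))
  have hcnt : Multiset.count (X - C (1 : F)) (normalizedFactors ((X - C (1 : F)) ^ k * R)) = k := by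
    rw [h4, Multiset.count_add, Multiset.count_replicate_self,
      Multiset.count_eq_zero_of_notMem (fun h => hLT (hRf _ h)), add_zero]
  rw [hcnt] at hl
  have hli : l < i := by omega
  have hml : m % i = l := by
    rw [← hDd, hdeg, Nat.add_mul_mod_self_left, Nat.mod_eq_of_lt hli]
  rw [hml, ← hk]
  exact hl

/-- The element `(X - 1)^e * P₀^b * ∏ T'`. -/
theorem x2_core (T : Finset F[X]) (i : ℕ)
    (hT : ∀ P ∈ T, Irreducible P ∧ P.Monic ∧ P.natDegree = i ∧ P.coeff 0 ≠ 0)
    (hLT : (X - C (1 : F)) ∉ T) (hfix : ∀ P ∈ T, pstar P = P) (d m : ℕ) (P₀ : F[X])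
    (hP₀ : P₀ ∈ T) (T' : Finset F[X]) (hT' : T' ⊆ T) (hT'ne : T'.Nonempty) (b e : ℕ)
    (hb : Even b) (he : Even e) (he2 : e < 2 * i) (hdeg : e + i * (b + T'.card) = 2 * d)
    (H : ∀ χ, Adm T d χ → HasD m χ) : 2 * (m / i) ≤ b := by
  have hT0 : ∀ P ∈ T, P.coeff 0 ≠ 0 := fun P hP => (hT P hP).2.2.2
  have hTi : ∀ P ∈ T, Irreducible P ∧ P.Monic := fun P hP => ⟨(hT P hP).1, (hT P hP).2.1⟩
  obtain ⟨M, hM⟩ : ∃ M : Multiset F[X], M = Multiset.replicate b P₀ + T'.val := ⟨_, rfl⟩
  have hMT : ∀ P ∈ M, P ∈ T := by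
    intro P hP
    rw [hM] at hP
    rcases Multiset.mem_add.mp hP with h | h
    · exact Multiset.eq_of_mem_replicate h ▸ hP₀
    · exact hT' (Finset.mem_val.mp h)
  obtain ⟨R, hR⟩ : ∃ R, R = M.prod := ⟨_, rfl⟩
  have hRnf : normalizedFactors R = M := by
    rw [hR]
    exact Cfsg.Agent.S2568.nf_prod M (fun P hP => hTi P (hMT P hP))
  have hRm : R.Monic := by
    have h := monic_multiset_prod_of_monic M id (fun P hP => (hT P (hMT P hP)).2.1)
    rw [Multiset.map_id] at h
    exact hR ▸ h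
  have hRf : ∀ P ∈ normalizedFactors R, P ∈ T := by
    rw [hRnf]
    exact hMT
  have hR0 : R.coeff 0 ≠ 0 := coeff0_of_nf T hT0 R hRm hRf
  have hR1 : R.eval 1 ≠ 0 := eval1_of_nf T hTi hLT R hRm hRf
  have hRs : pstar R = R := by
    rw [hR]
    show rstar (RingHom.id F) M.prod = M.prod
    rw [rstar_multiset_prod]
    congr 1
    conv_rhs => rw [← Multiset.map_id M]
    apply Multiset.map_congr rfl
    intro P hP
    exact hfix P (hMT P hP)
  have hRd : R.natDegree = i * (b + T'.card) := by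
    rw [Cfsg.Agent.S2568.natDegree_eq_sum_nf R hRm, hRnf,
      Multiset.map_congr rfl (fun P hP => (hT P (hMT P hP)).2.2.1), Multiset.map_const',
      Multiset.sum_replicate, smul_eq_mul, hM, Multiset.card_add, Multiset.card_replicate,
      Finset.card_val, mul_comm]
  obtain ⟨h1, h2, h3, h4⟩ := adm_mk e he R hRm hR0 hRs hR1
  obtain ⟨P₁, hP₁⟩ := hT'ne
  have hfac : ∀ P ∈ normalizedFactors ((X - C (1 : F)) ^ e * R), P = X - C (1 : F) ∨ P ∈ T := by
    intro P hP
    rw [h4] at hP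
    rcases Multiset.mem_add.mp hP with h | h
    · exact Or.inl (Multiset.eq_of_mem_replicate h)
    · exact Or.inr (hRf P h)
  have hadm : Adm T d ((X - C (1 : F)) ^ e * R) := by
    refine ⟨h1, ?_, h3, hfac, ?_⟩
    · rw [h2, hRd]
      exact hdeg
    · refine ⟨P₁, ?_, hT' hP₁⟩
      rw [h4, hRnf, hM]
      exact Multiset.mem_add.mpr (Or.inr (Multiset.mem_add.mpr (Or.inr (Finset.mem_val.mpr hP₁))))
  obtain ⟨D, hDm, hDd, hD0, hDdvd⟩ := H _ hadm
  have hχ0 : ((X - C (1 : F)) ^ e * R).coeff 0 ≠ 0 := by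
    rw [(star_of_pal _ h1 h3).1]
    exact one_ne_zero
  obtain ⟨l, w, -, hwT, hdegD, hl, hcount⟩ := struct_of_dvd T i (fun P hP => (hT P hP).2.2.1) hLT
    _ D h1 hχ0 hDm hDdvd hfac
  have hcnt : Multiset.count (X - C (1 : F)) (normalizedFactors ((X - C (1 : F)) ^ e * R)) = e := by
    rw [h4, Multiset.count_add, Multiset.count_replicate_self,
      Multiset.count_eq_zero_of_notMem (fun h => hLT (hRf _ h)), add_zero]
  rw [hcnt] at hl
  have hli : l < i := by omega
  have hmi : m / i = Multiset.card w := by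
    rw [← hDd, hdegD, Nat.add_mul_div_left _ _ (by omega), Nat.div_eq_of_lt hli, zero_add]
  have hcntP : ∀ P ∈ T, Multiset.count P (normalizedFactors ((X - C (1 : F)) ^ e * R)) =
      Multiset.count P (Multiset.replicate b P₀) + Multiset.count P T'.val := by
    intro P hP
    rw [h4, hRnf, hM, Multiset.count_add, Multiset.count_add,
      Multiset.count_eq_zero_of_notMem (fun h => hLT (by
        rw [← Multiset.eq_of_mem_replicate h]
        exact hP)),
      zero_add]
  have hnd : ∀ P, Multiset.count P T'.val ≤ 1 := Multiset.nodup_iff_count_le_one.mp T'.nodup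
  have hall : ∀ P ∈ w, P = P₀ := by
    intro P hP
    by_contra hne
    have h5 := hcount P (hwT P hP) (hfix P (hwT P hP))
    rw [hcntP P (hwT P hP), Multiset.count_replicate, if_neg (fun h => hne h.symm)] at h5
    have h6 := hnd P
    have h7 : 0 < Multiset.count P w := Multiset.count_pos.mpr hP
    omega
  have hw : w = Multiset.replicate (Multiset.card w) P₀ := Multiset.eq_replicate_card.mpr hall
  have h5 := hcount P₀ hP₀ (hfix P₀ hP₀)
  rw [hcntP P₀ hP₀, Multiset.count_replicate_self] at h5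
  have h6 : Multiset.count P₀ w = Multiset.card w := by
    conv_lhs => rw [hw]
    rw [Multiset.count_replicate_self]
  have h7 := hnd P₀
  obtain ⟨b', hb'⟩ := hb
  rw [hmi]
  omega

/-- Necessity of the counting condition. -/
theorem crit_count (T : Finset F[X]) (i : ℕ) (hi : 0 < i)
    (hT : ∀ P ∈ T, Irreducible P ∧ P.Monic ∧ P.natDegree = i ∧ P.coeff 0 ≠ 0)
    (hLT : (X - C (1 : F)) ∉ T) (hfix : ∀ P ∈ T, pstar P = P) (hie : Even i) (d m : ℕ)
    (him : i ≤ m) (hid : i ≤ 2 * d) (hTne : T.Nonempty)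
    (H : ∀ χ, Adm T d χ → HasD m χ) : T.card + 2 * (m / i) ≤ (2 * d) / i := by
  by_contra hcon
  push Not at hcon
  obtain ⟨P₀, hP₀⟩ := hTne
  have hm' : 1 ≤ m / i := Nat.div_pos him hi
  have hn' : 1 ≤ (2 * d) / i := Nat.div_pos hid hi
  have hdm := Nat.div_add_mod (2 * d) i
  have hki : (2 * d) % i < i := Nat.mod_lt _ hi
  have hke : Even ((2 * d) % i) := by
    obtain ⟨c', hc'⟩ := hie
    have h0 : ∀ s : ℕ, i * s = 2 * (c' * s) := by
      intro s
      rw [hc']
      ring
    have h1 := h0 ((2 * d) / i)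
    exact ⟨d - c' * ((2 * d) / i), by omega⟩
  rcases Nat.lt_or_ge T.card ((2 * d) / i) with hlt | hge
  · by_cases hpar : Even ((2 * d) / i - T.card)
    · have h := x2_core T i hT hLT hfix d m P₀ hP₀ T (Finset.Subset.refl T) ⟨P₀, hP₀⟩
        ((2 * d) / i - T.card) ((2 * d) % i) hpar hke (by omega) (by
          have h1 : (2 * d) / i - T.card + T.card = (2 * d) / i := by omega
          rw [h1]
          omega) H
      omega
    · rw [Nat.not_even_iff_odd] at hpar
      have hpar' : Even ((2 * d) / i - T.card - 1) := by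
        obtain ⟨a, ha⟩ := hpar
        exact ⟨a, by omega⟩
      have h := x2_core T i hT hLT hfix d m P₀ hP₀ T (Finset.Subset.refl T) ⟨P₀, hP₀⟩
        ((2 * d) / i - T.card - 1) ((2 * d) % i + i) hpar'
        (by
          obtain ⟨a, ha⟩ := hke
          obtain ⟨b, hb⟩ := hie
          exact ⟨a + b, by omega⟩) (by omega) (by
          have h1 : (2 * d) / i - T.card - 1 + T.card = (2 * d) / i - 1 := by omega
          have h2 : i * ((2 * d) / i - 1) + i = i * ((2 * d) / i) := by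
            conv_rhs => rw [show (2 * d) / i = ((2 * d) / i - 1) + 1 by omega]
            ring
          rw [h1]
          omega) H
      omega
  · obtain ⟨T', hT'sub, hT'card⟩ := Finset.exists_subset_card_eq hge
    have hT'ne : T'.Nonempty := by
      rw [← Finset.card_pos, hT'card]
      omega
    have h := x2_core T i hT hLT hfix d m P₀ hP₀ T' hT'sub hT'ne 0 ((2 * d) % i) Even.zero hke
      (by omega) (by
        rw [zero_add, hT'card]
        omega) H
    omega

end comb

end Cfsg.Agent.Lib.Helper40.SpPoly
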