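import Mathlib
import Cfsg.Prelude.Def_ClassicalGeometry
import Cfsg.Agent.S2568
import Cfsg.Agent.Lib.Helper40.SpPoly
import Cfsg.Agent.Lib.Helper40.SpModel
import Cfsg.Agent.Lib.Helper40.SpTI
import Cfsg.Agent.Lib.Helper40.InvDims
import Cfsg.Agent.Lib.Helper40.SSConj
import Cfsg.Agent.Lib.Helper40.SpReal

set_option autoImplicit false

namespace Cfsg.Agent.Lib.Helper40.SpElt

open Polynomial UniqueFactorizationMonoid Matrix Cfsg.Agent.Lib.Helper40.RecipPoly
  Cfsg.Agent.Lib.Helper40.SpTI Cfsg.Agent.Lib.Helper40.SpPoly Cfsg.Agent.Lib.Helper40.SpModel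
  Cfsg.Agent.Lib.Helper40.InvDims

section
variable {F : Type*} [Field F] [Fintype F] [DecidableEq F]

/-- The irreducible factors of `X^r - 1` and their behaviour under the reciprocal map. -/
theorem cyclo_star_facts {p : ℕ} [Fact p.Prime] [CharP F p] (r i t : ℕ) (hr : r.Prime) (hr2 : r ≠ 2) (hrp : r ≠ p)
    (hi : i = orderOf ((Fintype.card F : ℕ) : ZMod r)) (ht : t * i = r - 1) :
    ∃ S : Finset F[X], S.card = t ∧ (X - C (1 : F)) ∉ S ∧
      (∀ P ∈ S, Irreducible P ∧ P.Monic ∧ P.natDegree = i ∧ P.coeff 0 ≠ 0) ∧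
      (∀ P ∈ S, (pstar P = P ↔ Even i)) ∧ (∀ P ∈ S, pstar P ∈ S) ∧
      (∀ P : F[X], Irreducible P → P.Monic →
        (P ∣ X ^ r - C (1 : F) ↔ P = X - C 1 ∨ P ∈ S)) := by
  obtain ⟨S, hScard, hLS, hS, hSdvd⟩ :=
    Cfsg.Agent.S2568.cyclo_facts (F := F) (p := p) r i t hr hrp hi ht
  have hipos : 0 < i := by
    rcases Nat.eq_zero_or_pos i with h | h
    · subst h
      have := hr.two_le
      omega
    · exact h
  have hXr0 : (X ^ r - C (1 : F)).coeff 0 ≠ 0 := by
    rw [coeff_sub, coeff_X_pow, coeff_C_zero, if_neg hr.ne_zero.symm, zero_sub]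
    exact neg_ne_zero.mpr one_ne_zero
  have hSd : ∀ P ∈ S, P ∣ X ^ r - C (1 : F) := fun P hP =>
    (hSdvd P (hS P hP).1 (hS P hP).2.1).mpr (Or.inr hP)
  have hS0 : ∀ P ∈ S, P.coeff 0 ≠ 0 := fun P hP => coeff0_of_dvd (hSd P hP) hXr0
  have hcrit : ∀ P ∈ S, (pstar P = P ↔ ∃ k : ℕ, r ∣ Fintype.card F ^ k + 1) := by
    intro P hP
    exact rstar_eq_iff (p := p) (RingHom.id F) 1 0 (pow_zero p).symm
      (fun x => (pow_one x).symm) (fun x => rfl) r hr P (hS P hP).1 (hS P hP).2.1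
      (fun h => hLS (by rw [← h]; exact hP)) (hSd P hP)
  have : Fact r.Prime := ⟨hr⟩
  have hiff : (∃ k : ℕ, r ∣ Fintype.card F ^ k + 1) ↔ Even i := by
    constructor
    · rintro ⟨k, hk⟩
      by_contra hodd
      rw [Nat.not_even_iff_odd] at hodd
      have h1 : ((Fintype.card F : ℕ) : ZMod r) ^ k = -1 := by
        have h2 := (ZMod.natCast_eq_zero_iff _ _).mpr hk
        rw [Nat.cast_add, Nat.cast_pow, Nat.cast_one] at h2
        exact eq_neg_of_add_eq_zero_left h2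
      have h3 : ((Fintype.card F : ℕ) : ZMod r) ^ (2 * k) = 1 := by
        rw [mul_comm, pow_mul, h1, neg_one_sq]
      have h4 : i ∣ 2 * k := by
        rw [hi]
        exact orderOf_dvd_of_pow_eq_one h3
      have h5 : i ∣ k := (Nat.Coprime.dvd_of_dvd_mul_left
        (Nat.Coprime.symm (Nat.coprime_two_left.mpr hodd)) h4)
      have h6 : ((Fintype.card F : ℕ) : ZMod r) ^ k = 1 := by
        rw [hi] at h5
        exact orderOf_dvd_iff_pow_eq_one.mp h5
      rw [h6] at h1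
      have h7 : ((2 : ℕ) : ZMod r) = 0 := by
        rw [Nat.cast_ofNat]
        linear_combination h1
      have h8 := (ZMod.natCast_eq_zero_iff _ _).mp h7
      exact hr2 ((Nat.prime_dvd_prime_iff_eq hr Nat.prime_two).mp h8)
    · intro heven
      obtain ⟨j, hj⟩ := heven
      refine ⟨j, ?_⟩
      have h1 : (((Fintype.card F : ℕ) : ZMod r) ^ j) ^ 2 = 1 := by
        rw [← pow_mul, mul_comm, two_mul, ← hj, hi, pow_orderOf_eq_one]
      have h2 : ((Fintype.card F : ℕ) : ZMod r) ^ j ≠ 1 := by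
        apply pow_ne_one_of_lt_orderOf
        · omega
        · rw [← hi]
          omega
      have h3 : ((Fintype.card F : ℕ) : ZMod r) ^ j = -1 := by
        have h4 : (((Fintype.card F : ℕ) : ZMod r) ^ j - 1) *
            (((Fintype.card F : ℕ) : ZMod r) ^ j + 1) = 0 := by
          linear_combination h1
        rcases mul_eq_zero.mp h4 with h | h
        · exact absurd (sub_eq_zero.mp h) h2
        · exact eq_neg_of_add_eq_zero_left h
      apply (ZMod.natCast_eq_zero_iff _ _).mp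
      rw [Nat.cast_add, Nat.cast_pow, Nat.cast_one, h3, neg_add_cancel]
  have hSs : ∀ P ∈ S, pstar P ∈ S := by
    intro P hP
    obtain ⟨Q, hQ⟩ := hSd P hP
    have h1 : pstar P ∣ X ^ r - C (1 : F) := by
      have h2 := rstar_X_pow_sub_one (RingHom.id F) r hr.pos
      rw [hQ, rstar_mul] at h2
      exact ⟨rstar (RingHom.id F) Q, by rw [hQ]; exact h2.symm⟩
    rcases (hSdvd _ (pstar_irreducible P (hS P hP).1 (hS P hP).2.1 (hS0 P hP))
      (pstar_monic P (hS0 P hP))).mp h1 with h | h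
    · exfalso
      have h2 := pstar_pstar P (hS P hP).2.1 (hS0 P hP)
      rw [h, pstar_L] at h2
      exact hLS (h2 ▸ hP)
    · exact h
  exact ⟨S, hScard, hLS, fun P hP => ⟨(hS P hP).1, (hS P hP).2.1, (hS P hP).2.2, hS0 P hP⟩,
    fun P hP => (hcrit P hP).trans hiff, hSs, hSdvd⟩

omit [DecidableEq F] in
/-- Fixing a totally isotropic `m`-space is a property of the characteristic polynomial. -/
theorem fix_iff (p : ℕ) [Fact p.Prime] [CharP F p] {d : ℕ} (x : Matrix (Fin d ⊕ Fin d) (Fin d ⊕ Fin d) F)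
    (hx : x ∈ Matrix.symplecticGroup (Fin d) F) (N : ℕ) (hN : (N : F) ≠ 0) (hxN : x ^ N = 1)
    (m : ℕ) :
    (∃ W : Submodule F (Fin d ⊕ Fin d → F), Module.finrank F W = m ∧
      (∀ u ∈ W, ∀ v ∈ W, Cfsg.sympForm d F u v = 0) ∧ W.map (Matrix.toLin' x) ≤ W) ↔
    HasD m x.charpoly := by
  constructor
  · rintro ⟨W, hWm, hti, hinv⟩
    have hW : W ∈ Module.End.invtSubmodule (Matrix.toLin' x) := by
      rw [Module.End.mem_invtSubmodule]
      exact Submodule.map_le_iff_le_comap.mp hinv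
    have hs := Cfsg.Agent.Lib.Helper40.SSConj.isSemisimple_toLin' x N hN hxN
    have hdvd := dvd_of_ti x hx hs W hW hti
    have hχ0 : x.charpoly.coeff 0 ≠ 0 := by
      rw [(star_of_pal _ (Matrix.charpoly_monic x)
        (Cfsg.Agent.Lib.Helper40.SpReal.charpoly_reverse x hx)).1]
      exact one_ne_zero
    refine ⟨(res (Matrix.toLin' x) W hW).charpoly, LinearMap.charpoly_monic _, ?_, ?_, hdvd⟩
    · rw [LinearMap.charpoly_natDegree, hWm]
    · exact coeff0_of_dvd ((Dvd.intro _ rfl).trans hdvd) hχ0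
  · rintro ⟨D, hDm, hDd, hD0, hdvd⟩
    obtain ⟨W, hW1, hW2, hW3⟩ := exists_ti_of_dvd p x hx N hN hxN D hDm hD0 hdvd
    exact ⟨W, hW1.trans hDd, hW2, hW3⟩

omit [Fintype F] [DecidableEq F] in
/-- A scalar symplectic matrix is `± 1`. -/
theorem scalar_sq {d : ℕ} (hd : 1 ≤ d) (z : F)
    (h : z • (1 : Matrix (Fin d ⊕ Fin d) (Fin d ⊕ Fin d) F) ∈ Matrix.symplecticGroup (Fin d) F) :
    z * z = 1 := by
  rw [SymplecticGroup.mem_iff] at h
  rw [Matrix.transpose_smul, Matrix.transpose_one, Matrix.smul_mul, Matrix.one_mul,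
    Matrix.mul_smul, Matrix.mul_one, smul_smul] at h
  have h1 := congrFun (congrFun h (Sum.inl ⟨0, by omega⟩)) (Sum.inr ⟨0, by omega⟩)
  simp [Matrix.J] at h1
  exact h1

omit [Fintype F] in
/-- The characteristic polynomial of a non-trivial element of order `r`. -/
theorem adm_of_elt {p : ℕ} [Fact p.Prime] [CharP F p] {d : ℕ} (r : ℕ) (hr : r.Prime) (hrp : r ≠ p) (T : Finset F[X])
    (hTdvd : ∀ P : F[X], Irreducible P → P.Monic →
      (P ∣ X ^ r - C (1 : F) ↔ P = X - C 1 ∨ P ∈ T))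
    (x : Matrix (Fin d ⊕ Fin d) (Fin d ⊕ Fin d) F)
    (hx : x ∈ Matrix.symplecticGroup (Fin d) F) (hxr : x ^ r = 1) (hx1 : x ≠ 1) :
    Adm T d x.charpoly := by
  have hpp : p.Prime := Fact.out
  have hfac : ∀ P ∈ normalizedFactors x.charpoly, P = X - C (1 : F) ∨ P ∈ T := by
    intro P hP
    apply (hTdvd P (irr_of_mem_nf _ P hP) (Cfsg.Agent.S2568.monic_of_mem_nf _ P hP)).mp
    apply dvd_of_mem_nf_charpoly' x _ _ P hP
    rw [map_sub, map_pow, aeval_X, aeval_C, map_one, hxr, sub_self]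
  refine ⟨Matrix.charpoly_monic x, ?_, Cfsg.Agent.Lib.Helper40.SpReal.charpoly_reverse x hx,
    hfac, ?_⟩
  · rw [Matrix.charpoly_natDegree_eq_dim, Fintype.card_sum, Fintype.card_fin]
    ring
  · by_contra hcon
    push Not at hcon
    apply hx1
    have h1 := pow_eq_one_of_charpoly' (p := p) x 1 r
      ((Nat.coprime_primes hr hpp).mpr hrp) hxr (by
        intro P hP
        rcases hfac P hP with h | h
        · rw [h, pow_one]
        · exact absurd h (hcon P hP))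
    rwa [pow_one] at h1

/-- Every admissible polynomial is the characteristic polynomial of a non-scalar symplectic
matrix of order `r`. -/
theorem exists_elt (p : ℕ) [Fact p.Prime] [CharP F p] {d : ℕ} (hd : 1 ≤ d) (r : ℕ) (hr : r.Prime) (hr2 : r ≠ 2) (T : Finset F[X])
    (hLT : (X - C (1 : F)) ∉ T)
    (hTdvd : ∀ P : F[X], Irreducible P → P.Monic →
      (P ∣ X ^ r - C (1 : F) ↔ P = X - C 1 ∨ P ∈ T))
    (χ : F[X]) (hχ : Adm T d χ) :
    ∃ x : Matrix.symplecticGroup (Fin d) F,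
      (x : Matrix (Fin d ⊕ Fin d) (Fin d ⊕ Fin d) F) ^ r = 1 ∧
      (∀ z : F, (x : Matrix (Fin d ⊕ Fin d) (Fin d ⊕ Fin d) F) ≠ z • 1) ∧
      (x : Matrix (Fin d ⊕ Fin d) (Fin d ⊕ Fin d) F).charpoly = χ := by
  obtain ⟨hχm, hχd, hχr, hχf, P₀, hP₀, hP₀T⟩ := hχ
  obtain ⟨g, hgo, hgc⟩ := exists_symp_of_palindromic p d χ hχm hχd hχr
  have hgr : (g : Matrix (Fin d ⊕ Fin d) (Fin d ⊕ Fin d) F) ^ r = 1 := by
    apply pow_eq_one_of_charpoly' (p := p) _ r (orderOf g) hgo
    · have h1 : g ^ orderOf g = 1 := pow_orderOf_eq_one g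
      exact congrArg Subtype.val h1
    · intro P hP
      rw [hgc] at hP
      exact (hTdvd P (irr_of_mem_nf _ P hP) (Cfsg.Agent.S2568.monic_of_mem_nf _ P hP)).mpr
        (hχf P hP)
  refine ⟨g, hgr, ?_, hgc⟩
  intro z hz
  have hz2 : z * z = 1 := scalar_sq hd z (hz ▸ g.2)
  have hzr : z ^ r = 1 := by
    rw [hz, _root_.smul_pow, one_pow] at hgr
    have h1 := congrFun (congrFun hgr (Sum.inl ⟨0, by omega⟩)) (Sum.inl ⟨0, by omega⟩)
    simpa using h1
  obtain ⟨k, hk⟩ := hr.odd_of_ne_two hr2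
  have hz1 : z = 1 := by
    rw [hk, pow_succ, pow_mul, pow_two, hz2, one_pow, one_mul] at hzr
    exact hzr
  rw [hz1, one_smul] at hz
  rw [hz, Matrix.charpoly_one] at hgc
  have h2 : normalizedFactors χ = (Fintype.card (Fin d ⊕ Fin d)) • {X - C (1 : F)} := by
    rw [← hgc, normalizedFactors_pow, ← C_1,
      normalizedFactors_irreducible (irreducible_X_sub_C 1), (monic_X_sub_C 1).normalize_eq_self]
  rw [h2] at hP₀
  have h3 := Multiset.mem_of_mem_nsmul hP₀
  rw [Multiset.mem_singleton] at h3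
  exact hLT (h3 ▸ hP₀T)

/-- Reduction of the fixity statement to polynomials, `r` odd. -/
theorem lhs_iff {p : ℕ} [Fact p.Prime] [CharP F p] {d : ℕ} (hd : 1 ≤ d) (r : ℕ) (hr : r.Prime) (hr2 : r ≠ 2) (hrp : r ≠ p)
    (T : Finset F[X]) (hLT : (X - C (1 : F)) ∉ T)
    (hTdvd : ∀ P : F[X], Irreducible P → P.Monic →
      (P ∣ X ^ r - C (1 : F) ↔ P = X - C 1 ∨ P ∈ T)) (m : ℕ) :
    (∀ x : ↥(Matrix.symplecticGroup (Fin d) F),
      (∃ z : F, ((x ^ r : ↥(Matrix.symplecticGroup (Fin d) F)) :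
        Matrix (Fin d ⊕ Fin d) (Fin d ⊕ Fin d) F) =
          z • (1 : Matrix (Fin d ⊕ Fin d) (Fin d ⊕ Fin d) F)) →
      (∀ z : F, (x : Matrix (Fin d ⊕ Fin d) (Fin d ⊕ Fin d) F) ≠
        z • (1 : Matrix (Fin d ⊕ Fin d) (Fin d ⊕ Fin d) F)) →
      ∃ W : Submodule F (Fin d ⊕ Fin d → F), Module.finrank F ↥W = m ∧
        (∀ u ∈ W, ∀ v ∈ W, Cfsg.sympForm d F u v = 0) ∧
        W.map (Matrix.toLin' (x : Matrix (Fin d ⊕ Fin d) (Fin d ⊕ Fin d) F)) ≤ W) ↔
    (∀ χ : F[X], Adm T d χ → HasD m χ) := by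
  have hpp : p.Prime := Fact.out
  have hrF : ((r : ℕ) : F) ≠ 0 := by
    rw [Ne, CharP.cast_eq_zero_iff F p]
    intro h
    exact hrp ((Nat.prime_dvd_prime_iff_eq hpp hr).mp h).symm
  constructor
  · intro H χ hχ
    obtain ⟨x, hxr, hxs, hxc⟩ := exists_elt p hd r hr hr2 T hLT hTdvd χ hχ
    have h1 := H x ⟨1, by
      rw [one_smul]
      exact hxr⟩ hxs
    rw [← hxc]
    exact (fix_iff p _ x.2 r hrF hxr m).mp h1
  · intro H x hxz hxs
    obtain ⟨z, hz⟩ := hxz
    have hz' : (x : Matrix (Fin d ⊕ Fin d) (Fin d ⊕ Fin d) F) ^ r = z • 1 := hz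
    have hz2 : z * z = 1 := by
      apply scalar_sq hd z
      rw [← hz]
      exact (x ^ r).2
    have hz0 : z ≠ 0 := by
      intro h0
      rw [h0, zero_mul] at hz2
      exact zero_ne_one hz2
    obtain ⟨y, hy⟩ : ∃ y : Matrix (Fin d ⊕ Fin d) (Fin d ⊕ Fin d) F,
        y = z • (x : Matrix (Fin d ⊕ Fin d) (Fin d ⊕ Fin d) F) := ⟨_, rfl⟩
    have hymem : y ∈ Matrix.symplecticGroup (Fin d) F := by
      rw [SymplecticGroup.mem_iff, hy, Matrix.transpose_smul, Matrix.smul_mul, Matrix.smul_mul,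
        Matrix.mul_smul, smul_smul, hz2, one_smul]
      exact SymplecticGroup.mem_iff.mp x.2
    obtain ⟨k, hk⟩ := hr.odd_of_ne_two hr2
    have hyr : y ^ r = 1 := by
      rw [hy, _root_.smul_pow, hz', smul_smul, ← pow_succ, hk]
      have h1 : z ^ (2 * k + 1 + 1) = 1 := by
        rw [show 2 * k + 1 + 1 = 2 * (k + 1) by ring, pow_mul, pow_two, hz2, one_pow]
      rw [h1, one_smul]
    have hy1 : y ≠ 1 := by
      intro h1
      apply hxs z⁻¹
      have h2 : z⁻¹ • y = z⁻¹ • (1 : Matrix (Fin d ⊕ Fin d) (Fin d ⊕ Fin d) F) := by rw [h1]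
      rw [hy, smul_smul, inv_mul_cancel₀ hz0, one_smul] at h2
      exact h2
    have hadm := adm_of_elt (p := p) r hr hrp T hTdvd y hymem hyr hy1
    obtain ⟨W, hW1, hW2, hW3⟩ := (fix_iff p y hymem r hrF hyr m).mpr (H _ hadm)
    refine ⟨W, hW1, hW2, ?_⟩
    intro w hw
    obtain ⟨w', hw', rfl⟩ := Submodule.mem_map.mp hw
    have h1 : Matrix.toLin' y w' ∈ W := hW3 (Submodule.mem_map.mpr ⟨w', hw', rfl⟩)
    have h2 : Matrix.toLin' (x : Matrix (Fin d ⊕ Fin d) (Fin d ⊕ Fin d) F) w' =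
        z⁻¹ • Matrix.toLin' y w' := by
      rw [hy, map_smul, LinearMap.smul_apply, smul_smul, inv_mul_cancel₀ hz0, one_smul]
    rw [h2]
    exact W.smul_mem _ h1

omit [Fintype F] [DecidableEq F] in
theorem pstar_eval_inv (P : F[X]) (a : F) (ha : a ≠ 0) (hP : P.eval a = 0) :
    (pstar P).eval a⁻¹ = 0 := by
  rw [pstar_eq, eval_mul, eval_C]
  let _ : Invertible a := invertibleOfNonzero ha
  have h := (eval₂_reverse_eq_zero_iff (RingHom.id F) a P).mpr (by rw [eval₂_id]; exact hP)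
  rw [eval₂_id, invOf_eq_inv] at h
  rw [h, mul_zero]

omit [Fintype F] [DecidableEq F] in
theorem pstar_linear_ne (a : F) (ha : a ≠ 0) (h : a * a ≠ 1) : pstar (X - C a) ≠ X - C a := by
  intro heq
  have h1 := pstar_eval_inv (X - C a) a ha (by simp)
  rw [heq, eval_sub, eval_X, eval_C, sub_eq_zero] at h1
  apply h
  calc a * a = a⁻¹ * a := by rw [h1]
    _ = 1 := inv_mul_cancel₀ ha

omit [Fintype F] [DecidableEq F] in
theorem pstar_X_add_one : pstar (X + C (1 : F)) = X + C 1 := by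
  have h1 : (X ^ 2 - C (1 : F)) = (X - C 1) * (X + C 1) := by
    rw [C_1]
    ring
  have h2 := rstar_X_pow_sub_one (RingHom.id F) 2 (by norm_num)
  have h3 : pstar ((X - C (1 : F)) * (X + C 1)) = (X - C 1) * (X + C 1) := by
    rw [← h1]
    exact h2
  rw [pstar_mul, pstar_L] at h3
  exact mul_left_cancel₀ (monic_X_sub_C (1 : F)).ne_zero h3

omit [Fintype F] [DecidableEq F] in
theorem pstar_X_sq_add_one : pstar (X ^ 2 + C (1 : F)) = X ^ 2 + C 1 := by
  have h1 : (X ^ 4 - C (1 : F)) = (X ^ 2 - C 1) * (X ^ 2 + C 1) := by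
    rw [C_1]
    ring
  have h2 := rstar_X_pow_sub_one (RingHom.id F) 4 (by norm_num)
  have h3 : pstar ((X ^ 2 - C (1 : F)) * (X ^ 2 + C 1)) = (X ^ 2 - C 1) * (X ^ 2 + C 1) := by
    rw [← h1]
    exact h2
  have h4 : pstar (X ^ 2 - C (1 : F)) = X ^ 2 - C 1 :=
    rstar_X_pow_sub_one (RingHom.id F) 2 (by norm_num)
  rw [pstar_mul, h4] at h3
  exact mul_left_cancel₀ (monic_X_pow_sub_C (1 : F) (by norm_num)).ne_zero h3

omit [Fintype F] in
/-- Involutions fix totally isotropic subspaces of every dimension. -/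
theorem hasD_sq_one (h2 : (2 : F) ≠ 0) {d : ℕ} (m : ℕ) (hmd : m ≤ d)
    (x : Matrix (Fin d ⊕ Fin d) (Fin d ⊕ Fin d) F)
    (hx : x ∈ Matrix.symplecticGroup (Fin d) F) (hx2 : x ^ 2 = 1) : HasD m x.charpoly := by
  obtain ⟨T, hTdef⟩ : ∃ T : Finset F[X], T = {X + C (1 : F)} := ⟨_, rfl⟩
  have hmemT : ∀ P, P ∈ T ↔ P = X + C (1 : F) := by
    intro P
    rw [hTdef, Finset.mem_singleton]
  have hT : ∀ P ∈ T, Irreducible P ∧ P.Monic ∧ P.natDegree = 1 ∧ P.coeff 0 ≠ 0 := by
    intro P hP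
    rw [(hmemT P).mp hP]
    refine ⟨?_, monic_X_add_C 1, natDegree_X_add_C 1, ?_⟩
    · have h := irreducible_X_sub_C (-1 : F)
      rwa [C_neg, sub_neg_eq_add] at h
    · rw [coeff_add, coeff_X_zero, coeff_C_zero, zero_add]
      exact one_ne_zero
  have hne : (X - C (1 : F)) ≠ X + C 1 := by
    intro h
    have h1 := congrArg (fun P => P.coeff 0) h
    simp only [coeff_sub, coeff_add, coeff_X_zero, coeff_C_zero, zero_sub, zero_add] at h1
    apply h2
    linear_combination -h1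
  have hLT : (X - C (1 : F)) ∉ T := fun h => hne ((hmemT _).mp h)
  have hfix : ∀ P ∈ T, pstar P = P := by
    intro P hP
    rw [(hmemT P).mp hP]
    exact pstar_X_add_one
  have hfac : ∀ P ∈ normalizedFactors x.charpoly, P = X - C (1 : F) ∨ P ∈ T := by
    intro P hP
    have hirr := irr_of_mem_nf _ P hP
    have hPm := Cfsg.Agent.S2568.monic_of_mem_nf _ P hP
    have h1 : P ∣ (X - C (1 : F)) * (X + C 1) := by
      apply dvd_of_mem_nf_charpoly' x _ _ P hP
      simp only [map_mul, map_sub, map_add, aeval_X, map_one]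
      have : (x - 1) * (x + 1) = x ^ 2 - 1 := by noncomm_ring
      rw [this, hx2, sub_self]
    rcases (hirr.prime.dvd_mul).mp h1 with h | h
    · left
      exact eq_of_monic_of_associated hPm (monic_X_sub_C 1)
        (hirr.associated_of_dvd (irreducible_X_sub_C 1) h)
    · right
      rw [hmemT]
      exact eq_of_monic_of_associated hPm (monic_X_add_C 1)
        (hirr.associated_of_dvd (hT _ ((hmemT _).mpr rfl)).1 h)
  have hχm := Matrix.charpoly_monic x
  have hχr := Cfsg.Agent.Lib.Helper40.SpReal.charpoly_reverse x hx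
  obtain ⟨e, R, hχe, hRm, hRf, hdeg, -, -, -⟩ := adm_split T 1 hT hLT x.charpoly hχm hfac
  have hχd : x.charpoly.natDegree = 2 * d := by
    rw [Matrix.charpoly_natDegree_eq_dim, Fintype.card_sum, Fintype.card_fin]
    ring
  rw [hχd, one_mul] at hdeg
  have hRpow : R = (X + C (1 : F)) ^ Multiset.card (normalizedFactors R) := by
    conv_lhs => rw [← Cfsg.Agent.S2568.prod_nf R hRm,
      Multiset.eq_replicate_card.mpr (fun P hP => (hmemT P).mp (hRf P hP)),
      Multiset.prod_replicate]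
  have hee : Even e := by
    have h1 := (star_of_pal _ hχm hχr).1
    rw [hχe, hRpow, mul_coeff_zero, coeff_zero_eq_eval_zero, coeff_zero_eq_eval_zero, eval_pow,
      eval_pow, eval_sub, eval_add, eval_X, eval_C, zero_sub, zero_add, one_pow, mul_one] at h1
    exact (neg_one_pow_eq_one_iff_even (by
      intro h
      apply h2
      linear_combination -h)).mp h1
  obtain ⟨e', he'⟩ := hee
  have hTc : T.card = 1 := by rw [hTdef, Finset.card_singleton]
  obtain ⟨Dj, hDm, hD0, hDd, hDdvd⟩ := greedy_even T 1 hT hfix (m - min m e') R hRm hRf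
    (by rw [hTc]; omega)
  rw [hχe]
  exact hasD_mk e (min m e') R Dj m (by omega) hDm hD0 (by rw [hDd]; omega) hDdvd

omit [Fintype F] in
/-- Elements with `x^2 = -1`, `-1` a square. -/
theorem hasD_sq_neg_one_split (h2 : (2 : F) ≠ 0) (s : F) (hs : s * s = -1) {d : ℕ} (m : ℕ)
    (hmd : m ≤ d) (x : Matrix (Fin d ⊕ Fin d) (Fin d ⊕ Fin d) F)
    (hx : x ∈ Matrix.symplecticGroup (Fin d) F) (hx2 : x ^ 2 = -1) : HasD m x.charpoly := by
  have hs0 : s ≠ 0 := by
    intro h0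
    rw [h0, mul_zero] at hs
    exact one_ne_zero (neg_eq_zero.mp hs.symm)
  have hss1 : s * s ≠ 1 := by
    intro h
    apply h2
    linear_combination hs - h
  obtain ⟨T, hTdef⟩ : ∃ T : Finset F[X], T = {X - C s, X - C (-s)} := ⟨_, rfl⟩
  have hmemT : ∀ P, P ∈ T ↔ P = X - C s ∨ P = X - C (-s) := by
    intro P
    rw [hTdef, Finset.mem_insert, Finset.mem_singleton]
  have hT : ∀ P ∈ T, Irreducible P ∧ P.Monic ∧ P.natDegree = 1 ∧ P.coeff 0 ≠ 0 := by
    intro P hP
    rcases (hmemT P).mp hP with h | h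
    · rw [h]
      refine ⟨irreducible_X_sub_C s, monic_X_sub_C s, natDegree_X_sub_C s, ?_⟩
      rw [coeff_sub, coeff_X_zero, coeff_C_zero, zero_sub]
      exact neg_ne_zero.mpr hs0
    · rw [h]
      refine ⟨irreducible_X_sub_C (-s), monic_X_sub_C (-s), natDegree_X_sub_C (-s), ?_⟩
      rw [coeff_sub, coeff_X_zero, coeff_C_zero, zero_sub]
      exact neg_ne_zero.mpr (neg_ne_zero.mpr hs0)
  have hinj : ∀ a b : F, X - C a = X - C b → a = b := by
    intro a b h
    exact C_injective (sub_right_injective h)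
  have hLT : (X - C (1 : F)) ∉ T := by
    intro h
    rcases (hmemT _).mp h with h | h
    · have h1 := hinj _ _ h
      rw [← h1, mul_one] at hss1
      exact hss1 rfl
    · have h1 := hinj _ _ h
      apply hss1
      have h3 : s = -1 := by linear_combination h1
      rw [h3]
      ring
  have hfp : ∀ P ∈ T, pstar P ≠ P := by
    intro P hP
    rcases (hmemT P).mp hP with h | h
    · rw [h]
      exact pstar_linear_ne s hs0 hss1
    · rw [h]
      exact pstar_linear_ne (-s) (neg_ne_zero.mpr hs0) (by rw [neg_mul_neg]; exact hss1)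
  have hfac : ∀ P ∈ normalizedFactors x.charpoly, P ∈ T := by
    intro P hP
    have hirr := irr_of_mem_nf _ P hP
    have hPm := Cfsg.Agent.S2568.monic_of_mem_nf _ P hP
    have h1 : P ∣ (X - C s) * (X - C (-s)) := by
      apply dvd_of_mem_nf_charpoly' x _ _ P hP
      simp only [map_mul, map_sub, aeval_X, aeval_C, map_neg]
      have h3 : (x - algebraMap F _ s) * (x - -algebraMap F _ s) =
          x ^ 2 - algebraMap F (Matrix (Fin d ⊕ Fin d) (Fin d ⊕ Fin d) F) (s * s) := by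
        rw [map_mul]
        have hc : Commute x (algebraMap F (Matrix (Fin d ⊕ Fin d) (Fin d ⊕ Fin d) F) s) :=
          (Algebra.commutes s x).symm
        rw [sub_neg_eq_add, ← hc.mul_self_sub_mul_self_eq', pow_two]
      rw [h3, hx2, hs, map_neg, map_one, sub_self]
    rw [hmemT]
    rcases (hirr.prime.dvd_mul).mp h1 with h | h
    · left
      exact eq_of_monic_of_associated hPm (monic_X_sub_C s)
        (hirr.associated_of_dvd (irreducible_X_sub_C s) h)
    · right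
      exact eq_of_monic_of_associated hPm (monic_X_sub_C (-s))
        (hirr.associated_of_dvd (irreducible_X_sub_C (-s)) h)
  have hχm := Matrix.charpoly_monic x
  have hχr := Cfsg.Agent.Lib.Helper40.SpReal.charpoly_reverse x hx
  obtain ⟨e, R, hχe, hRm, hRf, hdeg, hRs, -, he⟩ := adm_split T 1 hT hLT x.charpoly hχm
    (fun P hP => Or.inr (hfac P hP))
  have hχd : x.charpoly.natDegree = 2 * d := by
    rw [Matrix.charpoly_natDegree_eq_dim, Fintype.card_sum, Fintype.card_fin]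
    ring
  rw [hχd, one_mul, he, Multiset.count_eq_zero_of_notMem (fun h => hLT (hfac _ h)),
    zero_add] at hdeg
  obtain ⟨Dj, hDm, hD0, hDd, hDdvd⟩ := greedy_odd T 1 hT hfp m R hRm hRf
    (hRs (star_of_pal _ hχm hχr).2) (by omega)
  rw [hχe]
  exact hasD_mk e 0 R Dj m (by omega) hDm hD0 (by rw [hDd]; omega) hDdvd

omit [Fintype F] in
theorem sq_facts (hns : ∀ b : F, b ^ 2 ≠ -1) :
    ∃ T : Finset F[X], T.card = 1 ∧ (X - C (1 : F)) ∉ T ∧
      (∀ P ∈ T, Irreducible P ∧ P.Monic ∧ P.natDegree = 2 ∧ P.coeff 0 ≠ 0) ∧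
      (∀ P ∈ T, pstar P = P) ∧
      (∀ {d : ℕ} (x : Matrix (Fin d ⊕ Fin d) (Fin d ⊕ Fin d) F), x ^ 2 = -1 →
        ∀ P ∈ normalizedFactors x.charpoly, P ∈ T) := by
  have hirrQ : Irreducible (X ^ 2 + C (1 : F)) := by
    have h := (X_pow_sub_C_irreducible_iff_of_prime Nat.prime_two (a := (-1 : F))).mpr hns
    rwa [C_neg, sub_neg_eq_add] at h
  have hQm : (X ^ 2 + C (1 : F)).Monic := monic_X_pow_add_C 1 (by norm_num)
  refine ⟨{X ^ 2 + C (1 : F)}, Finset.card_singleton _, ?_, ?_, ?_, ?_⟩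
  · rw [Finset.mem_singleton]
    intro h
    have h1 := congrArg natDegree h
    rw [natDegree_X_sub_C, natDegree_X_pow_add_C] at h1
    omega
  · intro P hP
    rw [Finset.mem_singleton.mp hP]
    refine ⟨hirrQ, hQm, natDegree_X_pow_add_C, ?_⟩
    rw [coeff_add, coeff_X_pow, coeff_C_zero, if_neg (by norm_num), zero_add]
    exact one_ne_zero
  · intro P hP
    rw [Finset.mem_singleton.mp hP]
    exact pstar_X_sq_add_one
  · intro d x hx2 P hP
    have hirr := irr_of_mem_nf _ P hP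
    have hPm := Cfsg.Agent.S2568.monic_of_mem_nf _ P hP
    have h1 : P ∣ X ^ 2 + C (1 : F) := by
      apply dvd_of_mem_nf_charpoly' x _ _ P hP
      rw [map_add, map_pow, aeval_X, aeval_C, map_one, hx2, neg_add_cancel]
    rw [Finset.mem_singleton]
    exact eq_of_monic_of_associated hPm hQm (hirr.associated_of_dvd hirrQ h1)

omit [Fintype F] in
/-- Elements with `x^2 = -1`, `-1` not a square, `m` even. -/
theorem hasD_sq_neg_one_inert (hns : ∀ b : F, b ^ 2 ≠ -1) {d : ℕ} (m : ℕ)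
    (hmd : m ≤ d) (hme : Even m) (x : Matrix (Fin d ⊕ Fin d) (Fin d ⊕ Fin d) F)
    (hx2 : x ^ 2 = -1) : HasD m x.charpoly := by
  obtain ⟨T, hTc, hLT, hT, hfix, hfacT⟩ := sq_facts hns
  have hfac := hfacT x hx2
  have hχm := Matrix.charpoly_monic x
  obtain ⟨e, R, hχe, hRm, hRf, hdeg, -, -, he⟩ := adm_split T 2 hT hLT x.charpoly hχm
    (fun P hP => Or.inr (hfac P hP))
  have hχd : x.charpoly.natDegree = 2 * d := by
    rw [Matrix.charpoly_natDegree_eq_dim, Fintype.card_sum, Fintype.card_fin]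
    ring
  rw [hχd, he, Multiset.count_eq_zero_of_notMem (fun h => hLT (hfac _ h)), zero_add] at hdeg
  obtain ⟨m', hm'⟩ := hme
  obtain ⟨Dj, hDm, hD0, hDd, hDdvd⟩ := greedy_even T 2 hT hfix m' R hRm hRf
    (by rw [hTc]; omega)
  rw [hχe]
  exact hasD_mk e 0 R Dj m (by omega) hDm hD0 (by rw [hDd]; omega) hDdvd

omit [Fintype F] in
/-- Elements with `x^2 = -1`, `-1` not a square, fix no totally isotropic subspace of odd
dimension. -/
theorem not_hasD_of_odd (hns : ∀ b : F, b ^ 2 ≠ -1) {d : ℕ} (m : ℕ) (hmo : Odd m)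
    (x : Matrix (Fin d ⊕ Fin d) (Fin d ⊕ Fin d) F)
    (hx : x ∈ Matrix.symplecticGroup (Fin d) F) (hx2 : x ^ 2 = -1) : ¬ HasD m x.charpoly := by
  obtain ⟨T, hTc, hLT, hT, hfix, hfacT⟩ := sq_facts hns
  have hfac := hfacT x hx2
  have hχm := Matrix.charpoly_monic x
  have hχr := Cfsg.Agent.Lib.Helper40.SpReal.charpoly_reverse x hx
  have hχ0 : x.charpoly.coeff 0 ≠ 0 := by
    rw [(star_of_pal _ hχm hχr).1]
    exact one_ne_zero
  rintro ⟨D, hDm, hDd, hD0, hDdvd⟩
  obtain ⟨l, w, -, -, hdeg, hl, -⟩ := struct_of_dvd T 2 (fun P hP => (hT P hP).2.2.1) hLT _ D hχm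
    hχ0 hDm hDdvd (fun P hP => Or.inr (hfac P hP))
  rw [Multiset.count_eq_zero_of_notMem (fun h => hLT (hfac _ h))] at hl
  obtain ⟨a, ha⟩ := hmo
  omega

/-- The case `r = 2`. -/
theorem lhs_iff_two {p : ℕ} [Fact p.Prime] [CharP F p] (hp2 : p ≠ 2) {d : ℕ} (hd : 1 ≤ d)
    (m : ℕ) (hmd : m ≤ d) :
    (∀ x : ↥(Matrix.symplecticGroup (Fin d) F),
      (∃ z : F, ((x ^ 2 : ↥(Matrix.symplecticGroup (Fin d) F)) :
        Matrix (Fin d ⊕ Fin d) (Fin d ⊕ Fin d) F) =
          z • (1 : Matrix (Fin d ⊕ Fin d) (Fin d ⊕ Fin d) F)) →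
      (∀ z : F, (x : Matrix (Fin d ⊕ Fin d) (Fin d ⊕ Fin d) F) ≠
        z • (1 : Matrix (Fin d ⊕ Fin d) (Fin d ⊕ Fin d) F)) →
      ∃ W : Submodule F (Fin d ⊕ Fin d → F), Module.finrank F ↥W = m ∧
        (∀ u ∈ W, ∀ v ∈ W, Cfsg.sympForm d F u v = 0) ∧
        W.map (Matrix.toLin' (x : Matrix (Fin d ⊕ Fin d) (Fin d ⊕ Fin d) F)) ≤ W) ↔
    (Even m ∨ Fintype.card F % 4 = 1) := by
  have hpp : p.Prime := Fact.out
  have h2 : (2 : F) ≠ 0 := by
    have h : ((2 : ℕ) : F) ≠ 0 := by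
      rw [Ne, CharP.cast_eq_zero_iff F p]
      intro h
      exact hp2 ((Nat.prime_dvd_prime_iff_eq hpp Nat.prime_two).mp h)
    exact_mod_cast h
  have h4 : ((4 : ℕ) : F) ≠ 0 := by
    rw [Ne, CharP.cast_eq_zero_iff F p]
    intro h
    have h' : p ∣ 2 ^ 2 := by
      norm_num
      exact h
    exact hp2 ((Nat.prime_dvd_prime_iff_eq hpp Nat.prime_two).mp (hpp.dvd_of_dvd_pow h'))
  have hodd : Fintype.card F % 2 = 1 := by
    apply FiniteField.odd_card_of_char_ne_two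
    rw [ringChar.eq F p]
    exact hp2
  have hnsq : ¬ IsSquare (-1 : F) → ∀ b : F, b ^ 2 ≠ -1 := by
    intro h b hb
    exact h ⟨b, by rw [← hb, pow_two]⟩
  constructor
  · intro H
    by_contra hcon
    push Not at hcon
    obtain ⟨hmo, hq4⟩ := hcon
    rw [Nat.not_even_iff_odd] at hmo
    have hq3 : Fintype.card F % 4 = 3 := by omega
    have hns : ∀ b : F, b ^ 2 ≠ -1 := by
      apply hnsq
      rw [FiniteField.isSquare_neg_one_iff]
      omega
    have hJ2 : (J (Fin d) F) ^ 2 = -1 := by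
      rw [pow_two]
      exact Matrix.J_squared (Fin d) F
    have hJ4 : (J (Fin d) F) ^ 4 = 1 := by
      rw [show 4 = 2 * 2 by norm_num, pow_mul, hJ2]
      simp
    have h1 := H ⟨J (Fin d) F, SymplecticGroup.J_mem _ _⟩ ⟨-1, by
      show (J (Fin d) F) ^ 2 = _
      rw [hJ2, neg_smul, one_smul]⟩ (by
      intro z hz
      have h5 := congrFun (congrFun hz (Sum.inl ⟨0, by omega⟩)) (Sum.inr ⟨0, by omega⟩)
      simp [Matrix.J] at h5)
    exact not_hasD_of_odd hns m hmo _ (SymplecticGroup.J_mem _ _) hJ2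
      ((fix_iff p _ (SymplecticGroup.J_mem _ _) 4 h4 hJ4 m).mp h1)
  · intro H x hxz hxs
    obtain ⟨z, hz⟩ := hxz
    have hz' : (x : Matrix (Fin d ⊕ Fin d) (Fin d ⊕ Fin d) F) ^ 2 = z • 1 := hz
    have hz2 : z * z = 1 := by
      apply scalar_sq hd z
      rw [← hz]
      exact (x ^ 2).2
    rcases mul_self_eq_one_iff.mp hz2 with h | h
    · rw [h, one_smul] at hz'
      have h2' : ((2 : ℕ) : F) ≠ 0 := by exact_mod_cast h2
      exact (fix_iff p _ x.2 2 h2' hz' m).mpr (hasD_sq_one h2 m hmd _ x.2 hz')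
    · rw [h, neg_smul, one_smul] at hz'
      have hx4 : (x : Matrix (Fin d ⊕ Fin d) (Fin d ⊕ Fin d) F) ^ 4 = 1 := by
        rw [show 4 = 2 * 2 by norm_num, pow_mul, hz']
        simp
      apply (fix_iff p _ x.2 4 h4 hx4 m).mpr
      by_cases hsq : IsSquare (-1 : F)
      · obtain ⟨s, hs⟩ := hsq
        exact hasD_sq_neg_one_split h2 s hs.symm m hmd _ x.2 hz'
      · have hq3 : Fintype.card F % 4 = 3 := by
          by_contra h3
          exact hsq (FiniteField.isSquare_neg_one_iff.mpr h3)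
        rcases H with hme | h1
        · exact hasD_sq_neg_one_inert (hnsq hsq) m hmd hme _ hz'
        · omega

end

end Cfsg.Agent.Lib.Helper40.SpElt
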