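import Mathlib
import Cfsg.Agent.Lib.Helper40.FExtIdx
import Cfsg.Agent.Lib.Helper40.SpElt
import Cfsg.Agent.Lib.Helper40.InvDims
import Cfsg.Agent.Lib.Helper40.SSConj
import Cfsg.Agent.Lib.Helper40.PrimeFix
import Cfsg.Agent.Lib.Helper13.SympMat

set_option autoImplicit false

namespace Cfsg.Agent.Lib.Helper40.FExtOdd

open Matrix Polynomial UniqueFactorizationMonoid
open Cfsg.Agent.Lib.Helper40.SympConj Cfsg.Agent.Lib.Helper40.FExt
  Cfsg.Agent.Lib.Helper40.FExtIdx Cfsg.Agent.Lib.Helper40.InvDims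
  Cfsg.Agent.Lib.Helper40.SSConj Cfsg.Agent.Lib.Helper40.SpPoly
  Cfsg.Agent.Lib.Helper40.SpElt Cfsg.Agent.Lib.Helper13.SympMat Cfsg.Agent.Lib.Helper40.SpTI

section gen
variable {F : Type*} [Field F]

theorem comm_aeval {A : Type*} [Ring A] [Algebra F A] (x J' : A) (hc : x * J' = J' * x)
    (P : F[X]) : aeval x P * J' = J' * aeval x P := by
  induction P using Polynomial.induction_on' with
  | add a b ha hb => rw [map_add, add_mul, mul_add, ha, hb]
  | monomial k c =>
    rw [aeval_monomial]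
    have h1 : Commute x J' := hc
    exact ((Algebra.commute_algebraMap_left c J').mul_left (Commute.pow_left h1 k)).eq

theorem toLin_aeval {n : Type*} [Fintype n] [DecidableEq n] (x : Matrix n n F) (P : F[X]) :
    aeval (Matrix.toLin' x) P = Matrix.toLin' (aeval x P) :=
  Polynomial.aeval_algHom_apply (Matrix.toLinAlgEquiv' (R := F) (n := n)).toAlgHom x P

theorem sadj_aeval {d : ℕ} (x : Matrix (Fin d ⊕ Fin d) (Fin d ⊕ Fin d) F) (g : F[X]) :
    sadj (aeval x g) = aeval (sadj x) g := by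
  induction g using Polynomial.induction_on' with
  | add a b ha hb => rw [map_add, map_add, sadj_add, ha, hb]
  | monomial k c =>
    rw [aeval_monomial, aeval_monomial, Algebra.algebraMap_eq_smul_one]
    simp only [Matrix.smul_mul, Matrix.one_mul, sadj_smul, sadj_pow]

theorem ker_invt {n : Type*} [Fintype n] [DecidableEq n] (x J' : Matrix n n F)
    (hc : x * J' = J' * x) (P : F[X]) :
    LinearMap.ker (aeval (Matrix.toLin' x) P) ∈ Module.End.invtSubmodule (Matrix.toLin' J') := by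
  rw [Module.End.mem_invtSubmodule]
  intro w hw
  rw [Submodule.mem_comap, LinearMap.mem_ker]
  rw [LinearMap.mem_ker] at hw
  rw [toLin_aeval] at hw ⊢
  rw [← Matrix.toLin'_mul_apply, comm_aeval x J' hc P, Matrix.toLin'_mul_apply, hw, map_zero]

/-- An endomorphism whose square is a non-square scalar has only even-dimensional invariant
subspaces. -/
theorem even_finrank {V : Type*} [AddCommGroup V] [Module F V] [FiniteDimensional F V]
    (φ : Module.End F V) (l : F) (hl : ¬ IsSquare l) (hφ : φ * φ = l • 1) (W : Submodule F V)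
    (hW : W ∈ φ.invtSubmodule) : Even (Module.finrank F W) := by
  by_contra hodd
  rw [Nat.not_even_iff_odd] at hodd
  obtain ⟨k, hk⟩ := hodd
  have hl0 : l ≠ 0 := by
    rintro rfl
    exact hl ⟨0, by rw [mul_zero]⟩
  have h1 : (res φ W hW) * (res φ W hW) = l • 1 := by
    apply LinearMap.ext
    intro w
    apply Subtype.ext
    have h2 : φ (φ (w : V)) = l • (w : V) := by
      have h3 := congrArg (fun ψ : Module.End F V => ψ (w : V)) hφ
      simpa using h3
    exact h2
  have h3 := congrArg LinearMap.det h1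
  rw [map_mul, LinearMap.det_smul, map_one, mul_one, hk, pow_succ, pow_mul] at h3
  apply hl
  refine ⟨LinearMap.det (res φ W hW) / l ^ k, ?_⟩
  rw [div_mul_div_comm, eq_div_iff (mul_ne_zero (pow_ne_zero k hl0) (pow_ne_zero k hl0)), h3]
  ring

/-- The kernel of an irreducible factor of multiplicity one has dimension its degree. -/
theorem finrank_ker [DecidableEq F] {n : Type*} [Fintype n] [DecidableEq n] (x : Matrix n n F)
    (N : ℕ) (hN : (N : F) ≠ 0) (hxN : x ^ N = 1) (P R : F[X]) (hP : Irreducible P)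
    (hPm : P.Monic) (hχ : x.charpoly = P * R) (hPR : ¬ P ∣ R) :
    Module.finrank F (LinearMap.ker (aeval (Matrix.toLin' x) P)) = P.natDegree := by
  obtain ⟨φ, hφ⟩ : ∃ φ : Module.End F (n → F), φ = Matrix.toLin' x := ⟨_, rfl⟩
  rw [← hφ]
  have hs : φ.IsSemisimple := hφ ▸ isSemisimple_toLin' x N hN hxN
  have hcp : φ.charpoly = P * R := by rw [hφ, Matrix.charpoly_toLin', hχ]
  obtain ⟨W, hWdef⟩ : ∃ W, W = LinearMap.ker (aeval φ P) := ⟨_, rfl⟩
  rw [← hWdef]
  have hW : W ∈ φ.invtSubmodule := by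
    rw [Module.End.mem_invtSubmodule]
    intro w hw
    rw [Submodule.mem_comap, hWdef, LinearMap.mem_ker]
    rw [hWdef, LinearMap.mem_ker] at hw
    have hc : aeval φ P * φ = φ * aeval φ P := by
      have h1 : aeval φ (P * X) = aeval φ (X * P) := by rw [mul_comm]
      rwa [map_mul, map_mul, aeval_X] at h1
    have h2 := congrArg (fun ψ : Module.End F (n → F) => ψ w) hc
    simp only [Module.End.mul_apply] at h2
    rw [h2, hw, map_zero]
  obtain ⟨ψ, hψ⟩ : ∃ ψ, ψ = res φ W hW := ⟨_, rfl⟩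
  have hψP : aeval ψ P = 0 := by
    apply LinearMap.ext
    intro w
    apply Subtype.ext
    rw [hψ, aeval_restrict_coe]
    have h1 : (w : n → F) ∈ W := w.2
    have h1' : (w : n → F) ∈ LinearMap.ker (aeval φ P) := by
      rw [← hWdef]
      exact h1
    rw [LinearMap.mem_ker] at h1'
    rw [h1']
    rfl
  have hdvd : ψ.charpoly ∣ P * R := by
    rw [← hcp, hψ]
    exact charpoly_restrict_dvd φ hs W hW
  have hnf : ∀ Q ∈ normalizedFactors ψ.charpoly, Q = P := by
    intro Q hQ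
    have hQi := irreducible_of_normalized_factor Q hQ
    have hQm := Cfsg.Agent.S2568.monic_of_mem_nf _ Q hQ
    have hQd := dvd_of_mem_normalizedFactors hQ
    obtain ⟨v, hv0, hv⟩ := exists_ker_of_dvd_charpoly ψ Q hQi hQd
    by_contra hne
    have hcop : IsCoprime Q P := by
      rw [hQi.coprime_iff_not_dvd]
      intro hd
      exact hne (eq_of_monic_of_associated hQm hPm (hQi.associated_of_dvd hP hd))
    obtain ⟨a, b, hab⟩ := hcop
    apply hv0
    have h1 : aeval ψ (a * Q + b * P) v = v := by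
      rw [hab, map_one]
      rfl
    rw [map_add, map_mul, map_mul, hψP, mul_zero, add_zero, Module.End.mul_apply, hv,
      map_zero] at h1
    exact h1.symm
  obtain ⟨k, hk⟩ : ∃ k, ψ.charpoly = P ^ k := by
    refine ⟨Multiset.card (normalizedFactors ψ.charpoly), ?_⟩
    have h1 : normalizedFactors ψ.charpoly =
        Multiset.replicate (Multiset.card (normalizedFactors ψ.charpoly)) P := by
      rw [Multiset.eq_replicate]
      exact ⟨rfl, hnf⟩
    conv_lhs => rw [← Cfsg.Agent.S2568.prod_nf ψ.charpoly (LinearMap.charpoly_monic ψ), h1]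
    rw [Multiset.prod_replicate]
  have hfin : Module.finrank F W = k * P.natDegree := by
    rw [← LinearMap.charpoly_natDegree ψ, hk, natDegree_pow]
  have hk1 : k ≤ 1 := by
    by_contra hk2
    push Not at hk2
    apply hPR
    have h2 : P ^ 2 ∣ P * R := dvd_trans (pow_dvd_pow P hk2) (hk ▸ hdvd)
    rw [pow_two] at h2
    exact (mul_dvd_mul_iff_left hP.ne_zero).mp h2
  have hk0 : k ≠ 0 := by
    rintro rfl
    rw [zero_mul] at hfin
    obtain ⟨v, hv0, hv⟩ := exists_ker_of_dvd_charpoly φ P hP (hcp ▸ Dvd.intro R rfl)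
    have hvW : v ∈ W := by
      rw [hWdef, LinearMap.mem_ker]
      exact hv
    have hWb : W = ⊥ := Submodule.finrank_eq_zero.mp hfin
    rw [hWb] at hvW
    exact hv0 ((Submodule.mem_bot F).mp hvW)
  have hk' : k = 1 := by omega
  rw [hfin, hk', one_mul]

theorem no_comm_odd [DecidableEq F] {n : Type*} [Fintype n] [DecidableEq n] (x : Matrix n n F)
    (N : ℕ) (hN : (N : F) ≠ 0) (hxN : x ^ N = 1) (P R : F[X]) (hP : Irreducible P)
    (hPm : P.Monic) (hχ : x.charpoly = P * R) (hPR : ¬ P ∣ R) (hodd : Odd P.natDegree)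
    (J' : Matrix n n F) (l : F) (hl : ¬ IsSquare l) (hJJ : J' * J' = l • 1)
    (hc : x * J' = J' * x) : False := by
  have h1 := finrank_ker x N hN hxN P R hP hPm hχ hPR
  have h2 := even_finrank (Matrix.toLin' J') l hl (by
    rw [Module.End.mul_eq_comp, ← Matrix.toLin'_mul, hJJ, map_smul, Matrix.toLin'_one]
    rfl) _ (ker_invt x J' hc P)
  rw [h1] at h2
  exact (Nat.not_even_iff_odd.mpr hodd) h2

end gen

section fin
variable {F : Type*} [Field F] [Fintype F]

theorem expand_pow_card (g : F[X]) (k : ℕ) :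
    expand F (Fintype.card F ^ k) g = g ^ (Fintype.card F ^ k) := by
  induction k with
  | zero => rw [pow_zero, expand_one, pow_one]
  | succ k ih =>
    rw [pow_succ, expand_mul, FiniteField.expand_card, map_pow, ih, ← pow_mul]

theorem frob_aeval {q : ℕ} (hF : Fintype.card F = q) {n : Type*} [Fintype n] [DecidableEq n]
    (x : Matrix n n F) (k : ℕ) (g : F[X]) : aeval (x ^ (q ^ k)) g = (aeval x g) ^ (q ^ k) := by
  rw [← expand_aeval, ← hF, expand_pow_card, map_pow]

theorem J_pow_qq {q : ℕ} (hF : Fintype.card F = q) (hodd : Odd q) {n : Type*} [Fintype n]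
    [DecidableEq n] (J : Matrix n n F) (l : F) (hl : ¬ IsSquare l) (hJJ : J * J = l • 1)
    (m' : ℕ) : J ^ ((q ^ 2) ^ m') = J := by
  have h1 : J ^ (q ^ 2) = J := by
    rw [pow_two, pow_mul, J_pow_q hF hodd J l hl hJJ, Odd.neg_pow hodd,
      J_pow_q hF hodd J l hl hJJ, neg_neg]
  induction m' with
  | zero => rw [pow_zero, pow_one]
  | succ k ih => rw [pow_succ, pow_mul, ih, h1]

theorem no_comm_four [DecidableEq F] {q : ℕ} (hF : Fintype.card F = q) (hodd : Odd q) {d : ℕ}
    (x : Matrix (Fin d ⊕ Fin d) (Fin d ⊕ Fin d) F) (hx : sadj x * x = 1)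
    (N : ℕ) (hN : (N : F) ≠ 0) (hxN : x ^ N = 1) (P R : F[X]) (hP : Irreducible P)
    (hPm : P.Monic) (hχ : x.charpoly = P * R) (hPR : ¬ P ∣ R) (m' : ℕ)
    (hxQ : x ^ ((q ^ 2) ^ m' + 1) = 1)
    (J' : Matrix (Fin d ⊕ Fin d) (Fin d ⊕ Fin d) F) (l : F) (hl : ¬ IsSquare l)
    (hJJ : J' * J' = l • 1) (hJs : sadj J' = -J') (hc : x * J' = J' * x) : False := by
  have h2 : (2 : F) ≠ 0 := two_ne_zero_of hF hodd
  have hl0 : l ≠ 0 := by
    rintro rfl
    exact hl ⟨0, by rw [mul_zero]⟩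
  have hq0 : 0 < q := by
    rcases hodd with ⟨k, hk⟩
    omega
  obtain ⟨Q, hQ⟩ : ∃ Q, Q = (q ^ 2) ^ m' := ⟨_, rfl⟩
  have hJQ : J' ^ Q = J' := by
    rw [hQ]
    exact J_pow_qq hF hodd J' l hl hJJ m'
  have hfrob : ∀ g : F[X], aeval (x ^ Q) g = (aeval x g) ^ Q := by
    intro g
    rw [hQ, ← pow_mul]
    exact frob_aeval hF x (2 * m') g
  rw [← hQ] at hxQ
  have hQpos : 0 < Q := by
    rw [hQ]
    exact pow_pos (pow_pos hq0 2) m'
  have hsx : sadj x = x ^ Q := by
    calc sadj x = sadj x * (x * x ^ Q) := by rw [← pow_succ', hxQ, Matrix.mul_one]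
      _ = x ^ Q := by rw [← Matrix.mul_assoc, hx, Matrix.one_mul]
  have hsadj : ∀ g : F[X], sadj (aeval x g) = (aeval x g) ^ Q := by
    intro g
    rw [sadj_aeval, hsx, hfrob]
  obtain ⟨φ, hφ⟩ : ∃ φ : Module.End F (Fin d ⊕ Fin d → F), φ = Matrix.toLin' x := ⟨_, rfl⟩
  have hcp : φ.charpoly = P * R := by rw [hφ, Matrix.charpoly_toLin', hχ]
  obtain ⟨v₀, hv₀, hPv₀⟩ := exists_ker_of_dvd_charpoly φ P hP (hcp ▸ Dvd.intro R rfl)
  have hfin := finrank_ker x N hN hxN P R hP hPm hχ hPR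
  rw [← hφ] at hfin
  have hZle : LinearMap.range (ev φ v₀) ≤ LinearMap.ker (aeval φ P) := by
    rintro w ⟨g, rfl⟩
    rw [LinearMap.mem_ker, ev_apply, ← Module.End.mul_apply, ← map_mul, mul_comm, map_mul,
      Module.End.mul_apply, hPv₀, map_zero]
  have hZfin : Module.finrank F (LinearMap.range (ev φ v₀)) = P.natDegree := by
    have h1 := charpoly_cycRes φ v₀ hv₀ P hP hPv₀
    have h3 := natDegree_eq_of_degree_eq (degree_eq_degree_of_associated h1)
    rw [LinearMap.charpoly_natDegree] at h3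
    exact h3
  have hZeq : LinearMap.range (ev φ v₀) = LinearMap.ker (aeval φ P) :=
    Submodule.eq_of_le_of_finrank_eq hZle (by rw [hZfin, hfin])
  have hJv : Matrix.toLin' J' v₀ ∈ LinearMap.range (ev φ v₀) := by
    rw [hZeq]
    have h3 := ker_invt x J' hc P
    rw [← hφ] at h3
    have h4 : LinearMap.ker (aeval φ P) ≤
        (LinearMap.ker (aeval φ P)).comap (Matrix.toLin' J') := h3
    exact h4 (LinearMap.mem_ker.mpr hPv₀)
  obtain ⟨ρ, hρ⟩ := hJv
  obtain ⟨a, b, hab⟩ := (hP.coprime_iff_not_dvd).mpr hPR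
  obtain ⟨E, hE⟩ : ∃ E, E = aeval x (b * R) := ⟨_, rfl⟩
  have hPR0 : aeval x (P * R) = 0 := by
    rw [← hχ]
    exact Matrix.aeval_self_charpoly x
  have hPE : aeval x P * E = 0 := by
    rw [hE, ← map_mul, show P * (b * R) = b * (P * R) by ring, map_mul, hPR0, mul_zero]
  have hE1 : E + aeval x (a * P) = 1 := by
    rw [hE, ← map_add, add_comm, hab, map_one]
  have hEE : E * E = E := by
    have h5 : E * aeval x (a * P) = 0 := by
      rw [hE, ← map_mul, show b * R * (a * P) = (b * a) * (P * R) by ring, map_mul, hPR0,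
        mul_zero]
    calc E * E = E * (E + aeval x (a * P)) := by rw [mul_add, h5, add_zero]
      _ = E := by rw [hE1, mul_one]
  have hEpow : ∀ k : ℕ, 0 < k → E ^ k = E := by
    intro k hk
    induction k with
    | zero => omega
    | succ k ih =>
      rcases Nat.eq_zero_or_pos k with h | h
      · subst h
        rw [zero_add, pow_one]
      · rw [pow_succ, ih h, hEE]
  have hEv₀ : E *ᵥ v₀ = v₀ := by
    have h6 : (E + aeval x (a * P)) *ᵥ v₀ = v₀ := by rw [hE1, Matrix.one_mulVec]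
    rw [Matrix.add_mulVec, map_mul, ← Matrix.mulVec_mulVec] at h6
    have h7 : aeval x P *ᵥ v₀ = 0 := by
      have h8 := hPv₀
      rw [hφ, toLin_aeval, Matrix.toLin'_apply] at h8
      exact h8
    rw [h7, Matrix.mulVec_zero, add_zero] at h6
    exact h6
  have hJE_comm : J' * E = E * J' := by
    rw [hE]
    exact (comm_aeval x J' hc (b * R)).symm
  have hN' : J' * E = aeval x (ρ * (b * R)) := by
    rw [map_mul, ← hE]
    apply Matrix.toLin'.injective
    apply LinearMap.ext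
    intro w
    rw [Matrix.toLin'_mul_apply, Matrix.toLin'_mul_apply]
    have hEw : Matrix.toLin' E w ∈ LinearMap.range (ev φ v₀) := by
      rw [hZeq, LinearMap.mem_ker, hφ, toLin_aeval, ← Matrix.toLin'_mul_apply, hPE, map_zero]
      rfl
    obtain ⟨g, hg⟩ := hEw
    rw [← hg, ev_apply]
    have h8 : Matrix.toLin' J' (aeval φ g v₀) = aeval φ g (Matrix.toLin' J' v₀) := by
      rw [hφ, toLin_aeval, ← Matrix.toLin'_mul_apply, ← Matrix.toLin'_mul_apply,
        comm_aeval x J' hc g]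
    rw [h8, ← hρ, ev_apply, ← toLin_aeval, ← hφ, ← Module.End.mul_apply, ← Module.End.mul_apply,
      ← map_mul, ← map_mul, mul_comm]
  obtain ⟨Nm, hNm⟩ : ∃ Nm, Nm = J' * E := ⟨_, rfl⟩
  have hs1 : sadj Nm = Nm := by
    have h9 : sadj Nm = Nm ^ Q := by
      rw [hNm, hN']
      exact hsadj _
    rw [h9, hNm, (show Commute J' E from hJE_comm).mul_pow, hJQ, hEpow Q hQpos]
  have hs2 : sadj Nm = -Nm := by
    rw [hNm, sadj_mul, hJs, hE, hsadj, ← hE, hEpow Q hQpos, Matrix.mul_neg, ← hJE_comm]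
  have hN0 : Nm = 0 := by
    have h9 : (2 : F) • Nm = 0 := by
      rw [two_smul]
      nth_rewrite 1 [← hs1]
      rw [hs2]
      exact neg_add_cancel Nm
    rcases smul_eq_zero.mp h9 with h | h
    · exact absurd h h2
    · exact h
  have hE0 : E = 0 := by
    have h10 : J' * Nm = l • E := by
      rw [hNm, ← Matrix.mul_assoc, hJJ, Matrix.smul_mul, Matrix.one_mul]
    rw [hN0, Matrix.mul_zero] at h10
    rcases smul_eq_zero.mp h10.symm with h | h
    · exact absurd h hl0
    · exact h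
  apply hv₀
  rw [← hEv₀, hE0, Matrix.zero_mulVec]

end fin

section wit
variable {F : Type*} [Field F]

theorem transv_witness {p : ℕ} [Fact p.Prime] [CharP F p] {d : ℕ} (hd : 1 ≤ d) :
    ∃ x : Matrix (Fin d ⊕ Fin d) (Fin d ⊕ Fin d) F, sadj x * x = 1 ∧ x ^ p = 1 ∧
      (∀ z : F, x ≠ z • 1) ∧
      ∀ (J' : Matrix (Fin d ⊕ Fin d) (Fin d ⊕ Fin d) F) (l : F), ¬ IsSquare l →
        J' * J' = l • 1 → x * J' = J' * x → False := by
  classical
  obtain ⟨v, hv⟩ : ∃ v : Fin d ⊕ Fin d → F, v = Pi.single (Sum.inl ⟨0, by omega⟩) 1 := ⟨_, rfl⟩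
  have hv0 : v ≠ 0 := by
    intro h
    have h1 := congrFun h (Sum.inl ⟨0, by omega⟩)
    rw [hv] at h1
    simp at h1
  obtain ⟨w, hw⟩ : ∃ w, form d F w v ≠ 0 := by
    by_contra hcon
    push Not at hcon
    exact hv0 ((form_nondeg (F := F) d).1 v (fun b => by
      rw [← (form_alt (F := F) d).neg_eq b v, hcon b, neg_zero]))
  have hT0 : Cfsg.sympTransvection d v (0 : F) = 1 := by
    unfold Cfsg.sympTransvection
    rw [zero_smul, add_zero]
  have hpow : ∀ k : ℕ, Cfsg.sympTransvection d v (1 : F) ^ k =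
      Cfsg.sympTransvection d v (k : F) := by
    intro k
    induction k with
    | zero => rw [pow_zero, Nat.cast_zero, hT0]
    | succ k ih => rw [pow_succ, ih, transvection_mul, Nat.cast_succ]
  refine ⟨Cfsg.sympTransvection d v 1,
    (Cfsg.Agent.Lib.Helper40.SympConj.mem_symp_iff _).mp (transvection_mem d v 1), ?_, ?_, ?_⟩
  · rw [hpow, CharP.cast_eq_zero, hT0]
  · intro z hz
    have h1 : Cfsg.sympTransvection d v 1 *ᵥ v =
        (z • (1 : Matrix (Fin d ⊕ Fin d) (Fin d ⊕ Fin d) F)) *ᵥ v := by rw [hz]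
    rw [transvection_mulVec, Matrix.smul_mulVec, Matrix.one_mulVec, one_mul,
      (form_alt (F := F) d) v, zero_smul, add_zero] at h1
    have hz1 : z = 1 := by
      by_contra hne
      apply hv0
      have h3 : (1 - z) • v = 0 := by rw [sub_smul, one_smul, ← h1, sub_self]
      rcases smul_eq_zero.mp h3 with h | h
      · exact absurd (sub_eq_zero.mp h).symm hne
      · exact h
    have h2 : Cfsg.sympTransvection d v 1 *ᵥ w =
        (z • (1 : Matrix (Fin d ⊕ Fin d) (Fin d ⊕ Fin d) F)) *ᵥ w := by rw [hz]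
    rw [transvection_mulVec, hz1, one_smul, Matrix.one_mulVec, one_mul] at h2
    have h3 : form d F w v • v = 0 := by simpa using h2
    rcases smul_eq_zero.mp h3 with h | h
    · exact hw h
    · exact hv0 h
  · intro J' l hl hJJ hc
    have h1 : (Cfsg.sympTransvection d v 1 * J') *ᵥ w =
        (J' * Cfsg.sympTransvection d v 1) *ᵥ w := by rw [hc]
    rw [← Matrix.mulVec_mulVec, ← Matrix.mulVec_mulVec, transvection_mulVec, transvection_mulVec,
      Matrix.mulVec_add, Matrix.mulVec_smul, one_mul, one_mul] at h1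
    have h3 := add_left_cancel h1
    obtain ⟨μ, hμ⟩ : ∃ μ : F, J' *ᵥ v = μ • v := by
      refine ⟨form d F (J' *ᵥ w) v / form d F w v, ?_⟩
      rw [div_eq_inv_mul, mul_smul, h3, smul_smul, inv_mul_cancel₀ hw, one_smul]
    have h4 : (J' * J') *ᵥ v = (μ * μ) • v := by
      rw [← Matrix.mulVec_mulVec, hμ, Matrix.mulVec_smul, hμ, smul_smul]
    rw [hJJ, Matrix.smul_mulVec, Matrix.one_mulVec] at h4
    have h5 : (l - μ * μ) • v = 0 := by rw [sub_smul, h4, sub_self]
    rcases smul_eq_zero.mp h5 with h | h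
    · exact hl ⟨μ, sub_eq_zero.mp h⟩
    · exact hv0 h

theorem odd_witness [Fintype F] [DecidableEq F] {p : ℕ} [Fact p.Prime] [CharP F p] {q : ℕ}
    (hF : Fintype.card F = q) (hodd : Odd q) {d : ℕ} (hd : 1 ≤ d) (r : ℕ) [Fact r.Prime]
    (hr2 : r ≠ 2)
    (hcase : r = p ∨ ∃ j < d, r ∣ (if Even j then q ^ (j + 1) - 1 else q ^ (j + 1) + 1)) :
    ∃ x : Matrix (Fin d ⊕ Fin d) (Fin d ⊕ Fin d) F, sadj x * x = 1 ∧ x ^ r = 1 ∧
      (∀ z : F, x ≠ z • 1) ∧
      ∀ (J' : Matrix (Fin d ⊕ Fin d) (Fin d ⊕ Fin d) F) (l : F), ¬ IsSquare l →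
        J' * J' = l • 1 → sadj J' = -J' → x * J' = J' * x → False := by
  by_cases hrp : r = p
  · subst hrp
    obtain ⟨x, h1, h2, h3, h4⟩ := transv_witness (F := F) (p := r) hd
    exact ⟨x, h1, h2, h3, fun J' l hl hJJ _ hc => h4 J' l hl hJJ hc⟩
  · have hcase' : ∃ j < d, r ∣ (if Even j then q ^ (j + 1) - 1 else q ^ (j + 1) + 1) := by
      rcases hcase with h | h
      · exact absurd h hrp
      · exact h
    obtain ⟨j, hj, hjd⟩ := hcase'
    have hr : r.Prime := Fact.out
    have hpp : p.Prime := Fact.out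
    have hrq : ¬ r ∣ q := by
      obtain ⟨n, -, hn⟩ := FiniteField.card F p
      rw [hF] at hn
      intro h
      rw [hn] at h
      exact hrp ((Nat.prime_dvd_prime_iff_eq hr hpp).mp (hr.dvd_of_dvd_pow h))
    have hq1 : 1 ≤ q := by
      rcases hodd with ⟨k, hk⟩
      omega
    have hcases := order_cases q d r hq1 hr2 hrq j hj hjd
    obtain ⟨i, hi⟩ : ∃ i, i = orderOf ((Fintype.card F : ℕ) : ZMod r) := ⟨_, rfl⟩
    have hiq : i = orderOf (q : ZMod r) := by rw [hi, hF]
    rw [← hiq] at hcases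
    have hipos : 0 < i := by
      rw [hiq]
      exact Cfsg.Agent.Lib.Helper40.CycloVal.order_pos q r hrq
    obtain ⟨t', ht'⟩ : ∃ t', t' * i = r - 1 := by
      have h1 := Cfsg.Agent.Lib.Helper40.PrimeFix.order_dvd (F := F) (p := p) r hrp
      rw [← hi] at h1
      obtain ⟨c, hc⟩ := h1
      exact ⟨c, by rw [hc, mul_comm]⟩
    obtain ⟨T, hTcard, hLT, hT, hpar, hTs, hTdvd⟩ :=
      cyclo_star_facts (F := F) (p := p) r i t' hr hr2 hrp hi ht'
    have ht'pos : 0 < t' := by
      rcases Nat.eq_zero_or_pos t' with h | h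
      · subst h
        rw [zero_mul] at ht'
        have h2 := hr.two_le
        omega
      · exact h
    obtain ⟨P₀, hP₀⟩ : ∃ P₀, P₀ ∈ T := Finset.card_pos.mp (by rw [hTcard]; exact ht'pos)
    obtain ⟨hP₀i, hP₀m, hP₀d, hP₀0⟩ := hT P₀ hP₀
    have hrF : ((r : ℕ) : F) ≠ 0 := by
      intro h
      have h1 := (CharP.cast_eq_zero_iff F p r).mp h
      exact hrp ((Nat.prime_dvd_prime_iff_eq hpp hr).mp h1).symm
    have hTim : ∀ P ∈ T, Irreducible P ∧ P.Monic := fun P hP => ⟨(hT P hP).1, (hT P hP).2.1⟩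
    have hT0 : ∀ P ∈ T, P.coeff 0 ≠ 0 := fun P hP => (hT P hP).2.2.2
    have hnot1 : ¬ P₀ ∣ X - C (1 : F) := by
      intro h1
      have h2 := eq_of_monic_of_associated hP₀m (monic_X_sub_C 1)
        (hP₀i.associated_of_dvd (irreducible_X_sub_C 1) h1)
      exact hLT (h2 ▸ hP₀)
    rcases hcases with ⟨hio, hid⟩ | ⟨hi4, hid⟩
    · obtain ⟨R, hR⟩ : ∃ R, R = P₀ * pstar P₀ := ⟨_, rfl⟩
      have hsP₀ : pstar P₀ ∈ T := hTs P₀ hP₀
      have hne : pstar P₀ ≠ P₀ := by
        intro h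
        exact (Nat.not_even_iff_odd.mpr hio) ((hpar P₀ hP₀).mp h)
      have hRm : R.Monic := hR ▸ hP₀m.mul (hT _ hsP₀).2.1
      have hRf : ∀ Q ∈ normalizedFactors R, Q ∈ T :=
        hR ▸ nf_pair_sub T hTim P₀ (pstar P₀) hP₀ hsP₀
      have hR0 : R.coeff 0 ≠ 0 := coeff0_of_nf T hT0 R hRm hRf
      have hR1 : R.eval 1 ≠ 0 := eval1_of_nf T hTim hLT R hRm hRf
      have hRs : pstar R = R := by
        rw [hR, pstar_mul, pstar_pstar P₀ hP₀m hP₀0, mul_comm]
      have hRd : R.natDegree = 2 * i := by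
        rw [hR, hP₀m.natDegree_mul (hT _ hsP₀).2.1, hP₀d, (hT _ hsP₀).2.2.1]
        ring
      obtain ⟨hχm, hχd, hχr, hχnf⟩ := adm_mk (2 * (d - i)) (even_two_mul _) R hRm hR0 hRs hR1
      have hadm : Adm T d ((X - C (1 : F)) ^ (2 * (d - i)) * R) := by
        refine ⟨hχm, by rw [hχd, hRd]; omega, hχr, ?_, ?_⟩
        · intro P hP
          rw [hχnf] at hP
          rcases Multiset.mem_add.mp hP with h | h
          · left
            exact Multiset.eq_of_mem_replicate h
          · right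
            exact hRf P h
        · refine ⟨P₀, ?_, hP₀⟩
          rw [hχnf]
          apply Multiset.mem_add.mpr
          right
          rw [hR, nf_mul' P₀ (pstar P₀) hP₀m (hT _ hsP₀).2.1, normalizedFactors_irreducible hP₀i,
            hP₀m.normalize_eq_self]
          exact Multiset.mem_add.mpr (Or.inl (Multiset.mem_singleton_self P₀))
      obtain ⟨x, hxr, hxns, hxc⟩ := exists_elt p hd r hr hr2 T hLT hTdvd _ hadm
      refine ⟨x.1, (Cfsg.Agent.Lib.Helper40.SympConj.mem_symp_iff _).mp x.2, hxr, hxns, ?_⟩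
      intro J' l hl hJJ _ hc
      apply no_comm_odd x.1 r hrF hxr P₀ ((X - C 1) ^ (2 * (d - i)) * pstar P₀) hP₀i hP₀m
        (by rw [hxc, hR]; ring) ?_ (hP₀d ▸ hio) J' l hl hJJ hc
      intro hdvd
      rcases hP₀i.prime.dvd_or_dvd hdvd with h | h
      · exact hnot1 (hP₀i.prime.dvd_of_dvd_pow h)
      · have h2 := eq_of_monic_of_associated hP₀m (hT _ hsP₀).2.1
          (hP₀i.associated_of_dvd (hT _ hsP₀).1 h)
        exact hne h2.symm
    · obtain ⟨m', hm'⟩ : ∃ m', i = 4 * m' := hi4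
      have hie : Even i := ⟨2 * m', by omega⟩
      have hsP₀ : pstar P₀ = P₀ := (hpar P₀ hP₀).mpr hie
      have hR1 : P₀.eval 1 ≠ 0 :=
        eval1_of_nf T hTim hLT P₀ hP₀m (nf_single_sub T hTim P₀ hP₀)
      obtain ⟨hχm, hχd, hχr, hχnf⟩ :=
        adm_mk (2 * d - i) ⟨d - 2 * m', by omega⟩ P₀ hP₀m hP₀0 hsP₀ hR1
      have hadm : Adm T d ((X - C (1 : F)) ^ (2 * d - i) * P₀) := by
        refine ⟨hχm, by rw [hχd, hP₀d]; omega, hχr, ?_, ?_⟩
        · intro P hP
          rw [hχnf] at hP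
          rcases Multiset.mem_add.mp hP with h | h
          · left
            exact Multiset.eq_of_mem_replicate h
          · right
            exact nf_single_sub T hTim P₀ hP₀ P h
        · refine ⟨P₀, ?_, hP₀⟩
          rw [hχnf, normalizedFactors_irreducible hP₀i, hP₀m.normalize_eq_self]
          exact Multiset.mem_add.mpr (Or.inr (Multiset.mem_singleton_self P₀))
      obtain ⟨x, hxr, hxns, hxc⟩ := exists_elt p hd r hr hr2 T hLT hTdvd _ hadm
      refine ⟨x.1, (Cfsg.Agent.Lib.Helper40.SympConj.mem_symp_iff _).mp x.2, hxr, hxns, ?_⟩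
      intro J' l hl hJJ hJs hc
      have hdvd : r ∣ q ^ (i / 2) + 1 := by
        rw [hiq]
        exact dvd_half q r (by rw [← hiq]; exact hie) (by rw [← hiq]; exact hipos)
      have hQ : q ^ (i / 2) = (q ^ 2) ^ m' := by
        rw [← pow_mul]
        congr 1
        omega
      rw [hQ] at hdvd
      have hxQ : x.1 ^ ((q ^ 2) ^ m' + 1) = 1 := by
        obtain ⟨c, hc⟩ := hdvd
        rw [hc, pow_mul, hxr, one_pow]
      exact no_comm_four hF hodd x.1 ((Cfsg.Agent.Lib.Helper40.SympConj.mem_symp_iff _).mp x.2)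
        r hrF hxr P₀ ((X - C 1) ^ (2 * d - i)) hP₀i hP₀m (by rw [hxc]; ring)
        (fun hdvd' => hnot1 (hP₀i.prime.dvd_of_dvd_pow hdvd')) m' hxQ J' l hl hJJ hJs hc

end wit

end Cfsg.Agent.Lib.Helper40.FExtOdd
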