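import Mathlib

set_option autoImplicit false

namespace Cfsg.Agent.Lib.Helper40.CharIdem

open Matrix

section
variable {R : Type*} [CommRing R] [Fintype R] {L : Type*} [Field L] {m d : ℕ}
variable (ψ : R → L)

/-- Orthogonality: the sum of `ψ (k ⬝ᵥ a)` over all `k` vanishes for `a ≠ 0`. -/
theorem sum_char (hψadd : ∀ x y, ψ (x + y) = ψ x * ψ y)
    (hψprim : ∀ r : R, r ≠ 0 → ∃ t : R, ψ (t * r) ≠ 1) (a : Fin m → R) (ha : a ≠ 0) :
    ∑ k : Fin m → R, ψ (k ⬝ᵥ a) = 0 := by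
  classical
  obtain ⟨i, hi⟩ := Function.ne_iff.mp ha
  obtain ⟨t, ht⟩ := hψprim (a i) hi
  have h1 : (Pi.single i t : Fin m → R) ⬝ᵥ a = t * a i := single_dotProduct a t i
  have h2 : ∑ k : Fin m → R, ψ ((k + Pi.single i t) ⬝ᵥ a) = ∑ k : Fin m → R, ψ (k ⬝ᵥ a) :=
    Equiv.sum_comp (Equiv.addRight (Pi.single i t : Fin m → R)) (fun k => ψ (k ⬝ᵥ a))
  have h3 : ∑ k : Fin m → R, ψ ((k + Pi.single i t) ⬝ᵥ a) =
      ψ (t * a i) * ∑ k : Fin m → R, ψ (k ⬝ᵥ a) := by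
    rw [Finset.mul_sum]
    apply Finset.sum_congr rfl
    intro k _
    rw [add_dotProduct, hψadd, h1, mul_comm]
  rw [h3] at h2
  have h4 : (ψ (t * a i) - 1) * ∑ k : Fin m → R, ψ (k ⬝ᵥ a) = 0 := by
    rw [sub_mul, one_mul, h2, sub_self]
  rcases mul_eq_zero.mp h4 with h5 | h5
  · exact absurd (sub_eq_zero.mp h5) ht
  · exact h5

theorem sum_char' (hψadd : ∀ x y, ψ (x + y) = ψ x * ψ y)
    (hψprim : ∀ r : R, r ≠ 0 → ∃ t : R, ψ (t * r) ≠ 1) (k : Fin m → R) (hk : k ≠ 0) :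
    ∑ a : Fin m → R, ψ (k ⬝ᵥ a) = 0 := by
  have h := sum_char ψ hψadd hψprim k hk
  rw [← h]
  apply Finset.sum_congr rfl
  intro a _
  rw [dotProduct_comm]

variable (T : (Fin m → R) → Matrix (Fin d) (Fin d) L)

/-- The isotypic projection attached to the character `a ↦ ψ (k ⬝ᵥ a)`. -/
noncomputable def E (k : Fin m → R) : Matrix (Fin d) (Fin d) L :=
  ((Fintype.card (Fin m → R) : L))⁻¹ • ∑ a : Fin m → R, ψ (-(k ⬝ᵥ a)) • T a

theorem T_mul_E (hψadd : ∀ x y, ψ (x + y) = ψ x * ψ y)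
    (hTadd : ∀ a b, T (a + b) = T a * T b) (b k : Fin m → R) :
    T b * E ψ T k = ψ (k ⬝ᵥ b) • E ψ T k := by
  unfold E
  rw [Matrix.mul_smul, smul_comm (ψ (k ⬝ᵥ b))]
  congr 1
  rw [Matrix.mul_sum, Finset.smul_sum]
  rw [← Equiv.sum_comp (Equiv.addLeft b) (fun c => ψ (k ⬝ᵥ b) • ψ (-(k ⬝ᵥ c)) • T c)]
  apply Finset.sum_congr rfl
  intro a _
  simp only [Equiv.coe_addLeft]
  rw [Matrix.mul_smul, ← hTadd, smul_smul]
  congr 1
  rw [← hψadd]
  congr 1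
  rw [dotProduct_add]
  ring

theorem sum_smul_E (hψ0 : ψ 0 = 1) (hψadd : ∀ x y, ψ (x + y) = ψ x * ψ y)
    (hψprim : ∀ r : R, r ≠ 0 → ∃ t : R, ψ (t * r) ≠ 1)
    (hcard : (Fintype.card (Fin m → R) : L) ≠ 0) (b : Fin m → R) :
    ∑ k : Fin m → R, ψ (k ⬝ᵥ b) • E ψ T k = T b := by
  classical
  unfold E
  have h1 : ∀ k : Fin m → R, ψ (k ⬝ᵥ b) • ((Fintype.card (Fin m → R) : L))⁻¹ •
      ∑ a : Fin m → R, ψ (-(k ⬝ᵥ a)) • T a =
      ((Fintype.card (Fin m → R) : L))⁻¹ • ∑ a : Fin m → R, ψ (k ⬝ᵥ (b - a)) • T a := by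
    intro k
    rw [smul_comm, Finset.smul_sum]
    congr 1
    apply Finset.sum_congr rfl
    intro a _
    rw [smul_smul, ← hψadd]
    congr 2
    rw [dotProduct_sub]
    ring
  rw [Finset.sum_congr rfl (fun k _ => h1 k), ← Finset.smul_sum, Finset.sum_comm]
  have h2 : ∀ a : Fin m → R, ∑ k : Fin m → R, ψ (k ⬝ᵥ (b - a)) • T a =
      if a = b then (Fintype.card (Fin m → R) : L) • T a else 0 := by
    intro a
    rw [← Finset.sum_smul]
    split_ifs with h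
    · subst h
      simp [hψ0]
    · rw [sum_char ψ hψadd hψprim (b - a) (fun h0 => h (sub_eq_zero.mp h0).symm), zero_smul]
  rw [Finset.sum_congr rfl (fun a _ => h2 a), Finset.sum_ite_eq' Finset.univ b]
  simp only [Finset.mem_univ, if_true]
  rw [smul_smul, inv_mul_cancel₀ hcard, one_smul]

theorem sum_E (hψ0 : ψ 0 = 1) (hψadd : ∀ x y, ψ (x + y) = ψ x * ψ y)
    (hψprim : ∀ r : R, r ≠ 0 → ∃ t : R, ψ (t * r) ≠ 1)
    (hcard : (Fintype.card (Fin m → R) : L) ≠ 0) (hT0 : T 0 = 1) :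
    ∑ k : Fin m → R, E ψ T k = 1 := by
  have h := sum_smul_E ψ T hψ0 hψadd hψprim hcard 0
  rw [hT0] at h
  rw [← h]
  apply Finset.sum_congr rfl
  intro k _
  rw [dotProduct_zero, hψ0, one_smul]

theorem E_mul_E_aux (hψadd : ∀ x y, ψ (x + y) = ψ x * ψ y)
    (hTadd : ∀ a b, T (a + b) = T a * T b) (k l : Fin m → R) :
    E ψ T k * E ψ T l =
      ((Fintype.card (Fin m → R) : L))⁻¹ • (∑ a : Fin m → R, ψ ((l - k) ⬝ᵥ a)) • E ψ T l := by
  conv_lhs => rw [E]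
  rw [Matrix.smul_mul, Matrix.sum_mul, Finset.sum_smul]
  congr 1
  apply Finset.sum_congr rfl
  intro a _
  rw [Matrix.smul_mul, T_mul_E ψ T hψadd hTadd, smul_smul, ← hψadd]
  congr 2
  rw [sub_dotProduct]
  ring

theorem E_mul_E_self (hψ0 : ψ 0 = 1) (hψadd : ∀ x y, ψ (x + y) = ψ x * ψ y)
    (hcard : (Fintype.card (Fin m → R) : L) ≠ 0)
    (hTadd : ∀ a b, T (a + b) = T a * T b) (k : Fin m → R) :
    E ψ T k * E ψ T k = E ψ T k := by
  rw [E_mul_E_aux ψ T hψadd hTadd]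
  simp only [sub_self, zero_dotProduct, hψ0, Finset.sum_const, Finset.card_univ, nsmul_eq_mul,
    mul_one]
  rw [smul_smul, inv_mul_cancel₀ hcard, one_smul]

theorem E_mul_E_of_ne (hψadd : ∀ x y, ψ (x + y) = ψ x * ψ y)
    (hψprim : ∀ r : R, r ≠ 0 → ∃ t : R, ψ (t * r) ≠ 1)
    (hTadd : ∀ a b, T (a + b) = T a * T b) (k l : Fin m → R) (h : k ≠ l) :
    E ψ T k * E ψ T l = 0 := by
  rw [E_mul_E_aux ψ T hψadd hTadd,
    sum_char' ψ hψadd hψprim (l - k) (fun h0 => h (sub_eq_zero.mp h0).symm), zero_smul, smul_zero]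

/-- The number of non-zero isotypic projections is at most the degree. -/
theorem card_support_le (hψ0 : ψ 0 = 1) (hψadd : ∀ x y, ψ (x + y) = ψ x * ψ y)
    (hψprim : ∀ r : R, r ≠ 0 → ∃ t : R, ψ (t * r) ≠ 1)
    (hcard : (Fintype.card (Fin m → R) : L) ≠ 0)
    (hTadd : ∀ a b, T (a + b) = T a * T b) (X : Finset (Fin m → R))
    (hX : ∀ k ∈ X, E ψ T k ≠ 0) : X.card ≤ d := by
  classical
  have hex : ∀ k : X, ∃ u : Fin d → L, (E ψ T k.1) *ᵥ u ≠ 0 := by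
    intro k
    by_contra hcon
    push Not at hcon
    apply hX k.1 k.2
    apply Matrix.mulVec_injective
    funext u
    rw [hcon u, Matrix.zero_mulVec]
  choose u hu using hex
  have hli : LinearIndependent L (fun k : X => (E ψ T k.1) *ᵥ (u k)) := by
    rw [linearIndependent_iff']
    intro s c hc l hl
    have h1 := congrArg (fun w => (E ψ T l.1) *ᵥ w) hc
    simp only [Matrix.mulVec_sum, Matrix.mulVec_smul, Matrix.mulVec_mulVec, Matrix.mulVec_zero] at h1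
    have h2 : ∀ k ∈ s, c k • (E ψ T l.1 * E ψ T k.1) *ᵥ u k =
        if k = l then c l • (E ψ T l.1) *ᵥ (u l) else 0 := by
      intro k _
      by_cases hkl : k = l
      · subst hkl
        rw [if_pos rfl, E_mul_E_self ψ T hψ0 hψadd hcard hTadd]
      · have hne : l.1 ≠ k.1 := fun h => hkl (Subtype.ext h.symm)
        rw [if_neg hkl, E_mul_E_of_ne ψ T hψadd hψprim hTadd _ _ hne, Matrix.zero_mulVec, smul_zero]
    rw [Finset.sum_congr rfl h2, Finset.sum_ite_eq' s l, if_pos hl] at h1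
    rcases smul_eq_zero.mp h1 with h3 | h3
    · exact h3
    · exact absurd h3 (hu l)
  have h3 := hli.fintype_card_le_finrank
  rw [Module.finrank_fin_fun, Fintype.card_coe] at h3
  exact h3

end

end Cfsg.Agent.Lib.Helper40.CharIdem
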