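import Mathlib

set_option autoImplicit false

namespace Cfsg.Agent.Lib.Helper40.ComplCount

open Module

section
variable {F : Type*} [Field F] [Fintype F] {V : Type*} [AddCommGroup V] [Module F V] [Finite V]

/-- Complements of `U` correspond to linear maps from a fixed complement to `U`. -/
noncomputable def complEquiv (U W₀ : Submodule F V) (hc : IsCompl U W₀) :
    {W : Submodule F V // IsCompl U W} ≃ (W₀ →ₗ[F] U) :=
  (U.isComplEquivProj).trans
    { toFun := fun f => f.1.domRestrict W₀
      invFun := fun g => ⟨LinearMap.ofIsCompl hc LinearMap.id g, fun x => by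
        rw [LinearMap.ofIsCompl_apply_left]
        rfl⟩
      left_inv := by
        intro f
        apply Subtype.ext
        apply LinearMap.ofIsCompl_eq
        · intro u
          exact (f.2 u).symm
        · intro u
          rfl
      right_inv := by
        intro g
        apply LinearMap.ext
        intro w
        exact LinearMap.ofIsCompl_apply_right hc w }

/-- The number of complements of a subspace. -/
theorem card_compl (U : Submodule F V) :
    Nat.card {W : Submodule F V // IsCompl U W} =
      Fintype.card F ^ ((finrank F V - finrank F U) * finrank F U) := by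
  classical
  obtain ⟨W₀, hc⟩ := Submodule.exists_isCompl U
  rw [Nat.card_congr (complEquiv U W₀ hc)]
  have hfin : Finite (W₀ →ₗ[F] U) :=
    Finite.of_injective (fun f : W₀ →ₗ[F] U => (f : W₀ → U)) DFunLike.coe_injective
  have : Fintype (W₀ →ₗ[F] U) := Fintype.ofFinite _
  rw [Nat.card_eq_fintype_card, Module.card_eq_pow_finrank (K := F), Module.finrank_linearMap]
  have h1 := Submodule.finrank_add_eq_of_isCompl hc
  congr 2
  omega

/-- The number of pairs of complementary subspaces with `dim U = m`. -/
theorem card_compl_pairs (m : ℕ) :
    Nat.card {P : Submodule F V × Submodule F V // IsCompl P.1 P.2 ∧ finrank F P.1 = m} =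
    Nat.card {U : Submodule F V // finrank F U = m} *
      Fintype.card F ^ ((finrank F V - m) * m) := by
  classical
  let f : {P : Submodule F V × Submodule F V // IsCompl P.1 P.2 ∧ finrank F P.1 = m} →
      {U : Submodule F V // finrank F U = m} := fun P => ⟨P.1.1, P.2.2⟩
  rw [← Nat.card_congr (Equiv.sigmaFiberEquiv f)]
  have : Fintype {U : Submodule F V // finrank F U = m} := Fintype.ofFinite _
  rw [Nat.card_sigma]
  have h : ∀ U : {U : Submodule F V // finrank F U = m},
      Nat.card {P // f P = U} = Fintype.card F ^ ((finrank F V - m) * m) := by
    intro U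
    have e : {P // f P = U} ≃ {W : Submodule F V // IsCompl U.1 W} :=
      { toFun := fun P => ⟨P.1.1.2, by
          have h1 := P.1.2.1
          have h2 : P.1.1.1 = U.1 := congrArg Subtype.val P.2
          rw [h2] at h1
          exact h1⟩
        invFun := fun W => ⟨⟨(U.1, W.1), W.2, U.2⟩, rfl⟩
        left_inv := by
          intro P
          have h2 : P.1.1.1 = U.1 := congrArg Subtype.val P.2
          apply Subtype.ext
          apply Subtype.ext
          apply Prod.ext
          · exact h2.symm
          · rfl
        right_inv := by
          intro W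
          rfl }
    rw [Nat.card_congr e, card_compl, U.2]
  rw [Finset.sum_congr rfl (fun U _ => h U), Finset.sum_const, Finset.card_univ, smul_eq_mul,
    Nat.card_eq_fintype_card]

/-- A prime not dividing `q` which divides the number of complementary pairs divides the number
of `m`-subspaces. -/
theorem dvd_card_subspaces (m : ℕ) (r : ℕ) (hr : r.Prime) (hrq : ¬ r ∣ Fintype.card F)
    (h : r ∣ Nat.card {P : Submodule F V × Submodule F V //
      IsCompl P.1 P.2 ∧ finrank F P.1 = m}) :
    r ∣ Nat.card {U : Submodule F V // finrank F U = m} := by
  rw [card_compl_pairs] at h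
  rcases (Nat.Prime.dvd_mul hr).mp h with h1 | h1
  · exact h1
  · exact absurd (hr.dvd_of_dvd_pow h1) hrq

end

end Cfsg.Agent.Lib.Helper40.ComplCount
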