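import Mathlib
import Cfsg.Agent.Lib.Helper40.CycloVal

set_option autoImplicit false

namespace Cfsg.Agent.Lib.Helper40.CycloVal2

open Cfsg.Agent.Lib.Helper40

section
variable (q r : ℕ) [Fact r.Prime]

/-- For `r ∤ k` the `r`-part of `q^(dk) - 1` is that of `q^d - 1`. -/
theorem padicValNat_pow_mul_sub_one (hq : 2 ≤ q) (k : ℕ) (hkr : ¬ r ∣ k) :
    padicValNat r (q ^ (orderOf (q : ZMod r) * k) - 1) =
      padicValNat r (q ^ orderOf (q : ZMod r) - 1) := by
  obtain ⟨d, hd⟩ : ∃ d, d = orderOf (q : ZMod r) := ⟨_, rfl⟩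
  rw [← hd]
  by_cases hd0 : d = 0
  · rw [hd0]; simp
  have hx : 2 ≤ q ^ d := by
    calc 2 ≤ q := hq
      _ = q ^ 1 := (pow_one q).symm
      _ ≤ q ^ d := Nat.pow_le_pow_right (by omega) (by omega)
  have h1 := CycloVal.geom (q ^ d) (by omega) k
  have h2 : q ^ (d * k) - 1 = (q ^ d - 1) * ∑ l ∈ Finset.range k, (q ^ d) ^ l := by
    rw [pow_mul, ← h1, Nat.add_sub_cancel]
  have hS : ¬ r ∣ ∑ l ∈ Finset.range k, (q ^ d) ^ l := by
    rw [← ZMod.natCast_eq_zero_iff]
    push_cast
    have h3 : (q : ZMod r) ^ d = 1 := by rw [hd]; exact pow_orderOf_eq_one _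
    rw [h3]
    simp only [one_pow, Finset.sum_const, Finset.card_range, nsmul_eq_mul, mul_one]
    rw [ZMod.natCast_eq_zero_iff]
    exact hkr
  have hS0 : ∑ l ∈ Finset.range k, (q ^ d) ^ l ≠ 0 := by
    intro h0
    apply hS
    rw [h0]
    exact dvd_zero r
  rw [h2, padicValNat.mul (by omega) hS0, padicValNat.eq_zero_of_not_dvd hS, add_zero]

/-- The `r`-part of `q^j - 1`. -/
theorem padicValNat_pow_sub_one (hq : 2 ≤ q) (j : ℕ)
    (hj : ∀ k, j = orderOf (q : ZMod r) * k → ¬ r ∣ k) :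
    padicValNat r (q ^ j - 1) =
      if orderOf (q : ZMod r) ∣ j then padicValNat r (q ^ orderOf (q : ZMod r) - 1) else 0 := by
  split_ifs with h
  · obtain ⟨k, rfl⟩ := h
    exact padicValNat_pow_mul_sub_one q r hq k (hj k rfl)
  · apply padicValNat.eq_zero_of_not_dvd
    rw [CycloVal.dvd_pow_sub_one_iff q r (by omega)]
    exact h

/-- The `r`-part of the order of `GL_n(q)` when no `k` with `d k ≤ n` is divisible by `r`. -/
theorem padicValNat_card_GL (hq : 2 ≤ q) (hrq : ¬ r ∣ q) (n : ℕ)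
    (hn : ∀ k, 0 < k → orderOf (q : ZMod r) * k ≤ n → ¬ r ∣ k) :
    padicValNat r (∏ i : Fin n, (q ^ n - q ^ (i : ℕ))) =
      (n / orderOf (q : ZMod r)) *
        padicValNat r ((Polynomial.cyclotomic (orderOf (q : ZMod r)) ℤ).eval (q : ℤ)).natAbs := by
  rw [← CycloVal.padicValNat_pow_order_sub_one q r hq hrq]
  obtain ⟨d, hd⟩ : ∃ d, d = orderOf (q : ZMod r) := ⟨_, rfl⟩
  have hdpos : 0 < d := hd ▸ CycloVal.order_pos q r hrq
  have hterm : ∀ j : ℕ, 0 < j → j ≤ n → padicValNat r (q ^ j - 1) =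
      if d ∣ j then padicValNat r (q ^ d - 1) else 0 := by
    intro j hj hjn
    split_ifs with h
    · obtain ⟨k, rfl⟩ := h
      have hk : 0 < k := Nat.pos_of_ne_zero (by rintro rfl; simp at hj)
      rw [hd]
      exact padicValNat_pow_mul_sub_one q r hq k (hn k hk (by rw [← hd]; exact hjn))
    · apply padicValNat.eq_zero_of_not_dvd
      rw [CycloVal.dvd_pow_sub_one_iff q r (by omega), ← hd]
      exact h
  have hfac : ∀ i : Fin n, q ^ n - q ^ (i : ℕ) = q ^ (i : ℕ) * (q ^ (n - (i : ℕ)) - 1) := by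
    intro i
    have : q ^ n = q ^ (i : ℕ) * q ^ (n - (i : ℕ)) := by
      rw [← pow_add]; congr 1; have := i.isLt; omega
    rw [this, Nat.mul_sub, mul_one]
  have hne : ∀ i : Fin n, q ^ (n - (i : ℕ)) - 1 ≠ 0 := by
    intro i
    have h1 : 2 ≤ q ^ (n - (i : ℕ)) := by
      calc 2 ≤ q := hq
        _ = q ^ 1 := (pow_one q).symm
        _ ≤ q ^ (n - (i : ℕ)) := Nat.pow_le_pow_right (by omega) (by have := i.isLt; omega)
    omega
  rw [CycloVal.padicValNat_finset_prod]
  · have h1 : ∀ i : Fin n, padicValNat r (q ^ n - q ^ (i : ℕ)) =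
        if d ∣ (n - (i : ℕ)) then padicValNat r (q ^ d - 1) else 0 := by
      intro i
      rw [hfac i, padicValNat.mul (pow_ne_zero _ (by omega)) (hne i),
        padicValNat.eq_zero_of_not_dvd (fun h => hrq ((Fact.out : r.Prime).dvd_of_dvd_pow h)), zero_add]
      exact hterm _ (by have := i.isLt; omega) (Nat.sub_le _ _)
    rw [Finset.sum_congr rfl (fun i _ => h1 i), ← hd]
    rw [← Finset.sum_filter, Finset.sum_const, smul_eq_mul]
    congr 1
    rw [← Nat.card_multiples n d]
    apply Finset.card_bij (fun (i : Fin n) _ => n - 1 - (i : ℕ))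
    · intro i hi
      simp only [Finset.mem_filter, Finset.mem_univ, true_and] at hi
      simp only [Finset.mem_filter, Finset.mem_range]
      have := i.isLt
      refine ⟨by omega, ?_⟩
      have e : n - 1 - (i : ℕ) + 1 = n - (i : ℕ) := by omega
      rw [e]
      exact hi
    · intro i _ j _ h
      have := i.isLt
      have := j.isLt
      apply Fin.ext
      omega
    · intro e he
      simp only [Finset.mem_filter, Finset.mem_range] at he
      refine ⟨⟨n - 1 - e, by omega⟩, ?_, ?_⟩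
      · simp only [Finset.mem_filter, Finset.mem_univ, true_and]
        have e' : n - (n - 1 - e) = e + 1 := by omega
        rw [e']
        exact he.2
      · show n - 1 - (n - 1 - e) = e
        omega
  · intro i _
    rw [hfac i]
    exact mul_ne_zero (pow_ne_zero _ (by omega)) (hne i)

/-- The `r`-part of the order of `Sp_{2n}(q)` for an odd prime `r > n` not dividing `q`. -/
theorem padicValNat_card_Sp (hq : 2 ≤ q) (hrq : ¬ r ∣ q) (hr2 : r ≠ 2) (n : ℕ) (hrn : n < r) :
    padicValNat r (q ^ (n ^ 2) * ∏ i ∈ Finset.range n, (q ^ (2 * (i + 1)) - 1)) =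
      ((Finset.Icc 1 n).filter (fun i => orderOf (q : ZMod r) ∣ 2 * i)).card *
        padicValNat r ((Polynomial.cyclotomic (orderOf (q : ZMod r)) ℤ).eval (q : ℤ)).natAbs := by
  rw [← CycloVal.padicValNat_pow_order_sub_one q r hq hrq]
  have hr : r.Prime := Fact.out
  have hne : ∀ i ∈ Finset.range n, q ^ (2 * (i + 1)) - 1 ≠ 0 := by
    intro i _
    have h1 : 2 ≤ q ^ (2 * (i + 1)) := by
      calc 2 ≤ q := hq
        _ = q ^ 1 := (pow_one q).symm
        _ ≤ q ^ (2 * (i + 1)) := Nat.pow_le_pow_right (by omega) (by omega)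
    omega
  have hterm : ∀ i ∈ Finset.range n, padicValNat r (q ^ (2 * (i + 1)) - 1) =
      if orderOf (q : ZMod r) ∣ 2 * (i + 1) then padicValNat r (q ^ orderOf (q : ZMod r) - 1)
      else 0 := by
    intro i hi
    apply padicValNat_pow_sub_one q r hq
    intro k hk hrk
    have h1 : r ∣ 2 * (i + 1) := by
      rw [hk]
      exact Dvd.dvd.mul_left hrk _
    rcases (Nat.Prime.dvd_mul hr).mp h1 with h2 | h2
    · exact hr2 ((Nat.prime_dvd_prime_iff_eq hr Nat.prime_two).mp h2)
    · have h3 := Nat.le_of_dvd (by omega) h2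
      have h4 := Finset.mem_range.mp hi
      omega
  rw [padicValNat.mul (pow_ne_zero _ (by omega)) (Finset.prod_ne_zero_iff.mpr hne),
    padicValNat.eq_zero_of_not_dvd (fun h => hrq (hr.dvd_of_dvd_pow h)), zero_add,
    CycloVal.padicValNat_finset_prod r _ _ hne, Finset.sum_congr rfl hterm, ← Finset.sum_filter,
    Finset.sum_const, smul_eq_mul]
  congr 1
  apply Finset.card_bij (fun (i : ℕ) _ => i + 1)
  · intro i hi
    simp only [Finset.mem_filter, Finset.mem_range] at hi
    simp only [Finset.mem_filter, Finset.mem_Icc]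
    exact ⟨⟨by omega, by omega⟩, hi.2⟩
  · intro i _ j _ h
    omega
  · intro i hi
    simp only [Finset.mem_filter, Finset.mem_Icc] at hi
    refine ⟨i - 1, ?_, by omega⟩
    simp only [Finset.mem_filter, Finset.mem_range]
    refine ⟨by omega, ?_⟩
    rw [Nat.sub_add_cancel (by omega)]
    exact hi.2

end

end Cfsg.Agent.Lib.Helper40.CycloVal2
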