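import Mathlib
import Cfsg.Agent.Lib.Helper40.FExtIdx
import Cfsg.Agent.Lib.Helper40.SpPoly
import Cfsg.Agent.Lib.Helper40.SpReal

set_option autoImplicit false

namespace Cfsg.Agent.Lib.Helper40.FExtTwo

open Matrix Polynomial UniqueFactorizationMonoid
open Cfsg.Agent.Lib.Helper40.SympConj Cfsg.Agent.Lib.Helper40.FExt
  Cfsg.Agent.Lib.Helper40.FExtIdx

section gen
variable {F : Type*} [Field F]

theorem prod_two [DecidableEq F] (s : Multiset F[X]) (u v : F[X]) (huv : u ≠ v)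
    (h : ∀ P ∈ s, P = u ∨ P = v) : s.prod = u ^ (s.count u) * v ^ (s.count v) := by
  rw [Finset.prod_multiset_count s]
  have hsub : s.toFinset ⊆ {u, v} := by
    intro P hP
    rw [Multiset.mem_toFinset] at hP
    rw [Finset.mem_insert, Finset.mem_singleton]
    exact h P hP
  rw [Finset.prod_subset hsub (by
    intro P _ hP
    rw [Multiset.mem_toFinset] at hP
    rw [Multiset.count_eq_zero_of_notMem hP, pow_zero]), Finset.prod_pair huv]

theorem pow4 {n : Type*} [Fintype n] [DecidableEq n] (M : Matrix n n F)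
    (h : M * M = 1 ∨ M * M = -1) : M ^ 4 = 1 := by
  have h1 : M ^ 4 = (M * M) * (M * M) := by noncomm_ring
  rw [h1]
  rcases h with h | h <;> rw [h] <;> simp

theorem charpoly_sadj {d : ℕ} (y : Matrix (Fin d ⊕ Fin d) (Fin d ⊕ Fin d) F) :
    (sadj y).charpoly = y.charpoly := by
  unfold sadj
  rw [Matrix.charpoly_mul_comm, ← Matrix.mul_assoc, J_mul_neg_J, Matrix.one_mul,
    Matrix.charpoly_transpose]

theorem cp_neg (h2 : (2 : F) ≠ 0) {d : ℕ} (y : Matrix (Fin d ⊕ Fin d) (Fin d ⊕ Fin d) F)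
    (hy : sadj y * y = 1) (hyy : y * y = -1) : y.charpoly = (X ^ 2 + 1) ^ d := by
  have hs : sadj y = -y := by
    calc sadj y = sadj y * (y * (-y)) := by rw [Matrix.mul_neg, hyy, neg_neg, Matrix.mul_one]
      _ = -y := by rw [← Matrix.mul_assoc, hy, Matrix.one_mul]
  have h1 : (-y).charpoly = y.charpoly := by
    rw [← hs]
    exact charpoly_sadj y
  have h3 : y.charpoly * (-y).charpoly = (X ^ 2 + 1) ^ (d + d) := by
    unfold Matrix.charpoly
    rw [← Matrix.det_mul]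
    have hA : Matrix.scalar (Fin d ⊕ Fin d) (X : F[X]) = (X : F[X]) • 1 := by
      ext i j
      simp [Matrix.scalar_apply, Matrix.diagonal_apply, Matrix.one_apply]
    have h4 : Matrix.charmatrix y * Matrix.charmatrix (-y) =
        (X ^ 2 + 1 : F[X]) • (1 : Matrix (Fin d ⊕ Fin d) (Fin d ⊕ Fin d) F[X]) := by
      unfold Matrix.charmatrix
      rw [map_neg, sub_neg_eq_add, hA, sub_mul, mul_add, mul_add]
      simp only [Matrix.smul_mul, Matrix.mul_smul, Matrix.one_mul, Matrix.mul_one, smul_smul]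
      rw [← map_mul, hyy, map_neg, map_one, add_smul, one_smul, pow_two]
      abel
    rw [h4, Matrix.det_smul, Matrix.det_one, mul_one, Fintype.card_sum, Fintype.card_fin]
  rw [h1] at h3
  have h5 : y.charpoly * y.charpoly = (X ^ 2 + 1) ^ d * (X ^ 2 + 1) ^ d := by
    rw [h3, pow_add]
  have hm : ((X ^ 2 + 1 : F[X]) ^ d).Monic := by
    apply Monic.pow
    monicity!
  rcases mul_self_eq_mul_self_iff.mp h5 with h | h
  · exact h
  · exfalso
    have h6 := congrArg leadingCoeff h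
    rw [(Matrix.charpoly_monic y).leadingCoeff, leadingCoeff_neg, hm.leadingCoeff] at h6
    apply h2
    linear_combination h6

theorem cp_pos [DecidableEq F] (h2 : (2 : F) ≠ 0) {d : ℕ}
    (x : Matrix (Fin d ⊕ Fin d) (Fin d ⊕ Fin d) F) (hx : sadj x * x = 1) (hxx : x * x = 1) :
    ∃ s, s ≤ d ∧ x.charpoly = (X - C 1) ^ (2 * s) * (X + C 1) ^ (2 * (d - s)) := by
  have huv : (X - C (1 : F)) ≠ X + C 1 := by
    intro h
    have h0 := congrArg (fun P => P.eval 0) h
    simp at h0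
    apply h2
    linear_combination -h0
  have hfac : ∀ P ∈ normalizedFactors x.charpoly, P = X - C (1 : F) ∨ P = X + C 1 := by
    intro P hP
    have hirr := irreducible_of_normalized_factor P hP
    have hmon := Cfsg.Agent.S2568.monic_of_mem_nf _ P hP
    have hdvd : P ∣ (X - C 1) * (X + C 1) :=
      Cfsg.Agent.Lib.Helper40.RecipPoly.dvd_of_mem_nf_charpoly' x ((X - C 1) * (X + C 1)) (by
        rw [map_mul, map_sub, map_add, aeval_X, aeval_C, map_one, sub_mul, mul_add, mul_add, hxx]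
        simp only [mul_one, one_mul]
        abel) P hP
    rcases hirr.prime.dvd_or_dvd hdvd with h | h
    · left
      exact eq_of_monic_of_associated hmon (monic_X_sub_C 1)
        (hirr.associated_of_dvd (irreducible_X_sub_C 1) h)
    · right
      exact eq_of_monic_of_associated hmon (monic_X_add_C 1)
        (hirr.associated_of_dvd (Polynomial.irreducible_of_degree_eq_one (degree_X_add_C 1)) h)
  have hprod := prod_two (normalizedFactors x.charpoly) _ _ huv hfac
  rw [Cfsg.Agent.S2568.prod_nf x.charpoly (Matrix.charpoly_monic x)] at hprod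
  obtain ⟨a, ha⟩ : ∃ a, a = Multiset.count (X - C (1 : F)) (normalizedFactors x.charpoly) :=
    ⟨_, rfl⟩
  obtain ⟨b, hb⟩ : ∃ b, b = Multiset.count (X + C (1 : F)) (normalizedFactors x.charpoly) :=
    ⟨_, rfl⟩
  rw [← ha, ← hb] at hprod
  have hdeg : a + b = 2 * d := by
    have h1 := congrArg natDegree hprod
    rw [Matrix.charpoly_natDegree_eq_dim, Fintype.card_sum, Fintype.card_fin,
      Polynomial.natDegree_mul (pow_ne_zero _ (X_sub_C_ne_zero 1))
        (pow_ne_zero _ (monic_X_add_C 1).ne_zero), natDegree_pow, natDegree_pow,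
      natDegree_X_sub_C, natDegree_X_add_C] at h1
    omega
  have hxs : x ∈ Matrix.symplecticGroup (Fin d) F := (mem_symp_iff x).mpr hx
  have hc0 := (Cfsg.Agent.Lib.Helper40.SpPoly.star_of_pal x.charpoly (Matrix.charpoly_monic x)
    (Cfsg.Agent.Lib.Helper40.SpReal.charpoly_reverse x hxs)).1
  rw [hprod, coeff_zero_eq_eval_zero, eval_mul, eval_pow, eval_pow, eval_sub, eval_add, eval_X,
    eval_C, zero_sub, zero_add, one_pow, mul_one] at hc0
  have hae : Even a := by
    by_contra hodd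
    rw [Nat.not_even_iff_odd] at hodd
    rw [Odd.neg_one_pow hodd] at hc0
    apply h2
    linear_combination -hc0
  obtain ⟨s, hs⟩ := hae
  refine ⟨s, by omega, ?_⟩
  rw [hprod]
  have h3 : a = 2 * s := by omega
  have h4 : b = 2 * (d - s) := by omega
  rw [h3, h4]

theorem model_pos (l : F) (d s : ℕ) (hs : s ≤ d) :
    ∃ x₀ : Matrix (Fin d ⊕ Fin d) (Fin d ⊕ Fin d) F, sadj x₀ * x₀ = 1 ∧ x₀ * x₀ = 1 ∧
      x₀ * Tl l 0 1 = Tl l 0 1 * x₀ ∧
      x₀.charpoly = (X - C 1) ^ (2 * s) * (X + C 1) ^ (2 * (d - s)) := by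
  have hDD : Matrix.diagonal (fun i : Fin d => if (i : ℕ) < s then (1 : F) else -1) *
      Matrix.diagonal (fun i : Fin d => if (i : ℕ) < s then (1 : F) else -1) = 1 := by
    rw [Matrix.diagonal_mul_diagonal, ← Matrix.diagonal_one]
    congr 1
    funext i
    split_ifs <;> simp
  refine ⟨Tl l (Matrix.diagonal (fun i : Fin d => if (i : ℕ) < s then (1 : F) else -1)) 0,
    ?_, ?_, ?_, ?_⟩
  · rw [sadj_Tl, Matrix.diagonal_transpose, Matrix.transpose_zero, neg_zero, Tl_mul, hDD]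
    simp only [Matrix.mul_zero, Matrix.zero_mul, smul_zero, add_zero]
    exact Tl_one l
  · rw [Tl_mul, hDD]
    simp only [Matrix.mul_zero, Matrix.zero_mul, smul_zero, add_zero]
    exact Tl_one l
  · rw [Tl_mul, Tl_mul]
    congr 1 <;> simp
  · unfold Tl
    rw [smul_zero, Matrix.charpoly_fromBlocks_zero₁₂, Matrix.charpoly_diagonal]
    have h1 : ∏ i : Fin d, (X - C (if (i : ℕ) < s then (1 : F) else -1)) =
        (X - C 1) ^ s * (X + C 1) ^ (d - s) := by
      rw [Fin.prod_univ_eq_prod_range (fun i => (X - C (if i < s then (1 : F) else -1))) d,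
        ← Finset.prod_range_mul_prod_Ico _ hs]
      congr 1
      · rw [Finset.prod_congr rfl (fun i hi => by rw [if_pos (Finset.mem_range.mp hi)]),
          Finset.prod_const, Finset.card_range]
      · rw [Finset.prod_congr rfl (fun i hi => by
          rw [if_neg (not_lt.mpr (Finset.mem_Ico.mp hi).1), C_neg, sub_neg_eq_add]),
          Finset.prod_const, Nat.card_Ico]
    rw [h1]
    ring

end gen

section fin
variable {F : Type*} [Field F] [Fintype F]

theorem isSquare_mul_of_not {q : ℕ} (hF : Fintype.card F = q) (hodd : Odd q) (a b : F)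
    (ha : ¬ IsSquare a) (hb : ¬ IsSquare b) : IsSquare (a * b) := by
  obtain ⟨k, hk⟩ := hodd
  have h2 : (2 : F) ≠ 0 := two_ne_zero_of hF ⟨k, hk⟩
  have hc : ringChar F ≠ 2 := by
    intro h
    have h3 : ((ringChar F : ℕ) : F) = 0 := ringChar.Nat.cast_ringChar
    rw [h] at h3
    exact h2 (by exact_mod_cast h3)
  have ha0 : a ≠ 0 := by
    rintro rfl
    exact ha ⟨0, by rw [mul_zero]⟩
  have hb0 : b ≠ 0 := by
    rintro rfl
    exact hb ⟨0, by rw [mul_zero]⟩
  have hk2 : Fintype.card F / 2 = k := by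
    rw [hF, hk]
    omega
  rw [FiniteField.isSquare_iff hc (mul_ne_zero ha0 hb0), hk2, mul_pow, euler hF a ha k hk,
    euler hF b hb k hk]
  norm_num

theorem model_neg {q : ℕ} (hF : Fintype.card F = q) (hodd : Odd q) (l : F) (hl : ¬ IsSquare l)
    (d : ℕ) :
    ∃ x₀ : Matrix (Fin d ⊕ Fin d) (Fin d ⊕ Fin d) F, sadj x₀ * x₀ = 1 ∧ x₀ * x₀ = -1 ∧
      (x₀ * Tl l 0 1 = Tl l 0 1 * x₀ ∨ x₀ * Tl l 0 1 = -(Tl l 0 1 * x₀)) := by
  by_cases hm1 : IsSquare (-1 : F)
  · obtain ⟨ι, hι⟩ := hm1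
    obtain ⟨P, hPdef⟩ : ∃ P : Matrix (Fin d ⊕ Fin d) (Fin d ⊕ Fin d) F,
        P = Matrix.fromBlocks 1 0 0 (-1) := ⟨_, rfl⟩
    have hP : sadj P = -P := by
      rw [hPdef]
      unfold sadj Matrix.J
      rw [Matrix.fromBlocks_transpose, Matrix.fromBlocks_neg, Matrix.fromBlocks_multiply,
        Matrix.fromBlocks_multiply, Matrix.fromBlocks_neg]
      congr 1 <;> simp
    have hPP : P * P = 1 := by
      rw [hPdef, Matrix.fromBlocks_multiply, ← Matrix.fromBlocks_one]
      congr 1 <;> simp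
    refine ⟨ι • P, ?_, ?_, Or.inr ?_⟩
    · rw [sadj_smul, hP, Matrix.smul_mul, Matrix.mul_smul, smul_smul, Matrix.neg_mul, hPP, ← hι,
        smul_neg, neg_smul, one_smul, neg_neg]
    · rw [Matrix.smul_mul, Matrix.mul_smul, smul_smul, hPP, ← hι, neg_smul, one_smul]
    · rw [Matrix.smul_mul, Matrix.mul_smul, ← smul_neg]
      congr 1
      rw [hPdef]
      unfold Tl
      rw [Matrix.fromBlocks_multiply, Matrix.fromBlocks_multiply, Matrix.fromBlocks_neg]
      congr 1 <;> simp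
  · obtain ⟨ν, hν⟩ := isSquare_mul_of_not hF hodd (-1) l hm1 hl
    have hl0 : l ≠ 0 := by
      rintro rfl
      exact hl ⟨0, by rw [mul_zero]⟩
    have h3 : ν / l * (ν / l) * l = -1 := by
      field_simp
      linear_combination -hν
    refine ⟨(ν / l) • Tl l 0 1, ?_, ?_, Or.inl ?_⟩
    · rw [sadj_smul, sadj_Tl_J, Matrix.smul_mul, Matrix.mul_smul, smul_smul, Matrix.neg_mul, Tl_sq,
        smul_neg, smul_smul, h3, neg_smul, one_smul, neg_neg]
    · rw [Matrix.smul_mul, Matrix.mul_smul, smul_smul, Tl_sq, smul_smul, h3, neg_smul, one_smul]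
    · rw [Matrix.smul_mul, Matrix.mul_smul]

/-- Elements of order dividing `4` with scalar square have conjugates (anti)commuting with `J`. -/
theorem two_dir [DecidableEq F] {q : ℕ} (hF : Fintype.card F = q) (hodd : Odd q) {d : ℕ}
    (J : Matrix (Fin d ⊕ Fin d) (Fin d ⊕ Fin d) F) (l : F) (hl : ¬ IsSquare l)
    (hJJ : J * J = l • 1) (hJs : sadj J = -J)
    (x : Matrix (Fin d ⊕ Fin d) (Fin d ⊕ Fin d) F) (hx : sadj x * x = 1)
    (hxx : x * x = 1 ∨ x * x = -1) :
    ∃ h hi : Matrix (Fin d ⊕ Fin d) (Fin d ⊕ Fin d) F, sadj h * h = 1 ∧ h * hi = 1 ∧ hi * h = 1 ∧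
      (hi * x * h * J = J * (hi * x * h) ∨ hi * x * h * J = -(J * (hi * x * h))) := by
  have h2 : (2 : F) ≠ 0 := two_ne_zero_of hF hodd
  have h4 : ((4 : ℕ) : F) ≠ 0 := by
    have h40 : ((4 : ℕ) : F) = 2 * 2 := by norm_num
    rw [h40]
    exact mul_ne_zero h2 h2
  have hmodel : ∃ x₀ : Matrix (Fin d ⊕ Fin d) (Fin d ⊕ Fin d) F, sadj x₀ * x₀ = 1 ∧ x₀ ^ 4 = 1 ∧
      x ^ 4 = 1 ∧ x₀.charpoly = x.charpoly ∧
      (x₀ * Tl l 0 1 = Tl l 0 1 * x₀ ∨ x₀ * Tl l 0 1 = -(Tl l 0 1 * x₀)) := by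
    rcases hxx with hxx | hxx
    · obtain ⟨s, hs, hcp⟩ := cp_pos h2 x hx hxx
      obtain ⟨x₀, h1, h3, h5, h6⟩ := model_pos l d s hs
      exact ⟨x₀, h1, pow4 x₀ (Or.inl h3), pow4 x (Or.inl hxx), h6.trans hcp.symm, Or.inl h5⟩
    · obtain ⟨x₀, h1, h3, h5⟩ := model_neg hF hodd l hl d
      refine ⟨x₀, h1, pow4 x₀ (Or.inr h3), pow4 x (Or.inr hxx), ?_, h5⟩
      rw [cp_neg h2 x₀ h1 h3, cp_neg h2 x hx hxx]
  obtain ⟨x₀, hx₀, hx₀4, hx4, hcp, hcomm⟩ := hmodel
  obtain ⟨S, Si, hS, hSSi, hSiS, hSJ⟩ := exists_conj_std hF hodd J l hl hJJ hJs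
  obtain ⟨Cm, Ci, hC, hCCi, hCiC, hCx⟩ := sp_conj_mat x x₀ hx hx₀ 4 h4 hx4 hx₀4 hcp.symm
  have hsC : sadj Cm = Ci := by
    calc sadj Cm = sadj Cm * (Cm * Ci) := by rw [hCCi, Matrix.mul_one]
      _ = Ci := by rw [← Matrix.mul_assoc, hC, Matrix.one_mul]
  have hsCi : sadj Ci = Cm := by rw [← hsC, sadj_sadj]
  have hy : Si * Cm * x * (Ci * S) = Si * x₀ * S := by
    calc Si * Cm * x * (Ci * S) = Si * (Cm * x) * Ci * S := by simp only [Matrix.mul_assoc]
      _ = Si * x₀ * (Cm * Ci) * S := by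
          rw [hCx]
          simp only [Matrix.mul_assoc]
      _ = Si * x₀ * S := by rw [hCCi, Matrix.mul_one]
  have hSiJ : Si * Tl l 0 1 = J * Si := conj_swap S Si J (Tl l 0 1) hSSi hSiS hSJ
  have hyJ : Si * x₀ * S * J = Si * (x₀ * Tl l 0 1) * S := by
    calc Si * x₀ * S * J = Si * x₀ * (S * J) := by simp only [Matrix.mul_assoc]
      _ = Si * (x₀ * Tl l 0 1) * S := by
          rw [hSJ]
          simp only [Matrix.mul_assoc]
  have hJy : J * (Si * x₀ * S) = Si * (Tl l 0 1 * x₀) * S := by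
    calc J * (Si * x₀ * S) = (J * Si) * x₀ * S := by simp only [Matrix.mul_assoc]
      _ = Si * (Tl l 0 1 * x₀) * S := by
          rw [← hSiJ]
          simp only [Matrix.mul_assoc]
  refine ⟨Ci * S, Si * Cm, ?_, ?_, ?_, ?_⟩
  · rw [sadj_mul, hsCi]
    calc sadj S * Cm * (Ci * S) = sadj S * (Cm * Ci) * S := by simp only [Matrix.mul_assoc]
      _ = 1 := by rw [hCCi, Matrix.mul_one, hS]
  · calc Ci * S * (Si * Cm) = Ci * (S * Si) * Cm := by simp only [Matrix.mul_assoc]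
      _ = 1 := by rw [hSSi, Matrix.mul_one, hCiC]
  · calc Si * Cm * (Ci * S) = Si * (Cm * Ci) * S := by simp only [Matrix.mul_assoc]
      _ = 1 := by rw [hCCi, Matrix.mul_one, hSiS]
  · rw [hy, hyJ, hJy]
    rcases hcomm with h | h
    · left
      rw [h]
    · right
      rw [h, Matrix.mul_neg, Matrix.neg_mul]

end fin

end Cfsg.Agent.Lib.Helper40.FExtTwo
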