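import Mathlib
import Cfsg.Prelude.Def_GeometricClasses
import Cfsg.Agent.Lib.Helper40.AltRank

set_option autoImplicit false

namespace Cfsg.Agent.Lib.Helper40.GSpCrit

open Matrix

variable {F : Type*} [Field F] {ι : Type} [Fintype ι] [DecidableEq ι]

/-- Gram matrix of a symplectic form. -/
theorem exists_gram (f : (ι → F) → (ι → F) → F) (hf : Cfsg.Geo.IsSymplecticForm f) :
    ∃ G : Matrix ι ι F, (∀ u v, f u v = u ⬝ᵥ G *ᵥ v) ∧ IsUnit G.det := by
  obtain ⟨Bf, hBf⟩ : ∃ Bf : LinearMap.BilinForm F (ι → F), ∀ u v, Bf u v = f u v :=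
    ⟨LinearMap.mk₂ F f hf.bilinear.add_left (fun c x v => by
      rw [hf.bilinear.smul_left, smul_eq_mul]) hf.bilinear.add_right (fun c v x => by
      rw [hf.bilinear.smul_right, smul_eq_mul]), fun u v => rfl⟩
  have hG : ∀ u v, f u v = u ⬝ᵥ (LinearMap.BilinForm.toMatrix' Bf) *ᵥ v := by
    intro u v
    rw [← hBf, ← Matrix.toBilin'_apply', Matrix.toBilin'_toMatrix']
  refine ⟨LinearMap.BilinForm.toMatrix' Bf, hG, ?_⟩
  rw [← Matrix.isUnit_iff_isUnit_det, ← Matrix.mulVec_injective_iff_isUnit]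
  intro a b hab
  by_contra hne
  have h1 : a - b ≠ 0 := sub_ne_zero.mpr hne
  obtain ⟨x, hx⟩ := (hf.nondegenerate (a - b) h1).1
  apply hx
  rw [hG, Matrix.mulVec_sub, hab, sub_self, dotProduct_zero]

/-- For an isometry `h` of a symplectic form, `(h - 1)^2` has even rank. -/
theorem even_rank_of_isom (f : (ι → F) → (ι → F) → F) (hf : Cfsg.Geo.IsSymplecticForm f)
    (h h' : Matrix ι ι F) (hh : h * h' = 1)
    (hiso : ∀ u v, f (h *ᵥ u) (h *ᵥ v) = f u v) : Even (((h - 1) * (h - 1)).rank) := by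
  obtain ⟨G, hG, hGu⟩ := exists_gram f hf
  have h'h : h' * h = 1 := mul_eq_one_comm.mp hh
  have key : ∀ v, v ⬝ᵥ ((G * (h + h' - 1 - 1)) *ᵥ v) = 0 := by
    intro v
    have e1 : (G * (h + h' - 1 - 1)) *ᵥ v = G *ᵥ (h *ᵥ v) + G *ᵥ (h' *ᵥ v) - G *ᵥ v - G *ᵥ v := by
      rw [Matrix.mul_sub, Matrix.mul_sub, Matrix.mul_add, Matrix.mul_one, Matrix.sub_mulVec,
        Matrix.sub_mulVec, Matrix.add_mulVec, Matrix.mulVec_mulVec, Matrix.mulVec_mulVec]
    rw [e1, dotProduct_sub, dotProduct_sub, dotProduct_add, ← hG, ← hG, ← hG, hf.alternating,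
      sub_zero, sub_zero]
    have e2 : f v (h' *ᵥ v) = f (h *ᵥ v) v := by
      rw [← hiso v (h' *ᵥ v), Matrix.mulVec_mulVec, hh, Matrix.one_mulVec]
    rw [e2, hf.skew (h *ᵥ v) v, add_neg_cancel]
  have hev := Cfsg.Agent.Lib.Helper40.AltRank.even_rank_of_alt _ key
  have hdet' : IsUnit h'.det := by
    apply IsUnit.of_mul_eq_one h.det
    rw [← Matrix.det_mul, h'h, Matrix.det_one]
  have e3 : h + h' - 1 - 1 = h' * ((h - 1) * (h - 1)) := by
    have e4 : (h - 1) * (h - 1) = h * h - h - h + 1 := by noncomm_ring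
    rw [e4, Matrix.mul_add, Matrix.mul_sub, Matrix.mul_sub, ← Matrix.mul_assoc, h'h,
      Matrix.one_mul, Matrix.mul_one]
    abel
  rw [Matrix.rank_mul_eq_right_of_isUnit_det G _ hGu, e3,
    Matrix.rank_mul_eq_right_of_isUnit_det h' _ hdet'] at hev
  exact hev

/-- For an isometry `h` of a symplectic form, `h - a` and `h - a⁻¹` have the same rank. -/
theorem rank_symm_of_isom (f : (ι → F) → (ι → F) → F) (hf : Cfsg.Geo.IsSymplecticForm f)
    (h h' : Matrix ι ι F) (hh : h * h' = 1)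
    (hiso : ∀ u v, f (h *ᵥ u) (h *ᵥ v) = f u v) (a : F) (ha : a ≠ 0) :
    (h - a • (1 : Matrix ι ι F)).rank = (h - a⁻¹ • (1 : Matrix ι ι F)).rank := by
  obtain ⟨G, hG, hGu⟩ := exists_gram f hf
  have h'h : h' * h = 1 := mul_eq_one_comm.mp hh
  have hdet' : IsUnit h'.det := by
    apply IsUnit.of_mul_eq_one h.det
    rw [← Matrix.det_mul, h'h, Matrix.det_one]
  have hgram : hᵀ * G * h = G := by
    ext i j
    have h1 := hiso (Pi.single i 1) (Pi.single j 1)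
    rw [hG, hG] at h1
    have h2 : (h *ᵥ Pi.single i 1) ⬝ᵥ G *ᵥ (h *ᵥ Pi.single j 1) =
        (Pi.single i 1 : ι → F) ⬝ᵥ (hᵀ * G * h) *ᵥ (Pi.single j 1 : ι → F) := by
      rw [← Matrix.mulVec_mulVec, ← Matrix.mulVec_mulVec, Matrix.dotProduct_mulVec _ hᵀ,
        Matrix.vecMul_transpose]
    rw [h2] at h1
    simpa using h1
  have h3 : hᵀ * G = G * h' := by
    calc hᵀ * G = hᵀ * G * (h * h') := by rw [hh, Matrix.mul_one]
      _ = (hᵀ * G * h) * h' := by rw [Matrix.mul_assoc, Matrix.mul_assoc, Matrix.mul_assoc]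
      _ = G * h' := by rw [hgram]
  have h4 : (h - a • (1 : Matrix ι ι F))ᵀ * G = G * (h' - a • (1 : Matrix ι ι F)) := by
    rw [Matrix.transpose_sub, Matrix.transpose_smul, Matrix.transpose_one, Matrix.sub_mul, h3,
      Matrix.mul_sub, Matrix.smul_mul, Matrix.one_mul, Matrix.mul_smul, Matrix.mul_one]
  have h5 : h' - a • (1 : Matrix ι ι F) =
      h' * (((-a) • (1 : Matrix ι ι F)) * (h - a⁻¹ • (1 : Matrix ι ι F))) := by
    have e5 : ((-a) • (1 : Matrix ι ι F)) * (h - a⁻¹ • (1 : Matrix ι ι F)) = (-a) • h + 1 := by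
      rw [Matrix.smul_mul, Matrix.one_mul, smul_sub, smul_smul, neg_mul, mul_inv_cancel₀ ha,
        neg_smul, neg_smul, one_smul, sub_neg_eq_add]
    rw [e5, Matrix.mul_add, Matrix.mul_smul, h'h, Matrix.mul_one, neg_smul]
    abel
  have hdeta : IsUnit (((-a) • (1 : Matrix ι ι F))).det := by
    rw [Matrix.det_smul, Matrix.det_one, mul_one]
    exact (IsUnit.mk0 _ (neg_ne_zero.mpr ha)).pow _
  calc (h - a • (1 : Matrix ι ι F)).rank = ((h - a • (1 : Matrix ι ι F))ᵀ).rank :=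
        (Matrix.rank_transpose _).symm
    _ = ((h - a • (1 : Matrix ι ι F))ᵀ * G).rank :=
        (Matrix.rank_mul_eq_left_of_isUnit_det G _ hGu).symm
    _ = (h' - a • (1 : Matrix ι ι F)).rank := by
        rw [h4, Matrix.rank_mul_eq_right_of_isUnit_det G _ hGu]
    _ = (h - a⁻¹ • (1 : Matrix ι ι F)).rank := by
        rw [h5, Matrix.rank_mul_eq_right_of_isUnit_det h' _ hdet',
          Matrix.rank_mul_eq_right_of_isUnit_det _ _ hdeta]

theorem rank_conj_smul (a : F) (ha : a ≠ 0) (P : GL ι F) (Y : Matrix ι ι F) :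
    (a • (((P⁻¹ : GL ι F) : Matrix ι ι F) * Y * (P : Matrix ι ι F))).rank = Y.rank := by
  have hP : IsUnit (P : Matrix ι ι F).det := (Matrix.isUnit_iff_isUnit_det _).mp P.isUnit
  have hP' : IsUnit ((P⁻¹ : GL ι F) : Matrix ι ι F).det :=
    (Matrix.isUnit_iff_isUnit_det _).mp (P⁻¹).isUnit
  have hdeta : IsUnit ((a • (1 : Matrix ι ι F))).det := by
    rw [Matrix.det_smul, Matrix.det_one, mul_one]
    exact (IsUnit.mk0 _ ha).pow _
  have e : a • (((P⁻¹ : GL ι F) : Matrix ι ι F) * Y * (P : Matrix ι ι F)) =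
      (a • (1 : Matrix ι ι F)) * (((P⁻¹ : GL ι F) : Matrix ι ι F) * Y * (P : Matrix ι ι F)) := by
    rw [Matrix.smul_mul, Matrix.one_mul]
  rw [e, Matrix.rank_mul_eq_right_of_isUnit_det _ _ hdeta,
    Matrix.rank_mul_eq_left_of_isUnit_det _ _ hP, Matrix.rank_mul_eq_right_of_isUnit_det _ _ hP']

/-- Criterion: a matrix `x` with `x ^ r = 1` (`r` odd) having a conjugate in the similarity group
of a symplectic form satisfies strong rank conditions. -/
theorem crit [Nonempty ι] (f : (ι → F) → (ι → F) → F) (hf : Cfsg.Geo.IsSymplecticForm f)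
    (r : ℕ) (hr : Odd r) (x : Matrix ι ι F) (hx : x ^ r = 1) (P X : GL ι F)
    (hX : (X : Matrix ι ι F) = x) (hmem : P⁻¹ * X * P ∈ Cfsg.Geo.similarityGroup f) :
    ∃ ν : F, ν ^ r = 1 ∧ Even (((x - ν • (1 : Matrix ι ι F)) * (x - ν • (1 : Matrix ι ι F))).rank) ∧
      ∀ a : F, a ≠ 0 → (x - (ν * a) • (1 : Matrix ι ι F)).rank =
        (x - (ν * a⁻¹) • (1 : Matrix ι ι F)).rank := by
  obtain ⟨c, hc⟩ := hmem
  obtain ⟨g, hg⟩ : ∃ g : GL ι F, g = P⁻¹ * X * P := ⟨_, rfl⟩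
  rw [← hg] at hc
  have hXr : X ^ r = 1 := Units.ext (by rw [Units.val_pow_eq_pow_val, hX, hx]; rfl)
  have hgr : g ^ r = 1 := by
    have h1 := conj_pow (i := r) (a := P⁻¹) (b := X)
    rw [inv_inv] at h1
    rw [hg, h1, hXr, mul_one, inv_mul_cancel]
  have hgr' : (g : Matrix ι ι F) ^ r = 1 := by
    rw [← Units.val_pow_eq_pow_val, hgr]
    rfl
  have hpow : ∀ k : ℕ, ∀ u v, f (((g : Matrix ι ι F) ^ k) *ᵥ u) (((g : Matrix ι ι F) ^ k) *ᵥ v) =
      (c : F) ^ k * f u v := by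
    intro k
    induction k with
    | zero => intro u v; simp
    | succ k ih =>
      intro u v
      rw [pow_succ, ← Matrix.mulVec_mulVec, ← Matrix.mulVec_mulVec, ih, hc, pow_succ, mul_assoc]
  obtain ⟨u₀, v₀, huv⟩ : ∃ u₀ v₀, f u₀ v₀ ≠ 0 := by
    obtain ⟨i⟩ := ‹Nonempty ι›
    have hne : (Pi.single i 1 : ι → F) ≠ 0 := by
      intro h0
      have := congrFun h0 i
      simp at this
    obtain ⟨x₁, hx₁⟩ := (hf.nondegenerate _ hne).1
    exact ⟨x₁, _, hx₁⟩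
  have hcr : (c : F) ^ r = 1 := by
    have h1 := hpow r u₀ v₀
    rw [hgr', Matrix.one_mulVec, Matrix.one_mulVec] at h1
    have h2 : ((c : F) ^ r - 1) * f u₀ v₀ = 0 := by linear_combination -h1
    rcases mul_eq_zero.mp h2 with h3 | h3
    · exact sub_eq_zero.mp h3
    · exact absurd h3 huv
  obtain ⟨k, hk⟩ := hr
  obtain ⟨ν, hν⟩ : ∃ ν : F, ν = (c : F) ^ (k + 1) := ⟨_, rfl⟩
  have hνν : ν * ν = c := by
    rw [hν, ← pow_add]
    have e : k + 1 + (k + 1) = r + 1 := by omega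
    rw [e, pow_succ, hcr, one_mul]
  have hνr : ν ^ r = 1 := by rw [hν, ← pow_mul, mul_comm, pow_mul, hcr, one_pow]
  have hν0 : ν ≠ 0 := by
    intro h0
    rw [h0, zero_mul] at hνν
    exact c.ne_zero hνν.symm
  obtain ⟨h, hh⟩ : ∃ h : Matrix ι ι F, h = ν⁻¹ • (g : Matrix ι ι F) := ⟨_, rfl⟩
  obtain ⟨h', hh'⟩ : ∃ h' : Matrix ι ι F, h' = ν • ((g⁻¹ : GL ι F) : Matrix ι ι F) := ⟨_, rfl⟩
  have hhh : h * h' = 1 := by
    rw [hh, hh', Matrix.smul_mul, Matrix.mul_smul, smul_smul, inv_mul_cancel₀ hν0, one_smul,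
      ← Units.val_mul, mul_inv_cancel]
    rfl
  have hiso : ∀ u v, f (h *ᵥ u) (h *ᵥ v) = f u v := by
    intro u v
    rw [hh, Matrix.smul_mulVec, Matrix.smul_mulVec, hf.bilinear.smul_left,
      hf.bilinear.smul_right, hc, ← hνν]
    field_simp
  have hgx : ∀ a : F, h - a • (1 : Matrix ι ι F) =
      ν⁻¹ • (((P⁻¹ : GL ι F) : Matrix ι ι F) * (x - (ν * a) • (1 : Matrix ι ι F)) *
        (P : Matrix ι ι F)) := by
    intro a
    have e1 : ((P⁻¹ : GL ι F) : Matrix ι ι F) * (x - (ν * a) • (1 : Matrix ι ι F)) *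
        (P : Matrix ι ι F) = (g : Matrix ι ι F) - (ν * a) • (1 : Matrix ι ι F) := by
      rw [Matrix.mul_sub, Matrix.sub_mul, Matrix.mul_smul, Matrix.smul_mul, Matrix.mul_one,
        ← Units.val_mul, inv_mul_cancel, hg, Units.val_mul, Units.val_mul, hX]
      rfl
    rw [e1, hh, smul_sub, smul_smul, ← mul_assoc, inv_mul_cancel₀ hν0, one_mul]
  refine ⟨ν, hνr, ?_, ?_⟩
  · have h1 := even_rank_of_isom f hf h h' hhh hiso
    have h2 : (h - 1) * (h - 1) = (ν⁻¹ * ν⁻¹) • (((P⁻¹ : GL ι F) : Matrix ι ι F) *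
        ((x - ν • (1 : Matrix ι ι F)) * (x - ν • (1 : Matrix ι ι F))) * (P : Matrix ι ι F)) := by
      have h3 := hgx 1
      rw [one_smul, mul_one] at h3
      rw [h3, Matrix.smul_mul, Matrix.mul_smul, smul_smul]
      congr 1
      have h4 : (P : Matrix ι ι F) * ((P⁻¹ : GL ι F) : Matrix ι ι F) = 1 := by
        rw [← Units.val_mul, mul_inv_cancel]
        rfl
      calc ((P⁻¹ : GL ι F) : Matrix ι ι F) * (x - ν • (1 : Matrix ι ι F)) * (P : Matrix ι ι F) *
            (((P⁻¹ : GL ι F) : Matrix ι ι F) * (x - ν • (1 : Matrix ι ι F)) * (P : Matrix ι ι F))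
          = ((P⁻¹ : GL ι F) : Matrix ι ι F) * (x - ν • (1 : Matrix ι ι F)) *
            ((P : Matrix ι ι F) * ((P⁻¹ : GL ι F) : Matrix ι ι F)) *
            (x - ν • (1 : Matrix ι ι F)) * (P : Matrix ι ι F) := by
            simp only [Matrix.mul_assoc]
        _ = _ := by
            rw [h4, Matrix.mul_one]
            simp only [Matrix.mul_assoc]
    rw [h2, rank_conj_smul _ (mul_ne_zero (inv_ne_zero hν0) (inv_ne_zero hν0))] at h1
    exact h1
  · intro a ha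
    have h1 := rank_symm_of_isom f hf h h' hhh hiso a ha
    rw [hgx a, hgx a⁻¹, rank_conj_smul _ (inv_ne_zero hν0), rank_conj_smul _ (inv_ne_zero hν0)] at h1
    exact h1

end Cfsg.Agent.Lib.Helper40.GSpCrit
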