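import Mathlib

set_option autoImplicit false

namespace Cfsg.Agent.Lib.Helper40.NilCount

open Matrix Polynomial

section fitting

variable {F : Type*} [Field F]

/-- Fitting decomposition in matrix form: every endomorphism of a finite-dimensional space has,
in a suitable basis, a block diagonal matrix `diag(N, B)` with `N` nilpotent and `B` invertible. -/
theorem fitting_exists {V : Type*} [AddCommGroup V] [Module F V] [FiniteDimensional F V]
    (f : Module.End F V) :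
    ∃ (k l : ℕ) (b : Module.Basis (Fin k ⊕ Fin l) F V) (N : Matrix (Fin k) (Fin k) F)
      (B : Matrix (Fin l) (Fin l) F),
      IsNilpotent N ∧ IsUnit B.det ∧ LinearMap.toMatrix b b f = Matrix.fromBlocks N 0 0 B := by
  classical
  obtain ⟨j0, hj0⟩ := Filter.eventually_atTop.mp (LinearMap.eventually_isCompl_ker_pow_range_pow f)
  obtain ⟨j, hj1, hj⟩ : ∃ j, 1 ≤ j ∧ IsCompl (LinearMap.ker (f ^ j)) (LinearMap.range (f ^ j)) :=
    ⟨max j0 1, le_max_right _ _, hj0 _ (le_max_left _ _)⟩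
  obtain ⟨K, hK⟩ : ∃ K : Submodule F V, K = LinearMap.ker (f ^ j) := ⟨_, rfl⟩
  obtain ⟨I, hI⟩ : ∃ I : Submodule F V, I = LinearMap.range (f ^ j) := ⟨_, rfl⟩
  rw [← hK, ← hI] at hj
  have hcomm : ∀ x, (f ^ j) (f x) = f ((f ^ j) x) := by
    intro x
    rw [← Module.End.mul_apply, ← Module.End.mul_apply, ← pow_succ, ← pow_succ']
  have hKf : ∀ x ∈ K, f x ∈ K := by
    intro x hx
    rw [hK, LinearMap.mem_ker] at hx ⊢
    rw [hcomm, hx, map_zero]
  have hIf : ∀ x ∈ I, f x ∈ I := by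
    intro x hx
    rw [hI] at hx ⊢
    obtain ⟨y, rfl⟩ := hx
    exact ⟨f y, hcomm y⟩
  obtain ⟨fK, hfK⟩ : ∃ fK : Module.End F K, ∀ x : K, (fK x : V) = f x :=
    ⟨f.restrict hKf, fun x => rfl⟩
  obtain ⟨fI, hfI⟩ : ∃ fI : Module.End F I, ∀ x : I, (fI x : V) = f x :=
    ⟨f.restrict hIf, fun x => rfl⟩
  have hfKpow : ∀ i : ℕ, ∀ x : K, ((fK ^ i) x : V) = (f ^ i) x := by
    intro i
    induction i with
    | zero => intro x; rfl
    | succ i ih =>
      intro x
      rw [pow_succ', pow_succ', Module.End.mul_apply, Module.End.mul_apply, hfK, ih]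
  have hfKnil : fK ^ j = 0 := by
    apply LinearMap.ext
    intro x
    apply Subtype.ext
    rw [hfKpow]
    have h1 : (x : V) ∈ LinearMap.ker (f ^ j) := hK.le x.2
    rw [LinearMap.mem_ker.mp h1]
    rfl
  have hfIinj : LinearMap.ker fI = ⊥ := by
    rw [LinearMap.ker_eq_bot']
    intro x hx
    have h1 : f x = 0 := by
      rw [← hfI, hx]
      rfl
    have h2 : (x : V) ∈ K := by
      rw [hK, LinearMap.mem_ker]
      obtain ⟨i, rfl⟩ : ∃ i, j = i + 1 := ⟨j - 1, by omega⟩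
      rw [pow_succ, Module.End.mul_apply, h1, map_zero]
    have h3 : (x : V) ∈ K ⊓ I := ⟨h2, x.2⟩
    rw [hj.inf_eq_bot] at h3
    exact Subtype.ext ((Submodule.mem_bot F).mp h3)
  obtain ⟨bK, -⟩ : ∃ b : Module.Basis (Fin (Module.finrank F K)) F K, True :=
    ⟨Module.finBasis F K, trivial⟩
  obtain ⟨bI, -⟩ : ∃ b : Module.Basis (Fin (Module.finrank F I)) F I, True :=
    ⟨Module.finBasis F I, trivial⟩
  obtain ⟨e, he⟩ : ∃ e : (K × I) ≃ₗ[F] V, ∀ y : K × I, e y = (y.1 : V) + (y.2 : V) :=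
    ⟨Submodule.prodEquivOfIsCompl K I hj, fun y => Submodule.coe_prodEquivOfIsCompl' K I hj y⟩
  refine ⟨Module.finrank F K, Module.finrank F I, (bK.prod bI).map e,
    LinearMap.toMatrix bK bK fK, LinearMap.toMatrix bI bI fI, ?_, ?_, ?_⟩
  · show IsNilpotent (LinearMap.toMatrixAlgEquiv bK fK)
    exact ⟨j, by rw [← map_pow, hfKnil, map_zero]⟩
  · rw [← Matrix.isUnit_iff_isUnit_det]
    show IsUnit (LinearMap.toMatrixAlgEquiv bI fI)
    exact IsUnit.map _ ((LinearMap.isUnit_iff_ker_eq_bot fI).mpr hfIinj)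
  · have hkey : ∀ y : K × I, e.symm (f (e y)) = LinearMap.prodMap fK fI y := by
      intro y
      rw [LinearEquiv.symm_apply_eq, he, he, map_add, ← hfK, ← hfI]
      rfl
    have h1 : LinearMap.toMatrix ((bK.prod bI).map e) ((bK.prod bI).map e) f =
        LinearMap.toMatrix (bK.prod bI) (bK.prod bI) (LinearMap.prodMap fK fI) := by
      ext i j
      rw [LinearMap.toMatrix_apply, LinearMap.toMatrix_apply, Module.Basis.map_repr,
        Module.Basis.map_apply]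
      show ((bK.prod bI).repr (e.symm (f (e ((bK.prod bI) j))))) i = _
      rw [hkey]
    rw [h1, LinearMap.toMatrix_prodMap]

theorem charpoly_blocks {k l : ℕ} (N : Matrix (Fin k) (Fin k) F) (B : Matrix (Fin l) (Fin l) F)
    (hN : IsNilpotent N) (hB : IsUnit B.det) :
    (Matrix.fromBlocks N 0 0 B).charpoly.natTrailingDegree = k ∧
      (Matrix.fromBlocks N 0 0 B).charpoly.natDegree = k + l := by
  constructor
  · rw [Matrix.charpoly_fromBlocks_zero₁₂]
    have h := Matrix.isNilpotent_charpoly_sub_pow_of_isNilpotent hN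
    rw [Fintype.card_fin] at h
    rw [sub_eq_zero.mp h.eq_zero]
    have h0 : B.charpoly.coeff 0 ≠ 0 := by
      intro h0
      have h1 := Matrix.det_eq_sign_charpoly_coeff B
      rw [h0, mul_zero] at h1
      rw [h1] at hB
      exact not_isUnit_zero hB
    have hB0 : B.charpoly ≠ 0 := by
      intro h1
      rw [h1] at h0
      exact h0 (coeff_zero 0)
    rw [mul_comm, natTrailingDegree_mul_X_pow hB0, natTrailingDegree_eq_zero.mpr (Or.inr h0),
      zero_add]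
  · rw [Matrix.charpoly_natDegree_eq_dim, Fintype.card_sum, Fintype.card_fin, Fintype.card_fin]

theorem fitting_matrix {k l : ℕ} (M : Matrix (Fin k ⊕ Fin l) (Fin k ⊕ Fin l) F)
    (hM : M.charpoly.natTrailingDegree = k) :
    ∃ (P : GL (Fin k ⊕ Fin l) F) (N : Matrix (Fin k) (Fin k) F) (B : GL (Fin l) F),
      IsNilpotent N ∧ M = P.1 * Matrix.fromBlocks N 0 0 B.1 * P⁻¹.1 := by
  classical
  obtain ⟨k', l', b, N, B, hN, hB, hb⟩ := fitting_exists (Matrix.toLin' M)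
  have hch : M.charpoly = (Matrix.fromBlocks N 0 0 B).charpoly := by
    rw [← hb, LinearMap.charpoly_toMatrix,
      ← LinearMap.charpoly_toMatrix (Matrix.toLin' M) (Pi.basisFun F (Fin k ⊕ Fin l)),
      LinearMap.toMatrix_eq_toMatrix', LinearMap.toMatrix'_toLin']
  have h1 := charpoly_blocks N B hN hB
  rw [← hch] at h1
  have hk : k' = k := by rw [← h1.1, hM]
  have hl : l' = l := by
    have h2 := h1.2
    rw [Matrix.charpoly_natDegree_eq_dim, Fintype.card_sum, Fintype.card_fin,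
      Fintype.card_fin] at h2
    omega
  subst hk hl
  have h3 := basis_toMatrix_mul_linearMap_toMatrix_mul_basis_toMatrix
    (Pi.basisFun F (Fin k' ⊕ Fin l')) b (Pi.basisFun F (Fin k' ⊕ Fin l')) b (Matrix.toLin' M)
  rw [LinearMap.toMatrix_eq_toMatrix', LinearMap.toMatrix'_toLin', hb] at h3
  obtain ⟨P, hP, hPinv⟩ : ∃ P : GL (Fin k' ⊕ Fin l') F,
      P.1 = (Pi.basisFun F (Fin k' ⊕ Fin l')).toMatrix b ∧
      P⁻¹.1 = b.toMatrix (Pi.basisFun F (Fin k' ⊕ Fin l')) :=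
    ⟨⟨_, _, Module.Basis.toMatrix_mul_toMatrix_flip _ _,
      Module.Basis.toMatrix_mul_toMatrix_flip _ _⟩, rfl, rfl⟩
  obtain ⟨B', hB'⟩ : ∃ B' : GL (Fin l') F, B'.1 = B := (Matrix.isUnit_iff_isUnit_det B).mpr hB
  exact ⟨P, N, B', hN, by rw [hP, hPinv, hB', h3]⟩

end fitting

section count

variable {F : Type*} [Field F]

theorem card_eq_mul_of_fiber {X Y : Type*} [Finite X] [Finite Y] (f : X → Y) (S : Set Y) (c : ℕ)
    (hS : ∀ x, f x ∈ S) (hc : ∀ y ∈ S, Nat.card {x // f x = y} = c) :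
    Nat.card X = Nat.card S * c := by
  classical
  have : Fintype S := Fintype.ofFinite _
  obtain ⟨g, hg⟩ : ∃ g : X → S, ∀ x, (g x : Y) = f x := ⟨fun x => ⟨f x, hS x⟩, fun x => rfl⟩
  rw [← Nat.card_congr (Equiv.sigmaFiberEquiv g), Nat.card_sigma]
  have h : ∀ y : S, Nat.card {x // g x = y} = c := by
    intro y
    rw [← hc y.1 y.2]
    apply Nat.card_congr
    exact Equiv.subtypeEquivRight (fun x => by rw [← hg, Subtype.ext_iff])
  simp only [h, Finset.sum_const, Finset.card_univ, smul_eq_mul, Nat.card_eq_fintype_card]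

/-- Block diagonal element of `GL`. -/
noncomputable def blockGL {k l : ℕ} (Q1 : GL (Fin k) F) (Q2 : GL (Fin l) F) :
    GL (Fin k ⊕ Fin l) F :=
  ⟨Matrix.fromBlocks Q1.1 0 0 Q2.1, Matrix.fromBlocks Q1⁻¹.1 0 0 Q2⁻¹.1,
    by simp [Matrix.fromBlocks_multiply], by simp [Matrix.fromBlocks_multiply]⟩

theorem blockGL_coe {k l : ℕ} (Q1 : GL (Fin k) F) (Q2 : GL (Fin l) F) :
    (blockGL Q1 Q2).1 = Matrix.fromBlocks Q1.1 0 0 Q2.1 := rfl

theorem blockGL_inv_coe {k l : ℕ} (Q1 : GL (Fin k) F) (Q2 : GL (Fin l) F) :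
    (blockGL Q1 Q2)⁻¹.1 = Matrix.fromBlocks Q1⁻¹.1 0 0 Q2⁻¹.1 := rfl

theorem blockGL_conj {k l : ℕ} (Q1 : GL (Fin k) F) (Q2 : GL (Fin l) F)
    (N : Matrix (Fin k) (Fin k) F) (B : Matrix (Fin l) (Fin l) F) :
    (blockGL Q1 Q2)⁻¹.1 * Matrix.fromBlocks (Q1.1 * N * Q1⁻¹.1) 0 0 (Q2.1 * B * Q2⁻¹.1) *
      (blockGL Q1 Q2).1 = Matrix.fromBlocks N 0 0 B := by
  rw [blockGL_coe, blockGL_inv_coe, Matrix.fromBlocks_multiply, Matrix.fromBlocks_multiply]
  have h1 : Q1⁻¹.1 * (Q1.1 * N * Q1⁻¹.1) * Q1.1 = N := by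
    rw [← mul_assoc, ← mul_assoc, Units.inv_mul, one_mul, mul_assoc, Units.inv_mul, mul_one]
  have h2 : Q2⁻¹.1 * (Q2.1 * B * Q2⁻¹.1) * Q2.1 = B := by
    rw [← mul_assoc, ← mul_assoc, Units.inv_mul, one_mul, mul_assoc, Units.inv_mul, mul_one]
  simp only [Matrix.mul_zero, Matrix.zero_mul, add_zero, zero_add, h1, h2]

theorem conj_nilp {k : ℕ} (Q : GL (Fin k) F) (N : Matrix (Fin k) (Fin k) F) (hN : IsNilpotent N) :
    IsNilpotent (Q.1 * N * Q⁻¹.1) := by
  obtain ⟨j, hj⟩ := hN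
  exact ⟨j, by rw [Units.conj_pow, hj, mul_zero, zero_mul]⟩

theorem intertwine_zero_left {a b : Type*} [Fintype a] [DecidableEq a] [Fintype b] [DecidableEq b]
    (N : Matrix a a F) (hN : IsNilpotent N) (B : GL b F) (R : Matrix a b F)
    (h : N * R = R * B.1) : R = 0 := by
  obtain ⟨j, hj⟩ := hN
  have hpow : ∀ i : ℕ, N ^ i * R = R * (B ^ i : GL b F).1 := by
    intro i
    induction i with
    | zero => simp
    | succ i ih =>
      rw [pow_succ, Matrix.mul_assoc, h, ← Matrix.mul_assoc, ih, Matrix.mul_assoc, pow_succ,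
        Units.val_mul]
  have h1 := hpow j
  rw [hj, Matrix.zero_mul] at h1
  have h2 : R = R * (B ^ j : GL b F).1 * ((B ^ j)⁻¹ : GL b F).1 := by
    rw [Matrix.mul_assoc, Units.mul_inv, Matrix.mul_one]
  rw [h2, ← h1, Matrix.zero_mul]

theorem intertwine_zero_right {a b : Type*} [Fintype a] [DecidableEq a] [Fintype b] [DecidableEq b]
    (B : GL a F) (N : Matrix b b F) (hN : IsNilpotent N) (R : Matrix a b F)
    (h : B.1 * R = R * N) : R = 0 := by
  obtain ⟨j, hj⟩ := hN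
  have hpow : ∀ i : ℕ, (B ^ i : GL a F).1 * R = R * N ^ i := by
    intro i
    induction i with
    | zero => simp
    | succ i ih =>
      rw [pow_succ, Units.val_mul, Matrix.mul_assoc, h, ← Matrix.mul_assoc, ih, Matrix.mul_assoc,
        pow_succ]
  have h1 := hpow j
  rw [hj, Matrix.mul_zero] at h1
  have h2 : R = ((B ^ j)⁻¹ : GL a F).1 * ((B ^ j : GL a F).1 * R) := by
    rw [← Matrix.mul_assoc, Units.inv_mul, Matrix.one_mul]
  rw [h2, h1, Matrix.mul_zero]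

/-- The conjugation map whose fibres are counted. -/
noncomputable def Phi {k l : ℕ}
    (t : GL (Fin k ⊕ Fin l) F × {N : Matrix (Fin k) (Fin k) F // IsNilpotent N} × GL (Fin l) F) :
    Matrix (Fin k ⊕ Fin l) (Fin k ⊕ Fin l) F :=
  t.1.1 * Matrix.fromBlocks t.2.1.1 0 0 t.2.2.1 * t.1⁻¹.1

theorem Phi_ntd {k l : ℕ}
    (t : GL (Fin k ⊕ Fin l) F × {N : Matrix (Fin k) (Fin k) F // IsNilpotent N} × GL (Fin l) F) :
    (Phi t).charpoly.natTrailingDegree = k := by
  unfold Phi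
  have h := Matrix.charpoly_units_conj t.1 (Matrix.fromBlocks t.2.1.1 0 0 t.2.2.1)
  rw [Matrix.coe_units_inv, h]
  exact (charpoly_blocks t.2.1.1 t.2.2.1 t.2.1.2
    ((Matrix.isUnit_iff_isUnit_det _).mp t.2.2.isUnit)).1

/-- The parametrisation of a fibre of `Phi`. -/
noncomputable def psi {k l : ℕ} (P₀ : GL (Fin k ⊕ Fin l) F)
    (N₀ : {N : Matrix (Fin k) (Fin k) F // IsNilpotent N}) (B₀ : GL (Fin l) F)
    (Q : GL (Fin k) F × GL (Fin l) F) :
    GL (Fin k ⊕ Fin l) F × {N : Matrix (Fin k) (Fin k) F // IsNilpotent N} × GL (Fin l) F :=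
  (P₀ * (blockGL Q.1 Q.2)⁻¹, ⟨Q.1.1 * N₀.1 * Q.1⁻¹.1, conj_nilp Q.1 N₀.1 N₀.2⟩, Q.2 * B₀ * Q.2⁻¹)

theorem Phi_psi {k l : ℕ} (P₀ : GL (Fin k ⊕ Fin l) F)
    (N₀ : {N : Matrix (Fin k) (Fin k) F // IsNilpotent N}) (B₀ : GL (Fin l) F)
    (Q : GL (Fin k) F × GL (Fin l) F) : Phi (psi P₀ N₀ B₀ Q) = Phi (P₀, N₀, B₀) := by
  unfold Phi psi
  show (P₀ * (blockGL Q.1 Q.2)⁻¹).1 *
      Matrix.fromBlocks (Q.1.1 * N₀.1 * Q.1⁻¹.1) 0 0 (Q.2 * B₀ * Q.2⁻¹).1 *
      (P₀ * (blockGL Q.1 Q.2)⁻¹)⁻¹.1 = P₀.1 * Matrix.fromBlocks N₀.1 0 0 B₀.1 * P₀⁻¹.1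
  have h := blockGL_conj Q.1 Q.2 N₀.1 B₀.1
  rw [_root_.mul_inv_rev, inv_inv, Units.val_mul, Units.val_mul, Units.val_mul, Units.val_mul]
  rw [← h]
  simp only [Matrix.mul_assoc]

theorem psi_injective {k l : ℕ} (P₀ : GL (Fin k ⊕ Fin l) F)
    (N₀ : {N : Matrix (Fin k) (Fin k) F // IsNilpotent N}) (B₀ : GL (Fin l) F) :
    Function.Injective (psi P₀ N₀ B₀) := by
  intro Q Q' h
  have h1 := congrArg Prod.fst h
  unfold psi at h1
  simp only at h1
  have h2 : blockGL Q.1 Q.2 = blockGL Q'.1 Q'.2 := by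
    have h3 := mul_left_cancel h1
    exact inv_injective h3
  have h4 := congrArg Units.val h2
  rw [blockGL_coe, blockGL_coe, Matrix.fromBlocks_inj] at h4
  exact Prod.ext (Units.ext h4.1) (Units.ext h4.2.2.2)

theorem psi_surjective {k l : ℕ} (P₀ : GL (Fin k ⊕ Fin l) F)
    (N₀ : {N : Matrix (Fin k) (Fin k) F // IsNilpotent N}) (B₀ : GL (Fin l) F)
    (t : GL (Fin k ⊕ Fin l) F × {N : Matrix (Fin k) (Fin k) F // IsNilpotent N} × GL (Fin l) F)
    (ht : Phi t = Phi (P₀, N₀, B₀)) : ∃ Q, psi P₀ N₀ B₀ Q = t := by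
  classical
  obtain ⟨P, N, B⟩ := t
  unfold Phi at ht
  simp only at ht
  obtain ⟨R, hR⟩ : ∃ R : GL (Fin k ⊕ Fin l) F, R = P⁻¹ * P₀ := ⟨_, rfl⟩
  have hRP : P = P₀ * R⁻¹ := by rw [hR]; group
  -- the intertwining relation
  have hint : Matrix.fromBlocks N.1 0 0 B.1 * R.1 = R.1 * Matrix.fromBlocks N₀.1 0 0 B₀.1 := by
    have h1 : P⁻¹.1 * (P.1 * Matrix.fromBlocks N.1 0 0 B.1 * P⁻¹.1) * P₀.1 =
        P⁻¹.1 * (P₀.1 * Matrix.fromBlocks N₀.1 0 0 B₀.1 * P₀⁻¹.1) * P₀.1 := by rw [ht]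
    have h2 : P⁻¹.1 * (P.1 * Matrix.fromBlocks N.1 0 0 B.1 * P⁻¹.1) * P₀.1 =
        Matrix.fromBlocks N.1 0 0 B.1 * (P⁻¹.1 * P₀.1) := by
      rw [← Matrix.mul_assoc, ← Matrix.mul_assoc, Units.inv_mul, Matrix.one_mul, Matrix.mul_assoc]
    have h3 : P⁻¹.1 * (P₀.1 * Matrix.fromBlocks N₀.1 0 0 B₀.1 * P₀⁻¹.1) * P₀.1 =
        (P⁻¹.1 * P₀.1) * Matrix.fromBlocks N₀.1 0 0 B₀.1 := by
      rw [Matrix.mul_assoc, Matrix.mul_assoc, Matrix.mul_assoc, Units.inv_mul, Matrix.mul_one,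
        ← Matrix.mul_assoc]
    rw [h2, h3] at h1
    rw [hR, Units.val_mul]
    exact h1
  obtain ⟨R11, R12, R21, R22, hRb⟩ : ∃ (R11 : Matrix (Fin k) (Fin k) F) (R12 : Matrix (Fin k) (Fin l) F)
      (R21 : Matrix (Fin l) (Fin k) F) (R22 : Matrix (Fin l) (Fin l) F),
      R.1 = Matrix.fromBlocks R11 R12 R21 R22 :=
    ⟨_, _, _, _, (Matrix.fromBlocks_toBlocks R.1).symm⟩
  rw [hRb, Matrix.fromBlocks_multiply, Matrix.fromBlocks_multiply, Matrix.fromBlocks_inj] at hint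
  simp only [Matrix.mul_zero, Matrix.zero_mul, add_zero, zero_add] at hint
  obtain ⟨h11, h12, h21, h22⟩ := hint
  have hR12 : R12 = 0 := intertwine_zero_left N.1 N.2 B₀ R12 h12
  have hR21 : R21 = 0 := intertwine_zero_right B N₀.1 N₀.2 R21 h21
  rw [hR12, hR21] at hRb
  have hdet : IsUnit (R11.det * R22.det) := by
    have h1 := (Matrix.isUnit_iff_isUnit_det _).mp R.isUnit
    rw [hRb, Matrix.det_fromBlocks_zero₂₁] at h1
    exact h1
  obtain ⟨Q1, hQ1⟩ : ∃ Q1 : GL (Fin k) F, Q1.1 = R11 :=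
    (Matrix.isUnit_iff_isUnit_det R11).mpr (isUnit_of_mul_isUnit_left hdet)
  obtain ⟨Q2, hQ2⟩ : ∃ Q2 : GL (Fin l) F, Q2.1 = R22 :=
    (Matrix.isUnit_iff_isUnit_det R22).mpr (isUnit_of_mul_isUnit_right hdet)
  have hRQ : blockGL Q1 Q2 = R := by
    apply Units.ext
    rw [blockGL_coe, hQ1, hQ2, hRb]
  refine ⟨(Q1, Q2), ?_⟩
  unfold psi
  refine Prod.ext ?_ (Prod.ext ?_ ?_)
  · show P₀ * (blockGL Q1 Q2)⁻¹ = P
    rw [hRQ, hRP]
  · apply Subtype.ext
    show Q1.1 * N₀.1 * Q1⁻¹.1 = N.1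
    rw [hQ1, ← h11, Matrix.mul_assoc, ← hQ1, Units.mul_inv, Matrix.mul_one]
  · show Q2 * B₀ * Q2⁻¹ = B
    have h1 : B * Q2 = Q2 * B₀ := by
      apply Units.ext
      rw [Units.val_mul, Units.val_mul, hQ2, h22]
    rw [← h1]
    group

theorem fiber_card [Fintype F] {k l : ℕ} (M : Matrix (Fin k ⊕ Fin l) (Fin k ⊕ Fin l) F)
    (hM : M.charpoly.natTrailingDegree = k) :
    Nat.card {t : GL (Fin k ⊕ Fin l) F × {N : Matrix (Fin k) (Fin k) F // IsNilpotent N} ×
      GL (Fin l) F // Phi t = M} = Nat.card (GL (Fin k) F) * Nat.card (GL (Fin l) F) := by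
  classical
  obtain ⟨P₀, N₀, B₀, hN₀, hM0⟩ := fitting_matrix M hM
  have hM1 : M = Phi (P₀, (⟨N₀, hN₀⟩ : {N : Matrix (Fin k) (Fin k) F // IsNilpotent N}), B₀) := hM0
  have hset : {t : GL (Fin k ⊕ Fin l) F × {N : Matrix (Fin k) (Fin k) F // IsNilpotent N} ×
      GL (Fin l) F | Phi t = M} = Set.range (psi P₀ ⟨N₀, hN₀⟩ B₀) := by
    ext t
    constructor
    · intro ht
      exact psi_surjective P₀ ⟨N₀, hN₀⟩ B₀ t (by rw [← hM1]; exact ht)
    · rintro ⟨Q, rfl⟩
      show Phi _ = M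
      rw [Phi_psi, ← hM1]
  show Nat.card ↥{t : GL (Fin k ⊕ Fin l) F × {N : Matrix (Fin k) (Fin k) F // IsNilpotent N} ×
      GL (Fin l) F | Phi t = M} = _
  rw [hset, Nat.card_range_of_injective (psi_injective P₀ ⟨N₀, hN₀⟩ B₀), Nat.card_prod]

/-- The key counting identity: `|GL_{k+l}| * ν_k = |S_k| * |GL_k|`. -/
theorem card_fit [Fintype F] (k l : ℕ) :
    Nat.card (GL (Fin k ⊕ Fin l) F) * Nat.card {N : Matrix (Fin k) (Fin k) F // IsNilpotent N} =
      Nat.card {M : Matrix (Fin k ⊕ Fin l) (Fin k ⊕ Fin l) F //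
        M.charpoly.natTrailingDegree = k} * Nat.card (GL (Fin k) F) := by
  classical
  have h := card_eq_mul_of_fiber (Phi (F := F) (k := k) (l := l))
    {M | M.charpoly.natTrailingDegree = k}
    (Nat.card (GL (Fin k) F) * Nat.card (GL (Fin l) F)) Phi_ntd (fun M hM => fiber_card M hM)
  rw [Nat.card_prod, Nat.card_prod] at h
  have hpos : 0 < Nat.card (GL (Fin l) F) := Nat.card_pos
  apply Nat.eq_of_mul_eq_mul_right hpos
  rw [mul_assoc, h, mul_assoc]
  rfl

theorem card_fit' [Fintype F] (n k : ℕ) (hk : k ≤ n) :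
    Nat.card (GL (Fin n) F) * Nat.card {N : Matrix (Fin k) (Fin k) F // IsNilpotent N} =
      Nat.card {M : Matrix (Fin n) (Fin n) F // M.charpoly.natTrailingDegree = k} *
        Nat.card (GL (Fin k) F) := by
  classical
  obtain ⟨l, rfl⟩ : ∃ l, n = k + l := ⟨n - k, by omega⟩
  have h := card_fit (F := F) k l
  obtain ⟨e, -⟩ : ∃ e : Fin k ⊕ Fin l ≃ Fin (k + l), True := ⟨finSumFinEquiv, trivial⟩
  have h1 : Nat.card (GL (Fin k ⊕ Fin l) F) = Nat.card (GL (Fin (k + l)) F) :=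
    Nat.card_congr (Units.mapEquiv (Matrix.reindexAlgEquiv F F e).toMulEquiv).toEquiv
  have h2 : Nat.card {M : Matrix (Fin k ⊕ Fin l) (Fin k ⊕ Fin l) F //
      M.charpoly.natTrailingDegree = k} =
      Nat.card {M : Matrix (Fin (k + l)) (Fin (k + l)) F // M.charpoly.natTrailingDegree = k} :=
    Nat.card_congr ((Matrix.reindex e e).subtypeEquiv
      (fun M => by rw [Matrix.charpoly_reindex]))
  rw [← h1, ← h2]
  exact h

theorem sum_card [Fintype F] (n : ℕ) :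
    ∑ k ∈ Finset.range (n + 1),
      Nat.card {M : Matrix (Fin n) (Fin n) F // M.charpoly.natTrailingDegree = k} =
      Fintype.card F ^ (n * n) := by
  classical
  have hle : ∀ M : Matrix (Fin n) (Fin n) F, M.charpoly.natTrailingDegree < n + 1 := by
    intro M
    have h1 := natTrailingDegree_le_natDegree M.charpoly
    rw [Matrix.charpoly_natDegree_eq_dim, Fintype.card_fin] at h1
    omega
  obtain ⟨g, hg⟩ : ∃ g : Matrix (Fin n) (Fin n) F → Fin (n + 1),
      ∀ M, (g M : ℕ) = M.charpoly.natTrailingDegree := ⟨fun M => ⟨_, hle M⟩, fun M => rfl⟩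
  have h1 : Nat.card (Matrix (Fin n) (Fin n) F) = Fintype.card F ^ (n * n) := by
    show Nat.card (Fin n → Fin n → F) = _
    rw [Nat.card_fun, Nat.card_fun, Nat.card_eq_fintype_card, Nat.card_eq_fintype_card,
      Fintype.card_fin, ← pow_mul]
  rw [← h1, ← Nat.card_congr (Equiv.sigmaFiberEquiv g), Nat.card_sigma,
    ← Fin.sum_univ_eq_sum_range
      (fun k => Nat.card {M : Matrix (Fin n) (Fin n) F // M.charpoly.natTrailingDegree = k})
      (n + 1)]
  apply Finset.sum_congr rfl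
  intro y _
  apply Nat.card_congr
  exact Equiv.subtypeEquivRight (fun M => by rw [← hg, Fin.ext_iff])

theorem card_GL_succ [Fintype F] (n : ℕ) :
    Nat.card (GL (Fin (n + 1)) F) =
      Nat.card (GL (Fin n) F) * (Fintype.card F ^ n * (Fintype.card F ^ (n + 1) - 1)) := by
  rw [Matrix.card_GL_field, Matrix.card_GL_field, Fin.prod_univ_succ]
  have h : ∀ i : Fin n, Fintype.card F ^ (n + 1) - Fintype.card F ^ ((i.succ : Fin (n + 1)) : ℕ) =
      Fintype.card F * (Fintype.card F ^ n - Fintype.card F ^ (i : ℕ)) := by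
    intro i
    rw [Fin.val_succ, Nat.mul_sub, pow_succ', pow_succ']
  simp only [h, Finset.prod_mul_distrib, Finset.prod_const, Finset.card_univ, Fintype.card_fin,
    Fin.val_zero, pow_zero]
  ring

theorem nu_eq (q : ℕ) (hq : 1 ≤ q) (A ν : ℕ → ℕ) (c : ℕ → ℕ → ℕ)
    (hA0 : ∀ n, 0 < A n)
    (hA : ∀ n, A (n + 1) = A n * (q ^ n * (q ^ (n + 1) - 1)))
    (hc : ∀ n k, k ≤ n → A n * ν k = c n k * A k)
    (hsum : ∀ n, ∑ k ∈ Finset.range (n + 1), c n k = q ^ (n * n)) :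
    ∀ n, ν n = q ^ (n * (n - 1)) := by
  obtain ⟨D, hD⟩ : ∃ D : ℕ → ℕ → ℕ, ∀ n k, D n k =
      (∏ j ∈ Finset.Ico k n, (q ^ j * (q ^ (j + 1) - 1))) * q ^ (k * (k - 1)) := ⟨_, fun _ _ => rfl⟩
  have h1 : ∀ k n, k ≤ n → A n = A k * ∏ j ∈ Finset.Ico k n, (q ^ j * (q ^ (j + 1) - 1)) := by
    intro k n hkn
    induction n, hkn using Nat.le_induction with
    | base => simp
    | succ n hkn ih =>
      rw [Finset.prod_Ico_succ_top hkn, hA, ih, mul_assoc]
  have h2 : ∀ n, ∑ k ∈ Finset.range (n + 1), D n k = q ^ (n * n) := by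
    intro n
    induction n with
    | zero => simp [hD]
    | succ n ih =>
      rw [Finset.sum_range_succ]
      have h3 : ∀ k ∈ Finset.range (n + 1), D (n + 1) k = D n k * (q ^ n * (q ^ (n + 1) - 1)) := by
        intro k hk
        rw [Finset.mem_range] at hk
        rw [hD, hD, Finset.prod_Ico_succ_top (by omega)]
        ring
      rw [Finset.sum_congr rfl h3, ← Finset.sum_mul, ih, hD]
      simp only [Finset.Ico_self, Finset.prod_empty, one_mul, Nat.add_sub_cancel]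
      obtain ⟨t, ht⟩ : ∃ t, q ^ (n + 1) = t + 1 := ⟨q ^ (n + 1) - 1, by
        have := Nat.one_le_pow (n + 1) q hq
        omega⟩
      have h4 : q ^ ((n + 1) * (n + 1)) = q ^ (n * n) * q ^ n * q ^ (n + 1) := by
        rw [← pow_add, ← pow_add]
        congr 1
        ring
      have h5 : q ^ ((n + 1) * n) = q ^ (n * n) * q ^ n := by
        rw [← pow_add]
        congr 1
        ring
      rw [h4, h5, ht, Nat.add_sub_cancel]
      ring
  intro n
  induction n using Nat.strong_induction_on with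
  | _ n ih =>
    have h3 : ∀ k ∈ Finset.range n, c n k = D n k := by
      intro k hk
      rw [Finset.mem_range] at hk
      have h4 := hc n k hk.le
      rw [ih k hk, h1 k n hk.le] at h4
      apply Nat.eq_of_mul_eq_mul_right (hA0 k)
      rw [← h4, hD]
      ring
    have h5 : c n n = ν n := by
      have h4 := hc n n le_rfl
      apply Nat.eq_of_mul_eq_mul_right (hA0 n)
      rw [← h4, mul_comm]
    have h6 := hsum n
    have h7 := h2 n
    rw [Finset.sum_range_succ, Finset.sum_congr rfl h3, h5] at h6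
    rw [Finset.sum_range_succ] at h7
    have h8 : ν n = D n n := Nat.add_left_cancel (h6.trans h7.symm)
    rw [h8, hD]
    simp

/-- **Fine–Herstein**: the number of nilpotent `n × n` matrices over a field with `q` elements is
`q ^ (n * (n - 1))`. -/
theorem card_nilpotent [Fintype F] (n : ℕ) :
    Nat.card {N : Matrix (Fin n) (Fin n) F // IsNilpotent N} = Fintype.card F ^ (n * (n - 1)) :=
  nu_eq (Fintype.card F) Fintype.card_pos (fun n => Nat.card (GL (Fin n) F))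
    (fun n => Nat.card {N : Matrix (Fin n) (Fin n) F // IsNilpotent N})
    (fun n k => Nat.card {M : Matrix (Fin n) (Fin n) F // M.charpoly.natTrailingDegree = k})
    (fun _ => Nat.card_pos) card_GL_succ (fun n k hk => card_fit' n k hk) sum_card n

end count


end Cfsg.Agent.Lib.Helper40.NilCount
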