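import Mathlib

set_option autoImplicit false
open scoped MatrixGroups

namespace Cfsg.Agent.Lib.Helper40.TorusEmbed

/-- A finite cyclic group contains a copy of `ZMod m` for every `m` dividing its order. -/
theorem exists_injective_zmod {C : Type*} [Group C] [Finite C] [IsCyclic C] (m : ℕ)
    (hm : m ∣ Nat.card C) : ∃ f : Multiplicative (ZMod m) →* C, Function.Injective f := by
  obtain ⟨g, hg⟩ := IsCyclic.exists_generator (α := C)
  have hord : orderOf g = Nat.card C := orderOf_eq_card_of_forall_mem_zpowers hg
  obtain ⟨k, hk⟩ := hm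
  have hcard : 0 < Nat.card C := Nat.card_pos
  have hk0 : k ≠ 0 := by
    rintro rfl
    rw [mul_zero] at hk
    omega
  have hm0 : m ≠ 0 := by
    rintro rfl
    rw [zero_mul] at hk
    omega
  haveI : NeZero m := ⟨hm0⟩
  have hh : orderOf (g ^ k) = m := by
    rw [orderOf_pow_of_dvd hk0 (by rw [hord, hk]; exact dvd_mul_left k m), hord, hk,
      Nat.mul_div_cancel _ (Nat.pos_of_ne_zero hk0)]
  have hc : Nat.card (Multiplicative (ZMod m)) = Nat.card ↥(Subgroup.zpowers (g ^ k)) := by
    rw [Nat.card_zpowers, hh]
    exact (Nat.card_congr Multiplicative.toAdd).trans (Nat.card_zmod m)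
  let e := mulEquivOfCyclicCardEq hc
  exact ⟨(Subgroup.subtype _).comp e.toMonoidHom,
    (Subgroup.subtype_injective _).comp e.injective⟩

section
variable (F : Type*) [Field F] (K : Type*) [Field K] [Algebra F K] (a b : ℕ)

/-- The `F`-linear action of `(Kˣ)^a` on `K^a × F^b`. -/
def torusEnd : (Fin a → Kˣ) →* Module.End F ((Fin a → K) × (Fin b → F)) where
  toFun c :=
    { toFun := fun x => (fun i => (c i : K) * x.1 i, x.2)
      map_add' := by
        intro x y
        refine Prod.ext (funext fun i => ?_) rfl
        simp [mul_add]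
      map_smul' := by
        intro t x
        refine Prod.ext (funext fun i => ?_) rfl
        simp [mul_smul_comm] }
  map_one' := by
    refine LinearMap.ext fun x => Prod.ext (funext fun i => ?_) rfl
    simp
  map_mul' := by
    intro c c'
    refine LinearMap.ext fun x => Prod.ext (funext fun i => ?_) rfl
    simp [mul_assoc]

theorem torusEnd_injective : Function.Injective (torusEnd F K a b) := by
  intro c c' h
  funext i
  have h1 := congrArg (fun f : Module.End F ((Fin a → K) × (Fin b → F)) =>
    (f (Pi.single i 1, 0)).1 i) h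
  apply Units.ext
  simpa [torusEnd] using h1

theorem exists_injective_GL [Module.Finite F K] (n : ℕ)
    (hn : a * Module.finrank F K + b = n) :
    ∃ ψ : (Fin a → Kˣ) →* GL (Fin n) F, Function.Injective ψ := by
  have hfr : Module.finrank F ((Fin a → K) × (Fin b → F)) = n := by
    rw [Module.finrank_prod, Module.finrank_pi_fintype, Module.finrank_fin_fun]
    simpa using hn
  let bas := Module.finBasisOfFinrankEq F ((Fin a → K) × (Fin b → F)) hfr
  let e : (Module.End F ((Fin a → K) × (Fin b → F)))ˣ ≃* GL (Fin n) F :=
    Units.mapEquiv (LinearMap.toMatrixAlgEquiv bas).toMulEquiv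
  refine ⟨e.toMonoidHom.comp (torusEnd F K a b).toHomUnits, ?_⟩
  apply e.injective.comp
  intro c c' h
  apply torusEnd_injective F K a b
  have h1 := congrArg Units.val h
  simpa using h1

end

end Cfsg.Agent.Lib.Helper40.TorusEmbed
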