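import Mathlib
import Cfsg.Prelude.Def_GeometricClasses
import Cfsg.Agent.Lib.Helper40.SympConj
import Cfsg.Agent.Lib.Helper40.NilCount
import Cfsg.Agent.Lib.Helper5.SpCard
import Cfsg.Agent.Lib.Helper38.SLCard
import Cfsg.Agent.S2381

set_option autoImplicit false

namespace Cfsg.Agent.Lib.Helper40.GSpIndex

open Matrix

variable {F : Type*} [Field F]

/-- `|GL_{2j+2}(q)| = (q - 1) |Sp_{2j+2}(q)| ∏_{k<j} q^{2k+2} (q^{2k+3} - 1)`. -/
theorem card_GL_even [Fintype F] (j : ℕ) :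
    Nat.card (GL (Fin (2 * j + 2)) F) =
      (Fintype.card F - 1) * Nat.card (Matrix.symplecticGroup (Fin (j + 1)) F) *
        ∏ k ∈ Finset.range j,
          (Fintype.card F ^ (2 * (k + 1)) * (Fintype.card F ^ (2 * k + 3) - 1)) := by
  induction j with
  | zero =>
    have h0 : Nat.card (GL (Fin 0) F) = 1 := by
      rw [Matrix.card_GL_field]
      simp
    have h1 : Nat.card (GL (Fin 1) F) =
        Nat.card (GL (Fin 0) F) * (Fintype.card F ^ 0 * (Fintype.card F ^ (0 + 1) - 1)) :=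
      Cfsg.Agent.Lib.Helper40.NilCount.card_GL_succ 0
    have h2 : Nat.card (GL (Fin 2) F) =
        Nat.card (GL (Fin 1) F) * (Fintype.card F ^ 1 * (Fintype.card F ^ (1 + 1) - 1)) :=
      Cfsg.Agent.Lib.Helper40.NilCount.card_GL_succ 1
    show Nat.card (GL (Fin 2) F) = _
    rw [h2, h1, h0, Cfsg.Agent.Lib.Helper5.SpCard.card_symplectic]
    simp
  | succ j ih =>
    have h1 : Nat.card (GL (Fin (2 * j + 2 + 1)) F) =
        Nat.card (GL (Fin (2 * j + 2)) F) *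
          (Fintype.card F ^ (2 * j + 2) * (Fintype.card F ^ (2 * j + 2 + 1) - 1)) :=
      Cfsg.Agent.Lib.Helper40.NilCount.card_GL_succ (2 * j + 2)
    have h2 : Nat.card (GL (Fin (2 * j + 2 + 1 + 1)) F) =
        Nat.card (GL (Fin (2 * j + 2 + 1)) F) *
          (Fintype.card F ^ (2 * j + 2 + 1) * (Fintype.card F ^ (2 * j + 2 + 1 + 1) - 1)) :=
      Cfsg.Agent.Lib.Helper40.NilCount.card_GL_succ (2 * j + 2 + 1)
    have hSp : Nat.card (Matrix.symplecticGroup (Fin (j + 1 + 1)) F) =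
        Nat.card (Matrix.symplecticGroup (Fin (j + 1)) F) *
          (Fintype.card F ^ (2 * j + 2 + 1) * (Fintype.card F ^ (2 * j + 2 + 1 + 1) - 1)) := by
      rw [Cfsg.Agent.Lib.Helper5.SpCard.card_symplectic, Cfsg.Agent.Lib.Helper5.SpCard.card_symplectic,
        Finset.prod_range_succ]
      have e1 : (j + 1 + 1) ^ 2 = (j + 1) ^ 2 + (2 * j + 2 + 1) := by ring
      have e2 : 2 * (j + 1 + 1) = 2 * j + 2 + 1 + 1 := by ring
      rw [e1, pow_add, e2]
      ring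
    show Nat.card (GL (Fin (2 * j + 2 + 1 + 1)) F) = _
    rw [h2, h1, ih, hSp, Finset.prod_range_succ]
    have e3 : 2 * j + 3 = 2 * j + 2 + 1 := by ring
    have e4 : 2 * (j + 1) = 2 * j + 2 := by ring
    rw [e3, e4]
    ring

/-- A copy of `Sp_{2m}(q)` inside the determinant-one similarity group of any symplectic form. -/
theorem card_sp_dvd [Fintype F] (m : ℕ) (f : (Fin (m + m) → F) → (Fin (m + m) → F) → F)
    (hf : Cfsg.Geo.IsSymplecticForm f) :
    Nat.card (Matrix.symplecticGroup (Fin m) F) ∣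
      Nat.card ↥((Cfsg.Geo.similarityGroup f).comap
        (Matrix.SpecialLinearGroup.toGL :
          Matrix.SpecialLinearGroup (Fin (m + m)) F →* GL (Fin (m + m)) F)) := by
  classical
  obtain ⟨e, he⟩ : ∃ e : Fin (m + m) ≃ Fin m ⊕ Fin m, e = finSumFinEquiv.symm := ⟨_, rfl⟩
  obtain ⟨B₂, hB₂⟩ : ∃ B₂ : LinearMap.BilinForm F (Fin m ⊕ Fin m → F),
      ∀ a b, B₂ a b = f (a ∘ e) (b ∘ e) :=
    ⟨LinearMap.mk₂ F (fun a b => f (a ∘ e) (b ∘ e))
      (fun a a' b => hf.bilinear.add_left _ _ _)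
      (fun c a b => by
        show f ((c • a) ∘ e) (b ∘ e) = c • f (a ∘ e) (b ∘ e)
        rw [smul_eq_mul, ← hf.bilinear.smul_left]
        rfl)
      (fun a b b' => hf.bilinear.add_right _ _ _)
      (fun c a b => by
        show f (a ∘ e) ((c • b) ∘ e) = c • f (a ∘ e) (b ∘ e)
        rw [smul_eq_mul, ← hf.bilinear.smul_right]
        rfl), fun a b => rfl⟩
  obtain ⟨B₁, hB₁⟩ : ∃ B₁ : LinearMap.BilinForm F (Fin m ⊕ Fin m → F),
      ∀ a b, B₁ a b = a ⬝ᵥ (J (Fin m) F) *ᵥ b :=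
    ⟨Matrix.toBilin' (J (Fin m) F), fun a b => Matrix.toBilin'_apply' _ _ _⟩
  have alt₁ : B₁.IsAlt := fun a => by
    rw [hB₁]
    exact Cfsg.Agent.Lib.Helper40.SympConj.J_alt a
  have alt₂ : B₂.IsAlt := fun a => by
    rw [hB₂]
    exact hf.alternating _
  have nd₁ : ∀ u, (∀ v, B₁ u v = 0) → u = 0 := fun u hu =>
    Cfsg.Agent.Lib.Helper40.SympConj.eq_zero_of_J u (fun w => by rw [← hB₁]; exact hu w)
  have nd₂ : ∀ u, (∀ v, B₂ u v = 0) → u = 0 := by
    intro u hu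
    by_contra hne
    have hne' : u ∘ e ≠ 0 := by
      intro h0
      apply hne
      funext j
      have h1 := congrFun h0 (e.symm j)
      simpa using h1
    obtain ⟨w, hw⟩ := (hf.nondegenerate _ hne').2
    apply hw
    have h1 := hu (w ∘ e.symm)
    rw [hB₂] at h1
    have e1 : (w ∘ e.symm) ∘ e = w := by
      funext j
      simp
    rw [e1] at h1
    exact h1
  obtain ⟨c, hc⟩ := Cfsg.Agent.Lib.Helper40.SympConj.alt_iso B₁ B₂ alt₁ alt₂ nd₁ nd₂
  obtain ⟨C, hC1, hC2⟩ : ∃ C : GL (Fin m ⊕ Fin m) F,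
      (∀ u, (C : Matrix (Fin m ⊕ Fin m) (Fin m ⊕ Fin m) F) *ᵥ u = c u) ∧
      (∀ u, ((C⁻¹ : GL (Fin m ⊕ Fin m) F) : Matrix (Fin m ⊕ Fin m) (Fin m ⊕ Fin m) F) *ᵥ u =
        c.symm u) := by
    refine ⟨⟨LinearMap.toMatrix' (c : (Fin m ⊕ Fin m → F) →ₗ[F] (Fin m ⊕ Fin m → F)),
      LinearMap.toMatrix' (c.symm : (Fin m ⊕ Fin m → F) →ₗ[F] (Fin m ⊕ Fin m → F)), ?_, ?_⟩, ?_, ?_⟩
    · rw [← LinearMap.toMatrix'_comp]
      simp
    · rw [← LinearMap.toMatrix'_comp]
      simp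
    · intro u
      show (LinearMap.toMatrix' (c : (Fin m ⊕ Fin m → F) →ₗ[F] (Fin m ⊕ Fin m → F))) *ᵥ u = c u
      rw [← Matrix.toLin'_apply, Matrix.toLin'_toMatrix']
      rfl
    · intro u
      show (LinearMap.toMatrix' (c.symm : (Fin m ⊕ Fin m → F) →ₗ[F] (Fin m ⊕ Fin m → F))) *ᵥ u =
        c.symm u
      rw [← Matrix.toLin'_apply, Matrix.toLin'_toMatrix']
      rfl
  obtain ⟨ψ, hψinj, hψval⟩ : ∃ ψ : Matrix.symplecticGroup (Fin m) F →* GL (Fin (m + m)) F,
      Function.Injective ψ ∧ ∀ A : Matrix.symplecticGroup (Fin m) F,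
        ((ψ A : GL (Fin (m + m)) F) : Matrix (Fin (m + m)) (Fin (m + m)) F) =
          (((C⁻¹ : GL (Fin m ⊕ Fin m) F) : Matrix (Fin m ⊕ Fin m) (Fin m ⊕ Fin m) F) *
            (A : Matrix (Fin m ⊕ Fin m) (Fin m ⊕ Fin m) F) *
            (C : Matrix (Fin m ⊕ Fin m) (Fin m ⊕ Fin m) F)).submatrix e e := by
    refine ⟨(Cfsg.Agent.S2381.glReindex m F).symm.toMonoidHom.comp
      ((MulAut.conj C⁻¹).toMonoidHom.comp (Cfsg.Agent.S2381.spToGL m F)), ?_, ?_⟩
    · exact (Cfsg.Agent.S2381.glReindex m F).symm.injective.comp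
        ((MulAut.conj C⁻¹).injective.comp (Cfsg.Agent.S2381.spToGL_injective m F))
    · intro A
      rw [he]
      show ((Cfsg.Agent.S2381.glReindex m F).symm
        (MulAut.conj C⁻¹ (Cfsg.Agent.S2381.spToGL m F A))).val = _
      rw [MulAut.conj_apply, inv_inv]
      rfl
  have hiso : ∀ (A : Matrix.symplecticGroup (Fin m) F) (u v : Fin (m + m) → F),
      f (((ψ A : GL (Fin (m + m)) F) : Matrix (Fin (m + m)) (Fin (m + m)) F) *ᵥ u)
        (((ψ A : GL (Fin (m + m)) F) : Matrix (Fin (m + m)) (Fin (m + m)) F) *ᵥ v) = f u v := by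
    intro A u v
    have hmv : ∀ w : Fin (m + m) → F,
        ((ψ A : GL (Fin (m + m)) F) : Matrix (Fin (m + m)) (Fin (m + m)) F) *ᵥ w =
          (c.symm ((A : Matrix (Fin m ⊕ Fin m) (Fin m ⊕ Fin m) F) *ᵥ c (w ∘ e.symm))) ∘ e := by
      intro w
      rw [hψval, Matrix.submatrix_mulVec_equiv, ← Matrix.mulVec_mulVec, ← Matrix.mulVec_mulVec,
        hC1, hC2]
    have hA : Cfsg.Agent.Lib.Helper40.SympConj.sadj (A : Matrix (Fin m ⊕ Fin m) (Fin m ⊕ Fin m) F) *
        (A : Matrix (Fin m ⊕ Fin m) (Fin m ⊕ Fin m) F) = 1 :=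
      (Cfsg.Agent.Lib.Helper40.SympConj.mem_symp_iff _).mp A.2
    have hx : Cfsg.Agent.Lib.Helper40.SympConj.sadj (A : Matrix (Fin m ⊕ Fin m) (Fin m ⊕ Fin m) F) *ᵥ
        ((A : Matrix (Fin m ⊕ Fin m) (Fin m ⊕ Fin m) F) *ᵥ c (v ∘ e.symm)) = c (v ∘ e.symm) := by
      rw [Matrix.mulVec_mulVec, hA, Matrix.one_mulVec]
    rw [hmv, hmv, ← hB₂, hc, LinearEquiv.apply_symm_apply, LinearEquiv.apply_symm_apply, hB₁,
      Cfsg.Agent.Lib.Helper40.SympConj.adjoint_rel, hx, ← hB₁, ← hc, hB₂]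
    have e1 : ∀ w : Fin (m + m) → F, (w ∘ e.symm) ∘ e = w := by
      intro w
      funext j
      simp
    rw [e1, e1]
  have hdet : ∀ A : Matrix.symplecticGroup (Fin m) F,
      ((ψ A : GL (Fin (m + m)) F) : Matrix (Fin (m + m)) (Fin (m + m)) F).det = 1 := by
    intro A
    rw [hψval, Matrix.det_submatrix_equiv_self, Matrix.det_mul, Matrix.det_mul,
      SymplecticGroup.det_eq_one A.2, mul_one, ← Matrix.det_mul, ← Units.val_mul, inv_mul_cancel,
      Units.val_one, Matrix.det_one]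
  have hle1 : ψ.range ≤ Cfsg.Geo.similarityGroup f := by
    rintro g ⟨A, rfl⟩
    exact ⟨1, fun u v => by rw [Units.val_one, one_mul]; exact hiso A u v⟩
  have hle2 : ψ.range ≤ (Matrix.SpecialLinearGroup.toGL :
      Matrix.SpecialLinearGroup (Fin (m + m)) F →* GL (Fin (m + m)) F).range := by
    rintro g ⟨A, rfl⟩
    exact ⟨⟨_, hdet A⟩, Units.ext rfl⟩
  have hcard1 : Nat.card ↥(ψ.range.comap (Matrix.SpecialLinearGroup.toGL :
      Matrix.SpecialLinearGroup (Fin (m + m)) F →* GL (Fin (m + m)) F)) =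
      Nat.card (Matrix.symplecticGroup (Fin m) F) := by
    rw [← Subgroup.card_map_of_injective (Matrix.SpecialLinearGroup.toGL_injective
      (n := Fin (m + m)) (R := F)), Subgroup.map_comap_eq_self hle2]
    exact (Nat.card_congr (MonoidHom.ofInjective hψinj).toEquiv).symm
  rw [← hcard1]
  exact Subgroup.card_dvd_of_le (Subgroup.comap_mono hle1)

/-- The index of the determinant-one similarity group of a symplectic form in `SL_{2j+2}(q)`
divides `∏_{k<j} q^{2k+2} (q^{2k+3} - 1)`. -/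
theorem index_dvd [Fintype F] (j : ℕ)
    (f : (Fin (j + 1 + (j + 1)) → F) → (Fin (j + 1 + (j + 1)) → F) → F)
    (hf : Cfsg.Geo.IsSymplecticForm f) :
    ((Cfsg.Geo.similarityGroup f).comap
        (Matrix.SpecialLinearGroup.toGL :
          Matrix.SpecialLinearGroup (Fin (j + 1 + (j + 1))) F →* GL (Fin (j + 1 + (j + 1))) F)).index ∣
      ∏ k ∈ Finset.range j,
        (Fintype.card F ^ (2 * (k + 1)) * (Fintype.card F ^ (2 * k + 3) - 1)) := by
  classical
  obtain ⟨c, hc⟩ := card_sp_dvd (j + 1) f hf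
  have h1 := Subgroup.index_mul_card ((Cfsg.Geo.similarityGroup f).comap
        (Matrix.SpecialLinearGroup.toGL :
          Matrix.SpecialLinearGroup (Fin (j + 1 + (j + 1))) F →* GL (Fin (j + 1 + (j + 1))) F))
  have h2 := Cfsg.Agent.Lib.Helper38.SLCard.card_SL_mul (F := F) (j + 1 + (j + 1)) (by omega)
  have h3 : Nat.card (GL (Fin (j + 1 + (j + 1))) F) = Nat.card (GL (Fin (2 * j + 2)) F) :=
    congrArg (fun a => Nat.card (GL (Fin a) F)) (by omega : j + 1 + (j + 1) = 2 * j + 2)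
  have h4 := card_GL_even (F := F) j
  have hq : 0 < Fintype.card F - 1 := by
    have := Fintype.one_lt_card (α := F)
    omega
  have hSp : 0 < Nat.card (Matrix.symplecticGroup (Fin (j + 1)) F) := Nat.card_pos
  rw [hc] at h1
  rw [← h1, h3, h4] at h2
  refine ⟨c, ?_⟩
  have h5 : (Fintype.card F - 1) * Nat.card (Matrix.symplecticGroup (Fin (j + 1)) F) *
      (∏ k ∈ Finset.range j,
        (Fintype.card F ^ (2 * (k + 1)) * (Fintype.card F ^ (2 * k + 3) - 1))) =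
      (Fintype.card F - 1) * Nat.card (Matrix.symplecticGroup (Fin (j + 1)) F) *
      (((Cfsg.Geo.similarityGroup f).comap
        (Matrix.SpecialLinearGroup.toGL :
          Matrix.SpecialLinearGroup (Fin (j + 1 + (j + 1))) F →* GL (Fin (j + 1 + (j + 1))) F)).index * c) := by
    rw [← h2]
    ring
  exact Nat.eq_of_mul_eq_mul_left (Nat.mul_pos hq hSp) h5

end Cfsg.Agent.Lib.Helper40.GSpIndex
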