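import Mathlib
import Cfsg.Agent.Lib.Helper40.SURegUnip
import Cfsg.Agent.Lib.Helper95.NilJordan

set_option autoImplicit false

namespace Cfsg.Agent.Lib.Helper40.GUUnip

open Matrix
open Cfsg.Agent.Lib.Helper40.HermAdj Cfsg.Agent.Lib.Helper40.UnitDet
  Cfsg.Agent.Lib.Helper40.SUCount Cfsg.Agent.Lib.Helper40.SURegUnip

universe u

variable {K : Type u} [Field K]

/-- Applying an involutive field automorphism entrywise preserves the rank (finite field). -/
theorem rank_map_invol [Fintype K] (φ : K →+* K) (hφ : ∀ x, φ (φ x) = x) {n : ℕ}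
    (M : Matrix (Fin n) (Fin n) K) : (M.map φ).rank = M.rank := by
  classical
  have hmm : (M.map φ).map φ = M := by
    ext i j
    simp [hφ]
  have key : ∀ A : Matrix (Fin n) (Fin n) K,
      Nat.card (LinearMap.range A.mulVecLin) ≤ Nat.card (LinearMap.range (A.map φ).mulVecLin) := by
    intro A
    apply Nat.card_le_card_of_injective
      (fun w : LinearMap.range A.mulVecLin =>
        (⟨φ ∘ w.1, by
          obtain ⟨v, hv⟩ := w.2
          refine ⟨φ ∘ v, ?_⟩
          rw [Matrix.mulVecLin_apply, ← phi_mulVec, ← hv, Matrix.mulVecLin_apply]⟩ :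
          LinearMap.range (A.map φ).mulVecLin))
    intro w w' hww
    have h1 : φ ∘ w.1 = φ ∘ w'.1 := congrArg Subtype.val hww
    apply Subtype.ext
    funext i
    have h2 := congrFun h1 i
    simp only [Function.comp_apply] at h2
    have h3 := congrArg φ h2
    rw [hφ, hφ] at h3
    exact h3
  have h1 := key M
  have h2 := key (M.map φ)
  rw [hmm] at h2
  have h3 : Nat.card (LinearMap.range (M.map φ).mulVecLin) = Nat.card (LinearMap.range M.mulVecLin) :=
    le_antisymm h2 h1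
  have e1 : Nat.card (LinearMap.range (M.map φ).mulVecLin) = Nat.card K ^ (M.map φ).rank :=
    Module.natCard_eq_pow_finrank (K := K) (V := ↥(LinearMap.range (M.map φ).mulVecLin))
  have e2 : Nat.card (LinearMap.range M.mulVecLin) = Nat.card K ^ M.rank :=
    Module.natCard_eq_pow_finrank (K := K) (V := ↥(LinearMap.range M.mulVecLin))
  rw [e1, e2] at h3
  have h4 : 1 < Nat.card K := by
    rw [Nat.card_eq_fintype_card]
    exact Fintype.one_lt_card
  exact Nat.pow_right_injective h4 h3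

theorem rank_adj [Fintype K] (φ : K →+* K) (hφ : ∀ x, φ (φ x) = x) {n : ℕ}
    (M : Matrix (Fin n) (Fin n) K) : (adj φ M).rank = M.rank := by
  unfold adj
  rw [Matrix.rank_transpose, rank_map_invol φ hφ]

/-- Nilpotent matrices whose powers have equal ranks are conjugate. -/
theorem conj_of_rank_pow {n : ℕ} (A A' : Matrix (Fin n) (Fin n) K) (hA : IsNilpotent A)
    (hA' : IsNilpotent A') (h : ∀ m, (A ^ m).rank = (A' ^ m).rank) :
    ∃ P : (Matrix (Fin n) (Fin n) K)ˣ, (P : Matrix (Fin n) (Fin n) K) * A = A' * P := by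
  obtain ⟨ι, _, k, v, hpos, hJ⟩ := Cfsg.Agent.Lib.Helper95.NilJordan.exists_jordan_mat A hA
  obtain ⟨ι', _, k', v', hpos', hJ'⟩ := Cfsg.Agent.Lib.Helper95.NilJordan.exists_jordan_mat A' hA'
  apply Cfsg.Agent.Lib.Helper95.NilJordan.exists_conj_mat A A' hJ hJ'
  apply Cfsg.Agent.Lib.Helper95.NilJordan.multiset_eq_of_sums k k' hpos hpos'
  intro m
  rw [← Cfsg.Agent.Lib.Helper95.NilJordan.rank_pow A hJ m,
    ← Cfsg.Agent.Lib.Helper95.NilJordan.rank_pow A' hJ' m]
  exact h m

/-- A unipotent matrix over the field with `q²` elements is conjugate to the inverse of its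
conjugate transpose. -/
theorem unip_conj_adj_inv [Fintype K] (φ : K →+* K) (hφ : ∀ x, φ (φ x) = x) {n : ℕ}
    (A Ai : Matrix (Fin n) (Fin n) K) (hA1 : A * Ai = 1) (hnil : IsNilpotent (A - 1)) :
    ∃ P : (Matrix (Fin n) (Fin n) K)ˣ, (P : Matrix (Fin n) (Fin n) K) * A = adj φ Ai * P := by
  classical
  have hA2 : Ai * A = 1 := mul_eq_one_comm.mp hA1
  have h1 : adj φ A * adj φ Ai = 1 := by rw [← adj_mul, hA2, adj_one]
  have h2 : adj φ Ai * adj φ A = 1 := by rw [← adj_mul, hA1, adj_one]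
  have hN' : adj φ Ai - 1 = (-adj φ Ai) * adj φ (A - 1) := by
    rw [adj_sub', adj_one, neg_mul, mul_sub, mul_one, h2]
    abel
  have hcomm : Commute (adj φ Ai) (adj φ (A - 1)) := by
    show adj φ Ai * adj φ (A - 1) = adj φ (A - 1) * adj φ Ai
    rw [← adj_mul, ← adj_mul]
    congr 1
    rw [sub_mul, mul_sub, one_mul, mul_one, hA1, hA2]
  have hJiu : IsUnit (-adj φ Ai) := (IsUnit.of_mul_eq_one _ h2).neg
  have hpow : ∀ m : ℕ, (adj φ Ai - 1) ^ m = (-adj φ Ai) ^ m * adj φ ((A - 1) ^ m) := by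
    intro m
    rw [hN', hcomm.neg_left.mul_pow, adj_pow]
  have hnil' : IsNilpotent (adj φ Ai - 1) := by
    obtain ⟨k, hk⟩ := hnil
    exact ⟨k, by rw [hpow, hk, adj_zero, mul_zero]⟩
  have hrank : ∀ m, ((A - 1) ^ m).rank = ((adj φ Ai - 1) ^ m).rank := by
    intro m
    rw [hpow, Matrix.rank_mul_eq_right_of_isUnit_det _ _
      ((Matrix.isUnit_iff_isUnit_det _).mp (hJiu.pow m)), rank_adj φ hφ]
  obtain ⟨P, hP⟩ := conj_of_rank_pow (A - 1) (adj φ Ai - 1) hnil hnil' hrank
  refine ⟨P, ?_⟩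
  rw [mul_sub, sub_mul, mul_one, one_mul] at hP
  exact sub_left_injective hP

end Cfsg.Agent.Lib.Helper40.GUUnip
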