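import Mathlib
import Cfsg.Agent.Lib.Helper40.UnitDet
import Cfsg.Agent.Lib.Helper40.HermDiag

set_option autoImplicit false

namespace Cfsg.Agent.Lib.Helper40.HGeo

open Module Cfsg.Agent.Lib.Helper40.UnitDet Cfsg.Agent.Lib.Helper40.HermAdj

universe u

section basic
variable {K : Type u} [Field K] (φ : K →+* K) {n : ℕ}

/-- Nondegeneracy of the standard Hermitian form on a subspace. -/
def ND (W : Submodule K (Fin n → K)) : Prop :=
  ∀ u ∈ W, u ≠ 0 → ∃ v ∈ W, hB φ u v ≠ 0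

theorem nd_bot : ND φ (⊥ : Submodule K (Fin n → K)) := by
  intro u hu hu0
  exact absurd ((Submodule.mem_bot K).mp hu) hu0

theorem nd_top (hφ : ∀ x, φ (φ x) = x) : ND φ (⊤ : Submodule K (Fin n → K)) := by
  intro u _ hu0
  by_contra hcon
  push Not at hcon
  exact hu0 (hB_nondeg φ hφ u (fun v => hcon v Submodule.mem_top))

theorem hB_sub_right (u v v' : Fin n → K) : hB φ u (v - v') = hB φ u v - hB φ u v' := by
  have h := hB_add_right φ u (v - v') v'
  rw [sub_add_cancel] at h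
  rw [h]
  ring

theorem hB_sum_left {ι : Type*} (s : Finset ι) (f : ι → Fin n → K) (v : Fin n → K) :
    hB φ (∑ i ∈ s, f i) v = ∑ i ∈ s, hB φ (f i) v := by
  classical
  induction s using Finset.induction_on with
  | empty => simp [hB_zero_left]
  | insert a s ha ih => rw [Finset.sum_insert ha, Finset.sum_insert ha, hB_add_left, ih]

theorem hB_sum_right {ι : Type*} (s : Finset ι) (u : Fin n → K) (f : ι → Fin n → K) :
    hB φ u (∑ i ∈ s, f i) = ∑ i ∈ s, hB φ u (f i) := by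
  classical
  induction s using Finset.induction_on with
  | empty => simp [hB_zero_right]
  | insert a s ha ih => rw [Finset.sum_insert ha, Finset.sum_insert ha, hB_add_right, ih]

theorem hB_eq_zero_comm (hφ : ∀ x, φ (φ x) = x) (u v : Fin n → K) :
    hB φ u v = 0 ↔ hB φ v u = 0 := by
  constructor
  · intro h
    rw [hB_symm φ hφ u v, h, map_zero]
  · intro h
    rw [hB_symm φ hφ v u, h, map_zero]

/-- Orthonormal families. -/
def ON {k : ℕ} (b : Fin k → Fin n → K) : Prop :=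
  ∀ i j, hB φ (b i) (b j) = if i = j then 1 else 0

theorem on_coeff {k : ℕ} (b : Fin k → Fin n → K) (hb : ON φ b) (c : Fin k → K) (j : Fin k) :
    hB φ (∑ i, c i • b i) (b j) = c j := by
  rw [hB_sum_left, Finset.sum_eq_single j]
  · rw [hB_smul_left, hb j j, if_pos rfl, mul_one]
  · intro i _ hij
    rw [hB_smul_left, hb i j, if_neg hij, mul_zero]
  · intro h
    exact absurd (Finset.mem_univ _) h

theorem on_li {k : ℕ} (b : Fin k → Fin n → K) (hb : ON φ b) : LinearIndependent K b := by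
  rw [Fintype.linearIndependent_iff]
  intro c hc j
  have h1 := on_coeff φ b hb c j
  rw [hc, hB_zero_left] at h1
  exact h1.symm

theorem on_span {k : ℕ} (b : Fin k → Fin n → K) (hb : ON φ b) (W : Submodule K (Fin n → K))
    (hbW : ∀ i, b i ∈ W) (hk : finrank K W = k) : Submodule.span K (Set.range b) = W := by
  apply Submodule.eq_of_le_of_finrank_eq
  · rw [Submodule.span_le]
    rintro _ ⟨i, rfl⟩
    exact hbW i
  · rw [finrank_span_eq_card (on_li φ b hb), Fintype.card_fin, hk]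

theorem on_expand {k : ℕ} (b : Fin k → Fin n → K) (hb : ON φ b) (w : Fin n → K)
    (hw : w ∈ Submodule.span K (Set.range b)) : w = ∑ i, hB φ w (b i) • b i := by
  obtain ⟨c, rfl⟩ := (Submodule.mem_span_range_iff_exists_fun K).mp hw
  apply Finset.sum_congr rfl
  intro j _
  rw [on_coeff φ b hb c j]

/-- Projection onto the span of an orthonormal family. -/
def proj {k : ℕ} (b : Fin k → Fin n → K) (v : Fin n → K) : Fin n → K :=
  ∑ i, hB φ v (b i) • b i

theorem proj_mem {k : ℕ} (b : Fin k → Fin n → K) (W : Submodule K (Fin n → K))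
    (hbW : ∀ i, b i ∈ W) (v : Fin n → K) : proj φ b v ∈ W :=
  Submodule.sum_mem _ (fun i _ => Submodule.smul_mem _ _ (hbW i))

theorem sub_proj_perp (hφ : ∀ x, φ (φ x) = x) {k : ℕ} (b : Fin k → Fin n → K) (hb : ON φ b)
    (v : Fin n → K) (j : Fin k) : hB φ (b j) (v - proj φ b v) = 0 := by
  rw [hB_sub_right, proj, hB_sum_right, Finset.sum_eq_single j]
  · rw [hB_smul_right, hb j j, if_pos rfl, mul_one, ← hB_symm φ hφ v (b j), sub_self]
  · intro i _ hij
    rw [hB_smul_right, hb j i, if_neg (Ne.symm hij), mul_zero]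
  · intro h
    exact absurd (Finset.mem_univ _) h

theorem mem_perp_of_on {k : ℕ} (b : Fin k → Fin n → K) (W : Submodule K (Fin n → K))
    (hspan : Submodule.span K (Set.range b) = W) (y : Fin n → K)
    (h : ∀ j, hB φ (b j) y = 0) : y ∈ perp φ W := by
  rw [mem_perp]
  intro x hx
  rw [← hspan] at hx
  obtain ⟨c, rfl⟩ := (Submodule.mem_span_range_iff_exists_fun K).mp hx
  rw [hB_sum_left]
  apply Finset.sum_eq_zero
  intro i _
  rw [hB_smul_left, h i, mul_zero]

theorem exists_onb [Finite K] (hφ : ∀ x, φ (φ x) = x) (l : K) (hl : φ l ≠ l)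
    (W : Submodule K (Fin n → K)) (hW : ND φ W) :
    ∃ b : Fin (finrank K W) → Fin n → K, (∀ i, b i ∈ W) ∧ ON φ b := by
  obtain ⟨b, hb⟩ := Cfsg.Agent.Lib.Helper40.HermDiag.exists_orthonormal φ hφ l hl
    (finrank K W) W (fun u v => hB φ (v : Fin n → K) (u : Fin n → K))
    (fun u v w => by
      show hB φ ((v + w : W) : Fin n → K) u = _
      rw [Submodule.coe_add, hB_add_left])
    (fun a u v => by
      show hB φ ((a • v : W) : Fin n → K) u = _
      rw [Submodule.coe_smul, hB_smul_left])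
    (fun u v => hB_symm φ hφ (v : Fin n → K) (u : Fin n → K))
    (fun u hu => by
      by_contra hne
      have hne' : (u : Fin n → K) ≠ 0 := fun h => hne (Subtype.ext h)
      obtain ⟨y, hy, hy'⟩ := hW u u.2 hne'
      apply hy'
      rw [hB_eq_zero_comm φ hφ]
      exact hu ⟨y, hy⟩) rfl
  refine ⟨fun i => (b i : Fin n → K), fun i => (b i).2, ?_⟩
  intro i j
  have h := hb j i
  rw [h]
  by_cases hij : i = j
  · rw [if_pos hij, if_pos hij.symm]
  · rw [if_neg hij, if_neg (Ne.symm hij)]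

theorem exists_decomp [Finite K] (hφ : ∀ x, φ (φ x) = x) (l : K) (hl : φ l ≠ l)
    (W : Submodule K (Fin n → K)) (hW : ND φ W) (v : Fin n → K) :
    ∃ w ∈ W, v - w ∈ perp φ W := by
  obtain ⟨b, hbW, hb⟩ := exists_onb φ hφ l hl W hW
  have hspan := on_span φ b hb W hbW rfl
  exact ⟨proj φ b v, proj_mem φ b W hbW v,
    mem_perp_of_on φ b W hspan _ (sub_proj_perp φ hφ b hb v)⟩

theorem inf_perp_eq_bot (hφ : ∀ x, φ (φ x) = x) (W : Submodule K (Fin n → K)) (hW : ND φ W) :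
    W ⊓ perp φ W = ⊥ := by
  rw [eq_bot_iff]
  intro u hu
  rw [Submodule.mem_bot]
  by_contra hu0
  have h1 : u ∈ W := hu.1
  have h2 : u ∈ perp φ W := hu.2
  obtain ⟨v, hv, hv'⟩ := hW u h1 hu0
  apply hv'
  rw [hB_eq_zero_comm φ hφ]
  exact (mem_perp φ W u).mp h2 v hv

theorem sup_inf_perp [Finite K] (hφ : ∀ x, φ (φ x) = x) (l : K) (hl : φ l ≠ l)
    (W U : Submodule K (Fin n → K)) (hW : ND φ W) (hWU : W ≤ U) :
    W ⊔ (U ⊓ perp φ W) = U := by
  apply le_antisymm
  · exact sup_le hWU inf_le_left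
  · intro u hu
    obtain ⟨w, hw, hw'⟩ := exists_decomp φ hφ l hl W hW u
    have h1 : u = w + (u - w) := by abel
    rw [h1]
    exact Submodule.add_mem_sup hw ⟨U.sub_mem hu (hWU hw), hw'⟩

theorem finrank_inf_perp [Finite K] (hφ : ∀ x, φ (φ x) = x) (l : K) (hl : φ l ≠ l)
    (W U : Submodule K (Fin n → K)) (hW : ND φ W) (hWU : W ≤ U) :
    finrank K (U ⊓ perp φ W : Submodule K (Fin n → K)) + finrank K W = finrank K U := by
  have h1 := Submodule.finrank_sup_add_finrank_inf_eq W (U ⊓ perp φ W)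
  have h2 : W ⊓ (U ⊓ perp φ W) = ⊥ := by
    rw [eq_bot_iff, ← inf_perp_eq_bot φ hφ W hW]
    exact le_inf inf_le_left (inf_le_right.trans inf_le_right)
  rw [sup_inf_perp φ hφ l hl W U hW hWU, h2, finrank_bot, add_zero] at h1
  omega

theorem nd_inf_perp [Finite K] (hφ : ∀ x, φ (φ x) = x) (l : K) (hl : φ l ≠ l)
    (W U : Submodule K (Fin n → K)) (hW : ND φ W) (hU : ND φ U) (hWU : W ≤ U) :
    ND φ (U ⊓ perp φ W) := by
  intro u hu hu0
  have hu1 : u ∈ U := hu.1
  have hu2 : u ∈ perp φ W := hu.2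
  obtain ⟨v, hv, hv'⟩ := hU u hu1 hu0
  obtain ⟨w, hw, hw'⟩ := exists_decomp φ hφ l hl W hW v
  refine ⟨v - w, ⟨U.sub_mem hv (hWU hw), hw'⟩, ?_⟩
  rw [hB_sub_right]
  have h0 : hB φ u w = 0 := by
    rw [hB_eq_zero_comm φ hφ]
    exact (mem_perp φ W u).mp hu2 w hw
  rw [h0, sub_zero]
  exact hv'

theorem nd_sup (hφ : ∀ x, φ (φ x) = x) (W₁ W₂ : Submodule K (Fin n → K)) (h1 : ND φ W₁)
    (h2 : ND φ W₂) (hle : W₂ ≤ perp φ W₁) : ND φ (W₁ ⊔ W₂) := by
  intro u hu hu0
  obtain ⟨u₁, hu₁, u₂, hu₂, rfl⟩ := Submodule.mem_sup.mp hu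
  have horth : ∀ a ∈ W₁, ∀ b ∈ W₂, hB φ a b = 0 := fun a ha b hb =>
    (mem_perp φ W₁ b).mp (hle hb) a ha
  by_cases h : u₁ = 0
  · have hu₂0 : u₂ ≠ 0 := by
      intro h0
      apply hu0
      rw [h, h0, add_zero]
    obtain ⟨v, hv, hv'⟩ := h2 u₂ hu₂ hu₂0
    refine ⟨v, Submodule.mem_sup_right hv, ?_⟩
    rw [hB_add_left, horth u₁ hu₁ v hv, zero_add]
    exact hv'
  · obtain ⟨v, hv, hv'⟩ := h1 u₁ hu₁ h
    refine ⟨v, Submodule.mem_sup_left hv, ?_⟩
    rw [hB_add_left, (hB_eq_zero_comm φ hφ u₂ v).mpr (horth v hv u₂ hu₂), add_zero]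
    exact hv'

theorem finrank_sup (hφ : ∀ x, φ (φ x) = x) (W₁ W₂ : Submodule K (Fin n → K)) (h1 : ND φ W₁)
    (hle : W₂ ≤ perp φ W₁) :
    finrank K (W₁ ⊔ W₂ : Submodule K (Fin n → K)) = finrank K W₁ + finrank K W₂ := by
  have h := Submodule.finrank_sup_add_finrank_inf_eq W₁ W₂
  have h2 : W₁ ⊓ W₂ = ⊥ := by
    rw [eq_bot_iff, ← inf_perp_eq_bot φ hφ W₁ h1]
    exact inf_le_inf_left _ hle
  rw [h2, finrank_bot, add_zero] at h
  exact h

variable (x : Module.End K (Fin n → K))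

theorem iso_injective (hφ : ∀ x, φ (φ x) = x) (hiso : ∀ u v, hB φ (x u) (x v) = hB φ u v) :
    Function.Injective x := by
  rw [injective_iff_map_eq_zero]
  intro u hu
  apply hB_nondeg φ hφ
  intro v
  rw [← hiso, hu, hB_zero_left]

theorem iso_map_eq (hφ : ∀ x, φ (φ x) = x) (hiso : ∀ u v, hB φ (x u) (x v) = hB φ u v)
    (W : Submodule K (Fin n → K)) (hW : ∀ w ∈ W, x w ∈ W) : W.map x = W := by
  apply Submodule.eq_of_le_of_finrank_eq
  · rintro _ ⟨w, hw, rfl⟩
    exact hW w hw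
  · exact (LinearEquiv.finrank_eq
      (Submodule.equivMapOfInjective x (iso_injective φ x hφ hiso) W)).symm

theorem perp_invt (hφ : ∀ x, φ (φ x) = x) (hiso : ∀ u v, hB φ (x u) (x v) = hB φ u v)
    (W : Submodule K (Fin n → K)) (hW : ∀ w ∈ W, x w ∈ W) :
    ∀ v ∈ perp φ W, x v ∈ perp φ W := by
  intro v hv
  rw [mem_perp] at hv ⊢
  intro w hw
  rw [← iso_map_eq φ x hφ hiso W hW] at hw
  obtain ⟨w', hw', rfl⟩ := hw
  rw [hiso]
  exact hv w' hw'

/-- Generic decomposition into nondegenerate invariant pieces. -/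
theorem decomp [Finite K] (hφ : ∀ x, φ (φ x) = x) (l : K) (hl : φ l ≠ l)
    (hiso : ∀ u v, hB φ (x u) (x v) = hB φ u v) (Good : ℕ → Prop)
    (hpeel : ∀ U : Submodule K (Fin n → K), ND φ U → (∀ u ∈ U, x u ∈ U) → U ≠ ⊥ →
      ∃ W : Submodule K (Fin n → K), W ≤ U ∧ ND φ W ∧ (∀ w ∈ W, x w ∈ W) ∧ 0 < finrank K W ∧
        Good (finrank K W)) :
    ∀ (k : ℕ) (U : Submodule K (Fin n → K)), ND φ U → (∀ u ∈ U, x u ∈ U) → finrank K U = k →
      ∃ μ : Multiset ℕ, (∀ a ∈ μ, 0 < a ∧ Good a) ∧ μ.sum = k ∧ ∀ ν ≤ μ,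
        ∃ W : Submodule K (Fin n → K), W ≤ U ∧ ND φ W ∧ (∀ w ∈ W, x w ∈ W) ∧
          finrank K W = ν.sum := by
  intro k
  induction k using Nat.strong_induction_on with
  | _ k ih =>
    intro U hU hUx hk
    by_cases hbot : U = ⊥
    · refine ⟨0, by simp, ?_, ?_⟩
      · rw [← hk, hbot, finrank_bot, Multiset.sum_zero]
      · intro ν hν
        have hν0 : ν = 0 := Multiset.le_zero.mp hν
        refine ⟨⊥, bot_le, nd_bot φ, ?_, ?_⟩
        · intro w hw
          rw [Submodule.mem_bot] at hw ⊢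
          rw [hw, map_zero]
        · rw [finrank_bot, hν0, Multiset.sum_zero]
    · obtain ⟨W₁, hW₁U, hW₁nd, hW₁x, hW₁pos, hW₁g⟩ := hpeel U hU hUx hbot
      obtain ⟨a, ha⟩ : ∃ a, a = finrank K W₁ := ⟨_, rfl⟩
      have hfr := finrank_inf_perp φ hφ l hl W₁ U hW₁nd hW₁U
      have hU'nd := nd_inf_perp φ hφ l hl W₁ U hW₁nd hU hW₁U
      have hU'x : ∀ u ∈ U ⊓ perp φ W₁, x u ∈ U ⊓ perp φ W₁ := by
        intro u hu
        have hu1 : u ∈ U := hu.1
        have hu2 : u ∈ perp φ W₁ := hu.2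
        exact ⟨hUx u hu1, perp_invt φ x hφ hiso W₁ hW₁x u hu2⟩
      obtain ⟨μ', hμ'1, hμ'2, hμ'3⟩ := ih (k - a) (by omega) (U ⊓ perp φ W₁) hU'nd hU'x
        (by omega)
      refine ⟨a ::ₘ μ', ?_, ?_, ?_⟩
      · intro b hb
        rcases Multiset.mem_cons.mp hb with hba | hb
        · rw [hba, ha]
          exact ⟨hW₁pos, hW₁g⟩
        · exact hμ'1 b hb
      · rw [Multiset.sum_cons, hμ'2]
        omega
      · intro ν hν
        by_cases haν : a ∈ ν
        · have h1 : ν.erase a ≤ μ' := by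
            have h2 := Multiset.erase_le_erase a hν
            rwa [Multiset.erase_cons_head] at h2
          obtain ⟨W', hW'U, hW'nd, hW'x, hW'd⟩ := hμ'3 _ h1
          have hle : W' ≤ perp φ W₁ := hW'U.trans inf_le_right
          refine ⟨W₁ ⊔ W', sup_le hW₁U (hW'U.trans inf_le_left),
            nd_sup φ hφ W₁ W' hW₁nd hW'nd hle, ?_, ?_⟩
          · intro w hw
            obtain ⟨w₁, hw₁, w₂, hw₂, rfl⟩ := Submodule.mem_sup.mp hw
            rw [map_add]
            exact Submodule.add_mem_sup (hW₁x w₁ hw₁) (hW'x w₂ hw₂)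
          · rw [finrank_sup φ hφ W₁ W' hW₁nd hle, hW'd, ← ha, ← Multiset.sum_cons,
              Multiset.cons_erase haν]
        · have h1 : ν ≤ μ' := (Multiset.le_cons_of_notMem haν).mp hν
          obtain ⟨W', hW'U, hW'nd, hW'x, hW'd⟩ := hμ'3 _ h1
          exact ⟨W', hW'U.trans inf_le_left, hW'nd, hW'x, hW'd⟩

end basic

section peel
variable {K : Type u} [Field K] (φ : K →+* K) {n : ℕ} (x : Module.End K (Fin n → K))

theorem id1 (hiso : ∀ u v, hB φ (x u) (x v) = hB φ u v) (u v : Fin n → K) :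
    hB φ ((x - 1) u) v = -hB φ (x u) ((x - 1) v) := by
  have h1 : (x - 1) u = x u - u := rfl
  have h2 : (x - 1) v = x v - v := rfl
  rw [h1, h2, hB_sub_left, hB_sub_right, hiso]
  ring

theorem comm_pow (j : ℕ) (u : Fin n → K) : (x ^ j) ((x - 1) u) = (x - 1) ((x ^ j) u) := by
  have h1 : Commute (x ^ j) (x - 1) :=
    (((Commute.refl x).sub_right (Commute.one_right x))).pow_left j
  have h2 := congrArg (fun ψ : Module.End K (Fin n → K) => ψ u) h1.eq
  exact h2

theorem id2 (hiso : ∀ u v, hB φ (x u) (x v) = hB φ u v) (j : ℕ) :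
    ∀ u v : Fin n → K,
      hB φ (((x - 1) ^ j) u) v = (-1) ^ j * hB φ ((x ^ j) u) (((x - 1) ^ j) v) := by
  induction j with
  | zero =>
    intro u v
    simp
  | succ j ih =>
    intro u v
    have e1 : ((x - 1) ^ (j + 1)) u = ((x - 1) ^ j) ((x - 1) u) := by
      rw [pow_succ]
      rfl
    have e2 : ((x - 1) ^ (j + 1)) v = (x - 1) (((x - 1) ^ j) v) := by
      rw [pow_succ']
      rfl
    have e3 : (x ^ (j + 1)) u = x ((x ^ j) u) := by
      rw [pow_succ']
      rfl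
    rw [e1, ih, comm_pow, id1 φ x hiso, e2, e3, pow_succ]
    ring

theorem pow_apply_add (j k : ℕ) (v : Fin n → K) :
    ((x - 1) ^ j) (((x - 1) ^ k) v) = ((x - 1) ^ (j + k)) v := by
  rw [pow_add]
  rfl

theorem pow_high (a m : ℕ) (ham : a ≤ m) (v : Fin n → K) (hv : ((x - 1) ^ a) v = 0) :
    ((x - 1) ^ m) v = 0 := by
  obtain ⟨t, rfl⟩ := Nat.exists_eq_add_of_le ham
  rw [add_comm, ← pow_apply_add, hv, map_zero]

theorem id3 (hiso : ∀ u v, hB φ (x u) (x v) = hB φ u v) (j k : ℕ) (u v : Fin n → K)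
    (hv : ((x - 1) ^ (j + k)) v = 0) :
    hB φ (((x - 1) ^ j) u) (((x - 1) ^ k) v) = 0 := by
  rw [id2 φ x hiso, pow_apply_add, hv, hB_zero_right, mul_zero]

theorem id4 (hiso : ∀ u v, hB φ (x u) (x v) = hB φ u v) (a : ℕ) (ha : 1 ≤ a) (v : Fin n → K)
    (hv : ((x - 1) ^ a) v = 0) (j : ℕ) :
    ∀ w : Fin n → K,
      hB φ ((x ^ j) w) (((x - 1) ^ (a - 1)) v) = hB φ w (((x - 1) ^ (a - 1)) v) := by
  induction j with
  | zero =>
    intro w
    simp
  | succ j ih =>
    intro w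
    have e1 : (x ^ (j + 1)) w = (x ^ j) (x w) := by
      rw [pow_succ]
      rfl
    have e2 : x w = w + ((x - 1 : Module.End K (Fin n → K)) ^ 1) w := by
      rw [pow_one]
      have h1 : (x - 1) w = x w - w := rfl
      rw [h1]
      abel
    have e3 : 1 + (a - 1) = a := by omega
    rw [e1, ih, e2, hB_add_left, id3 φ x hiso 1 (a - 1) w v (by rw [e3]; exact hv), add_zero]

theorem id5 (hiso : ∀ u v, hB φ (x u) (x v) = hB φ u v) (a j k : ℕ) (hjk : j + k + 1 = a)
    (u v : Fin n → K) (hv : ((x - 1) ^ a) v = 0) :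
    hB φ (((x - 1) ^ j) u) (((x - 1) ^ k) v) = (-1) ^ j * hB φ u (((x - 1) ^ (a - 1)) v) := by
  have e : j + k = a - 1 := by omega
  rw [id2 φ x hiso, pow_apply_add, e, id4 φ x hiso a (by omega) v hv]

/-- The cyclic subspace of a vector `v` with `h(v, N^(a-1) v) ≠ 0` is nondegenerate. -/
theorem cyc (hiso : ∀ u v, hB φ (x u) (x v) = hB φ u v) (a : ℕ) (ha : 1 ≤ a) (v : Fin n → K)
    (hv : ((x - 1) ^ a) v = 0) (hne : hB φ v (((x - 1) ^ (a - 1)) v) ≠ 0) :
    ∃ W : Submodule K (Fin n → K), ND φ W ∧ (∀ w ∈ W, x w ∈ W) ∧ finrank K W = a ∧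
      W = Submodule.span K (Set.range (fun j : Fin a => ((x - 1) ^ (j : ℕ)) v)) := by
  classical
  obtain ⟨fam, hfam⟩ : ∃ fam : Fin a → Fin n → K,
      fam = fun j : Fin a => ((x - 1) ^ (j : ℕ)) v := ⟨_, rfl⟩
  have keyA : ∀ c : Fin a → K, c ≠ 0 → ∃ t : Fin a, hB φ (∑ j, c j • fam j) (fam t) ≠ 0 := by
    intro c hc
    obtain ⟨j₁, hj₁⟩ := Function.ne_iff.mp hc
    have hne' : (Finset.univ.filter (fun j : Fin a => c j ≠ 0)).Nonempty :=
      ⟨j₁, Finset.mem_filter.mpr ⟨Finset.mem_univ _, hj₁⟩⟩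
    obtain ⟨j₀, hj₀def⟩ : ∃ j₀, j₀ =
        (Finset.univ.filter (fun j : Fin a => c j ≠ 0)).min' hne' := ⟨_, rfl⟩
    have hj₀mem : j₀ ∈ Finset.univ.filter (fun j : Fin a => c j ≠ 0) := by
      rw [hj₀def]
      exact Finset.min'_mem _ hne'
    have hj₀ : c j₀ ≠ 0 := (Finset.mem_filter.mp hj₀mem).2
    have hmin : ∀ j : Fin a, j < j₀ → c j = 0 := by
      intro j hj
      by_contra hcon
      have h1 : j ∈ Finset.univ.filter (fun j : Fin a => c j ≠ 0) :=
        Finset.mem_filter.mpr ⟨Finset.mem_univ _, hcon⟩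
      have h2 := Finset.min'_le _ j h1
      rw [← hj₀def] at h2
      exact absurd hj (not_lt.mpr h2)
    have hj₀lt : (j₀ : ℕ) < a := j₀.2
    have hk : a - 1 - (j₀ : ℕ) < a := by omega
    refine ⟨⟨a - 1 - (j₀ : ℕ), hk⟩, ?_⟩
    have h1 : hB φ (∑ j, c j • fam j) (fam ⟨a - 1 - (j₀ : ℕ), hk⟩) =
        (-1) ^ (j₀ : ℕ) * (c j₀ * hB φ v (((x - 1) ^ (a - 1)) v)) := by
      rw [hB_sum_left, Finset.sum_eq_single j₀]
      · rw [hB_smul_left, hfam]
        show c j₀ * hB φ (((x - 1) ^ (j₀ : ℕ)) v) (((x - 1) ^ (a - 1 - (j₀ : ℕ))) v) = _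
        rw [id5 φ x hiso a (j₀ : ℕ) (a - 1 - (j₀ : ℕ)) (by omega) v v hv]
        ring
      · intro j _ hj
        rw [hB_smul_left]
        rcases lt_or_gt_of_ne hj with hlt | hgt
        · rw [hmin j hlt, zero_mul]
        · rw [hfam]
          show c j * hB φ (((x - 1) ^ (j : ℕ)) v) (((x - 1) ^ (a - 1 - (j₀ : ℕ))) v) = _
          have hgt' : (j₀ : ℕ) < (j : ℕ) := hgt
          rw [id3 φ x hiso (j : ℕ) (a - 1 - (j₀ : ℕ)) v v
            (pow_high x a _ (by omega) v hv), mul_zero]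
      · intro h
        exact absurd (Finset.mem_univ _) h
    rw [h1]
    exact mul_ne_zero (pow_ne_zero _ (neg_ne_zero.mpr one_ne_zero)) (mul_ne_zero hj₀ hne)
  have keyB : LinearIndependent K fam := by
    rw [Fintype.linearIndependent_iff]
    intro c hc
    by_contra hcon
    have hc0 : c ≠ 0 := by
      intro h0
      apply hcon
      intro i
      rw [h0]
      rfl
    obtain ⟨t, ht⟩ := keyA c hc0
    rw [hc, hB_zero_left] at ht
    exact ht rfl
  refine ⟨Submodule.span K (Set.range fam), ?_, ?_, ?_, by rw [hfam]⟩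
  · intro u hu hu0
    obtain ⟨c, hc⟩ := (Submodule.mem_span_range_iff_exists_fun K).mp hu
    have hc0 : c ≠ 0 := by
      intro h0
      apply hu0
      rw [← hc, h0]
      simp
    obtain ⟨t, ht⟩ := keyA c hc0
    rw [hc] at ht
    exact ⟨fam t, Submodule.subset_span (Set.mem_range_self t), ht⟩
  · have hNW : ∀ w ∈ Submodule.span K (Set.range fam),
        (x - 1) w ∈ Submodule.span K (Set.range fam) := by
      intro w hw
      refine Submodule.span_induction ?_ ?_ ?_ ?_ hw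
      · rintro _ ⟨j, rfl⟩
        rw [hfam]
        show (x - 1) (((x - 1) ^ (j : ℕ)) v) ∈ _
        have e1 : (x - 1) (((x - 1) ^ (j : ℕ)) v) = ((x - 1) ^ ((j : ℕ) + 1)) v := by
          rw [pow_succ']
          rfl
        rw [e1]
        by_cases hj : (j : ℕ) + 1 < a
        · apply Submodule.subset_span
          exact ⟨⟨(j : ℕ) + 1, hj⟩, rfl⟩
        · have e2 : (j : ℕ) + 1 = a := by
            have := j.2
            omega
          rw [e2, hv]
          exact Submodule.zero_mem _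
      · rw [map_zero]
        exact Submodule.zero_mem _
      · intro y z _ _ hy hz
        rw [map_add]
        exact Submodule.add_mem _ hy hz
      · intro r y _ hy
        rw [map_smul]
        exact Submodule.smul_mem _ r hy
    intro w hw
    have e : x w = w + (x - 1) w := by
      have h1 : (x - 1) w = x w - w := rfl
      rw [h1]
      abel
    rw [e]
    exact Submodule.add_mem _ hw (hNW w hw)
  · rw [finrank_span_eq_card keyB, Fintype.card_fin]

/-- Peeling off a nondegenerate invariant subspace for a unipotent isometry. -/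
theorem peel_unip (hφ : ∀ x, φ (φ x) = x) (l : K) (hl : φ l ≠ l)
    (hiso : ∀ u v, hB φ (x u) (x v) = hB φ u v) (e : ℕ) (hNe : (x - 1) ^ e = 0)
    (U : Submodule K (Fin n → K)) (hU : ND φ U) (hUx : ∀ u ∈ U, x u ∈ U) (hbot : U ≠ ⊥) :
    ∃ W : Submodule K (Fin n → K), W ≤ U ∧ ND φ W ∧ (∀ w ∈ W, x w ∈ W) ∧ 0 < finrank K W ∧
      finrank K W ≤ e := by
  classical
  have hex : ∃ a : ℕ, ∀ u ∈ U, ((x - 1 : Module.End K (Fin n → K)) ^ a) u = 0 :=
    ⟨e, fun u _ => by rw [hNe]; rfl⟩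
  obtain ⟨a, hadef⟩ : ∃ a, a = Nat.find hex := ⟨_, rfl⟩
  have hNa : ∀ u ∈ U, ((x - 1) ^ a) u = 0 := by
    rw [hadef]
    exact Nat.find_spec hex
  have hae : a ≤ e := by
    rw [hadef]
    exact Nat.find_min' hex (fun u _ => by rw [hNe]; rfl)
  have ha1 : 1 ≤ a := by
    by_contra hcon
    have ha0 : a = 0 := by omega
    apply hbot
    rw [eq_bot_iff]
    intro u hu
    have h1 := hNa u hu
    rw [ha0, pow_zero] at h1
    rw [Submodule.mem_bot]
    exact h1
  have hNa' : ¬ ∀ u ∈ U, ((x - 1) ^ (a - 1)) u = 0 := by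
    have h1 : a - 1 < Nat.find hex := by
      rw [← hadef]
      omega
    exact Nat.find_min hex h1
  push Not at hNa'
  obtain ⟨v₀, hv₀U, hv₀⟩ := hNa'
  have hNU : ∀ (j : ℕ) (u : Fin n → K), u ∈ U → ((x - 1) ^ j) u ∈ U := by
    intro j
    induction j with
    | zero =>
      intro u hu
      rw [pow_zero]
      exact hu
    | succ j ih =>
      intro u hu
      have e1 : ((x - 1) ^ (j + 1)) u = (x - 1) (((x - 1) ^ j) u) := by
        rw [pow_succ']
        rfl
      rw [e1]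
      have h1 : (x - 1) (((x - 1) ^ j) u) = x (((x - 1) ^ j) u) - ((x - 1) ^ j) u := rfl
      rw [h1]
      exact U.sub_mem (hUx _ (ih u hu)) (ih u hu)
  obtain ⟨u₀, hu₀U, hu₀⟩ : ∃ u₀ ∈ U, hB φ u₀ (((x - 1) ^ (a - 1)) v₀) ≠ 0 := by
    obtain ⟨w, hw, hw'⟩ := hU _ (hNU (a - 1) v₀ hv₀U) hv₀
    exact ⟨w, hw, fun h => hw' ((hB_eq_zero_comm φ hφ _ _).mp h)⟩
  obtain ⟨v, hvU, hv⟩ : ∃ v ∈ U, hB φ v (((x - 1) ^ (a - 1)) v) ≠ 0 := by
    by_contra hcon
    push Not at hcon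
    have hβ : ∀ u ∈ U, ∀ w ∈ U, hB φ u (((x - 1) ^ (a - 1)) w) +
        hB φ w (((x - 1) ^ (a - 1)) u) = 0 := by
      intro u hu w hw
      have h1 := hcon (u + w) (U.add_mem hu hw)
      rw [map_add, hB_add_left, hB_add_right, hB_add_right, hcon u hu, hcon w hw] at h1
      linear_combination h1
    have h2 := hβ u₀ hu₀U v₀ hv₀U
    have h3 := hβ (l • u₀) (U.smul_mem l hu₀U) v₀ hv₀U
    rw [map_smul, hB_smul_left, hB_smul_right] at h3
    apply hu₀
    have h4 : (l - φ l) * hB φ u₀ (((x - 1) ^ (a - 1)) v₀) = 0 := by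
      linear_combination h3 - φ l * h2
    rcases mul_eq_zero.mp h4 with h | h
    · exact absurd (sub_eq_zero.mp h).symm hl
    · exact h
  obtain ⟨W, hW1, hW2, hW3, hW4⟩ := cyc φ x hiso a ha1 v (hNa v hvU) hv
  refine ⟨W, ?_, hW1, hW2, by omega, by omega⟩
  rw [hW4, Submodule.span_le]
  rintro _ ⟨j, rfl⟩
  exact hNU _ v hvU

end peel

end Cfsg.Agent.Lib.Helper40.HGeo
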