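import Mathlib
import Cfsg.Agent.Lib.Helper40.HGeo
import Cfsg.Agent.S0284

set_option autoImplicit false

namespace Cfsg.Agent.Lib.Helper40.HCount

open Module Cfsg.Agent.Lib.Helper40.UnitDet Cfsg.Agent.Lib.Helper40.HermAdj
  Cfsg.Agent.Lib.Helper40.HGeo

universe u

/-- The number of vectors of norm one of a nondegenerate Hermitian space of dimension `k`. -/
def Acnt (q k : ℕ) : ℕ :=
  if Even k then q ^ (k - 1) * (q ^ k - 1) else q ^ (k - 1) * (q ^ k + 1)

section
variable {K : Type u} [Field K] (φ : K →+* K) {n : ℕ}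

theorem herm_hB {q : ℕ} (hφq : ∀ x, φ x = x ^ q) (u v : Fin n → K) :
    Cfsg.hermForm n K q u v = hB φ u v := by
  rw [herm_eq φ hφq]
  rfl

/-- Orthonormal frames of length `k` inside a subspace `U`. -/
abbrev OF (U : Submodule K (Fin n → K)) (k : ℕ) : Type _ :=
  {s : Fin k → Fin n → K // (∀ a, s a ∈ U ∧ hB φ (s a) (s a) = 1) ∧
    ∀ a b, a ≠ b → hB φ (s a) (s b) = 0}

theorem on_of {k : ℕ} (s : Fin k → Fin n → K) (h1 : ∀ a, hB φ (s a) (s a) = 1)
    (h2 : ∀ a b, a ≠ b → hB φ (s a) (s b) = 0) : ON φ s := by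
  intro i j
  by_cases h : i = j
  · rw [if_pos h, h]
    exact h1 j
  · rw [if_neg h]
    exact h2 i j h

theorem on_norm {k : ℕ} (b : Fin k → Fin n → K) (hb : ON φ b) (c d : Fin k → K) :
    hB φ (∑ i, c i • b i) (∑ i, d i • b i) = hB φ c d := by
  rw [hB_sum_right]
  have h1 : ∀ j, hB φ (∑ i, c i • b i) (d j • b j) = c j * φ (d j) := by
    intro j
    rw [hB_smul_right, on_coeff φ b hb c j]
    ring
  rw [Finset.sum_congr rfl (fun j _ => h1 j)]
  rfl

theorem frame_nd {k : ℕ} (s : Fin k → Fin n → K) (hs : ON φ s) :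
    ND φ (Submodule.span K (Set.range s)) := by
  intro u hu hu0
  obtain ⟨c, hc⟩ := (Submodule.mem_span_range_iff_exists_fun K).mp hu
  have hc0 : c ≠ 0 := by
    intro h0
    apply hu0
    rw [← hc, h0]
    simp
  obtain ⟨i, hi⟩ := Function.ne_iff.mp hc0
  refine ⟨s i, Submodule.subset_span ⟨i, rfl⟩, ?_⟩
  rw [← hc, on_coeff φ s hs c i]
  exact hi

theorem mem_perp_span_iff {k : ℕ} (s : Fin k → Fin n → K) (v : Fin n → K) :
    v ∈ perp φ (Submodule.span K (Set.range s)) ↔ ∀ a, hB φ (s a) v = 0 := by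
  constructor
  · intro h a
    exact (mem_perp φ _ v).mp h _ (Submodule.subset_span ⟨a, rfl⟩)
  · intro h
    exact mem_perp_of_on φ s _ rfl v h

/-- The number of vectors of norm one in a nondegenerate subspace. -/
theorem card_norm_one [Fintype K] {q : ℕ} (hK : Fintype.card K = q ^ 2)
    (hφq : ∀ x, φ x = x ^ q) (hφ : ∀ x, φ (φ x) = x) (l : K) (hl : φ l ≠ l)
    (U : Submodule K (Fin n → K)) (hU : ND φ U) :
    Nat.card {v : Fin n → K // v ∈ U ∧ hB φ v v = 1} = Acnt q (finrank K U) := by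
  classical
  obtain ⟨b, hbU, hb⟩ := exists_onb φ hφ l hl U hU
  have hspan := on_span φ b hb U hbU rfl
  have e : {c : Fin (finrank K U) → K // Cfsg.hermForm (finrank K U) K q c c = 1} ≃
      {v : Fin n → K // v ∈ U ∧ hB φ v v = 1} :=
    { toFun := fun c => ⟨∑ i, c.1 i • b i,
        Submodule.sum_mem _ (fun i _ => Submodule.smul_mem _ _ (hbU i)), by
          rw [on_norm φ b hb, ← herm_hB φ hφq]
          exact c.2⟩
      invFun := fun v => ⟨fun i => hB φ v.1 (b i), by
          have h1 := on_expand φ b hb v.1 (by rw [hspan]; exact v.2.1)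
          have h2 : hB φ (∑ i, hB φ v.1 (b i) • b i) (∑ i, hB φ v.1 (b i) • b i) = 1 := by
            rw [← h1]
            exact v.2.2
          rw [on_norm φ b hb] at h2
          rw [herm_hB φ hφq]
          exact h2⟩
      left_inv := fun c => by
        apply Subtype.ext
        funext j
        exact on_coeff φ b hb c.1 j
      right_inv := fun v => by
        apply Subtype.ext
        exact (on_expand φ b hb v.1 (by rw [hspan]; exact v.2.1)).symm }
  rw [← Nat.card_congr e, Cfsg.Agent.S0284.result hK]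
  rfl

/-- A frame of length `k + 1` is a frame of length `k` and a unit vector orthogonal to it. -/
noncomputable def stepEquiv (hφ : ∀ x, φ (φ x) = x) (U : Submodule K (Fin n → K)) (k : ℕ) :
    OF φ U (k + 1) ≃ {t : OF φ U k × (Fin n → K) // t.2 ∈ U ∧ hB φ t.2 t.2 = 1 ∧
      ∀ a, hB φ (t.1.1 a) t.2 = 0} where
  toFun s := ⟨(⟨Fin.init s.1, fun a => s.2.1 (Fin.castSucc a), fun a b hab => s.2.2 _ _ (by
      intro h
      exact hab (Fin.castSucc_injective _ h))⟩, s.1 (Fin.last k)),
    (s.2.1 (Fin.last k)).1, (s.2.1 (Fin.last k)).2,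
    fun a => s.2.2 (Fin.castSucc a) (Fin.last k) (Fin.castSucc_lt_last a).ne⟩
  invFun t := ⟨(Fin.snoc t.1.1.1 t.1.2 : Fin (k + 1) → Fin n → K), by
      intro a
      induction a using Fin.lastCases with
      | last =>
        rw [Fin.snoc_last]
        exact ⟨t.2.1, t.2.2.1⟩
      | cast a =>
        rw [Fin.snoc_castSucc]
        exact t.1.1.2.1 a, by
      intro a b hab
      induction a using Fin.lastCases with
      | last =>
        induction b using Fin.lastCases with
        | last => exact absurd rfl hab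
        | cast b =>
          rw [Fin.snoc_last, Fin.snoc_castSucc]
          exact (hB_eq_zero_comm φ hφ _ _).mp (t.2.2.2 b)
      | cast a =>
        induction b using Fin.lastCases with
        | last =>
          rw [Fin.snoc_last, Fin.snoc_castSucc]
          exact t.2.2.2 a
        | cast b =>
          rw [Fin.snoc_castSucc, Fin.snoc_castSucc]
          exact t.1.1.2.2 a b (fun h => hab (by rw [h]))⟩
  left_inv s := by
    apply Subtype.ext
    exact Fin.snoc_init_self s.1
  right_inv t := by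
    apply Subtype.ext
    apply Prod.ext
    · apply Subtype.ext
      exact Fin.init_snoc (α := fun _ => Fin n → K) t.1.2 t.1.1.1
    · exact Fin.snoc_last (α := fun _ => Fin n → K) t.1.2 t.1.1.1

theorem card_fiber [Fintype K] {q : ℕ} (hK : Fintype.card K = q ^ 2)
    (hφq : ∀ x, φ x = x ^ q) (hφ : ∀ x, φ (φ x) = x) (l : K) (hl : φ l ≠ l)
    (U : Submodule K (Fin n → K)) (hU : ND φ U) (k : ℕ) (s : OF φ U k) :
    Nat.card {v : Fin n → K // v ∈ U ∧ hB φ v v = 1 ∧ ∀ a, hB φ (s.1 a) v = 0} =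
      Acnt q (finrank K U - k) := by
  obtain ⟨S, hS⟩ : ∃ S, S = Submodule.span K (Set.range s.1) := ⟨_, rfl⟩
  have hon : ON φ s.1 := on_of φ s.1 (fun a => (s.2.1 a).2) s.2.2
  have hSnd : ND φ S := by
    rw [hS]
    exact frame_nd φ s.1 hon
  have hSU : S ≤ U := by
    rw [hS, Submodule.span_le]
    rintro _ ⟨a, rfl⟩
    exact (s.2.1 a).1
  have hSd : finrank K S = k := by
    rw [hS, finrank_span_eq_card (on_li φ s.1 hon), Fintype.card_fin]
  have h1 := nd_inf_perp φ hφ l hl S U hSnd hU hSU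
  have h2 := finrank_inf_perp φ hφ l hl S U hSnd hSU
  have e : {v : Fin n → K // v ∈ U ∧ hB φ v v = 1 ∧ ∀ a, hB φ (s.1 a) v = 0} ≃
      {v : Fin n → K // v ∈ U ⊓ perp φ S ∧ hB φ v v = 1} :=
    Equiv.subtypeEquivRight (fun v => by
      rw [Submodule.mem_inf, hS, mem_perp_span_iff]
      constructor
      · rintro ⟨h1, h2, h3⟩
        exact ⟨⟨h1, h3⟩, h2⟩
      · rintro ⟨⟨h1, h3⟩, h2⟩
        exact ⟨h1, h2, h3⟩)
  rw [Nat.card_congr e, card_norm_one φ hK hφq hφ l hl _ h1]
  congr 1
  omega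

theorem card_of [Fintype K] {q : ℕ} (hK : Fintype.card K = q ^ 2)
    (hφq : ∀ x, φ x = x ^ q) (hφ : ∀ x, φ (φ x) = x) (l : K) (hl : φ l ≠ l)
    (U : Submodule K (Fin n → K)) (hU : ND φ U) : ∀ k : ℕ, Nat.card (OF φ U k) =
      ∏ j ∈ Finset.range k, Acnt q (finrank K U - j) := by
  classical
  intro k
  induction k with
  | zero =>
    rw [Finset.prod_range_zero]
    have : Unique (OF φ U 0) :=
      { default := ⟨fun a => a.elim0, fun a => a.elim0, fun a => a.elim0⟩
        uniq := fun s => Subtype.ext (funext fun a => a.elim0) }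
    exact Nat.card_unique
  | succ k ih =>
    have : Finite (OF φ U k) := by
      unfold OF
      infer_instance
    have : Fintype (OF φ U k) := Fintype.ofFinite _
    rw [Nat.card_congr ((stepEquiv φ hφ U k).trans (Equiv.subtypeProdEquivSigmaSubtype
      (fun (s : OF φ U k) (v : Fin n → K) => v ∈ U ∧ hB φ v v = 1 ∧
        ∀ a, hB φ (s.1 a) v = 0))), Nat.card_sigma,
      Finset.sum_congr rfl (fun s _ => card_fiber φ hK hφq hφ l hl U hU k s), Finset.sum_const,
      Finset.card_univ, smul_eq_mul, ← Nat.card_eq_fintype_card, ih, Finset.prod_range_succ]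

/-- The frames spanning a given nondegenerate subspace. -/
noncomputable def frameFiberEquiv (k : ℕ) (W : Submodule K (Fin n → K))
    (hW : finrank K W = k) :
    {s : OF φ (⊤ : Submodule K (Fin n → K)) k // Submodule.span K (Set.range s.1) = W} ≃
      OF φ W k where
  toFun s := ⟨s.1.1, fun a => ⟨by
      have h := Submodule.subset_span (R := K) (Set.mem_range_self (f := s.1.1) a)
      rw [s.2] at h
      exact h, (s.1.2.1 a).2⟩, s.1.2.2⟩
  invFun s := ⟨⟨s.1, fun a => ⟨Submodule.mem_top, (s.2.1 a).2⟩, s.2.2⟩, by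
    apply Submodule.eq_of_le_of_finrank_eq
    · rw [Submodule.span_le]
      rintro _ ⟨a, rfl⟩
      exact (s.2.1 a).1
    · rw [finrank_span_eq_card (on_li φ s.1 (on_of φ s.1 (fun a => (s.2.1 a).2) s.2.2)),
        Fintype.card_fin, hW]⟩
  left_inv s := rfl
  right_inv s := rfl

theorem card_nd_mul [Fintype K] {q : ℕ} (hK : Fintype.card K = q ^ 2)
    (hφq : ∀ x, φ x = x ^ q) (hφ : ∀ x, φ (φ x) = x) (l : K) (hl : φ l ≠ l) (k : ℕ) :
    Nat.card {W : Submodule K (Fin n → K) // finrank K W = k ∧ ND φ W} *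
      ∏ j ∈ Finset.range k, Acnt q (k - j) = ∏ j ∈ Finset.range k, Acnt q (n - j) := by
  classical
  have h0 := card_of φ hK hφq hφ l hl (⊤ : Submodule K (Fin n → K)) (nd_top φ hφ) k
  rw [finrank_top, Module.finrank_fin_fun] at h0
  rw [← h0]
  let f : OF φ (⊤ : Submodule K (Fin n → K)) k →
      {W : Submodule K (Fin n → K) // finrank K W = k ∧ ND φ W} :=
    fun s => ⟨Submodule.span K (Set.range s.1), by
      rw [finrank_span_eq_card (on_li φ s.1 (on_of φ s.1 (fun a => (s.2.1 a).2) s.2.2)),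
        Fintype.card_fin],
      frame_nd φ s.1 (on_of φ s.1 (fun a => (s.2.1 a).2) s.2.2)⟩
  rw [← Nat.card_congr (Equiv.sigmaFiberEquiv f)]
  have : Fintype {W : Submodule K (Fin n → K) // finrank K W = k ∧ ND φ W} := Fintype.ofFinite _
  rw [Nat.card_sigma]
  have h : ∀ W : {W : Submodule K (Fin n → K) // finrank K W = k ∧ ND φ W},
      Nat.card {s // f s = W} = ∏ j ∈ Finset.range k, Acnt q (k - j) := by
    intro W
    have e : {s // f s = W} ≃ {s : OF φ (⊤ : Submodule K (Fin n → K)) k //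
        Submodule.span K (Set.range s.1) = W.1} :=
      Equiv.subtypeEquivRight (fun s => Subtype.ext_iff)
    rw [Nat.card_congr (e.trans (frameFiberEquiv φ k W.1 W.2.1)),
      card_of φ hK hφq hφ l hl W.1 W.2.2 k, W.2.1]
  rw [Finset.sum_congr rfl (fun W _ => h W), Finset.sum_const, Finset.card_univ, smul_eq_mul,
    Nat.card_eq_fintype_card]

end

section
variable {K : Type u} [Field K] [Fintype K]

/-- A prime dividing the number of nondegenerate `m`-spaces of the standard Hermitian space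
divides the number of unit vectors of some nondegenerate space of dimension `n - j`, `j < m`. -/
theorem exists_dvd_of_dvd_card_nd {q : ℕ} (hK : Fintype.card K = q ^ 2) (n m r : ℕ)
    (hr : r.Prime)
    (h : r ∣ Nat.card {W : Submodule K (Fin n → K) // finrank K W = m ∧
      ∀ u ∈ W, u ≠ 0 → ∃ v ∈ W, Cfsg.hermForm n K q u v ≠ 0}) :
    ∃ j < m, r ∣ Acnt q (n - j) := by
  obtain ⟨φ, hφq, hφ, l, hl⟩ := exists_phi hK
  have e : Nat.card {W : Submodule K (Fin n → K) // finrank K W = m ∧ ND φ W} =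
      Nat.card {W : Submodule K (Fin n → K) // finrank K W = m ∧
        ∀ u ∈ W, u ≠ 0 → ∃ v ∈ W, Cfsg.hermForm n K q u v ≠ 0} := by
    apply Nat.card_congr
    apply Equiv.subtypeEquivRight
    intro W
    unfold ND
    simp only [herm_hB φ hφq]
  have h1 : r ∣ ∏ j ∈ Finset.range m, Acnt q (n - j) := by
    rw [← card_nd_mul φ hK hφq hφ l hl m, e]
    exact Dvd.dvd.mul_right h _
  obtain ⟨j, hj, hd⟩ := (Prime.dvd_finsetProd_iff hr.prime _).mp h1
  exact ⟨j, Finset.mem_range.mp hj, hd⟩

end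

end Cfsg.Agent.Lib.Helper40.HCount
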