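import Mathlib
import Cfsg.Agent.Lib.Helper40.HGeo
import Cfsg.Agent.Lib.Helper40.GUReal
import Cfsg.Agent.Lib.Helper40.RecipPoly
import Cfsg.Agent.Lib.Helper40.InvDims
import Cfsg.Agent.Lib.Helper40.SSConj
import Cfsg.Agent.Lib.Helper40.SURegUnip

set_option autoImplicit false

namespace Cfsg.Agent.Lib.Helper40.HCrit

open Module Polynomial Matrix Cfsg.Agent.Lib.Helper40.UnitDet Cfsg.Agent.Lib.Helper40.HermAdj
  Cfsg.Agent.Lib.Helper40.HGeo Cfsg.Agent.Lib.Helper40.RecipPoly
  Cfsg.Agent.Lib.Helper40.GUReal Cfsg.Agent.Lib.Helper40.InvDims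

universe u

section blocks
variable {K : Type u} [Field K]

/-- Block diagonal sum on `Fin (m + k)`. -/
def bsum {m k : ℕ} (A : Matrix (Fin m) (Fin m) K) (B : Matrix (Fin k) (Fin k) K) :
    Matrix (Fin (m + k)) (Fin (m + k)) K :=
  (Matrix.fromBlocks A 0 0 B).submatrix finSumFinEquiv.symm finSumFinEquiv.symm

theorem bsum_mul {m k : ℕ} (A A' : Matrix (Fin m) (Fin m) K) (B B' : Matrix (Fin k) (Fin k) K) :
    bsum A B * bsum A' B' = bsum (A * A') (B * B') := by
  unfold bsum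
  rw [Matrix.submatrix_mul_equiv, Matrix.fromBlocks_multiply]
  simp

theorem bsum_one {m k : ℕ} :
    bsum (1 : Matrix (Fin m) (Fin m) K) (1 : Matrix (Fin k) (Fin k) K) = 1 := by
  unfold bsum
  rw [Matrix.fromBlocks_one, Matrix.submatrix_one_equiv]

theorem bsum_pow {m k : ℕ} (A : Matrix (Fin m) (Fin m) K) (B : Matrix (Fin k) (Fin k) K)
    (j : ℕ) : bsum A B ^ j = bsum (A ^ j) (B ^ j) := by
  induction j with
  | zero => rw [pow_zero, pow_zero, pow_zero, bsum_one]
  | succ j ih => rw [pow_succ, ih, bsum_mul, pow_succ, pow_succ]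

theorem bsum_adj (φ : K →+* K) {m k : ℕ} (A : Matrix (Fin m) (Fin m) K)
    (B : Matrix (Fin k) (Fin k) K) : adj φ (bsum A B) = bsum (adj φ A) (adj φ B) := by
  unfold bsum adj
  ext i j
  simp only [Matrix.transpose_apply, Matrix.map_apply, Matrix.submatrix_apply]
  generalize finSumFinEquiv.symm i = a
  generalize finSumFinEquiv.symm j = b
  rcases a with a | a <;> rcases b with b | b <;> simp

theorem bsum_charpoly {m k : ℕ} (A : Matrix (Fin m) (Fin m) K) (B : Matrix (Fin k) (Fin k) K) :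
    (bsum A B).charpoly = A.charpoly * B.charpoly := by
  have h1 : bsum A B = Matrix.reindex finSumFinEquiv finSumFinEquiv
      (Matrix.fromBlocks A 0 0 B) := rfl
  rw [h1, Matrix.charpoly_reindex, Matrix.charpoly_fromBlocks_zero₁₂]

/-- The embedding of the first summand. -/
def iota (m k : ℕ) : (Fin m → K) →ₗ[K] (Fin (m + k) → K) where
  toFun u := (Sum.elim u (0 : Fin k → K)) ∘ finSumFinEquiv.symm
  map_add' u v := by
    funext x
    simp only [Function.comp_apply, Pi.add_apply]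
    generalize finSumFinEquiv.symm x = y
    rcases y with (a | b) <;> simp
  map_smul' c u := by
    funext x
    simp only [Function.comp_apply, Pi.smul_apply, RingHom.id_apply]
    generalize finSumFinEquiv.symm x = y
    rcases y with (a | b) <;> simp

theorem iota_apply (m k : ℕ) (u : Fin m → K) :
    iota m k u = (Sum.elim u (0 : Fin k → K)) ∘ finSumFinEquiv.symm := rfl

theorem iota_injective (m k : ℕ) : Function.Injective (iota (K := K) m k) := by
  intro u v huv
  funext a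
  have h := congrFun huv (finSumFinEquiv (Sum.inl a))
  rw [iota_apply, iota_apply] at h
  simpa using h

theorem bsum_mulVec_iota {m k : ℕ} (A : Matrix (Fin m) (Fin m) K)
    (B : Matrix (Fin k) (Fin k) K) (u : Fin m → K) :
    bsum A B *ᵥ iota m k u = iota m k (A *ᵥ u) := by
  unfold bsum
  rw [Matrix.submatrix_mulVec_equiv, iota_apply, iota_apply]
  congr 1
  have h1 : ((Sum.elim u (0 : Fin k → K)) ∘ finSumFinEquiv.symm) ∘
      (finSumFinEquiv (m := m) (n := k)).symm.symm = Sum.elim u (0 : Fin k → K) := by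
    funext x
    simp
  rw [h1, Matrix.fromBlocks_mulVec, Sum.elim_comp_inl, Sum.elim_comp_inr]
  simp

theorem hB_iota (φ : K →+* K) (m k : ℕ) (u v : Fin m → K) :
    hB φ (iota m k u) (iota m k v) = hB φ u v := by
  unfold hB
  rw [iota_apply, iota_apply]
  have h1 : φ ∘ (Sum.elim v (0 : Fin k → K) ∘ finSumFinEquiv.symm) =
      (Sum.elim (φ ∘ v) (0 : Fin k → K)) ∘ finSumFinEquiv.symm := by
    funext x
    simp only [Function.comp_apply]
    generalize finSumFinEquiv.symm x = y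
    rcases y with (a | b) <;> simp
  rw [h1, comp_equiv_symm_dotProduct]
  have h2 : ((Sum.elim (φ ∘ v) (0 : Fin k → K)) ∘ finSumFinEquiv.symm) ∘
      (finSumFinEquiv (m := m) (n := k)) = Sum.elim (φ ∘ v) (0 : Fin k → K) := by
    funext x
    simp
  rw [h2]
  simp

end blocks

section crit
variable {K : Type u} [Field K]

/-- `χ` has a monic divisor of degree `m` fixed by the twisted reciprocal `rstar φ`. -/
def HasU (φ : K →+* K) (m : ℕ) (χ : K[X]) : Prop :=
  ∃ D : K[X], D.Monic ∧ D.natDegree = m ∧ rstar φ D = D ∧ D ∣ χ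

theorem cast_ne_zero_of_coprime (p : ℕ) [Fact p.Prime] [CharP K p] (N : ℕ) (hN : N.Coprime p) :
    (N : K) ≠ 0 := by
  have hpp : p.Prime := Fact.out
  intro h0
  have h1 := (CharP.cast_eq_zero_iff K p N).mp h0
  have h3 : p ∣ Nat.gcd N p := Nat.dvd_gcd h1 dvd_rfl
  rw [Nat.Coprime.gcd_eq_one hN] at h3
  exact hpp.one_lt.ne' (Nat.dvd_one.mp h3)

theorem charpoly_coeff_zero_ne (φ : K →+* K) {n : ℕ} (x : Matrix (Fin n) (Fin n) K)
    (hx : adj φ x * x = 1) : x.charpoly.coeff 0 ≠ 0 := by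
  rw [← det_mul_sign]
  have h2 : (adj φ x).det * x.det = 1 := by rw [← Matrix.det_mul, hx, Matrix.det_one]
  exact mul_ne_zero (right_ne_zero_of_mul_eq_one h2)
    (pow_ne_zero _ (neg_ne_zero.mpr one_ne_zero))

/-- An invariant nondegenerate subspace of a semisimple unitary matrix gives a self-dual divisor
of the characteristic polynomial. -/
theorem hasU_of_nd [Finite K] (φ : K →+* K) (hφ : ∀ x, φ (φ x) = x) (l : K) (hl : φ l ≠ l)
    {n : ℕ} (A : Matrix (Fin n) (Fin n) K) (hA : adj φ A * A = 1)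
    (hs : Module.End.IsSemisimple (Matrix.toLin' A)) (W : Submodule K (Fin n → K))
    (hnd : ND φ W) (hinv : W.map (Matrix.toLin' A) ≤ W) :
    HasU φ (finrank K W) A.charpoly := by
  classical
  have hW : W ∈ Module.End.invtSubmodule (Matrix.toLin' A) := by
    rw [Module.End.mem_invtSubmodule]
    exact Submodule.map_le_iff_le_comap.mp hinv
  obtain ⟨R, hR⟩ : ∃ R : Module.End K W, R = res (Matrix.toLin' A) W hW := ⟨_, rfl⟩
  have hRapp : ∀ w : W, (R w : Fin n → K) = A *ᵥ (w : Fin n → K) := by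
    intro w
    rw [hR]
    show Matrix.toLin' A (w : Fin n → K) = _
    rw [Matrix.toLin'_apply]
  refine ⟨R.charpoly, LinearMap.charpoly_monic _, LinearMap.charpoly_natDegree _, ?_, ?_⟩
  · obtain ⟨b, hbW, hb⟩ := exists_onb φ hφ l hl W hnd
    obtain ⟨b', hb'⟩ : ∃ b' : Fin (finrank K W) → W, ∀ i, (b' i : Fin n → K) = b i :=
      ⟨fun i => ⟨b i, hbW i⟩, fun i => rfl⟩
    have hli : LinearIndependent K b' := by
      have h1 := on_li φ b hb
      apply LinearIndependent.of_comp W.subtype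
      have h2 : W.subtype ∘ b' = b := by
        funext i
        exact hb' i
      rw [h2]
      exact h1
    have hspan : Submodule.span K (Set.range b') = ⊤ :=
      hli.span_eq_top_of_card_eq_finrank' (by rw [Fintype.card_fin])
    obtain ⟨bb, hbb⟩ : ∃ bb : Basis (Fin (finrank K W)) K W, ∀ i, bb i = b' i :=
      ⟨Basis.mk hli (by rw [hspan]), fun i => by simp⟩
    obtain ⟨M, hM⟩ : ∃ M, M = LinearMap.toMatrix bb bb R := ⟨_, rfl⟩
    have hRb : ∀ j, (R (bb j) : Fin n → K) = ∑ i, M i j • b i := by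
      intro j
      have h1 : R (bb j) = ∑ i, M i j • bb i := by
        rw [hM]
        simp only [LinearMap.toMatrix_apply]
        exact (bb.sum_repr (R (bb j))).symm
      rw [h1, Submodule.coe_sum]
      apply Finset.sum_congr rfl
      intro i _
      rw [Submodule.coe_smul, hbb, hb']
    have hRA : ∀ j, (R (bb j) : Fin n → K) = A *ᵥ b j := by
      intro j
      rw [hRapp, hbb, hb']
    have hunit : adj φ M * M = 1 := by
      ext j l'
      rw [Matrix.mul_apply]
      simp only [adj_apply]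
      have h1 : hB φ (A *ᵥ b l') (A *ᵥ b j) = ∑ k, φ (M k j) * M k l' := by
        rw [← hRA l', ← hRA j, hRb l', hRb j, hB_sum_left]
        apply Finset.sum_congr rfl
        intro k _
        rw [hB_smul_left, hB_symm φ hφ (∑ i, M i j • b i) (b k), on_coeff φ b hb]
        ring
      rw [← h1, hB_isom φ hφ A hA, hb l' j, Matrix.one_apply]
      by_cases h : j = l'
      · rw [if_pos h, if_pos h.symm]
      · rw [if_neg h, if_neg (Ne.symm h)]
    have h2 := rstar_charpoly_of_unitary φ hφ M hunit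
    rw [← LinearMap.charpoly_toMatrix R bb, ← hM]
    exact h2
  · have h := charpoly_restrict_dvd (Matrix.toLin' A) hs W hW
    rw [Matrix.charpoly_toLin'] at h
    rw [hR]
    exact h

/-- **Model lemma.** A self-dual monic divisor of the characteristic polynomial of a unitary
matrix `x` of order prime to the characteristic gives an `x`-invariant nondegenerate subspace. -/
theorem exists_nd_of_dvd [Fintype K] (φ : K →+* K) (hφ : ∀ x, φ (φ x) = x) (l : K)
    (hl : φ l ≠ l) (p : ℕ) [Fact p.Prime] [CharP K p] {n : ℕ}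
    (x : Matrix (Fin n) (Fin n) K) (hx : adj φ x * x = 1) (N : ℕ) (hN : (N : K) ≠ 0)
    (hxN : x ^ N = 1) (m : ℕ) (h : HasU φ m x.charpoly) :
    ∃ W : Submodule K (Fin n → K), finrank K W = m ∧ ND φ W ∧ W.map (Matrix.toLin' x) ≤ W := by
  classical
  obtain ⟨D, hDm, hDd, hDr, hdvd⟩ := h
  have hpp : p.Prime := Fact.out
  have hxd : x.charpoly.natDegree = n := by
    rw [Matrix.charpoly_natDegree_eq_dim, Fintype.card_fin]
  have hx0 := charpoly_coeff_zero_ne φ x hx
  have hD0 : D.coeff 0 ≠ 0 := coeff0_of_dvd hdvd hx0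
  obtain ⟨χ₀, hχ₀⟩ := hdvd
  have hχm : χ₀.Monic := Monic.of_mul_monic_left hDm (hχ₀ ▸ Matrix.charpoly_monic x)
  have hdeg : n = m + χ₀.natDegree := by
    rw [← hxd, hχ₀, hDm.natDegree_mul hχm, hDd]
  obtain ⟨k, rfl⟩ : ∃ k, n = m + k := ⟨n - m, by omega⟩
  have hχd : χ₀.natDegree = k := by omega
  have hχ0 : χ₀.coeff 0 ≠ 0 := coeff0_of_dvd ⟨D, by rw [hχ₀, mul_comm]⟩ hx0
  have hχr : rstar φ χ₀ = χ₀ := by
    have h1 := rstar_charpoly_of_unitary φ hφ x hx
    rw [hχ₀, rstar_mul, hDr] at h1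
    exact mul_left_cancel₀ hDm.ne_zero h1
  obtain ⟨y₁, hy₁u, hy₁c, N₁, hN₁pos, hN₁cop, hy₁N⟩ :=
    exists_gu_charpoly φ hφ l hl p D hDm hDd hD0 hDr
  obtain ⟨y₀, hy₀u, hy₀c, N₂, hN₂pos, hN₂cop, hy₀N⟩ :=
    exists_gu_charpoly φ hφ l hl p χ₀ hχm hχd hχ0 hχr
  obtain ⟨y, hy⟩ : ∃ y, y = bsum y₁ y₀ := ⟨_, rfl⟩
  have hyu : adj φ y * y = 1 := by rw [hy, bsum_adj, bsum_mul, hy₁u, hy₀u, bsum_one]
  have hyc : y.charpoly = x.charpoly := by rw [hy, bsum_charpoly, hy₁c, hy₀c, hχ₀]
  obtain ⟨M, hM⟩ : ∃ M, M = N * (N₁ * N₂) := ⟨_, rfl⟩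
  have hMF : (M : K) ≠ 0 := by
    rw [hM, Nat.cast_mul, Nat.cast_mul]
    exact mul_ne_zero hN (mul_ne_zero (cast_ne_zero_of_coprime p N₁ hN₁cop)
      (cast_ne_zero_of_coprime p N₂ hN₂cop))
  have hxM : x ^ M = 1 := by rw [hM, pow_mul, hxN, one_pow]
  have hyM : y ^ M = 1 := by
    rw [hM, mul_comm, pow_mul, hy, bsum_pow, pow_mul, hy₁N, one_pow, mul_comm, pow_mul, hy₀N,
      one_pow, bsum_one, one_pow]
  obtain ⟨P, Q, hPQ, hQP, hPA⟩ := Cfsg.Agent.Lib.Helper40.SSConj.matrix_conj y x M hMF hyM hxM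
    hyc
  obtain ⟨G, hGu, hGA⟩ := Cfsg.Agent.Lib.Helper40.SURegUnip.unitary_conj_of_conj φ hφ l hl y x P
    hyu hx (IsUnit.of_mul_eq_one Q hPQ) hPA
  have hGiso : ∀ u v, hB φ (Matrix.toLin' G u) (Matrix.toLin' G v) = hB φ u v := by
    intro u v
    rw [Matrix.toLin'_apply, Matrix.toLin'_apply]
    exact hB_isom φ hφ G hGu u v
  refine ⟨(LinearMap.range (iota (K := K) m k)).map (Matrix.toLin' G), ?_, ?_, ?_⟩
  · have hGinj : Function.Injective (Matrix.toLin' G) :=
      iso_injective φ (Matrix.toLin' G) hφ hGiso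
    rw [← LinearEquiv.finrank_eq (Submodule.equivMapOfInjective _ hGinj _),
      LinearMap.finrank_range_of_inj (iota_injective (K := K) m k), Module.finrank_fin_fun]
  · intro u hu hu0
    obtain ⟨u', hu', rfl⟩ := Submodule.mem_map.mp hu
    obtain ⟨a, rfl⟩ := LinearMap.mem_range.mp hu'
    have ha0 : a ≠ 0 := by
      intro h0
      apply hu0
      rw [h0, map_zero, map_zero]
    obtain ⟨b, hb⟩ : ∃ b, hB φ a b ≠ 0 := by
      by_contra hcon
      push Not at hcon
      exact ha0 (hB_nondeg φ hφ a hcon)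
    refine ⟨Matrix.toLin' G (iota m k b),
      Submodule.mem_map.mpr ⟨_, LinearMap.mem_range.mpr ⟨b, rfl⟩, rfl⟩, ?_⟩
    rw [hGiso, hB_iota]
    exact hb
  · intro w hw
    obtain ⟨w', hw', rfl⟩ := Submodule.mem_map.mp hw
    obtain ⟨u', hu', rfl⟩ := Submodule.mem_map.mp hw'
    obtain ⟨a, rfl⟩ := LinearMap.mem_range.mp hu'
    rw [Matrix.toLin'_apply, Matrix.toLin'_apply, Matrix.mulVec_mulVec, ← hGA,
      ← Matrix.mulVec_mulVec, hy, bsum_mulVec_iota]
    exact Submodule.mem_map.mpr ⟨_, LinearMap.mem_range.mpr ⟨_, rfl⟩, Matrix.toLin'_apply _ _⟩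

/-- The criterion: a unitary matrix of order prime to the characteristic fixes a nondegenerate
`m`-space iff its characteristic polynomial has a self-dual monic divisor of degree `m`. -/
theorem nd_iff [Fintype K] (φ : K →+* K) (hφ : ∀ x, φ (φ x) = x) (l : K)
    (hl : φ l ≠ l) (p : ℕ) [Fact p.Prime] [CharP K p] {n : ℕ}
    (x : Matrix (Fin n) (Fin n) K) (hx : adj φ x * x = 1) (N : ℕ) (hN : (N : K) ≠ 0)
    (hxN : x ^ N = 1) (m : ℕ) :
    (∃ W : Submodule K (Fin n → K), finrank K W = m ∧ ND φ W ∧ W.map (Matrix.toLin' x) ≤ W) ↔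
      HasU φ m x.charpoly := by
  constructor
  · rintro ⟨W, hW1, hW2, hW3⟩
    rw [← hW1]
    exact hasU_of_nd φ hφ l hl x hx
      (Cfsg.Agent.Lib.Helper40.SSConj.isSemisimple_toLin' x N hN hxN) W hW2 hW3
  · exact exists_nd_of_dvd φ hφ l hl p x hx N hN hxN m

end crit

end Cfsg.Agent.Lib.Helper40.HCrit
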