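import Mathlib
import Cfsg.Agent.Lib.Helper40.HGeo
import Cfsg.Agent.Lib.Helper40.HCrit
import Cfsg.Agent.Lib.Helper40.HPoly
import Cfsg.Agent.Lib.Helper40.HCount
import Cfsg.Agent.Lib.Helper40.SURegUnip
import Cfsg.Agent.Lib.Helper40.SUCount

set_option autoImplicit false

namespace Cfsg.Agent.Lib.Helper40.HSemi

open Module Polynomial UniqueFactorizationMonoid Matrix Cfsg.Agent.Lib.Helper40.UnitDet
  Cfsg.Agent.Lib.Helper40.HermAdj Cfsg.Agent.Lib.Helper40.HGeo Cfsg.Agent.Lib.Helper40.RecipPoly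
  Cfsg.Agent.Lib.Helper40.GUReal Cfsg.Agent.Lib.Helper40.HCrit Cfsg.Agent.Lib.Helper40.HPoly
  Cfsg.Agent.Lib.Helper40.SURegUnip Cfsg.Agent.Lib.Helper40.SUCount

universe u

section setup
variable {K : Type u} [Field K]

/-- `A` fixes a nondegenerate `m`-space. -/
def Fix (φ : K →+* K) {n : ℕ} (A : Matrix (Fin n) (Fin n) K) (m : ℕ) : Prop :=
  ∃ W : Submodule K (Fin n → K), finrank K W = m ∧ ND φ W ∧ W.map (Matrix.toLin' A) ≤ W

theorem fix_smul (φ : K →+* K) {n : ℕ} (A : Matrix (Fin n) (Fin n) K) (m : ℕ) (a : K)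
    (h : Fix φ A m) : Fix φ (a • A) m := by
  obtain ⟨W, h1, h2, h3⟩ := h
  refine ⟨W, h1, h2, ?_⟩
  rintro _ ⟨w, hw, rfl⟩
  rw [map_smul, LinearMap.smul_apply]
  apply W.smul_mem
  apply h3
  exact ⟨w, hw, rfl⟩

theorem scalar_unit (φ : K →+* K) {n : ℕ} (hn : 0 < n) (A : Matrix (Fin n) (Fin n) K)
    (hA : adj φ A * A = 1) (r : ℕ) (z : K)
    (hAr : A ^ r = z • (1 : Matrix (Fin n) (Fin n) K)) : φ z * z = 1 := by
  have hA' : A * adj φ A = 1 := mul_eq_one_comm.mp hA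
  have hc : Commute (adj φ A) A := by rw [Commute, SemiconjBy, hA, hA']
  have h1 : adj φ (A ^ r) * A ^ r = 1 := by
    rw [adj_pow, ← hc.mul_pow, hA, one_pow]
  rw [hAr, adj_smul, adj_one, Matrix.smul_mul, Matrix.mul_smul, Matrix.one_mul, smul_smul] at h1
  have h2 := congrFun (congrFun h1 ⟨0, hn⟩) ⟨0, hn⟩
  rw [Matrix.smul_apply, Matrix.one_apply_eq, smul_eq_mul, mul_one] at h2
  exact h2

theorem two_ne_zero' {p : ℕ} [Fact p.Prime] [CharP K p] (hp2 : p ≠ 2) : (2 : K) ≠ 0 := by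
  intro h
  have h1 : ((2 : ℕ) : K) = 0 := by
    rw [Nat.cast_ofNat]
    exact h
  have h2 := (CharP.cast_eq_zero_iff K p 2).mp h1
  exact hp2 ((Nat.prime_dvd_prime_iff_eq Fact.out Nat.prime_two).mp h2)

theorem det_eq {n : ℕ} (U : Matrix (Fin n) (Fin n) K) :
    U.det = U.charpoly.coeff 0 * (-1) ^ n := by
  rw [← det_mul_sign, mul_assoc, ← pow_add, ← two_mul, pow_mul, neg_one_sq, one_pow, mul_one]

theorem eq_of_dvd_irr (P Q : K[X]) (hPirr : Irreducible P) (hPm : P.Monic) (hQirr : Irreducible Q)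
    (hQm : Q.Monic) (h : P ∣ Q) : P = Q :=
  eq_of_monic_of_associated hPm hQm (hPirr.associated_of_dvd hQirr h)

theorem eq_of_dvd_X_sub_C (P : K[X]) (hPirr : Irreducible P) (hPm : P.Monic) (a : K)
    (h : P ∣ X - C a) : P = X - C a :=
  eq_of_dvd_irr P _ hPirr hPm (irreducible_X_sub_C a) (monic_X_sub_C a) h

theorem coeff0_pow (P : K[X]) (k : ℕ) : (P ^ k).coeff 0 = (P.coeff 0) ^ k := by
  rw [coeff_zero_eq_eval_zero, eval_pow, ← coeff_zero_eq_eval_zero]

theorem factor_dvd [DecidableEq K] {n : ℕ} (A : Matrix (Fin n) (Fin n) K) (r : ℕ) (z : K)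
    (hAr : A ^ r = z • (1 : Matrix (Fin n) (Fin n) K)) (P : K[X]) (hPirr : Irreducible P)
    (hPm : P.Monic) (hPdvd : P ∣ A.charpoly) : P ∣ X ^ r - C z := by
  apply dvd_ann A _ _ P hPirr hPm hPdvd
  rw [map_sub, map_pow, aeval_X, aeval_C, hAr, Algebra.algebraMap_eq_smul_one, sub_self]

end setup

section finite
variable {K : Type u} [Field K] [Fintype K] {p q : ℕ} [Fact p.Prime] [CharP K p]

theorem coprime_card_sub_one (hK : Fintype.card K = q ^ 2) : (q ^ 2 - 1).Coprime p := by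
  have hp : p.Prime := Fact.out
  obtain ⟨f, -, hf⟩ := FiniteField.card K p
  rw [hK] at hf
  apply Nat.Coprime.symm
  rw [Nat.Prime.coprime_iff_not_dvd hp]
  intro h
  have h1 : p ∣ q ^ 2 := by
    rw [hf]
    exact dvd_pow_self p (PNat.ne_zero f)
  have h0 : 0 < q ^ 2 := by
    rw [hf]
    exact pow_pos hp.pos _
  have h2 : p ∣ q ^ 2 - (q ^ 2 - 1) := Nat.dvd_sub h1 h
  have h3 : q ^ 2 - (q ^ 2 - 1) = 1 := by omega
  rw [h3] at h2
  exact hp.one_lt.ne' (Nat.dvd_one.mp h2)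

omit [Fact p.Prime] [CharP K p] in
theorem pow_card_sub_one (hK : Fintype.card K = q ^ 2) (z : K) (hz : z ≠ 0) :
    z ^ (q ^ 2 - 1) = 1 := by
  rw [← hK]
  exact FiniteField.pow_card_sub_one_eq_one z hz

theorem q_odd (hK : Fintype.card K = q ^ 2) (hp2 : p ≠ 2) : q % 2 = 1 := by
  have hp : p.Prime := Fact.out
  obtain ⟨f, -, hf⟩ := FiniteField.card K p
  have hqdvd : q ∣ p ^ (f : ℕ) := by
    rw [← hf, hK]
    exact dvd_pow_self q two_ne_zero
  obtain ⟨e, -, hqe⟩ := (Nat.dvd_prime_pow hp).mp hqdvd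
  rw [hqe]
  have hodd : Odd p := hp.odd_of_ne_two hp2
  exact Nat.odd_iff.mp hodd.pow

theorem fix_iff (hK : Fintype.card K = q ^ 2) (φ : K →+* K) (hφ : ∀ x, φ (φ x) = x) (l : K)
    (hl : φ l ≠ l) {n : ℕ} (hn : 0 < n) (A : Matrix (Fin n) (Fin n) K) (hA : adj φ A * A = 1)
    (r : ℕ) (hr : r.Prime) (hrp : r ≠ p) (z : K)
    (hAr : A ^ r = z • (1 : Matrix (Fin n) (Fin n) K)) (m : ℕ) :
    Fix φ A m ↔ HasU φ m A.charpoly := by
  have hp : p.Prime := Fact.out
  have hz := scalar_unit φ hn A hA r z hAr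
  have hz0 : z ≠ 0 := right_ne_zero_of_mul_eq_one hz
  have hcop : (r * (q ^ 2 - 1)).Coprime p :=
    (Nat.Coprime.mul_right ((Nat.coprime_primes hr hp).mpr hrp).symm
      (coprime_card_sub_one hK).symm).symm
  have hN : ((r * (q ^ 2 - 1) : ℕ) : K) ≠ 0 := cast_ne_zero_of_coprime p _ hcop
  have hAN : A ^ (r * (q ^ 2 - 1)) = 1 := by
    rw [pow_mul, hAr, _root_.smul_pow, one_pow, pow_card_sub_one hK z hz0, one_smul]
  exact nd_iff φ hφ l hl p A hA _ hN hAN m

theorem exists_elt [DecidableEq K] (hK : Fintype.card K = q ^ 2) (_hp : p.Prime) (φ : K →+* K)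
    (hφ : ∀ x, φ (φ x) = x) (l : K) (hl : φ l ≠ l) {n : ℕ} (χ : K[X]) (hχm : χ.Monic)
    (hχd : χ.natDegree = n) (hχ0 : χ.coeff 0 ≠ 0) (hχs : rstar φ χ = χ) (r : ℕ) (z : K)
    (hz : z ≠ 0) (hfac : ∀ P : K[X], Irreducible P → P.Monic → P ∣ χ → P ∣ X ^ r - C z) :
    ∃ U : Matrix (Fin n) (Fin n) K, adj φ U * U = 1 ∧ U.charpoly = χ ∧
      U ^ r = z • (1 : Matrix (Fin n) (Fin n) K) := by
  obtain ⟨U, hU1, hU2, N, hN1, hN2, hN3⟩ := exists_gu_charpoly φ hφ l hl p χ hχm hχd hχ0 hχs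
  refine ⟨U, hU1, hU2, ?_⟩
  apply pow_eq_smul_of_charpoly (p := p) U r N (q ^ 2 - 1) z hN2 hN3 (coprime_card_sub_one hK)
    (pow_card_sub_one hK z hz)
  intro P hP
  rw [hU2] at hP
  exact hfac P (irreducible_of_normalized_factor P hP)
    (Cfsg.Agent.S2568.monic_of_mem_nf χ P hP) (dvd_of_mem_normalizedFactors hP)

theorem exists_sqrt (hK : Fintype.card K = q ^ 2) (hp2 : p ≠ 2) (φ : K →+* K)
    (hφq : ∀ x, φ x = x ^ q) (z : K) (hz : φ z * z = 1) : ∃ lam : K, lam ^ 2 = z := by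
  have hz0 : z ≠ 0 := right_ne_zero_of_mul_eq_one hz
  have hqodd : q % 2 = 1 := q_odd hK hp2
  have h1 : z ^ (q + 1) = 1 := by
    rw [pow_succ, ← hφq]
    exact hz
  have hchar : ringChar K ≠ 2 := by
    rw [ringChar.eq K p]
    exact hp2
  have h2 : z ^ (Fintype.card K / 2) = 1 := by
    have e : Fintype.card K / 2 = (q + 1) * ((q - 1) / 2) := by
      rw [hK]
      obtain ⟨t, rfl⟩ : ∃ t, q = 2 * t + 1 := ⟨q / 2, by omega⟩
      have e1 : (2 * t + 1) ^ 2 = 2 * ((2 * t + 1 + 1) * t) + 1 := by ring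
      have e2 : (2 * t + 1 - 1) / 2 = t := by omega
      rw [e1, e2]
      omega
    rw [e, pow_mul, h1, one_pow]
  obtain ⟨lam, hlam⟩ := (FiniteField.isSquare_iff hchar hz0).mpr h2
  exact ⟨lam, by rw [hlam, sq]⟩

end finite

section two
variable {K : Type u} [Field K] [Fintype K] [DecidableEq K] {p q : ℕ} [Fact p.Prime] [CharP K p]

omit [Fintype K] [DecidableEq K] [Fact p.Prime] [CharP K p] in
theorem lin_factor (z lam : K) (hlam : lam ^ 2 = z) (P : K[X]) (hPirr : Irreducible P)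
    (hPm : P.Monic) (h : P ∣ X ^ 2 - C z) : P = X - C lam ∨ P = X - C (-lam) := by
  have h2 : X ^ 2 - C z = (X - C lam) * (X - C (-lam)) := by
    rw [← hlam, C_pow, C_neg]
    ring
  rw [h2] at h
  rcases hPirr.prime.dvd_or_dvd h with h' | h'
  · left
    exact eq_of_dvd_X_sub_C P hPirr hPm _ h'
  · right
    exact eq_of_dvd_X_sub_C P hPirr hPm _ h'

omit [Fintype K] [DecidableEq K] in
theorem swap_facts (φ : K →+* K) (hp2 : p ≠ 2) (lam : K) (hlam : φ lam * lam = -1) :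
    rstar φ (X - C lam) = X - C (-lam) ∧ rstar φ (X - C (-lam)) = X - C lam ∧
      (X - C lam : K[X]) ≠ X - C (-lam) := by
  have h2K := two_ne_zero' (K := K) hp2
  have hlam0 : lam ≠ 0 := by
    rintro rfl
    rw [mul_zero] at hlam
    exact h2K (by linear_combination 2 * hlam)
  have hφlam : (φ lam)⁻¹ = -lam := by
    have h4 : φ lam * (-lam) = 1 := by linear_combination -hlam
    exact inv_eq_of_mul_eq_one_right h4
  have hne : lam ≠ -lam := by
    intro h
    have h5 : (2 : K) * lam = 0 := by linear_combination h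
    rcases mul_eq_zero.mp h5 with h' | h'
    · exact h2K h'
    · exact hlam0 h'
  refine ⟨?_, ?_, ?_⟩
  · rw [rstar_X_sub_C φ lam hlam0, hφlam]
  · rw [rstar_X_sub_C φ (-lam) (neg_ne_zero.mpr hlam0), map_neg, inv_neg, hφlam, neg_neg]
  · intro h
    exact hne (C_injective (sub_right_injective h))

omit [Fintype K] [DecidableEq K] in
theorem atom_swap (φ : K →+* K) (hp2 : p ≠ 2) (z lam : K) (hlam2 : lam ^ 2 = z)
    (hlam : φ lam * lam = -1) (P : K[X]) (hPirr : Irreducible P) (hPm : P.Monic)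
    (h : P ∣ X ^ 2 - C z) :
    (rstar φ P = P ∧ P.natDegree = 2) ∨ (rstar φ P ≠ P ∧ 2 * P.natDegree = 2) := by
  obtain ⟨hs1, hs2, hL12⟩ := swap_facts φ hp2 lam hlam
  right
  rcases lin_factor z lam hlam2 P hPirr hPm h with rfl | rfl
  · exact ⟨by rw [hs1]; exact hL12.symm, by rw [natDegree_X_sub_C]⟩
  · exact ⟨by rw [hs2]; exact hL12, by rw [natDegree_X_sub_C]⟩

omit [Fintype K] [DecidableEq K] [Fact p.Prime] [CharP K p] in
theorem sq_cases (φ : K →+* K) (z lam : K) (hz : φ z * z = 1) (hlam : lam ^ 2 = z) :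
    φ lam * lam = 1 ∨ φ lam * lam = -1 := by
  have hε2 : (φ lam * lam) ^ 2 = 1 := by rw [mul_pow, ← map_pow, hlam, hz]
  have h : (φ lam * lam - 1) * (φ lam * lam + 1) = 0 := by linear_combination hε2
  rcases mul_eq_zero.mp h with h | h
  · left
    linear_combination h
  · right
    linear_combination h

/-- Sufficiency for `r = 2`. -/
theorem two_suff (hK : Fintype.card K = q ^ 2) (φ : K →+* K) (hφq : ∀ x, φ x = x ^ q)
    (hφ : ∀ x, φ (φ x) = x) (l : K) (hl : φ l ≠ l) (hp2 : p ≠ 2) {n : ℕ} (hn : 0 < n) (m : ℕ)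
    (hmn : m ≤ n)
    (hcond : Odd n ∨ Even m ∨ (padicValNat 2 n ≤ padicValNat 2 (q + 1) ∧ q % 4 = 3))
    (A : Matrix (Fin n) (Fin n) K) (hA : adj φ A * A = 1) (hdet : A.det = 1) (z : K)
    (hAz : A ^ 2 = z • (1 : Matrix (Fin n) (Fin n) K)) : Fix φ A m := by
  have hp : p.Prime := Fact.out
  rw [fix_iff hK φ hφ l hl hn A hA 2 Nat.prime_two (Ne.symm hp2) z hAz m]
  have hz := scalar_unit φ hn A hA 2 z hAz
  have hz0 : z ≠ 0 := right_ne_zero_of_mul_eq_one hz
  obtain ⟨lam, hlam⟩ := exists_sqrt hK hp2 φ hφq z hz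
  have h2K := two_ne_zero' (K := K) hp2
  have hχm := Matrix.charpoly_monic A
  have hχs := rstar_charpoly_of_unitary φ hφ A hA
  have hχ0 := charpoly_coeff_zero_ne φ A hA
  have hχd : A.charpoly.natDegree = n := by
    rw [Matrix.charpoly_natDegree_eq_dim, Fintype.card_fin]
  have hfacL : ∀ P : K[X], Irreducible P → P.Monic → P ∣ A.charpoly →
      P = X - C lam ∨ P = X - C (-lam) := fun P hPirr hPm hPdvd =>
    lin_factor z lam hlam P hPirr hPm (factor_dvd A 2 z hAz P hPirr hPm hPdvd)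
  rcases sq_cases φ z lam hz hlam with hε1 | hε1
  · have hat : ∀ P : K[X], Irreducible P → P.Monic → P ∣ A.charpoly →
        (rstar φ P = P ∧ P.natDegree = 1) ∨ (rstar φ P ≠ P ∧ 2 * P.natDegree = 1) := by
      intro P hPirr hPm hPdvd
      left
      rcases hfacL P hPirr hPm hPdvd with rfl | rfl
      · refine ⟨?_, natDegree_X_sub_C _⟩
        have h3 := rstar_X_pow_sub_C_fix φ 1 one_pos lam hε1
        rwa [pow_one] at h3
      · refine ⟨?_, natDegree_X_sub_C _⟩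
        have h3 : φ (-lam) * (-lam) = 1 := by
          rw [map_neg]
          linear_combination hε1
        have h4 := rstar_X_pow_sub_C_fix φ 1 one_pos (-lam) h3
        rwa [pow_one] at h4
    obtain ⟨j, hj, hjD⟩ := chain φ hφ 1 n A.charpoly hχm hχs hχ0 hχd hat
    obtain ⟨D, hD1, hD2, hD3, hD4⟩ := hjD m (by omega)
    exact ⟨D, hD1, by rw [hD3, mul_one], hD2, hD4⟩
  · have hat : ∀ P : K[X], Irreducible P → P.Monic → P ∣ A.charpoly →
        (rstar φ P = P ∧ P.natDegree = 2) ∨ (rstar φ P ≠ P ∧ 2 * P.natDegree = 2) :=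
      fun P hPirr hPm hPdvd => atom_swap φ hp2 z lam hlam hε1 P hPirr hPm
        (factor_dvd A 2 z hAz P hPirr hPm hPdvd)
    obtain ⟨j, hj, hjD⟩ := chain φ hφ 2 n A.charpoly hχm hχs hχ0 hχd hat
    by_cases hme : Even m
    · obtain ⟨m', hm'⟩ := hme
      obtain ⟨D, hD1, hD2, hD3, hD4⟩ := hjD m' (by omega)
      exact ⟨D, hD1, by rw [hD3]; omega, hD2, hD4⟩
    · exfalso
      have hno : ¬ Odd n := by
        rw [Nat.not_odd_iff_even]
        exact ⟨j, by omega⟩
      rcases hcond with h | h | ⟨hv, hq4⟩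
      · exact hno h
      · exact hme h
      · obtain ⟨hs1, hs2, hL12⟩ := swap_facts φ hp2 lam hε1
        obtain ⟨s, hs1', hs2'⟩ := atoms φ hφ n A.charpoly hχm hχs hχ0 hχd
        have h2 : X ^ 2 - C z = (X - C lam) * (X - C (-lam)) := by
          rw [← hlam, C_pow, C_neg]
          ring
        have hall : ∀ Q ∈ s, Q = X ^ 2 - C z := by
          intro Q hQ
          obtain ⟨P, hPirr, hPm, hPdvd, hform⟩ := hs2' Q hQ
          rcases hfacL P hPirr hPm hPdvd with rfl | rfl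
          · rcases hform with ⟨h3, -⟩ | ⟨-, h3⟩
            · rw [hs1] at h3
              exact absurd h3.symm hL12
            · rw [h3, hs1, h2]
          · rcases hform with ⟨h3, -⟩ | ⟨-, h3⟩
            · rw [hs2] at h3
              exact absurd h3 hL12
            · rw [h3, hs2, h2, mul_comm]
        have hrep : s = Multiset.replicate (Multiset.card s) (X ^ 2 - C z) :=
          Multiset.eq_replicate_card.mpr hall
        obtain ⟨k, hk⟩ : ∃ k, k = Multiset.card s := ⟨_, rfl⟩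
        have hχk : A.charpoly = (X ^ 2 - C z) ^ k := by
          rw [← hs1', hrep, Multiset.prod_replicate, ← hk]
        have hnk : n = 2 * k := by
          rw [← hχd, hχk, (monic_X_pow_sub_C z two_ne_zero).natDegree_pow,
            natDegree_X_pow_sub_C]
          ring
        have hdet' : (-z) ^ k = 1 := by
          have h5 := det_eq A
          rw [hdet, hχk, coeff0_pow, coeff_sub, coeff_X_pow, coeff_C_zero,
            if_neg (by norm_num), zero_sub, hnk, pow_mul, neg_one_sq, one_pow, mul_one] at h5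
          exact h5.symm
        have hk0 : k ≠ 0 := by omega
        have hv' : padicValNat 2 k < padicValNat 2 (q + 1) := by
          have h6 : padicValNat 2 n = padicValNat 2 k + 1 := by
            rw [hnk, padicValNat.mul two_ne_zero hk0, padicValNat_self]
            ring
          omega
        have hqev : Even (q + 1) := ⟨(q + 1) / 2, by omega⟩
        have hzq : (-z) ^ (q + 1) = 1 := by
          rw [hqev.neg_pow, pow_succ, ← hφq]
          exact hz
        have h7 := pow_div_eq_one 2 (-z) k (q + 1) hk0 (Nat.succ_ne_zero q) hdet' hzq hv'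
        have h8 : (-z) ^ ((q + 1) / 2) = -1 := by
          have hq2 : q + 1 = 2 * ((q + 1) / 2) := by omega
          have hev : Even ((q + 1) / 2) := ⟨(q + 1) / 4, by omega⟩
          rw [hev.neg_pow, ← hlam, ← pow_mul, ← hq2, pow_succ, ← hφq]
          exact hε1
        rw [h7] at h8
        exact h2K (by linear_combination h8)

/-- Necessity for `r = 2`. -/
theorem two_nec (hK : Fintype.card K = q ^ 2) (φ : K →+* K) (hφq : ∀ x, φ x = x ^ q)
    (hφ : ∀ x, φ (φ x) = x) (l : K) (hl : φ l ≠ l) (hp2 : p ≠ 2) {n : ℕ} (hn : 0 < n) (m : ℕ)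
    (H : ∀ A : Matrix (Fin n) (Fin n) K, adj φ A * A = 1 → A.det = 1 →
      (∃ z : K, A ^ 2 = z • (1 : Matrix (Fin n) (Fin n) K)) →
      (∀ z : K, A ≠ z • (1 : Matrix (Fin n) (Fin n) K)) → Fix φ A m) :
    Odd n ∨ Even m ∨ (padicValNat 2 n ≤ padicValNat 2 (q + 1) ∧ q % 4 = 3) := by
  by_contra hcon
  have hn1 : ¬ Odd n := fun h => hcon (Or.inl h)
  have hm1 : ¬ Even m := fun h => hcon (Or.inr (Or.inl h))
  have hv : ¬ (padicValNat 2 n ≤ padicValNat 2 (q + 1) ∧ q % 4 = 3) :=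
    fun h => hcon (Or.inr (Or.inr h))
  obtain ⟨k, hk⟩ := Nat.not_odd_iff_even.mp hn1
  have hqodd := q_odd hK hp2
  have h2K := two_ne_zero' (K := K) hp2
  obtain ⟨z, hz1, hz2, hz3⟩ : ∃ z : K, φ z * z = 1 ∧ (-z) ^ k = 1 ∧
      ∀ δ : K, δ ^ 2 = z → φ δ * δ ≠ 1 := by
    by_cases hq4 : q % 4 = 3
    · have hvlt : padicValNat 2 (q + 1) < padicValNat 2 n := by
        by_contra h
        exact hv ⟨by omega, hq4⟩
      obtain ⟨v, hvdef⟩ : ∃ v, v = padicValNat 2 (q + 1) := ⟨_, rfl⟩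
      obtain ⟨ζ₀, hζ₀⟩ := exists_primitive hK
      have hdv : 2 ^ v ∣ q + 1 := by
        rw [hvdef]
        exact pow_padicValNat_dvd
      obtain ⟨ζ, hζdef⟩ : ∃ ζ, ζ = ζ₀ ^ ((q + 1) / 2 ^ v) := ⟨_, rfl⟩
      have hζ : IsPrimitiveRoot ζ (2 ^ v) := by
        rw [hζdef]
        exact hζ₀.pow (Nat.succ_pos q) (Nat.div_mul_cancel hdv).symm
      have hqev : Even (q + 1) := ⟨(q + 1) / 2, by omega⟩
      refine ⟨-ζ, ?_, ?_, ?_⟩
      · rw [hφq, ← pow_succ, hqev.neg_pow]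
        obtain ⟨t, ht⟩ := hdv
        rw [ht, pow_mul, hζ.pow_eq_one, one_pow]
      · rw [neg_neg]
        have h1 : 2 ^ (v + 1) ∣ n := by
          rw [padicValNat_dvd_iff_le hn.ne']
          omega
        have h2 : 2 ^ v ∣ k := by
          obtain ⟨t, ht⟩ := h1
          refine ⟨t, ?_⟩
          have h3 : k + k = 2 * (2 ^ v * t) := by
            rw [← hk, ht]
            ring
          omega
        obtain ⟨t, ht⟩ := h2
        rw [ht, pow_mul, hζ.pow_eq_one, one_pow]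
      · intro δ hδ hδ1
        have h1 : δ ^ (q + 1) = 1 := by
          rw [pow_succ, ← hφq]
          exact hδ1
        have hq2 : q + 1 = 2 * ((q + 1) / 2) := by omega
        have hev : Even ((q + 1) / 2) := ⟨(q + 1) / 4, by omega⟩
        have h2 : ζ ^ ((q + 1) / 2) = 1 := by
          have h3 : (-ζ) ^ ((q + 1) / 2) = 1 := by
            rw [← hδ, ← pow_mul, ← hq2]
            exact h1
          rwa [hev.neg_pow] at h3
        have h4 := hζ.dvd_of_pow_eq_one _ h2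
        have h5 : 2 ^ (v + 1) ∣ q + 1 := by
          obtain ⟨t, ht⟩ := h4
          refine ⟨t, ?_⟩
          rw [hq2, ht]
          ring
        have h5' : v + 1 ≤ padicValNat 2 (q + 1) :=
          (padicValNat_dvd_iff_le (Nat.succ_ne_zero q)).mp h5
        rw [← hvdef] at h5'
        omega
    · have hq41 : q % 4 = 1 := by omega
      refine ⟨-1, ?_, ?_, ?_⟩
      · rw [map_neg, map_one]
        ring
      · rw [neg_neg, one_pow]
      · intro δ hδ hδ1
        have h1 : δ ^ (q + 1) = 1 := by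
          rw [pow_succ, ← hφq]
          exact hδ1
        have hq2 : q + 1 = 2 * ((q + 1) / 2) := by omega
        have hodd : Odd ((q + 1) / 2) := ⟨(q + 1) / 4, by omega⟩
        rw [hq2, pow_mul, hδ, hodd.neg_one_pow] at h1
        exact h2K (by linear_combination -h1)
  have hz0 : z ≠ 0 := right_ne_zero_of_mul_eq_one hz1
  obtain ⟨χ, hχdef⟩ : ∃ χ : K[X], χ = (X ^ 2 - C z) ^ k := ⟨_, rfl⟩
  have hQm : (X ^ 2 - C z).Monic := monic_X_pow_sub_C z two_ne_zero
  have hχm : χ.Monic := by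
    rw [hχdef]
    exact hQm.pow k
  have hχd : χ.natDegree = n := by
    rw [hχdef, hQm.natDegree_pow, natDegree_X_pow_sub_C, hk]
    ring
  have hχs : rstar φ χ = χ := by
    rw [hχdef, rstar_pow, rstar_X_pow_sub_C_fix φ 2 two_pos z hz1]
  have hχc : χ.coeff 0 = (-z) ^ k := by
    rw [hχdef, coeff0_pow, coeff_sub, coeff_X_pow, coeff_C_zero, if_neg (by norm_num), zero_sub]
  have hχ0 : χ.coeff 0 ≠ 0 := by
    rw [hχc, hz2]
    exact one_ne_zero
  have hfacχ : ∀ P : K[X], Irreducible P → P.Monic → P ∣ χ → P ∣ X ^ 2 - C z := by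
    intro P hPirr _ hPdvd
    rw [hχdef] at hPdvd
    exact hPirr.prime.dvd_of_dvd_pow hPdvd
  obtain ⟨U, hU1, hU2, hU3⟩ := exists_elt hK (Fact.out : p.Prime) φ hφ l hl χ hχm hχd hχ0 hχs 2 z hz0 hfacχ
  have hUdet : U.det = 1 := by
    rw [det_eq U, hU2, hχc, hz2, one_mul, hk, ← two_mul, pow_mul, neg_one_sq, one_pow]
  have hUns : ∀ w : K, U ≠ w • (1 : Matrix (Fin n) (Fin n) K) := by
    intro w hw
    have h1 : φ w * w = 1 := scalar_unit φ hn U hU1 1 w (by rw [pow_one]; exact hw)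
    have h2 : w ^ 2 = z := by
      have h3 := hU3
      rw [hw, _root_.smul_pow, one_pow] at h3
      have h4 := congrFun (congrFun h3 ⟨0, hn⟩) ⟨0, hn⟩
      rw [Matrix.smul_apply, Matrix.smul_apply, Matrix.one_apply_eq, smul_eq_mul, smul_eq_mul,
        mul_one, mul_one] at h4
      exact h4
    exact hz3 w h2 h1
  have hfix := H U hU1 hUdet ⟨z, hU3⟩ hUns
  rw [fix_iff hK φ hφ l hl hn U hU1 2 Nat.prime_two (Ne.symm hp2) z hU3 m, hU2] at hfix
  obtain ⟨D, hDm, hDd, hDs, hDdvd⟩ := hfix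
  have hD0 : D.coeff 0 ≠ 0 := coeff0_of_dvd hDdvd hχ0
  obtain ⟨lam, hlam⟩ := exists_sqrt hK hp2 φ hφq z hz1
  have hε1 : φ lam * lam = -1 := by
    rcases sq_cases φ z lam hz1 hlam with h | h
    · exact absurd h (hz3 lam hlam)
    · exact h
  have hat : ∀ P : K[X], Irreducible P → P.Monic → P ∣ D →
      (rstar φ P = P ∧ P.natDegree = 2) ∨ (rstar φ P ≠ P ∧ 2 * P.natDegree = 2) :=
    fun P hPirr hPm hPdvd => atom_swap φ hp2 z lam hlam hε1 P hPirr hPm
      (hfacχ P hPirr hPm (hPdvd.trans hDdvd))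
  obtain ⟨j, hj, -⟩ := chain φ hφ 2 m D hDm hDs hD0 hDd hat
  exact hm1 ⟨j, by omega⟩

end two

end Cfsg.Agent.Lib.Helper40.HSemi
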