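import Mathlib
import Cfsg.Agent.Lib.Helper40.HSemi
import Cfsg.Agent.Lib.Helper40.CycloVal

set_option autoImplicit false

namespace Cfsg.Agent.Lib.Helper40.HSemi2

open Module Polynomial UniqueFactorizationMonoid Matrix Cfsg.Agent.Lib.Helper40.UnitDet
  Cfsg.Agent.Lib.Helper40.HermAdj Cfsg.Agent.Lib.Helper40.HGeo Cfsg.Agent.Lib.Helper40.RecipPoly
  Cfsg.Agent.Lib.Helper40.GUReal Cfsg.Agent.Lib.Helper40.HCrit Cfsg.Agent.Lib.Helper40.HPoly
  Cfsg.Agent.Lib.Helper40.SURegUnip Cfsg.Agent.Lib.Helper40.SUCount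
  Cfsg.Agent.Lib.Helper40.HSemi Cfsg.Agent.Lib.Helper40.HCount

universe u

section arith

theorem order_two_iff (q r : ℕ) (hr : r.Prime) (hr2 : r ≠ 2) :
    orderOf (q : ZMod r) = 2 ↔ r ∣ q + 1 := by
  haveI : Fact r.Prime := ⟨hr⟩
  have h2 : (2 : ZMod r) ≠ 0 := by
    intro h
    have h1 : ((2 : ℕ) : ZMod r) = 0 := by
      rw [Nat.cast_ofNat]
      exact h
    rw [ZMod.natCast_eq_zero_iff] at h1
    exact hr2 ((Nat.prime_dvd_prime_iff_eq hr Nat.prime_two).mp h1)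
  constructor
  · intro h
    have h1 : (q : ZMod r) ^ 2 = 1 := by
      rw [← h]
      exact pow_orderOf_eq_one _
    have h3 : (q : ZMod r) ≠ 1 := by
      intro h4
      rw [h4, orderOf_one] at h
      omega
    have h5 : ((q : ZMod r) - 1) * ((q : ZMod r) + 1) = 0 := by linear_combination h1
    rcases mul_eq_zero.mp h5 with h6 | h6
    · exact absurd (sub_eq_zero.mp h6) h3
    · rw [← ZMod.natCast_eq_zero_iff]
      push_cast
      exact h6
  · intro h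
    have h1 : (q : ZMod r) = -1 := by
      rw [← ZMod.natCast_eq_zero_iff] at h
      push_cast at h
      linear_combination h
    rw [h1]
    have h3 : orderOf (-1 : ZMod r) ∣ 2 := orderOf_dvd_of_pow_eq_one (by norm_num)
    rcases (Nat.dvd_prime Nat.prime_two).mp h3 with h4 | h4
    · exfalso
      rw [orderOf_eq_one_iff] at h4
      exact h2 (by linear_combination -h4)
    · exact h4

theorem c_dvd_of_dvd_acnt (q r : ℕ) (hr : r.Prime) (hr2 : r ≠ 2) (hq : 1 ≤ q) (hrq : ¬ r ∣ q)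
    (i c : ℕ) (hi : i = orderOf (q : ZMod r))
    (hc : c = if i % 4 = 0 then i else if i % 4 = 2 then i / 2 else 2 * i) (k : ℕ)
    (h : r ∣ Acnt q k) : c ∣ k := by
  haveI : Fact r.Prime := ⟨hr⟩
  have hrq' : ¬ r ∣ q ^ (k - 1) := fun h' => hrq (hr.dvd_of_dvd_pow h')
  have h2' : (2 : ZMod r) ≠ 0 := by
    intro h
    have h1 : ((2 : ℕ) : ZMod r) = 0 := by
      rw [Nat.cast_ofNat]
      exact h
    rw [ZMod.natCast_eq_zero_iff] at h1
    exact hr2 ((Nat.prime_dvd_prime_iff_eq hr Nat.prime_two).mp h1)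
  unfold Acnt at h
  by_cases hk : Even k
  · rw [if_pos hk] at h
    have h1 : r ∣ q ^ k - 1 := (hr.dvd_mul.mp h).resolve_left hrq'
    have h2 : i ∣ k := by
      rw [hi]
      exact (Cfsg.Agent.Lib.Helper40.CycloVal.dvd_pow_sub_one_iff q r hq k).mp h1
    obtain ⟨t, ht⟩ := h2
    rw [hc]
    split_ifs with h4 h5
    · exact ⟨t, ht⟩
    · obtain ⟨i', hi'⟩ : ∃ i', i = 2 * i' := ⟨i / 2, by omega⟩
      have h6 : i / 2 = i' := by omega
      rw [h6, ht, hi']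
      exact ⟨2 * t, by ring⟩
    · have h6 : Even (i * t) := ht ▸ hk
      rcases Nat.even_mul.mp h6 with h7 | h7
      · exfalso
        obtain ⟨s, hs⟩ := h7
        omega
      · obtain ⟨t', ht'⟩ := h7
        rw [ht, ht']
        exact ⟨t', by ring⟩
  · rw [if_neg hk] at h
    have h1 : r ∣ q ^ k + 1 := (hr.dvd_mul.mp h).resolve_left hrq'
    have h3 : (q : ZMod r) ^ k = -1 := by
      rw [← ZMod.natCast_eq_zero_iff] at h1
      push_cast at h1
      linear_combination h1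
    have h4 : i ∣ 2 * k := by
      rw [hi, orderOf_dvd_iff_pow_eq_one, mul_comm, pow_mul, h3]
      norm_num
    have h5 : ¬ i ∣ k := by
      rw [hi, orderOf_dvd_iff_pow_eq_one, h3]
      intro h6
      exact h2' (by linear_combination -h6)
    have hkodd : k % 2 = 1 := by
      rcases Nat.even_or_odd k with h6 | h6
      · exact absurd h6 hk
      · exact Nat.odd_iff.mp h6
    have hie : i % 2 = 0 := by
      by_contra h6
      have h7 : Nat.Coprime i 2 := by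
        rw [Nat.coprime_comm, Nat.Prime.coprime_iff_not_dvd Nat.prime_two]
        omega
      exact h5 (h7.dvd_of_dvd_mul_left h4)
    obtain ⟨i', hi'⟩ : ∃ i', i = 2 * i' := ⟨i / 2, by omega⟩
    have h8 : i' ∣ k := by
      rw [hi'] at h4
      exact (Nat.mul_dvd_mul_iff_left (by norm_num : 0 < 2)).mp h4
    have h9 : i' % 2 = 1 := by
      obtain ⟨t, ht⟩ := h8
      by_contra h10
      obtain ⟨s, hs⟩ : ∃ s, i' = 2 * s := ⟨i' / 2, by omega⟩
      rw [hs, mul_assoc] at ht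
      omega
    have h10 : i % 4 = 2 := by omega
    have h11 : i / 2 = i' := by omega
    rw [hc, if_neg (by omega), if_pos h10, h11]
    exact h8

end arith

section poly
variable {K : Type u} [Field K]

theorem split_chain [DecidableEq K] (φ : K →+* K) (hφ : ∀ x, φ (φ x) = x) (c : ℕ)
    (D : K[X]) (hDm : D.Monic) (hDs : rstar φ D = D) (hD0 : D.coeff 0 ≠ 0)
    (hat : ∀ P : K[X], Irreducible P → P.Monic → P ∣ D → P ≠ X - C 1 →
      (rstar φ P = P ∧ P.natDegree = c) ∨ (rstar φ P ≠ P ∧ 2 * P.natDegree = c)) :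
    ∃ a j, D.natDegree = a + j * c ∧ (X - C (1 : K)) ^ a ∣ D ∧
      ∀ a' ≤ a, ∀ j' ≤ j, ∃ D' : K[X], D'.Monic ∧ rstar φ D' = D' ∧
        D'.natDegree = a' + j' * c ∧ D' ∣ D := by
  obtain ⟨E, hE, hnd⟩ := exists_eq_pow_rootMultiplicity_mul_and_not_dvd D hDm.ne_zero 1
  obtain ⟨a, ha⟩ : ∃ a, a = rootMultiplicity 1 D := ⟨_, rfl⟩
  rw [← ha] at hE
  have hL1 : (X - C (1 : K)).Monic := monic_X_sub_C 1
  have hLm : ((X - C (1 : K)) ^ a).Monic := hL1.pow a
  have hEm : E.Monic := by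
    apply hLm.of_mul_monic_left
    rw [← hE]
    exact hDm
  have hED : E ∣ D := Dvd.intro_left _ hE.symm
  have hE0 : E.coeff 0 ≠ 0 := coeff0_of_dvd hED hD0
  have hEs : rstar φ E = E := by
    have h1 : rstar φ D = (X - C 1) ^ a * rstar φ E := by
      conv_lhs => rw [hE]
      rw [rstar_mul, rstar_pow, rstar_X_sub_one]
    rw [hDs] at h1
    have h2 : (X - C 1) ^ a * E = (X - C 1) ^ a * rstar φ E := hE.symm.trans h1
    exact (mul_left_cancel₀ hLm.ne_zero h2).symm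
  obtain ⟨j, hj, hjD⟩ := chain φ hφ c E.natDegree E hEm hEs hE0 rfl
    (fun P hPirr hPm hPdvd => hat P hPirr hPm (hPdvd.trans hED)
      (by rintro rfl; exact hnd hPdvd))
  refine ⟨a, j, ?_, Dvd.intro _ hE.symm, ?_⟩
  · conv_lhs => rw [hE]
    rw [hLm.natDegree_mul hEm, hL1.natDegree_pow, natDegree_X_sub_C, mul_one, hj]
  · intro a' ha' j' hj'
    obtain ⟨D'', h1, h2, h3, h4⟩ := hjD j' hj'
    refine ⟨(X - C 1) ^ a' * D'', (hL1.pow a').mul h1, ?_, ?_, ?_⟩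
    · rw [rstar_mul, rstar_pow, rstar_X_sub_one, h2]
    · rw [(hL1.pow a').natDegree_mul h1, hL1.natDegree_pow, natDegree_X_sub_C, mul_one, h3]
    · rw [hE]
      exact mul_dvd_mul (pow_dvd_pow _ ha') h4

theorem unit_scale (φ : K →+* K) {n : ℕ} (lam : K) (hlam : φ lam * lam = 1)
    (A : Matrix (Fin n) (Fin n) K) (hA : adj φ A * A = 1) :
    adj φ (lam⁻¹ • A) * (lam⁻¹ • A) = 1 := by
  rw [adj_smul, Matrix.smul_mul, Matrix.mul_smul, smul_smul, hA, map_inv₀, ← mul_inv, hlam,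
    inv_one, one_smul]

end poly

section cyc

theorem atom_facts {K : Type u} [Field K] [Fintype K] {p q : ℕ} [Fact p.Prime] [CharP K p]
    (hK : Fintype.card K = q ^ 2) (φ : K →+* K) (hφq : ∀ x, φ x = x ^ q)
    (hφ : ∀ x, φ (φ x) = x) (r : ℕ) (hr : r.Prime) (hr2 : r ≠ 2) (hrp : r ≠ p) (i c : ℕ)
    (hi : i = orderOf (q : ZMod r)) (hi2 : i ≠ 2)
    (hc : c = if i % 4 = 0 then i else if i % 4 = 2 then i / 2 else 2 * i) :
    2 ≤ c ∧
    (∀ P : K[X], Irreducible P → P.Monic → P ∣ X ^ r - C 1 → P ≠ X - C 1 →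
      (rstar φ P = P ∧ P.natDegree = c) ∨ (rstar φ P ≠ P ∧ 2 * P.natDegree = c)) ∧
    ∃ Q : K[X], Q.Monic ∧ rstar φ Q = Q ∧ Q.natDegree = c ∧ Q.coeff 0 ≠ 0 ∧ ¬ (X - C 1) ∣ Q ∧
      (∀ P : K[X], Irreducible P → P.Monic → P ∣ Q → P ∣ X ^ r - C 1) ∧
      (∀ w : K, ∃ P : K[X], Irreducible P ∧ P.Monic ∧ P ∣ Q ∧ P ≠ X - C w) := by
  obtain ⟨b, S, hi0, hb, hSne, h1S, hS, hSiff, hSstar, hSfix⟩ :=
    gu_cyclo_facts hK φ hφq hφ r hr hr2 hrp i hi
  have hb' : b = if i % 2 = 1 then i else i / 2 := by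
    rw [hb]
    by_cases h : Odd i
    · rw [if_pos h, if_pos (Nat.odd_iff.mp h)]
    · rw [if_neg h, if_neg (fun h' => h (Nat.odd_iff.mpr h'))]
  have hc2 : 2 ≤ c := by
    rw [hc]
    split_ifs <;> omega
  have hbc : (i % 4 = 2 ∧ b = c) ∨ (i % 4 ≠ 2 ∧ 2 * b = c) := by
    rw [hb', hc]
    split_ifs <;> omega
  refine ⟨hc2, ?_, ?_⟩
  · intro P hPirr hPm hPdvd hP1
    rcases (hSiff P hPirr hPm).mp hPdvd with h | h
    · exact absurd h hP1
    · obtain ⟨-, -, hdeg, -⟩ := hS P h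
      rcases hbc with ⟨h4, hbc⟩ | ⟨h4, hbc⟩
      · left
        exact ⟨(hSfix P h).mpr h4, by rw [hdeg, hbc]⟩
      · right
        exact ⟨fun h' => h4 ((hSfix P h).mp h'), by rw [hdeg, hbc]⟩
  · obtain ⟨P₀, hP₀⟩ := hSne
    obtain ⟨hP₀irr, hP₀m, hP₀d, hP₀0⟩ := hS P₀ hP₀
    have hnotS : ∀ P ∈ S, ¬ (X - C (1 : K)) ∣ P := by
      intro P hP h
      obtain ⟨hPirr, hPm, -, -⟩ := hS P hP
      have h' := eq_of_dvd_irr _ _ (irreducible_X_sub_C 1) (monic_X_sub_C 1) hPirr hPm h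
      rw [h'] at h1S
      exact h1S hP
    rcases hbc with ⟨h4, hbc⟩ | ⟨h4, hbc⟩
    · refine ⟨P₀, hP₀m, (hSfix P₀ hP₀).mpr h4, by rw [hP₀d, hbc], hP₀0, hnotS P₀ hP₀, ?_, ?_⟩
      · intro P hPirr hPm hPdvd
        rw [eq_of_dvd_irr P P₀ hPirr hPm hP₀irr hP₀m hPdvd]
        exact (hSiff P₀ hP₀irr hP₀m).mpr (Or.inr hP₀)
      · intro w
        refine ⟨P₀, hP₀irr, hP₀m, dvd_rfl, ?_⟩
        intro h
        have h5 : P₀.natDegree = 1 := by rw [h, natDegree_X_sub_C]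
        omega
    · have hP₁ : rstar φ P₀ ∈ S := hSstar P₀ hP₀
      obtain ⟨hP₁irr, hP₁m, hP₁d, hP₁0⟩ := hS _ hP₁
      have hne : rstar φ P₀ ≠ P₀ := fun h' => h4 ((hSfix P₀ hP₀).mp h')
      refine ⟨P₀ * rstar φ P₀, hP₀m.mul hP₁m, ?_, ?_, ?_, ?_, ?_, ?_⟩
      · rw [rstar_mul, rstar_star φ hφ P₀ hP₀m hP₀0, mul_comm]
      · rw [hP₀m.natDegree_mul hP₁m, hP₀d, hP₁d]
        omega
      · rw [mul_coeff_zero]
        exact mul_ne_zero hP₀0 hP₁0
      · intro h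
        rcases (irreducible_X_sub_C (1 : K)).prime.dvd_or_dvd h with h' | h'
        · exact hnotS P₀ hP₀ h'
        · exact hnotS _ hP₁ h'
      · intro P hPirr hPm hPdvd
        rcases hPirr.prime.dvd_or_dvd hPdvd with h' | h'
        · rw [eq_of_dvd_irr P P₀ hPirr hPm hP₀irr hP₀m h']
          exact (hSiff P₀ hP₀irr hP₀m).mpr (Or.inr hP₀)
        · rw [eq_of_dvd_irr P _ hPirr hPm hP₁irr hP₁m h']
          exact (hSiff _ hP₁irr hP₁m).mpr (Or.inr hP₁)
      · intro w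
        by_cases h : P₀ = X - C w
        · exact ⟨rstar φ P₀, hP₁irr, hP₁m, dvd_mul_left _ _, fun h' => hne (h'.trans h.symm)⟩
        · exact ⟨P₀, hP₀irr, hP₀m, dvd_mul_right _ _, h⟩

end cyc

section odd
variable {K : Type u} [Field K] [Fintype K] [DecidableEq K] {p q : ℕ} [Fact p.Prime] [CharP K p]

/-- Sufficiency for `r` odd, `r ∤ q + 1`. -/
theorem odd_ne_suff (hK : Fintype.card K = q ^ 2) (φ : K →+* K) (hφq : ∀ x, φ x = x ^ q)
    (hφ : ∀ x, φ (φ x) = x) (l : K) (hl : φ l ≠ l) (r : ℕ) (hr : r.Prime) (hrp : r ≠ p)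
    (hrq : ¬ r ∣ q + 1) (c : ℕ)
    (hatom : ∀ P : K[X], Irreducible P → P.Monic → P ∣ X ^ r - C 1 → P ≠ X - C 1 →
      (rstar φ P = P ∧ P.natDegree = c) ∨ (rstar φ P ≠ P ∧ 2 * P.natDegree = c))
    {n : ℕ} (hn : 0 < n) (m : ℕ) (hmn : m ≤ n) (hcond : m % c ≤ n % c)
    (A : Matrix (Fin n) (Fin n) K) (hA : adj φ A * A = 1) (z : K)
    (hAz : A ^ r = z • (1 : Matrix (Fin n) (Fin n) K)) : Fix φ A m := by
  have hz := scalar_unit φ hn A hA r z hAz
  have hzq : z ^ (q + 1) = 1 := by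
    rw [pow_succ, ← hφq]
    exact hz
  obtain ⟨ζ, hζ⟩ := exists_primitive hK
  have hgcd : Nat.gcd r (q + 1) = 1 := (Nat.Prime.coprime_iff_not_dvd hr).mpr hrq
  obtain ⟨lam, hlam1, hlam2⟩ := exists_nth_root_of (n := r) ζ hζ z hzq
    (by rw [hgcd, Nat.div_one]; exact hzq)
  have hlam0 : lam ≠ 0 := by
    rintro rfl
    rw [zero_pow (Nat.succ_ne_zero q)] at hlam1
    exact zero_ne_one hlam1
  have hlamφ : φ lam * lam = 1 := by
    rw [hφq, ← pow_succ]
    exact hlam1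
  obtain ⟨y, hy⟩ : ∃ y, y = lam⁻¹ • A := ⟨_, rfl⟩
  have hyu : adj φ y * y = 1 := by
    rw [hy]
    exact unit_scale φ lam hlamφ A hA
  have hyr : y ^ r = (1 : K) • (1 : Matrix (Fin n) (Fin n) K) := by
    rw [hy, _root_.smul_pow, hAz, smul_smul, hlam2, inv_pow, inv_mul_cancel₀ (pow_ne_zero r hlam0)]
  have hfix : Fix φ y m := by
    rw [fix_iff hK φ hφ l hl hn y hyu r hr hrp 1 hyr m]
    have hχm := Matrix.charpoly_monic y
    have hχs := rstar_charpoly_of_unitary φ hφ y hyu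
    have hχ0 := charpoly_coeff_zero_ne φ y hyu
    have hχd : y.charpoly.natDegree = n := by
      rw [Matrix.charpoly_natDegree_eq_dim, Fintype.card_fin]
    obtain ⟨a, j, haj, -, hD⟩ := split_chain φ hφ c y.charpoly hχm hχs hχ0
      (fun P hPirr hPm hPdvd hP1 =>
        hatom P hPirr hPm (factor_dvd y r 1 hyr P hPirr hPm hPdvd) hP1)
    rw [hχd] at haj
    by_cases hmj : m / c ≤ j
    · have hmc : m % c ≤ a := by
        have h1 : n % c = a % c := by rw [haj, Nat.add_mul_mod_self_right]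
        have h2 : a % c ≤ a := Nat.mod_le a c
        omega
      obtain ⟨D, hD1, hD2, hD3, hD4⟩ := hD (m % c) hmc (m / c) hmj
      refine ⟨D, hD1, ?_, hD2, hD4⟩
      rw [hD3]
      exact Nat.mod_add_div' m c
    · obtain ⟨D, hD1, hD2, hD3, hD4⟩ := hD (m - j * c) (by omega) j le_rfl
      refine ⟨D, hD1, ?_, hD2, hD4⟩
      rw [hD3]
      have h1 : (j + 1) * c ≤ m / c * c := Nat.mul_le_mul_right c (by omega)
      have h2 : m / c * c ≤ m := Nat.div_mul_le_self m c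
      have h3 : (j + 1) * c = j * c + c := by ring
      omega
  have h := fix_smul φ y m lam hfix
  rwa [hy, smul_smul, mul_inv_cancel₀ hlam0, one_smul] at h

/-- Necessity for `r` odd, `r ∤ q + 1`. -/
theorem odd_ne_nec (hK : Fintype.card K = q ^ 2) (φ : K →+* K) (hφq : ∀ x, φ x = x ^ q)
    (hφ : ∀ x, φ (φ x) = x) (l : K) (hl : φ l ≠ l) (r : ℕ) (hr : r.Prime) (hrp : r ≠ p)
    (hrq : ¬ r ∣ q + 1) (c : ℕ) (hc : 2 ≤ c)
    (hatom : ∀ P : K[X], Irreducible P → P.Monic → P ∣ X ^ r - C 1 → P ≠ X - C 1 →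
      (rstar φ P = P ∧ P.natDegree = c) ∨ (rstar φ P ≠ P ∧ 2 * P.natDegree = c))
    (Q : K[X]) (hQm : Q.Monic) (hQs : rstar φ Q = Q) (hQd : Q.natDegree = c)
    (hQ0 : Q.coeff 0 ≠ 0) (hQ1 : ¬ (X - C 1) ∣ Q)
    (hQf : ∀ P : K[X], Irreducible P → P.Monic → P ∣ Q → P ∣ X ^ r - C 1)
    (hQns : ∀ w : K, ∃ P : K[X], Irreducible P ∧ P.Monic ∧ P ∣ Q ∧ P ≠ X - C w)
    {n : ℕ} (hn : 0 < n) (m : ℕ) (hcn : c ≤ n)
    (H : ∀ A : Matrix (Fin n) (Fin n) K, adj φ A * A = 1 → A.det = 1 →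
      (∃ z : K, A ^ r = z • (1 : Matrix (Fin n) (Fin n) K)) →
      (∀ z : K, A ≠ z • (1 : Matrix (Fin n) (Fin n) K)) → Fix φ A m) :
    m % c ≤ n % c := by
  have hp : p.Prime := Fact.out
  have hLm : (X - C (1 : K)).Monic := monic_X_sub_C 1
  obtain ⟨χ, hχdef⟩ : ∃ χ : K[X], χ = (X - C 1) ^ (n % c) * Q ^ (n / c) := ⟨_, rfl⟩
  have hχm : χ.Monic := by
    rw [hχdef]
    exact (hLm.pow _).mul (hQm.pow _)
  have hχd : χ.natDegree = n := by
    rw [hχdef, (hLm.pow _).natDegree_mul (hQm.pow _), hLm.natDegree_pow, hQm.natDegree_pow,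
      natDegree_X_sub_C, hQd, mul_one]
    exact Nat.mod_add_div' n c
  have hχs : rstar φ χ = χ := by
    rw [hχdef, rstar_mul, rstar_pow, rstar_pow, rstar_X_sub_one, hQs]
  have hχ0 : χ.coeff 0 ≠ 0 := by
    rw [hχdef, mul_coeff_zero, coeff0_pow, coeff0_pow]
    apply mul_ne_zero
    · apply pow_ne_zero
      rw [coeff_sub, coeff_X_zero, coeff_C_zero, zero_sub]
      exact neg_ne_zero.mpr one_ne_zero
    · exact pow_ne_zero _ hQ0
  have hL1 : (X - C (1 : K)) ∣ X ^ r - C 1 := by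
    have h := sub_dvd_pow_sub_pow (X : K[X]) (C 1) r
    rwa [← C_pow, one_pow] at h
  have hfacχ : ∀ P : K[X], Irreducible P → P.Monic → P ∣ χ → P ∣ X ^ r - C 1 := by
    intro P hPirr hPm hPdvd
    rw [hχdef] at hPdvd
    rcases hPirr.prime.dvd_or_dvd hPdvd with h | h
    · exact (hPirr.prime.dvd_of_dvd_pow h).trans hL1
    · exact hQf P hPirr hPm (hPirr.prime.dvd_of_dvd_pow h)
  obtain ⟨U, hU1, hU2, hU3⟩ :=
    exists_elt hK hp φ hφ l hl χ hχm hχd hχ0 hχs r 1 one_ne_zero hfacχ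
  have hUdet : U.det = 1 := by
    have h1 : U.det ^ r = 1 := by
      rw [← Matrix.det_pow, hU3, one_smul, Matrix.det_one]
    have h2 : U.det ^ (q + 1) = 1 := by
      have h3 := congrArg Matrix.det hU1
      rw [Matrix.det_mul, det_adj, Matrix.det_one, hφq, ← pow_succ] at h3
      exact h3
    have h4 : orderOf U.det ∣ Nat.gcd r (q + 1) :=
      Nat.dvd_gcd (orderOf_dvd_of_pow_eq_one h1) (orderOf_dvd_of_pow_eq_one h2)
    rw [(Nat.Prime.coprime_iff_not_dvd hr).mpr hrq, Nat.dvd_one, orderOf_eq_one_iff] at h4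
    exact h4
  have hn0 : n / c ≠ 0 := by
    have : 0 < n / c := Nat.div_pos hcn (by omega)
    omega
  have hUns : ∀ w : K, U ≠ w • (1 : Matrix (Fin n) (Fin n) K) := by
    intro w hw
    obtain ⟨P, hPirr, hPm, hPdvd, hPne⟩ := hQns w
    have h1 : P ∣ U.charpoly := by
      rw [hU2, hχdef]
      exact (hPdvd.trans (dvd_pow_self Q hn0)).trans (dvd_mul_left _ _)
    have h2 : P ∣ X - C w := by
      apply dvd_ann U _ _ P hPirr hPm h1
      rw [map_sub, aeval_X, aeval_C, Algebra.algebraMap_eq_smul_one, ← hw, sub_self]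
    exact hPne (eq_of_dvd_X_sub_C P hPirr hPm w h2)
  have hfix := H U hU1 hUdet ⟨1, hU3⟩ hUns
  rw [fix_iff hK φ hφ l hl hn U hU1 r hr hrp 1 hU3 m, hU2] at hfix
  obtain ⟨D, hDm, hDd, hDs, hDdvd⟩ := hfix
  have hD0 : D.coeff 0 ≠ 0 := coeff0_of_dvd hDdvd hχ0
  obtain ⟨a, j, haj, haD, -⟩ := split_chain φ hφ c D hDm hDs hD0
    (fun P hPirr hPm hPdvd hP1 =>
      hatom P hPirr hPm (hfacχ P hPirr hPm (hPdvd.trans hDdvd)) hP1)
  rw [hDd] at haj
  have hcop : IsCoprime ((X - C (1 : K)) ^ a) (Q ^ (n / c)) :=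
    (((irreducible_X_sub_C (1 : K)).coprime_iff_not_dvd).mpr hQ1).pow
  have h5 : (X - C (1 : K)) ^ a ∣ (X - C 1) ^ (n % c) := by
    apply hcop.dvd_of_dvd_mul_right
    rw [← hχdef]
    exact haD.trans hDdvd
  have h6 : a ≤ n % c := by
    have h7 := natDegree_le_of_dvd h5 (hLm.pow _).ne_zero
    rwa [hLm.natDegree_pow, hLm.natDegree_pow, natDegree_X_sub_C, mul_one, mul_one] at h7
  have h8 : n % c < c := Nat.mod_lt n (by omega)
  rw [haj, Nat.add_mul_mod_self_right, Nat.mod_eq_of_lt (by omega)]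
  exact h6

omit [DecidableEq K] [Fact p.Prime] [CharP K p] in
theorem norm_one_of_root (hK : Fintype.card K = q ^ 2) (φ : K →+* K) (hφq : ∀ x, φ x = x ^ q)
    (r : ℕ) (hr : r.Prime) (hr2 : r ≠ 2) (hrq : r ∣ q + 1) (z lam : K) (hz : φ z * z = 1)
    (hlam : lam ^ r = z) : φ lam * lam = 1 := by
  have hq := two_le_q hK
  have hz0 : z ≠ 0 := right_ne_zero_of_mul_eq_one hz
  have hlam0 : lam ≠ 0 := by
    rintro rfl
    rw [zero_pow hr.ne_zero] at hlam
    exact hz0 hlam.symm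
  obtain ⟨w, hw⟩ : ∃ w, w = φ lam * lam := ⟨_, rfl⟩
  have hw' : w = lam ^ (q + 1) := by rw [hw, hφq, ← pow_succ]
  have h1 : w ^ r = 1 := by
    rw [hw, mul_pow, ← map_pow, hlam]
    exact hz
  have h2 : w ^ (q - 1) = 1 := by
    rw [hw', ← pow_mul]
    have e : (q + 1) * (q - 1) = q ^ 2 - 1 := by
      obtain ⟨k, rfl⟩ : ∃ k, q = k + 1 := ⟨q - 1, by omega⟩
      rw [Nat.add_sub_cancel]
      have : (k + 1) ^ 2 = (k + 1 + 1) * k + 1 := by ring
      omega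
    rw [e]
    exact pow_card_sub_one hK lam hlam0
  have h3 : ¬ r ∣ q - 1 := by
    intro h
    have h4 : r ∣ (q + 1) - (q - 1) := Nat.dvd_sub hrq h
    have h5 : (q + 1) - (q - 1) = 2 := by omega
    rw [h5] at h4
    exact hr2 ((Nat.prime_dvd_prime_iff_eq hr Nat.prime_two).mp h4)
  have h6 : orderOf w ∣ Nat.gcd r (q - 1) :=
    Nat.dvd_gcd (orderOf_dvd_of_pow_eq_one h1) (orderOf_dvd_of_pow_eq_one h2)
  rw [(Nat.Prime.coprime_iff_not_dvd hr).mpr h3, Nat.dvd_one, orderOf_eq_one_iff] at h6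
  rw [← hw]
  exact h6

/-- Sufficiency for `r` odd, `r ∣ q + 1`. -/
theorem odd_two_suff (hK : Fintype.card K = q ^ 2) (φ : K →+* K) (hφq : ∀ x, φ x = x ^ q)
    (hφ : ∀ x, φ (φ x) = x) (l : K) (hl : φ l ≠ l) (r : ℕ) [Fact r.Prime] (hr2 : r ≠ 2)
    (hrp : r ≠ p) (hrq : r ∣ q + 1) {n : ℕ} (hn : 0 < n) (m : ℕ) (hmn : m ≤ n)
    (hcond : r ∣ m ∨ padicValNat r n ≤ padicValNat r (q + 1))
    (A : Matrix (Fin n) (Fin n) K) (hA : adj φ A * A = 1) (hdet : A.det = 1) (z : K)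
    (hAz : A ^ r = z • (1 : Matrix (Fin n) (Fin n) K)) : Fix φ A m := by
  have hr : r.Prime := Fact.out
  rw [fix_iff hK φ hφ l hl hn A hA r hr hrp z hAz m]
  have hz := scalar_unit φ hn A hA r z hAz
  have hz0 : z ≠ 0 := right_ne_zero_of_mul_eq_one hz
  have hzq : z ^ (q + 1) = 1 := by
    rw [pow_succ, ← hφq]
    exact hz
  have hχm := Matrix.charpoly_monic A
  have hχs := rstar_charpoly_of_unitary φ hφ A hA
  have hχ0 := charpoly_coeff_zero_ne φ A hA
  have hχd : A.charpoly.natDegree = n := by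
    rw [Matrix.charpoly_natDegree_eq_dim, Fintype.card_fin]
  obtain ⟨ζ₀, hζ₀⟩ := exists_primitive hK
  by_cases hroot : ∃ lam : K, lam ^ r = z
  · obtain ⟨lam, hlam⟩ := hroot
    have hlamφ := norm_one_of_root hK φ hφq r hr hr2 hrq z lam hz hlam
    obtain ⟨ω, hωdef⟩ : ∃ ω, ω = ζ₀ ^ ((q + 1) / r) := ⟨_, rfl⟩
    have hω : IsPrimitiveRoot ω r := by
      rw [hωdef]
      exact hζ₀.pow (Nat.succ_pos q) (Nat.div_mul_cancel hrq).symm
    have hωq : ω ^ (q + 1) = 1 := by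
      rw [hωdef, ← pow_mul, mul_comm, pow_mul, hζ₀.pow_eq_one, one_pow]
    have hprod := X_pow_sub_C_eq_prod hω hr.pos hlam
    have hat : ∀ P : K[X], Irreducible P → P.Monic → P ∣ A.charpoly →
        (rstar φ P = P ∧ P.natDegree = 1) ∨ (rstar φ P ≠ P ∧ 2 * P.natDegree = 1) := by
      intro P hPirr hPm hPdvd
      left
      have h1 := factor_dvd A r z hAz P hPirr hPm hPdvd
      rw [hprod] at h1
      obtain ⟨k, -, hk⟩ := (Prime.dvd_finsetProd_iff hPirr.prime _).mp h1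
      have h2 := eq_of_dvd_X_sub_C P hPirr hPm _ hk
      rw [h2]
      refine ⟨?_, natDegree_X_sub_C _⟩
      have h3 : φ (ω ^ k * lam) * (ω ^ k * lam) = 1 := by
        rw [map_mul, map_pow, hφq ω]
        calc (ω ^ q) ^ k * φ lam * (ω ^ k * lam) = (ω ^ (q + 1)) ^ k * (φ lam * lam) := by ring
          _ = 1 := by rw [hωq, one_pow, hlamφ, mul_one]
      have h4 := rstar_X_pow_sub_C_fix φ 1 one_pos _ h3
      rwa [pow_one] at h4
    obtain ⟨j, hj, hjD⟩ := chain φ hφ 1 n A.charpoly hχm hχs hχ0 hχd hat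
    obtain ⟨D, hD1, hD2, hD3, hD4⟩ := hjD m (by omega)
    exact ⟨D, hD1, by rw [hD3, mul_one], hD2, hD4⟩
  · have hroot' : ∀ b : K, b ^ r ≠ z := fun b hb => hroot ⟨b, hb⟩
    have hQirr : Irreducible (X ^ r - C z) := X_pow_sub_C_irreducible_of_prime hr hroot'
    have hQm : (X ^ r - C z).Monic := monic_X_pow_sub_C z hr.ne_zero
    have hQs : rstar φ (X ^ r - C z) = X ^ r - C z := rstar_X_pow_sub_C_fix φ r hr.pos z hz
    have hfac : ∀ P : K[X], Irreducible P → P.Monic → P ∣ A.charpoly → P = X ^ r - C z :=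
      fun P hPirr hPm hPdvd =>
        eq_of_dvd_irr P _ hPirr hPm hQirr hQm (factor_dvd A r z hAz P hPirr hPm hPdvd)
    have hat : ∀ P : K[X], Irreducible P → P.Monic → P ∣ A.charpoly →
        (rstar φ P = P ∧ P.natDegree = r) ∨ (rstar φ P ≠ P ∧ 2 * P.natDegree = r) := by
      intro P hPirr hPm hPdvd
      left
      rw [hfac P hPirr hPm hPdvd]
      exact ⟨hQs, natDegree_X_pow_sub_C⟩
    obtain ⟨j, hj, hjD⟩ := chain φ hφ r n A.charpoly hχm hχs hχ0 hχd hat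
    by_cases hrm : r ∣ m
    · obtain ⟨m', hm'⟩ := hrm
      have hm'j : m' ≤ j := by
        by_contra hlt
        have h1 : (j + 1) * r ≤ m' * r := Nat.mul_le_mul_right r (by omega)
        have h2 : (j + 1) * r = j * r + r := by ring
        have h3 : m' * r = r * m' := mul_comm _ _
        have h4 := hr.pos
        omega
      obtain ⟨D, hD1, hD2, hD3, hD4⟩ := hjD m' hm'j
      exact ⟨D, hD1, by rw [hD3, hm', mul_comm], hD2, hD4⟩
    · exfalso
      have hv : padicValNat r n ≤ padicValNat r (q + 1) := hcond.resolve_left hrm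
      obtain ⟨s, hs1', hs2'⟩ := atoms φ hφ n A.charpoly hχm hχs hχ0 hχd
      have hall : ∀ Q ∈ s, Q = X ^ r - C z := by
        intro Q hQ
        obtain ⟨P, hPirr, hPm, hPdvd, hform⟩ := hs2' Q hQ
        have hP := hfac P hPirr hPm hPdvd
        rcases hform with ⟨-, h3⟩ | ⟨h3, -⟩
        · rw [h3, hP]
        · rw [hP] at h3
          exact absurd hQs h3
      have hrep : s = Multiset.replicate (Multiset.card s) (X ^ r - C z) :=
        Multiset.eq_replicate_card.mpr hall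
      obtain ⟨k, hk⟩ : ∃ k, k = Multiset.card s := ⟨_, rfl⟩
      have hχk : A.charpoly = (X ^ r - C z) ^ k := by
        rw [← hs1', hrep, Multiset.prod_replicate, ← hk]
      have hnk : n = k * r := by
        rw [← hχd, hχk, hQm.natDegree_pow, natDegree_X_pow_sub_C]
      have hrodd : Odd r := hr.odd_of_ne_two hr2
      have hdet' : z ^ k = 1 := by
        have h5 := det_eq A
        rw [hdet, hχk, coeff0_pow, coeff_sub, coeff_X_pow, coeff_C_zero,
          if_neg hr.ne_zero.symm, zero_sub, hnk, mul_comm k r, pow_mul, hrodd.neg_one_pow,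
          ← mul_pow, neg_mul_neg, mul_one] at h5
        exact h5.symm
      have hk0 : k ≠ 0 := by
        rintro rfl
        rw [zero_mul] at hnk
        omega
      have hv' : padicValNat r k < padicValNat r (q + 1) := by
        have h6 : padicValNat r n = padicValNat r k + 1 := by
          rw [hnk, padicValNat.mul hk0 hr.ne_zero, padicValNat_self]
        omega
      have h7 := pow_div_eq_one r z k (q + 1) hk0 (Nat.succ_ne_zero q) hdet' hzq hv'
      have hgcd : Nat.gcd r (q + 1) = r := Nat.gcd_eq_left hrq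
      obtain ⟨a, -, ha⟩ := exists_nth_root_of (n := r) ζ₀ hζ₀ z hzq (by rw [hgcd]; exact h7)
      exact hroot' a ha.symm

/-- Necessity for `r` odd, `r ∣ q + 1`. -/
theorem odd_two_nec (hK : Fintype.card K = q ^ 2) (φ : K →+* K) (hφq : ∀ x, φ x = x ^ q)
    (hφ : ∀ x, φ (φ x) = x) (l : K) (hl : φ l ≠ l) (r : ℕ) [Fact r.Prime] (hr2 : r ≠ 2)
    (hrp : r ≠ p) (hrq : r ∣ q + 1) {n : ℕ} (hn : 0 < n) (m : ℕ)
    (H : ∀ A : Matrix (Fin n) (Fin n) K, adj φ A * A = 1 → A.det = 1 →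
      (∃ z : K, A ^ r = z • (1 : Matrix (Fin n) (Fin n) K)) →
      (∀ z : K, A ≠ z • (1 : Matrix (Fin n) (Fin n) K)) → Fix φ A m) :
    r ∣ m ∨ padicValNat r n ≤ padicValNat r (q + 1) := by
  have hr : r.Prime := Fact.out
  have hp : p.Prime := Fact.out
  by_contra hcon
  have hrm : ¬ r ∣ m := fun h => hcon (Or.inl h)
  have hvlt : padicValNat r (q + 1) < padicValNat r n := by
    by_contra h
    exact hcon (Or.inr (by omega))
  obtain ⟨v, hvdef⟩ : ∃ v, v = padicValNat r (q + 1) := ⟨_, rfl⟩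
  rw [← hvdef] at hvlt
  have hq := two_le_q hK
  obtain ⟨ζ₀, hζ₀⟩ := exists_primitive hK
  have hdv : r ^ v ∣ q + 1 := by
    rw [hvdef]
    exact pow_padicValNat_dvd
  obtain ⟨z, hzdef⟩ : ∃ z, z = ζ₀ ^ ((q + 1) / r ^ v) := ⟨_, rfl⟩
  have hzprim : IsPrimitiveRoot z (r ^ v) := by
    rw [hzdef]
    exact hζ₀.pow (Nat.succ_pos q) (Nat.div_mul_cancel hdv).symm
  have hzq : z ^ (q + 1) = 1 := by
    obtain ⟨t, ht⟩ := hdv
    rw [ht, pow_mul, hzprim.pow_eq_one, one_pow]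
  have hz1 : φ z * z = 1 := by
    rw [hφq, ← pow_succ]
    exact hzq
  have hz0 : z ≠ 0 := right_ne_zero_of_mul_eq_one hz1
  have h1 : r ^ (v + 1) ∣ n := by
    rw [padicValNat_dvd_iff_le hn.ne']
    omega
  obtain ⟨k, hk⟩ : ∃ k, n = k * r := by
    obtain ⟨t, ht⟩ := h1
    exact ⟨r ^ v * t, by rw [ht]; ring⟩
  have hzk : z ^ k = 1 := by
    have h2 : r ^ v ∣ k := by
      obtain ⟨t, ht⟩ := h1
      refine ⟨t, ?_⟩
      have h3 : k * r = r ^ v * t * r := by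
        rw [← hk, ht]
        ring
      exact Nat.eq_of_mul_eq_mul_right hr.pos h3
    obtain ⟨t, ht⟩ := h2
    rw [ht, pow_mul, hzprim.pow_eq_one, one_pow]
  have hroot' : ∀ b : K, b ^ r ≠ z := by
    intro b hb
    have hbφ := norm_one_of_root hK φ hφq r hr hr2 hrq z b hz1 hb
    have hbq : b ^ (q + 1) = 1 := by
      rw [pow_succ, ← hφq]
      exact hbφ
    have h4 : z ^ ((q + 1) / r) = 1 := by
      rw [← hb, ← pow_mul, Nat.mul_div_cancel' hrq]
      exact hbq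
    have h5 := hzprim.dvd_of_pow_eq_one _ h4
    have h6 : r ^ (v + 1) ∣ q + 1 := by
      obtain ⟨t, ht⟩ := h5
      refine ⟨t, ?_⟩
      have h7 : q + 1 = r * ((q + 1) / r) := (Nat.mul_div_cancel' hrq).symm
      rw [h7, ht]
      ring
    have h7 : v + 1 ≤ padicValNat r (q + 1) :=
      (padicValNat_dvd_iff_le (Nat.succ_ne_zero q)).mp h6
    rw [← hvdef] at h7
    omega
  have hQirr : Irreducible (X ^ r - C z) := X_pow_sub_C_irreducible_of_prime hr hroot'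
  have hQm : (X ^ r - C z).Monic := monic_X_pow_sub_C z hr.ne_zero
  have hQs : rstar φ (X ^ r - C z) = X ^ r - C z := rstar_X_pow_sub_C_fix φ r hr.pos z hz1
  obtain ⟨χ, hχdef⟩ : ∃ χ : K[X], χ = (X ^ r - C z) ^ k := ⟨_, rfl⟩
  have hχm : χ.Monic := by
    rw [hχdef]
    exact hQm.pow k
  have hχd : χ.natDegree = n := by
    rw [hχdef, hQm.natDegree_pow, natDegree_X_pow_sub_C, hk]
  have hχs : rstar φ χ = χ := by rw [hχdef, rstar_pow, hQs]
  have hχc : χ.coeff 0 = (-z) ^ k := by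
    rw [hχdef, coeff0_pow, coeff_sub, coeff_X_pow, coeff_C_zero, if_neg hr.ne_zero.symm,
      zero_sub]
  have hχ0 : χ.coeff 0 ≠ 0 := by
    rw [hχc]
    exact pow_ne_zero k (neg_ne_zero.mpr hz0)
  have hfacχ : ∀ P : K[X], Irreducible P → P.Monic → P ∣ χ → P ∣ X ^ r - C z := by
    intro P hPirr _ hPdvd
    rw [hχdef] at hPdvd
    exact hPirr.prime.dvd_of_dvd_pow hPdvd
  obtain ⟨U, hU1, hU2, hU3⟩ := exists_elt hK hp φ hφ l hl χ hχm hχd hχ0 hχs r z hz0 hfacχ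
  have hrodd : Odd r := hr.odd_of_ne_two hr2
  have hUdet : U.det = 1 := by
    rw [det_eq U, hU2, hχc, hk, mul_comm k r, pow_mul, hrodd.neg_one_pow, ← mul_pow,
      neg_mul_neg, mul_one, hzk]
  have hUns : ∀ w : K, U ≠ w • (1 : Matrix (Fin n) (Fin n) K) := by
    intro w hw
    have h3 := hU3
    rw [hw, _root_.smul_pow, one_pow] at h3
    have h4 := congrFun (congrFun h3 ⟨0, hn⟩) ⟨0, hn⟩
    rw [Matrix.smul_apply, Matrix.smul_apply, Matrix.one_apply_eq, smul_eq_mul, smul_eq_mul,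
      mul_one, mul_one] at h4
    exact hroot' w h4
  have hfix := H U hU1 hUdet ⟨z, hU3⟩ hUns
  rw [fix_iff hK φ hφ l hl hn U hU1 r hr hrp z hU3 m, hU2] at hfix
  obtain ⟨D, hDm, hDd, hDs, hDdvd⟩ := hfix
  have hD0 : D.coeff 0 ≠ 0 := coeff0_of_dvd hDdvd hχ0
  have hat : ∀ P : K[X], Irreducible P → P.Monic → P ∣ D →
      (rstar φ P = P ∧ P.natDegree = r) ∨ (rstar φ P ≠ P ∧ 2 * P.natDegree = r) := by
    intro P hPirr hPm hPdvd
    left
    rw [eq_of_dvd_irr P _ hPirr hPm hQirr hQm (hfacχ P hPirr hPm (hPdvd.trans hDdvd))]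
    exact ⟨hQs, natDegree_X_pow_sub_C⟩
  obtain ⟨j, hj, -⟩ := chain φ hφ r m D hDm hDs hD0 hDd hat
  exact hrm ⟨j, by rw [hj, mul_comm]⟩

end odd

end Cfsg.Agent.Lib.Helper40.HSemi2
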