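import Mathlib
import Cfsg.Agent.Lib.Helper40.HGeo
import Cfsg.Agent.Lib.Helper40.SURegUnip
import Cfsg.Agent.Lib.Helper95.JAsm
import Cfsg.Agent.S5959

set_option autoImplicit false

namespace Cfsg.Agent.Lib.Helper40.HType

open Module Matrix Cfsg.Agent.Lib.Helper95.NilJordan Cfsg.Agent.Lib.Helper95.JType
  Cfsg.Agent.Lib.Helper95.JAsm Cfsg.Agent.Lib.Helper40.UnitDet Cfsg.Agent.Lib.Helper40.HermAdj
  Cfsg.Agent.Lib.Helper40.HGeo

universe u

section good
variable {K : Type u} [Field K]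

/-- Realisable rank sequences of unipotent isometries of nondegenerate Hermitian forms. -/
def GoodH (φ : K →+* K) (ρ : ℕ → ℕ) : Prop :=
  ∃ (V : Type u) (_ : AddCommGroup V) (_ : Module K V) (_ : FiniteDimensional K V)
    (B : V → V → K) (g : Module.End K V),
    (∀ u v w, B u (v + w) = B u v + B u w) ∧ (∀ (a : K) u v, B u (a • v) = a * B u v) ∧
    (∀ u v, B v u = φ (B u v)) ∧ (∀ u, (∀ v, B u v = 0) → u = 0) ∧
    (∀ x y, B (g x) (g y) = B x y) ∧ IsNilpotent (g - 1) ∧ ∀ i, rk (g - 1) i = ρ i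

theorem goodH_zero (φ : K →+* K) : GoodH φ (fun _ => 0) := by
  refine ⟨PUnit, inferInstance, inferInstance, inferInstance, fun _ _ => 0, 1,
    ?_, ?_, ?_, ?_, ?_, ?_, ?_⟩
  · intro u v w
    simp
  · intro a u v
    simp
  · intro u v
    simp
  · intro u _
    exact Subsingleton.elim _ _
  · intro x y
    rfl
  · exact ⟨1, by simp⟩
  · intro i
    rw [rk]
    exact Module.finrank_zero_of_subsingleton

theorem goodH_add (φ : K →+* K) (ρ ρ' : ℕ → ℕ) (h : GoodH φ ρ) (h' : GoodH φ ρ') :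
    GoodH φ (fun i => ρ i + ρ' i) := by
  obtain ⟨V, _, _, _, B, g, hB1, hB2, hB3, hB4, hB5, hB6, hB7⟩ := h
  obtain ⟨V', _, _, _, B', g', hB1', hB2', hB3', hB4', hB5', hB6', hB7'⟩ := h'
  have hz : ∀ u, B u 0 = 0 := fun u => by
    have h0 := hB2 0 u 0
    simpa using h0
  have hz' : ∀ u, B' u 0 = 0 := fun u => by
    have h0 := hB2' 0 u 0
    simpa using h0
  refine ⟨V × V', inferInstance, inferInstance, inferInstance,
    fun a b => B a.1 b.1 + B' a.2 b.2, g.prodMap g', ?_, ?_, ?_, ?_, ?_, ?_, ?_⟩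
  · intro u v w
    show B u.1 (v + w).1 + B' u.2 (v + w).2 = (B u.1 v.1 + B' u.2 v.2) + (B u.1 w.1 + B' u.2 w.2)
    rw [Prod.fst_add, Prod.snd_add, hB1, hB1']
    ring
  · intro a u v
    show B u.1 (a • v).1 + B' u.2 (a • v).2 = a * (B u.1 v.1 + B' u.2 v.2)
    rw [Prod.smul_fst, Prod.smul_snd, hB2, hB2']
    ring
  · intro u v
    show B v.1 u.1 + B' v.2 u.2 = φ (B u.1 v.1 + B' u.2 v.2)
    rw [map_add, ← hB3, ← hB3']
  · rintro ⟨x, x'⟩ hx
    have h1 : x = 0 := by
      apply hB4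
      intro y
      have h0 : B x y + B' x' 0 = 0 := hx (y, 0)
      rw [hz', add_zero] at h0
      exact h0
    have h2 : x' = 0 := by
      apply hB4'
      intro y
      have h0 : B x 0 + B' x' y = 0 := hx (0, y)
      rw [hz, zero_add] at h0
      exact h0
    rw [h1, h2]
    rfl
  · rintro ⟨x, x'⟩ ⟨y, y'⟩
    show B (g x) (g y) + B' (g' x') (g' y') = B x y + B' x' y'
    rw [hB5, hB5']
  · rw [prodMap_sub_one]
    exact isNilpotent_prodMap _ _ hB6 hB6'
  · intro i
    rw [prodMap_sub_one, rk_prodMap, hB7, hB7']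

theorem goodH_single [Finite K] (φ : K →+* K) (hφ : ∀ x, φ (φ x) = x) (l : K) (hl : φ l ≠ l)
    (j : ℕ) (hj : 0 < j) : GoodH φ (fun i => j - i) := by
  classical
  obtain ⟨U, hU1, hU2, hU3⟩ := Cfsg.Agent.Lib.Helper40.SURegUnip.exists_RU φ hφ l hl hj
  have hsub : Matrix.toLin' U - 1 = Matrix.toLin' (U - 1) := by
    rw [map_sub, Matrix.toLin'_one]
    rfl
  have hnil : IsNilpotent (Matrix.toLin' (U - 1)) := isNilpotent_toLin' _ ⟨j, hU2⟩
  refine ⟨Fin j → K, inferInstance, inferInstance, inferInstance,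
    fun u v => hB φ v u, Matrix.toLin' U, ?_, ?_, ?_, ?_, ?_, ?_, ?_⟩
  · intro u v w
    exact hB_add_left φ v w u
  · intro a u v
    exact hB_smul_left φ a v u
  · intro u v
    exact hB_symm φ hφ v u
  · intro u hu
    apply hB_nondeg φ hφ
    intro v
    exact (hB_eq_zero_comm φ hφ v u).mp (hu v)
  · intro x y
    show hB φ (Matrix.toLin' U y) (Matrix.toLin' U x) = hB φ y x
    rw [Matrix.toLin'_apply, Matrix.toLin'_apply]
    exact hB_isom φ hφ U hU1 y x
  · rw [hsub]
    exact hnil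
  · intro i
    rw [hsub]
    have hfin : finrank K (Fin j → K) = j := by simp
    have h1 : rk (Matrix.toLin' (U - 1)) 1 = j - 1 := by rw [rk_toLin', pow_one, hU3]
    have hrn := LinearMap.finrank_range_add_finrank_ker (Matrix.toLin' (U - 1))
    have hker : finrank K (LinearMap.ker (Matrix.toLin' (U - 1))) = 1 := by
      rw [rk, pow_one] at h1
      rw [h1, hfin] at hrn
      omega
    rw [rk_of_ker_one _ hnil hker i, hfin]

theorem goodH_of_type [Finite K] (φ : K →+* K) (hφ : ∀ x, φ (φ x) = x) (l : K) (hl : φ l ≠ l)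
    {κ : Type*} [Fintype κ] [DecidableEq κ] (d : κ → ℕ) (hd : ∀ k, 0 < d k) :
    GoodH φ (fun i => ∑ k, (d k - i)) := by
  refine assemble (GoodH φ) (fun _ => True) (goodH_zero φ) (goodH_add φ) ?_
    (fun j hj _ => goodH_single φ hφ l hl j hj) d Finset.univ (fun k _ => hd k)
    (fun j hj => absurd trivial hj)
  intro j hj
  have h := goodH_add φ _ _ (goodH_single φ hφ l hl j hj) (goodH_single φ hφ l hl j hj)
  have e : (fun i => 2 * (j - i)) = (fun i => (j - i) + (j - i)) := by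
    funext i
    ring
  rw [e]
  exact h

theorem exists_index (μ : Multiset ℕ) :
    ∃ (t : ℕ) (d : Fin t → ℕ), Multiset.map d Finset.univ.val = μ := by
  refine ⟨μ.toList.length, fun i => μ.toList.get i, ?_⟩
  rw [Fin.univ_val_map, List.ofFn_get, Multiset.coe_toList]

/-- Unipotent unitary matrices of prescribed Jordan type. -/
theorem exists_unip [Finite K] (φ : K →+* K) (hφ : ∀ x, φ (φ x) = x) (l : K) (hl : φ l ≠ l)
    (n : ℕ) (μ : Multiset ℕ) (hpos : ∀ b ∈ μ, 0 < b) (hsum : μ.sum = n) :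
    ∃ A : Matrix (Fin n) (Fin n) K, adj φ A * A = 1 ∧ IsNilpotent (A - 1) ∧
      ∀ i, ((A - 1) ^ i).rank = (μ.map (fun b => b - i)).sum := by
  classical
  obtain ⟨t, dd, hd⟩ := exists_index μ
  have hdpos : ∀ k, 0 < dd k := fun k => hpos _ (by
    rw [← hd]
    exact Multiset.mem_map_of_mem dd (Finset.mem_univ_val k))
  have hsumi : ∀ i, ∑ k, (dd k - i) = (μ.map (fun b => b - i)).sum := by
    intro i
    rw [← hd, Multiset.map_map]
    rfl
  obtain ⟨V, _, _, _, B, g, hB1, hB2, hB3, hB4, hB5, hB6, hB7⟩ :=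
    goodH_of_type φ hφ l hl dd hdpos
  have hB7' : ∀ i, rk (g - 1) i = ∑ k, (dd k - i) := hB7
  have hdim : finrank K V = n := by
    have h0 := hB7' 0
    rw [rk, pow_zero] at h0
    have h1 : LinearMap.range (1 : Module.End K V) = ⊤ := LinearMap.range_id
    rw [h1, finrank_top] at h0
    rw [h0, hsumi 0, ← hsum]
    simp
  obtain ⟨b, hb⟩ := Cfsg.Agent.Lib.Helper40.HermDiag.exists_orthonormal φ hφ l hl n V B
    hB1 hB2 hB3 hB4 hdim
  have hz : ∀ u, B u 0 = 0 := fun u => by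
    have h0 := hB2 0 u 0
    simpa using h0
  have hsumR : ∀ (s : Finset (Fin n)) (f : Fin n → V) (u : V),
      B u (∑ i ∈ s, f i) = ∑ i ∈ s, B u (f i) := by
    intro s f u
    induction s using Finset.induction_on with
    | empty => simp [hz]
    | insert a s ha ih => rw [Finset.sum_insert ha, Finset.sum_insert ha, hB1, ih]
  have hcoef : ∀ (e : Fin n → V), (∀ i j, B (e i) (e j) = if i = j then 1 else 0) →
      ∀ (c : Fin n → K) (j : Fin n), B (e j) (∑ i, c i • e i) = c j := by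
    intro e he c j
    rw [hsumR, Finset.sum_eq_single j]
    · rw [hB2, he j j, if_pos rfl, mul_one]
    · intro i _ hij
      rw [hB2, he j i, if_neg (Ne.symm hij), mul_zero]
    · intro h
      exact absurd (Finset.mem_univ _) h
  have hli : LinearIndependent K b := by
    rw [Fintype.linearIndependent_iff]
    intro c hc j
    have h1 := hcoef b hb c j
    rw [hc, hz] at h1
    exact h1.symm
  have hspan : Submodule.span K (Set.range b) = ⊤ :=
    hli.span_eq_top_of_card_eq_finrank' (by rw [Fintype.card_fin, hdim])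
  obtain ⟨bb, hbb⟩ : ∃ bb : Basis (Fin n) K V, ∀ i, bb i = b i :=
    ⟨Basis.mk hli (by rw [hspan]), fun i => by simp⟩
  have hbb' : ∀ i j, B (bb i) (bb j) = if i = j then 1 else 0 := by
    intro i j
    rw [hbb, hbb]
    exact hb i j
  obtain ⟨A, hA⟩ : ∃ A, A = LinearMap.toMatrix bb bb g := ⟨_, rfl⟩
  have hgb : ∀ j, g (bb j) = ∑ i, A i j • bb i := by
    intro j
    rw [hA]
    simp only [LinearMap.toMatrix_apply]
    exact (bb.sum_repr (g (bb j))).symm
  refine ⟨A, ?_, ?_, ?_⟩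
  · ext j l'
    rw [Matrix.mul_apply]
    simp only [adj_apply]
    have h1 : B (g (bb j)) (g (bb l')) = ∑ k, φ (A k j) * A k l' := by
      rw [hgb l', hsumR]
      apply Finset.sum_congr rfl
      intro k _
      rw [hB2, hB3 (bb k) (g (bb j)), hgb j, hcoef (fun i => bb i) hbb']
      ring
    rw [← h1, hB5, hbb', Matrix.one_apply]
  · rw [hA]
    exact isNilpotent_toMatrix bb g hB6
  · intro i
    rw [hA, rank_toMatrix_pow bb g i, hB7', hsumi]

/-- The Jordan type of a unipotent unitary matrix on an invariant nondegenerate subspace. -/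
theorem restrict_type [Finite K] (φ : K →+* K) (hφ : ∀ x, φ (φ x) = x) (l : K) (hl : φ l ≠ l)
    {n : ℕ} (A : Matrix (Fin n) (Fin n) K) (hA : adj φ A * A = 1) (hnil : IsNilpotent (A - 1))
    (μ : Multiset ℕ) (hpos : ∀ b ∈ μ, 0 < b)
    (hrank : ∀ i, ((A - 1) ^ i).rank = (μ.map (fun b => b - i)).sum)
    (W : Submodule K (Fin n → K)) (hW : ND φ W) (hWx : W.map (Matrix.toLin' A) ≤ W) :
    ∃ ν : Multiset ℕ, ν ≤ μ ∧ ν.sum = finrank K W := by
  classical
  obtain ⟨X, hX⟩ : ∃ X : Module.End K (Fin n → K), X = Matrix.toLin' A := ⟨_, rfl⟩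
  obtain ⟨N, hN⟩ : ∃ N : Module.End K (Fin n → K), N = X - 1 := ⟨_, rfl⟩
  have hNmat : N = Matrix.toLin' (A - 1) := by
    rw [hN, hX, map_sub, Matrix.toLin'_one]
    rfl
  have hNnil : IsNilpotent N := by
    obtain ⟨c, hc⟩ := hnil
    exact ⟨c, by rw [hNmat, ← Matrix.toLin'_pow, hc, map_zero]⟩
  have hiso : ∀ u v, hB φ (X u) (X v) = hB φ u v := by
    intro u v
    rw [hX, Matrix.toLin'_apply, Matrix.toLin'_apply]
    exact hB_isom φ hφ A hA u v
  have hXW : ∀ w ∈ W, X w ∈ W := fun w hw => hWx (by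
    rw [hX]
    exact Submodule.mem_map_of_mem hw)
  have hXWp := perp_invt φ X hφ hiso W hXW
  have hinf : W ⊓ perp φ W = ⊥ := inf_perp_eq_bot φ hφ W hW
  have hsup : W ⊔ perp φ W = ⊤ := by
    have h1 := sup_inf_perp φ hφ l hl W ⊤ hW le_top
    rwa [top_inf_eq] at h1
  have hNapp : ∀ w, N w = X w - w := fun w => by
    rw [hN]
    rfl
  have hNW : ∀ w ∈ W, N w ∈ W := fun w hw => by
    rw [hNapp]
    exact W.sub_mem (hXW w hw) hw
  have hNWp : ∀ w ∈ perp φ W, N w ∈ perp φ W := fun w hw => by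
    rw [hNapp]
    exact (perp φ W).sub_mem (hXWp w hw) hw
  obtain ⟨c, hc⟩ := hNnil
  have hnilW : IsNilpotent (N.restrict hNW : Module.End K W) := by
    refine ⟨c, ?_⟩
    ext1 y
    apply Subtype.ext
    rw [restrict_pow_apply, hc]
    rfl
  have hnilWp : IsNilpotent (N.restrict hNWp : Module.End K (perp φ W)) := by
    refine ⟨c, ?_⟩
    ext1 y
    apply Subtype.ext
    rw [restrict_pow_apply, hc]
    rfl
  obtain ⟨κ, _, k, v, hkpos, hJ⟩ := exists_jordan _ W (N.restrict hNW) hnilW rfl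
  obtain ⟨κ', _, k', v', hkpos', hJ'⟩ :=
    exists_jordan _ (perp φ W) (N.restrict hNWp) hnilWp rfl
  obtain ⟨t, dd, hd⟩ := exists_index μ
  have hdpos : ∀ j, 0 < dd j := fun j => hpos _ (by
    rw [← hd]
    exact Multiset.mem_map_of_mem dd (Finset.mem_univ_val j))
  have hsums : ∀ m, ∑ i, (dd i - m) = ∑ s : κ ⊕ κ', (Sum.elim k k' s - m) := by
    intro m
    have h1 : ∑ i, (dd i - m) = (μ.map (fun b => b - m)).sum := by
      rw [← hd, Multiset.map_map]
      rfl
    rw [h1, ← hrank m, ← rk_toLin', ← hNmat]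
    show finrank K (LinearMap.range (N ^ m)) = _
    rw [Cfsg.Agent.S5959.finrank_range_pow_add N W (perp φ W) hNW hNWp hinf hsup m,
      hJ.finrank_range_pow m, hJ'.finrank_range_pow m, Fintype.sum_sum_type]
    simp
  have heq := multiset_eq_of_sums dd (Sum.elim k k') hdpos
    (by rintro (i | i); exacts [hkpos i, hkpos' i]) hsums
  have hsplit : Multiset.map (Sum.elim k k') (Finset.univ : Finset (κ ⊕ κ')).val =
      Multiset.map k Finset.univ.val + Multiset.map k' Finset.univ.val := by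
    rw [← Finset.univ_disjSum_univ]
    simp [Finset.disjSum, Multiset.disjSum, Multiset.map_map]
  have hfW : finrank K W = ∑ i, k i := by
    have h0 := hJ.finrank_range_pow 0
    rw [pow_zero] at h0
    have h1 : LinearMap.range (1 : Module.End K W) = ⊤ := LinearMap.range_id
    rw [h1, finrank_top] at h0
    rw [h0]
    simp
  refine ⟨Multiset.map k Finset.univ.val, ?_, ?_⟩
  · rw [← hd, heq, hsplit]
    exact Multiset.le_add_right _ _
  · rw [hfW]
    rfl

theorem eq_zero_of_rank_zero {ι : Type*} [Fintype ι] [DecidableEq ι] (M : Matrix ι ι K)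
    (h : M.rank = 0) : M = 0 := by
  rw [Matrix.rank] at h
  have h1 : LinearMap.range M.mulVecLin = ⊥ := Submodule.finrank_eq_zero.mp h
  have h2 : M.mulVecLin = 0 := LinearMap.range_eq_bot.mp h1
  ext i j
  have := congrFun (congrArg (fun f => f (Pi.single j 1)) h2) i
  simpa using this

/-- Sufficiency: a unipotent unitary matrix fixes a nondegenerate `m`-space whenever every
partition into parts of size at most `e` contains a partition of `m`. -/
theorem unip_fix [Finite K] (φ : K →+* K) (hφ : ∀ x, φ (φ x) = x) (l : K) (hl : φ l ≠ l)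
    {n : ℕ} (e m : ℕ)
    (hcond : ∀ μ : Multiset ℕ, (∀ a ∈ μ, 0 < a ∧ a ≤ e) → μ.sum = n →
      ∃ ν : Multiset ℕ, ν ≤ μ ∧ ν.sum = m)
    (A : Matrix (Fin n) (Fin n) K) (hA : adj φ A * A = 1) (hAe : (A - 1) ^ e = 0) :
    ∃ W : Submodule K (Fin n → K), finrank K W = m ∧ ND φ W ∧ W.map (Matrix.toLin' A) ≤ W := by
  obtain ⟨X, hX⟩ : ∃ X : Module.End K (Fin n → K), X = Matrix.toLin' A := ⟨_, rfl⟩
  have hiso : ∀ u v, hB φ (X u) (X v) = hB φ u v := by
    intro u v
    rw [hX, Matrix.toLin'_apply, Matrix.toLin'_apply]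
    exact hB_isom φ hφ A hA u v
  have hXe : (X - 1) ^ e = 0 := by
    have h1 : X - 1 = Matrix.toLin' (A - 1) := by
      rw [hX, map_sub, Matrix.toLin'_one]
      rfl
    rw [h1, ← Matrix.toLin'_pow, hAe, map_zero]
  obtain ⟨μ, hμ1, hμ2, hμ3⟩ := decomp φ X hφ l hl hiso (fun a => a ≤ e)
    (fun U hU hUx hbot => peel_unip φ X hφ l hl hiso e hXe U hU hUx hbot) n ⊤ (nd_top φ hφ)
    (fun u _ => Submodule.mem_top) (by simp)
  obtain ⟨ν, hν1, hν2⟩ := hcond μ hμ1 hμ2
  obtain ⟨W, -, hW1, hW2, hW3⟩ := hμ3 ν hν1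
  refine ⟨W, by rw [hW3, hν2], hW1, ?_⟩
  rintro _ ⟨w, hw, rfl⟩
  rw [← hX]
  exact hW2 w hw

/-- Necessity: if every nontrivial unipotent unitary matrix killed by `(A - 1)^e` fixes a
nondegenerate `m`-space, then every partition into parts of size at most `e` contains a partition
of `m`. -/
theorem unip_core [Finite K] (φ : K →+* K) (hφ : ∀ x, φ (φ x) = x) (l : K) (hl : φ l ≠ l)
    {n : ℕ} (e m : ℕ) (hmn : m ≤ n)
    (H : ∀ A : Matrix (Fin n) (Fin n) K, adj φ A * A = 1 → (A - 1) ^ e = 0 → A ≠ 1 →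
      ∃ W : Submodule K (Fin n → K), finrank K W = m ∧ ND φ W ∧ W.map (Matrix.toLin' A) ≤ W)
    (μ : Multiset ℕ) (hμ : ∀ a ∈ μ, 0 < a ∧ a ≤ e) (hsum : μ.sum = n) :
    ∃ ν : Multiset ℕ, ν ≤ μ ∧ ν.sum = m := by
  classical
  by_cases hall : ∀ a ∈ μ, a = 1
  · have hμ1' : μ = Multiset.replicate (Multiset.card μ) 1 :=
      Multiset.eq_replicate_card.mpr hall
    have hcard : Multiset.card μ = n := by
      have h1 := hsum
      rw [hμ1'] at h1
      simpa using h1
    rw [hcard] at hμ1'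
    refine ⟨Multiset.replicate m 1, ?_, by simp⟩
    rw [hμ1']
    exact (Multiset.replicate_le_replicate 1).mpr hmn
  · push Not at hall
    obtain ⟨a₀, ha₀, ha₀1⟩ := hall
    obtain ⟨A, hA1, hA2, hA3⟩ := exists_unip φ hφ l hl n μ (fun b hb => (hμ b hb).1) hsum
    have hAe : (A - 1) ^ e = 0 := by
      apply eq_zero_of_rank_zero
      rw [hA3]
      apply Multiset.sum_eq_zero
      intro y hy
      obtain ⟨b, hb, rfl⟩ := Multiset.mem_map.mp hy
      have := (hμ b hb).2
      omega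
    have hne : A ≠ 1 := by
      intro h1
      have h5 := hA3 1
      rw [h1, sub_self, pow_one, Matrix.rank_zero] at h5
      have h6 := (Multiset.sum_eq_zero_iff.mp h5.symm) (a₀ - 1) (Multiset.mem_map_of_mem _ ha₀)
      have := (hμ a₀ ha₀).1
      omega
    obtain ⟨W, hW1, hW2, hW3⟩ := H A hA1 hAe hne
    obtain ⟨ν, hν1, hν2⟩ := restrict_type φ hφ l hl A hA1 hA2 μ (fun b hb => (hμ b hb).1) hA3
      W hW2 hW3
    exact ⟨ν, hν1, by rw [hν2, hW1]⟩

end good

end Cfsg.Agent.Lib.Helper40.HType
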