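import Mathlib
import Cfsg.Agent.Lib.Helper40.HSemi2
import Cfsg.Agent.Lib.Helper40.HType

set_option autoImplicit false

namespace Cfsg.Agent.Lib.Helper40.HMain

open Module Polynomial UniqueFactorizationMonoid Matrix Cfsg.Agent.Lib.Helper40.UnitDet
  Cfsg.Agent.Lib.Helper40.HermAdj Cfsg.Agent.Lib.Helper40.HGeo Cfsg.Agent.Lib.Helper40.RecipPoly
  Cfsg.Agent.Lib.Helper40.GUReal Cfsg.Agent.Lib.Helper40.HCrit Cfsg.Agent.Lib.Helper40.HPoly
  Cfsg.Agent.Lib.Helper40.SURegUnip Cfsg.Agent.Lib.Helper40.SUCount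
  Cfsg.Agent.Lib.Helper40.HSemi Cfsg.Agent.Lib.Helper40.HCount Cfsg.Agent.Lib.Helper40.HSemi2
  Cfsg.Agent.Lib.Helper40.HType

universe u

theorem two_comb (n m : ℕ) (hmn : m ≤ n) (h : Odd n ∨ Even m) (μ : Multiset ℕ)
    (hμ : ∀ a ∈ μ, 0 < a ∧ a ≤ 2) (hsum : μ.sum = n) :
    ∃ ν : Multiset ℕ, ν ≤ μ ∧ ν.sum = m := by
  classical
  obtain ⟨a, ha⟩ : ∃ a, a = Multiset.count 1 μ := ⟨_, rfl⟩
  obtain ⟨b, hb⟩ : ∃ b, b = Multiset.count 2 μ := ⟨_, rfl⟩
  have hμeq : μ = Multiset.replicate a 1 + Multiset.replicate b 2 := by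
    ext x
    rw [Multiset.count_add, Multiset.count_replicate, Multiset.count_replicate]
    by_cases hx : x ∈ μ
    · have h1 := hμ x hx
      have hx12 : x = 1 ∨ x = 2 := by omega
      rcases hx12 with rfl | rfl
      · simp [ha]
      · simp [hb]
    · have h0 := Multiset.count_eq_zero_of_notMem hx
      rw [h0]
      split_ifs with h1 h2 h2
      · omega
      · subst h1
        omega
      · subst h2
        omega
      · rfl
  have hn : n = a + 2 * b := by
    have h1 := hsum
    rw [hμeq, Multiset.sum_add, Multiset.sum_replicate, Multiset.sum_replicate, smul_eq_mul,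
      smul_eq_mul] at h1
    omega
  have hpar : m % 2 = 1 → 1 ≤ a := by
    intro hm1
    rcases h with h | h
    · have := Nat.odd_iff.mp h
      omega
    · have := Nat.even_iff.mp h
      omega
  by_cases hmb : m / 2 ≤ b
  · refine ⟨Multiset.replicate (m % 2) 1 + Multiset.replicate (m / 2) 2, ?_, ?_⟩
    · rw [hμeq]
      refine add_le_add ((Multiset.replicate_le_replicate 1).mpr ?_)
        ((Multiset.replicate_le_replicate 2).mpr hmb)
      have := Nat.mod_lt m (by norm_num : 0 < 2)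
      by_cases hm1 : m % 2 = 1
      · have := hpar hm1
        omega
      · omega
    · rw [Multiset.sum_add, Multiset.sum_replicate, Multiset.sum_replicate, smul_eq_mul,
        smul_eq_mul]
      omega
  · refine ⟨Multiset.replicate (m - 2 * b) 1 + Multiset.replicate b 2, ?_, ?_⟩
    · rw [hμeq]
      exact add_le_add ((Multiset.replicate_le_replicate 1).mpr (by omega)) le_rfl
    · rw [Multiset.sum_add, Multiset.sum_replicate, Multiset.sum_replicate, smul_eq_mul,
        smul_eq_mul]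
      omega

section unip
variable {K : Type u} [Field K] [Fintype K] [DecidableEq K] {p q : ℕ} [Fact p.Prime] [CharP K p]

omit [Fintype K] in
theorem sub_one_pow_p {n : ℕ} (hn : 0 < n) (A : Matrix (Fin n) (Fin n) K) :
    (A - 1) ^ p = A ^ p - 1 := by
  haveI : Nonempty (Fin n) := ⟨⟨0, hn⟩⟩
  have h := sub_pow_char_of_commute p (Commute.one_right A)
  rwa [one_pow] at h

theorem p_suff (φ : K →+* K) (hφ : ∀ x, φ (φ x) = x) (l : K) (hl : φ l ≠ l) {n : ℕ}
    (hn : 0 < n) (m : ℕ)
    (hcond : ∀ μ : Multiset ℕ, (∀ a ∈ μ, 0 < a ∧ a ≤ p) → μ.sum = n →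
      ∃ ν : Multiset ℕ, ν ≤ μ ∧ ν.sum = m)
    (A : Matrix (Fin n) (Fin n) K) (hA : adj φ A * A = 1) (z : K)
    (hAz : A ^ p = z • (1 : Matrix (Fin n) (Fin n) K)) : Fix φ A m := by
  have hz := scalar_unit φ hn A hA p z hAz
  obtain ⟨lam, hlam⟩ : ∃ lam : K, lam ^ p = z := by
    have hsurj : Function.Surjective (frobenius K p) :=
      Finite.injective_iff_surjective.mp (frobenius_inj K p)
    obtain ⟨lam, hlam⟩ := hsurj z
    exact ⟨lam, hlam⟩
  have hlamφ : φ lam * lam = 1 := by
    apply frobenius_inj K p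
    rw [frobenius_def, frobenius_def, one_pow, mul_pow, ← map_pow, hlam]
    exact hz
  have hlam0 : lam ≠ 0 := right_ne_zero_of_mul_eq_one hlamφ
  obtain ⟨y, hy⟩ : ∃ y, y = lam⁻¹ • A := ⟨_, rfl⟩
  have hyu : adj φ y * y = 1 := by
    rw [hy]
    exact unit_scale φ lam hlamφ A hA
  have hyp : y ^ p = 1 := by
    rw [hy, _root_.smul_pow, hAz, smul_smul, ← hlam, inv_pow,
      inv_mul_cancel₀ (pow_ne_zero p hlam0), one_smul]
  have hye : (y - 1) ^ p = 0 := by
    rw [sub_one_pow_p hn, hyp, sub_self]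
  have hfix : Fix φ y m := unip_fix φ hφ l hl p m hcond y hyu hye
  have h := fix_smul φ y m lam hfix
  rwa [hy, smul_smul, mul_inv_cancel₀ hlam0, one_smul] at h

theorem p_nec (φ : K →+* K) (hφ : ∀ x, φ (φ x) = x) (l : K) (hl : φ l ≠ l) {n : ℕ}
    (hn : 0 < n) (m : ℕ) (hmn : m ≤ n)
    (H : ∀ A : Matrix (Fin n) (Fin n) K, adj φ A * A = 1 → A.det = 1 →
      (∃ z : K, A ^ p = z • (1 : Matrix (Fin n) (Fin n) K)) →
      (∀ z : K, A ≠ z • (1 : Matrix (Fin n) (Fin n) K)) → Fix φ A m)
    (μ : Multiset ℕ) (hμ : ∀ a ∈ μ, 0 < a ∧ a ≤ p) (hsum : μ.sum = n) :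
    ∃ ν : Multiset ℕ, ν ≤ μ ∧ ν.sum = m := by
  apply unip_core φ hφ l hl p m hmn _ μ hμ hsum
  intro A hA hAe hA1
  have hAp : A ^ p = 1 := by
    have h := sub_one_pow_p (p := p) hn A
    rw [hAe] at h
    exact sub_eq_zero.mp h.symm
  apply H A hA ?_ ⟨1, by rw [hAp, one_smul]⟩ ?_
  · apply frobenius_inj K p
    rw [frobenius_def, frobenius_def, one_pow, ← Matrix.det_pow, hAp, Matrix.det_one]
  · intro w hw
    have h3 := hAp
    rw [hw, _root_.smul_pow, one_pow] at h3
    have h4 := congrFun (congrFun h3 ⟨0, hn⟩) ⟨0, hn⟩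
    rw [Matrix.smul_apply, Matrix.one_apply_eq, smul_eq_mul, mul_one] at h4
    have h5 : w = 1 := by
      apply frobenius_inj K p
      rw [frobenius_def, frobenius_def, one_pow]
      exact h4
    rw [h5, one_smul] at hw
    exact hA1 hw

/-- The matrix form of the elusivity criterion for nondegenerate `m`-spaces of the unitary
group. -/
theorem main (hK : Fintype.card K = q ^ 2) (φ : K →+* K) (hφq : ∀ x, φ x = x ^ q)
    (hφ : ∀ x, φ (φ x) = x) (l : K) (hl : φ l ≠ l) (n m : ℕ) (hn : 3 ≤ n) (hmn : 2 * m < n)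
    (r : ℕ) [Fact r.Prime] (hrΩ : ∃ j < m, r ∣ Acnt q (n - j))
    (i c : ℕ) (hi : i = orderOf (q : ZMod r))
    (hc : c = if i % 4 = 0 then i else if i % 4 = 2 then i / 2 else 2 * i) :
    (∀ A : Matrix (Fin n) (Fin n) K, adj φ A * A = 1 → A.det = 1 →
      (∃ z : K, A ^ r = z • (1 : Matrix (Fin n) (Fin n) K)) →
      (∀ z : K, A ≠ z • (1 : Matrix (Fin n) (Fin n) K)) → Fix φ A m) ↔
    ((r = p ∧ 2 < p ∧ (∀ μ : Multiset ℕ, (∀ a ∈ μ, 0 < a ∧ a ≤ p) → μ.sum = n →
        ∃ ν : Multiset ℕ, ν ≤ μ ∧ ν.sum = m)) ∨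
     (r = p ∧ p = 2 ∧ (Odd n ∨ Even m)) ∨
     (r = 2 ∧ p ≠ 2 ∧
        (Odd n ∨ Even m ∨ (padicValNat 2 n ≤ padicValNat 2 (q + 1) ∧ q % 4 = 3))) ∨
     (r ≠ p ∧ 2 < r ∧ ((i ≠ 2 ∧ c ≤ m ∧ m % c ≤ n % c) ∨
        (i = 2 ∧ (r ∣ m ∨ padicValNat r n ≤ padicValNat r (q + 1)))))) := by
  have hp : p.Prime := Fact.out
  have hr : r.Prime := Fact.out
  have hn0 : 0 < n := by omega
  have hmn' : m ≤ n := by omega
  have hq := two_le_q hK
  by_cases hrp : r = p
  · by_cases hp2 : p = 2
    · constructor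
      · intro H
        right
        left
        refine ⟨hrp, hp2, ?_⟩
        by_contra hcon
        have hn1 : ¬ Odd n := fun h => hcon (Or.inl h)
        have hm1 : ¬ Even m := fun h => hcon (Or.inr h)
        rw [hrp] at H
        obtain ⟨ν, hν1, hν2⟩ := p_nec φ hφ l hl hn0 m hmn' H (Multiset.replicate (n / 2) 2)
          (by
            intro a ha
            rw [Multiset.eq_of_mem_replicate ha, hp2]
            omega)
          (by
            rw [Multiset.sum_replicate, smul_eq_mul]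
            obtain ⟨k, hk⟩ := Nat.not_odd_iff_even.mp hn1
            omega)
        obtain ⟨k, -, hk⟩ := Multiset.le_replicate_iff.mp hν1
        rw [hk, Multiset.sum_replicate, smul_eq_mul] at hν2
        exact hm1 ⟨k, by omega⟩
      · rintro (⟨-, h, -⟩ | ⟨-, -, hcond⟩ | ⟨-, h, -⟩ | ⟨h, -⟩)
        · omega
        · intro A hA _ ⟨z, hz⟩ _
          rw [hrp] at hz
          exact p_suff φ hφ l hl hn0 m
            (fun μ hμ hsum => two_comb n m hmn' hcond μ (by rw [← hp2]; exact hμ) hsum) A hA z hz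
        · exact absurd hp2 h
        · exact absurd hrp h
    · constructor
      · intro H
        left
        have h2p : 2 < p := by
          have := hp.two_le
          omega
        rw [hrp] at H
        exact ⟨hrp, h2p, fun μ hμ hsum => p_nec φ hφ l hl hn0 m hmn' H μ hμ hsum⟩
      · rintro (⟨-, -, hcond⟩ | ⟨-, h, -⟩ | ⟨h1, -⟩ | ⟨h, -⟩)
        · intro A hA _ ⟨z, hz⟩ _
          rw [hrp] at hz
          exact p_suff φ hφ l hl hn0 m hcond A hA z hz
        · exact absurd h hp2
        · exact absurd (hrp.symm.trans h1) hp2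
        · exact absurd hrp h
  · by_cases hr2 : r = 2
    · have hp2 : p ≠ 2 := fun h => hrp (hr2.trans h.symm)
      constructor
      · intro H
        right
        right
        left
        rw [hr2] at H
        exact ⟨hr2, hp2, two_nec hK φ hφq hφ l hl hp2 hn0 m H⟩
      · rintro (⟨h, -⟩ | ⟨h, -⟩ | ⟨-, -, hcond⟩ | ⟨-, h, -⟩)
        · exact absurd h hrp
        · exact absurd h hrp
        · intro A hA hdet ⟨z, hz⟩ _
          rw [hr2] at hz
          exact two_suff hK φ hφq hφ l hl hp2 hn0 m hmn' hcond A hA hdet z hz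
        · omega
    · have h2r : 2 < r := by
        have := hr.two_le
        omega
      have hrq : ¬ r ∣ q := by
        intro h
        obtain ⟨f, -, hf⟩ := FiniteField.card K p
        have h1 : r ∣ p ^ (f : ℕ) := by
          rw [← hf, hK]
          exact dvd_pow h two_ne_zero
        exact hrp ((Nat.prime_dvd_prime_iff_eq hr hp).mp (hr.dvd_of_dvd_pow h1))
      by_cases hi2 : i = 2
      · have hrq1 : r ∣ q + 1 := (order_two_iff q r hr hr2).mp (hi.symm.trans hi2)
        constructor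
        · intro H
          right
          right
          right
          exact ⟨hrp, h2r, Or.inr ⟨hi2, odd_two_nec hK φ hφq hφ l hl r hr2 hrp hrq1 hn0 m H⟩⟩
        · rintro (⟨h, -⟩ | ⟨h, -⟩ | ⟨h, -⟩ | ⟨-, -, ⟨h, -⟩ | ⟨-, hcond⟩⟩)
          · exact absurd h hrp
          · exact absurd h hrp
          · exact absurd h hr2
          · exact absurd hi2 h
          · intro A hA hdet ⟨z, hz⟩ _
            exact odd_two_suff hK φ hφq hφ l hl r hr2 hrp hrq1 hn0 m hmn' hcond A hA hdet z hz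
      · have hrq1 : ¬ r ∣ q + 1 := fun h => hi2 (hi.trans ((order_two_iff q r hr hr2).mpr h))
        obtain ⟨hc2, hatom, Q, hQm, hQs, hQd, hQ0, hQ1, hQf, hQns⟩ :=
          atom_facts hK φ hφq hφ r hr hr2 hrp i c hi hi2 hc
        constructor
        · intro H
          right
          right
          right
          refine ⟨hrp, h2r, Or.inl ⟨hi2, ?_⟩⟩
          obtain ⟨j, hj, hdvd⟩ := hrΩ
          have hcd : c ∣ n - j :=
            c_dvd_of_dvd_acnt q r hr hr2 (by omega) hrq i c hi hc (n - j) hdvd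
          have hcn : c ≤ n := by
            have := Nat.le_of_dvd (by omega) hcd
            omega
          have h1 := odd_ne_nec hK φ hφq hφ l hl r hr hrp hrq1 c hc2 hatom Q hQm hQs hQd hQ0
            hQ1 hQf hQns hn0 m hcn H
          have h2 : n % c < m := by
            obtain ⟨s, hs⟩ := hcd
            have h3 : n = j + c * s := by omega
            rw [h3, Nat.add_mul_mod_self_left]
            have := Nat.mod_le j c
            omega
          refine ⟨?_, h1⟩
          by_contra hlt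
          rw [Nat.mod_eq_of_lt (by omega)] at h1
          omega
        · rintro (⟨h, -⟩ | ⟨h, -⟩ | ⟨h, -⟩ | ⟨-, -, ⟨-, -, hcond⟩ | ⟨h, -⟩⟩)
          · exact absurd h hrp
          · exact absurd h hrp
          · exact absurd h hr2
          · intro A hA _ ⟨z, hz⟩ _
            exact odd_ne_suff hK φ hφq hφ l hl r hr hrp hrq1 c hatom hn0 m hmn' hcond A hA z hz
          · exact absurd h hi2

end unip

end Cfsg.Agent.Lib.Helper40.HMain
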