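import Mathlib
import Cfsg.Prelude.Def_Classical
import Cfsg.Prelude.Def_GeometricClasses
import Cfsg.Agent.Lib.Helper37.HypStmt
import Cfsg.Agent.Lib.Helper94.OPStmt
import Cfsg.Agent.Lib.Helper94.OPAsm
import Cfsg.Agent.Lib.Helper40.HPStmt

/-!
# S5974: final assembly from the pieces of `HPStmt` (and four landed pieces of `OPStmt`).
-/

set_option autoImplicit false

universe u

open scoped Matrix

namespace Cfsg.Agent.Lib.Helper40.HPAsm

open Cfsg.Agent.Lib.Helper37.HypStmt (cc)
open Cfsg.Agent.Lib.Helper94.OPStmt (P FxP NDegP StabP NP Scal NegRed NegSqEx NegSqNon3)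
open Cfsg.Agent.Lib.Helper94.OPAsm (two_ne_zero' one_ne_neg_one nonscalar_of_order)
open Cfsg.Agent.Lib.Helper40.HPStmt

/-- NDIVH: `r ∣ #hyperbolic m-spaces` gives `NDivC` (`r` odd, `r ≠ p`). -/
def NDivH : Prop :=
  ∀ (F : Type u) [Field F] [Fintype F] (p : ℕ) [Fact p.Prime] [CharP F p]
    (d m : ℕ), 4 ≤ d → 2 ≤ m → Even m → m < d →
    ∀ (r : ℕ) [Fact r.Prime], r ≠ 2 → r ≠ p →
    r ∣ Nat.card {W : Submodule F (P d → F) // HypJ d F m W} →
    NDivC d m (orderOf ((Fintype.card F : ℕ) : ZMod r))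

theorem ndivH_of (hFib : HypFibJ.{u}) (hCnt : HypCntJ.{u}) (hAr : NdArithJ) : NDivH.{u} := by
  intro F _ _ p _ _ d m hd hm hme hmd r _ hr2 hrp hdiv
  have hrpr : r.Prime := Fact.out
  have hppr : p.Prime := Fact.out
  obtain ⟨h, rfl⟩ := hme.two_dvd
  have hnd : ¬ r ∣ Fintype.card F := by
    obtain ⟨n, -, hn⟩ := FiniteField.card F p
    rw [hn]
    intro h1
    exact hrp ((Nat.prime_dvd_prime_iff_eq hrpr hppr).mp (hrpr.dvd_of_dvd_pow h1))
  have h1 := dvd_trans hdiv (hFib F d h (by omega))
  obtain ⟨t, ht, h2⟩ := hCnt F d h (by omega) r hrpr hnd h1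
  exact hAr (Fintype.card F) d h t r hrpr hr2 hnd ht hmd h2

theorem thm_of (hScal : Scal.{u}) (hNR : NegRed.{u}) (hNE : NegSqEx.{u}) (hN3 : NegSqNon3.{u})
    (hB1 : B1H.{u}) (hB2 : B2H.{u}) (hND : NDivH.{u})
    (hInv : InvolH.{u}) (hF1 : NegSqFix1.{u}) (hF0 : NegSqFix0.{u}) (hNH : NegSqNoHyp.{u})
    (hC2F : C2Fix.{u}) (hC2D : C2Der.{u})
    {F : Type u} [Field F] [Fintype F] {p : ℕ} [Fact p.Prime] [CharP F p]
    (d m : ℕ) (hd : 4 ≤ d) (hm : 2 ≤ m) (hme : Even m) (hmd : m < d)
    (r : ℕ) [Fact r.Prime] (hr : r = 2 ∨ r ≠ p)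
    (hrΩ : r ∣ Nat.card {W : Submodule F (Fin d ⊕ Fin d → F) // (Module.finrank F ↥W = m ∧
      (∀ u ∈ W, u ≠ 0 → ∃ v ∈ W, QuadraticMap.polar (Cfsg.quadFormPlus d F) u v ≠ 0) ∧
      ∃ U : Submodule F (Fin d ⊕ Fin d → F), U ≤ W ∧ 2 * Module.finrank F ↥U = m ∧
        ∀ u ∈ U, Cfsg.quadFormPlus d F u = 0)})
    (i c : ℕ) (hi : i = orderOf ((Fintype.card F : ℕ) : ZMod r))
    (hc : c = if Even i then i else 2 * i) :
    (∀ x : Matrix.GeneralLinearGroup (Fin d ⊕ Fin d) F,
      x ∈ Cfsg.Geo.omegaGL (Cfsg.quadFormPlus d F) →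
      (∃ z : F, ((x ^ r : Matrix.GeneralLinearGroup (Fin d ⊕ Fin d) F) :
        Matrix (Fin d ⊕ Fin d) (Fin d ⊕ Fin d) F) =
          z • (1 : Matrix (Fin d ⊕ Fin d) (Fin d ⊕ Fin d) F)) →
      (∀ z : F, (x : Matrix (Fin d ⊕ Fin d) (Fin d ⊕ Fin d) F) ≠
        z • (1 : Matrix (Fin d ⊕ Fin d) (Fin d ⊕ Fin d) F)) →
      ∃ W : Submodule F (Fin d ⊕ Fin d → F), (Module.finrank F ↥W = m ∧
        (∀ u ∈ W, u ≠ 0 → ∃ v ∈ W, QuadraticMap.polar (Cfsg.quadFormPlus d F) u v ≠ 0) ∧
        ∃ U : Submodule F (Fin d ⊕ Fin d → F), U ≤ W ∧ 2 * Module.finrank F ↥U = m ∧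
          ∀ u ∈ U, Cfsg.quadFormPlus d F u = 0) ∧
        W.map (Matrix.toLin' (x : Matrix (Fin d ⊕ Fin d) (Fin d ⊕ Fin d) F)) ≤ W) ↔
    ((r = 2 ∧ ((2 * d) % 4 = 2 ∨ m % 4 = 0 ∨ Fintype.card F % 4 = 1)) ∨
     (r ≠ p ∧ 2 < r ∧ Odd i ∧ c ≤ m ∧ m % c ≤ (2 * d) % c) ∨
     (r ≠ p ∧ 2 < r ∧ Even i ∧
       (((2 * d) % c = 0 ∧ (Odd ((2 * d) / i) ∨ (m % c = 0 ∧ Even (m / i)))) ∨
        (i ≤ m ∧ ((m % c < (2 * d) % c ∧ 0 < m % c) ∨
                  ((2 * d) % c = m % c ∧ 0 < m % c ∧
                    Even ((2 * d + m - 2 * ((2 * d) % c)) / i)) ∨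
                  (0 < (2 * d) % c ∧ m % c = 0 ∧ Even (m / i))))))) := by
  have hcc : c = cc i := hc
  subst hcc
  subst hi
  have hrpr : r.Prime := Fact.out
  have hppr : p.Prime := Fact.out
  have hd1 : 1 ≤ d := by omega
  have hiso : ∀ x : Matrix.GeneralLinearGroup (P d) F,
      x ∈ Cfsg.Geo.omegaGL (Cfsg.quadFormPlus d F) →
      x ∈ Cfsg.isometryGroup F (Cfsg.quadFormPlus d F) := by
    intro x hx
    obtain ⟨y, -, rfl⟩ := hx
    exact y.2
  by_cases hr2 : r = 2
  · subst hr2
    by_cases hp2 : p = 2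
    · subst hp2
      have h11 : (-1 : F) = 1 := CharTwo.neg_eq 1
      have hqe : Even (Fintype.card F) := by
        obtain ⟨n, -, hn⟩ := FiniteField.card F 2
        rw [hn]
        exact (Nat.even_pow.mpr ⟨even_two, n.ne_zero⟩)
      constructor
      · intro hL
        left
        refine ⟨rfl, ?_⟩
        by_contra hcon
        have hde : Even d := by
          rcases Nat.even_or_odd d with h | ⟨t, ht⟩
          · exact h
          · exfalso
            apply hcon
            left
            omega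
        have hm4 : m % 4 = 2 := by
          obtain ⟨t, ht⟩ := hme
          by_contra h
          apply hcon
          right
          left
          omega
        obtain ⟨x, hxΩ, hxx, hx1, hxW⟩ := hC2D F d m hd hde hm4
        have hxi := hiso x hxΩ
        have hsq : ((x ^ 2 : Matrix.GeneralLinearGroup (P d) F) : Matrix (P d) (P d) F) =
            (1 : F) • (1 : Matrix (P d) (P d) F) := by
          rw [Units.val_pow_eq_pow_val, pow_two, hxx, one_smul]
        have hns : ∀ z : F, (x : Matrix (P d) (P d) F) ≠ z • (1 : Matrix (P d) (P d) F) := by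
          intro z hz
          apply hx1
          rcases hScal F d hd1 x hxi z hz with rfl | rfl
          · exact Units.ext (by rw [hz, one_smul]; rfl)
          · rw [h11, one_smul] at hz
            exact Units.ext (by rw [hz]; rfl)
        obtain ⟨W, hW, hS⟩ := hL x hxΩ ⟨1, hsq⟩ hns
        exact hxW W hW hS
      · rintro (⟨-, hcond⟩ | ⟨-, h, -⟩ | ⟨-, h, -⟩)
        · intro x hxΩ ⟨z, hz⟩ hns
          have hxi := hiso x hxΩ
          have hx2i : x ^ 2 ∈ Cfsg.isometryGroup F (Cfsg.quadFormPlus d F) :=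
            Subgroup.pow_mem _ hxi 2
          have hxx : (x : Matrix (P d) (P d) F) * (x : Matrix (P d) (P d) F) = 1 := by
            rcases hScal F d hd1 (x ^ 2) hx2i z hz with rfl | rfl
            · rw [← pow_two, ← Units.val_pow_eq_pow_val, hz, one_smul]
            · rw [h11, one_smul] at hz
              rw [← pow_two, ← Units.val_pow_eq_pow_val, hz]
          have hc2 : Odd d ∨ m % 4 = 0 := by
            rcases hcond with h | h | h
            · left
              rcases Nat.even_or_odd d with ⟨t, ht⟩ | h'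
              · omega
              · exact h'
            · right
              exact h
            · exfalso
              obtain ⟨t, ht⟩ := hqe
              omega
          obtain ⟨W, hW, hS⟩ := hC2F F d m hd hm hme hmd hc2 x hxi hxx
          exact ⟨W, hW, hS⟩
        · omega
        · omega
    · have hodd : Odd (Fintype.card F) := by
        obtain ⟨n, hp, hn⟩ := FiniteField.card F p
        rw [hn]
        exact Odd.pow (hp.odd_of_ne_two hp2)
      have h2 : (2 : F) ≠ 0 := two_ne_zero' hodd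
      constructor
      · intro hL
        left
        refine ⟨rfl, ?_⟩
        by_contra hcon
        have hde : Even d := by
          rcases Nat.even_or_odd d with h | ⟨t, ht⟩
          · exact h
          · exfalso
            apply hcon
            left
            omega
        have hm4 : m % 4 = 2 := by
          obtain ⟨t, ht⟩ := hme
          by_contra h
          apply hcon
          right
          left
          omega
        have hq4 : Fintype.card F % 4 = 3 := by
          obtain ⟨t, ht⟩ := hodd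
          by_contra h
          apply hcon
          right
          right
          omega
        obtain ⟨x, hxΩ, hxx⟩ := hNE F hodd d (by omega) (Or.inl hde)
        have hxi := hiso x hxΩ
        have hsq : ((x ^ 2 : Matrix.GeneralLinearGroup (P d) F) : Matrix (P d) (P d) F) =
            (-1 : F) • (1 : Matrix (P d) (P d) F) := by
          rw [Units.val_pow_eq_pow_val, pow_two, hxx]
          simp
        have hns : ∀ z : F, (x : Matrix (P d) (P d) F) ≠ z • (1 : Matrix (P d) (P d) F) := by
          intro z hz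
          have hzz : (1 : Matrix (P d) (P d) F) = -1 := by
            rw [← hxx, hz]
            rcases hScal F d hd1 x hxi z hz with rfl | rfl <;> simp
          exact one_ne_neg_one h2 hd1 hzz
        obtain ⟨W, hW, hS⟩ := hL x hxΩ ⟨-1, hsq⟩ hns
        exact hNH F hq4 d m hm4 x hxi hxx W hW hS
      · rintro (⟨-, hcond⟩ | ⟨-, h, -⟩ | ⟨-, h, -⟩)
        · intro x hxΩ ⟨z, hz⟩ hns
          have hxi := hiso x hxΩ
          have hx2i : x ^ 2 ∈ Cfsg.isometryGroup F (Cfsg.quadFormPlus d F) :=
            Subgroup.pow_mem _ hxi 2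
          rcases hScal F d hd1 (x ^ 2) hx2i z hz with rfl | rfl
          · have hxx : (x : Matrix (P d) (P d) F) * (x : Matrix (P d) (P d) F) = 1 := by
              rw [← pow_two, ← Units.val_pow_eq_pow_val, hz, one_smul]
            obtain ⟨W, hW, hS⟩ := hInv F hodd d m hd hm hme hmd x hxi hxx
            exact ⟨W, hW, hS⟩
          · have hxx : (x : Matrix (P d) (P d) F) * (x : Matrix (P d) (P d) F) = -1 := by
              rw [← pow_two, ← Units.val_pow_eq_pow_val, hz]
              simp
            have hq4 : Fintype.card F % 4 = 1 ∨ Fintype.card F % 4 = 3 := by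
              obtain ⟨t, ht⟩ := hodd
              omega
            rcases hq4 with h1 | h3
            · obtain ⟨W, hW, hS⟩ := hF1 F h1 d m hd hm hme hmd x hxi hxx
              exact ⟨W, hW, hS⟩
            · rcases hcond with h | h | h
              · exfalso
                have hdo : Odd d := by
                  rcases Nat.even_or_odd d with ⟨t, ht⟩ | h'
                  · omega
                  · exact h'
                exact hN3 F h3 d (by omega) hdo x hxΩ hxx
              · obtain ⟨W, hW, hS⟩ := hF0 F h3 d m hd hm h hmd x hxi hxx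
                exact ⟨W, hW, hS⟩
              · omega
        · omega
        · omega
  · have h2r : 2 < r := by
      have := hrpr.two_le
      omega
    have hrp : r ≠ p := by
      rcases hr with h | h
      · exact absurd h hr2
      · exact h
    have hrodd : Odd r := hrpr.odd_of_ne_two hr2
    constructor
    · intro hL
      by_contra hR
      have hcond : ¬ CondH d m (orderOf ((Fintype.card F : ℕ) : ZMod r)) := by
        intro hC
        apply hR
        rcases hC with h | ⟨h1, h3⟩
        · exact Or.inr (Or.inl ⟨hrp, h2r, h⟩)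
        · exact Or.inr (Or.inr ⟨hrp, h2r, h1, h3⟩)
      have hk := hND F p d m hd hm hme hmd r hr2 hrp hrΩ
      obtain ⟨x, hxΩ, hxr, hxW⟩ := hB2 F p d m hd hm hme hmd r hr2 hrp hk hcond
      have hxr1 : x ^ r = 1 := by
        rw [← hxr]
        exact pow_orderOf_eq_one x
      have hsc : ∃ z : F, ((x ^ r : Matrix.GeneralLinearGroup (P d) F) :
          Matrix (P d) (P d) F) = z • (1 : Matrix (P d) (P d) F) :=
        ⟨1, by rw [hxr1, one_smul]; rfl⟩
      obtain ⟨W, hW, hS⟩ := hL x hxΩ hsc
        (nonscalar_of_order hScal hd1 x (hiso x hxΩ) hxr hrpr hr2)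
      exact hxW W hW hS
    · intro hR x hxΩ ⟨z, hz⟩ hns
      have hC : CondH d m (orderOf ((Fintype.card F : ℕ) : ZMod r)) := by
        rcases hR with ⟨h, -⟩ | ⟨-, -, h⟩ | ⟨-, -, h1, h3⟩
        · exact absurd h hr2
        · exact Or.inl h
        · exact Or.inr ⟨h1, h3⟩
      have hxi := hiso x hxΩ
      have hxri : x ^ r ∈ Cfsg.isometryGroup F (Cfsg.quadFormPlus d F) :=
        Subgroup.pow_mem _ hxi r
      rcases hScal F d hd1 (x ^ r) hxri z hz with rfl | rfl
      · have hxr1 : x ^ r = 1 := Units.ext (by rw [hz, one_smul]; rfl)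
        obtain ⟨W, hW, hS⟩ := hB1 F p d m hd hm hme hmd r hr2 hrp hC x hxi hxr1
        exact ⟨W, hW, hS⟩
      · have hneg : ((x ^ r : Matrix.GeneralLinearGroup (P d) F) : Matrix (P d) (P d) F)
            = -1 := by
          rw [hz]
          simp
        obtain ⟨y, hyi, hyr, hyS⟩ := hNR F d r hrodd x hxi hneg
        obtain ⟨W, hW, hS⟩ := hB1 F p d m hd hm hme hmd r hr2 hrp hC y hyi hyr
        exact ⟨W, hW, (hyS W).mp hS⟩

end Cfsg.Agent.Lib.Helper40.HPAsm
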