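import Mathlib
import Cfsg.Agent.Lib.Helper95.NilJordan

set_option autoImplicit false

namespace Cfsg.Agent.Lib.Helper40.JordanSplit

open Module Cfsg.Agent.Lib.Helper95.NilJordan

theorem exists_le_map {α β : Type*} (f : α → β) (t : Multiset α) :
    ∀ s : Multiset β, s ≤ t.map f → ∃ u ≤ t, u.map f = s := by
  classical
  induction t using Multiset.induction_on with
  | empty =>
    intro s hs
    rw [Multiset.map_zero, Multiset.le_zero] at hs
    exact ⟨0, le_rfl, by rw [hs, Multiset.map_zero]⟩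
  | cons a t ih =>
    intro s hs
    rw [Multiset.map_cons] at hs
    by_cases ha : f a ∈ s
    · obtain ⟨s', rfl⟩ := Multiset.exists_cons_of_mem ha
      rw [Multiset.cons_le_cons_iff] at hs
      obtain ⟨u, hu, hus⟩ := ih s' hs
      exact ⟨a ::ₘ u, Multiset.cons_le_cons a hu, by rw [Multiset.map_cons, hus]⟩
    · rw [Multiset.le_cons_of_notMem ha] at hs
      obtain ⟨u, hu, hus⟩ := ih s hs
      exact ⟨u, hu.trans (Multiset.le_cons_self t a), hus⟩

section
variable {F : Type*} [Field F] {V : Type*} [AddCommGroup V] [Module F V]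

/-- The span of the Jordan blocks with index in `s`. -/
def blockSpan (N : Module.End F V) {ι : Type*} (k : ι → ℕ) (v : ι → V) (s : Set ι) :
    Submodule F V :=
  Submodule.span F (fam N k v '' {x | x.1 ∈ s})

theorem blockSpan_invt {N : Module.End F V} {ι : Type*} {k : ι → ℕ} {v : ι → V}
    (h : IsJordan N k v) (s : Set ι) : ∀ u ∈ blockSpan N k v s, N u ∈ blockSpan N k v s := by
  intro u hu
  refine Submodule.span_induction ?_ ?_ ?_ ?_ hu
  · rintro _ ⟨x, hx, rfl⟩
    have e1 : N (fam N k v x) = (N ^ ((x.2 : ℕ) + 1)) (v x.1) := by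
      show N ((N ^ (x.2 : ℕ)) (v x.1)) = _
      rw [add_comm, pow_add_apply, pow_one]
    rw [e1]
    by_cases hx' : (x.2 : ℕ) + 1 < k x.1
    · exact Submodule.subset_span ⟨⟨x.1, ⟨(x.2 : ℕ) + 1, hx'⟩⟩, hx, rfl⟩
    · rw [h.pow_eq_zero _ _ (by omega)]
      exact Submodule.zero_mem _
  · rw [map_zero]
    exact Submodule.zero_mem _
  · intro a b _ _ ha hb
    rw [map_add]
    exact Submodule.add_mem _ ha hb
  · intro c a _ ha
    rw [map_smul]
    exact Submodule.smul_mem _ c ha

theorem blockSpan_isCompl {N : Module.End F V} {ι : Type*} {k : ι → ℕ} {v : ι → V}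
    (h : IsJordan N k v) (s : Set ι) :
    IsCompl (blockSpan N k v s) (blockSpan N k v sᶜ) := by
  constructor
  · exact h.li.disjoint_span_image (by
      rw [Set.disjoint_left]
      intro x hx hx'
      exact hx' hx)
  · rw [codisjoint_iff, blockSpan, blockSpan, ← Submodule.span_union, ← Set.image_union]
    have h1 : {x : Σ i, Fin (k i) | x.1 ∈ s} ∪ {x | x.1 ∈ sᶜ} = Set.univ := by
      ext x
      simp [em]
    rw [h1, Set.image_univ]
    exact eq_top_iff.mpr h.span

theorem finrank_blockSpan {N : Module.End F V} {ι : Type*} [Fintype ι] [DecidableEq ι]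
    {k : ι → ℕ} {v : ι → V} (h : IsJordan N k v) (s : Finset ι) :
    finrank F (blockSpan N k v (s : Set ι)) = ∑ i ∈ s, k i := by
  have hli : LinearIndependent F (fun x : {x : Σ i, Fin (k i) // x.1 ∈ s} => fam N k v x.1) :=
    h.li.comp Subtype.val Subtype.val_injective
  have hrange : Set.range (fun x : {x : Σ i, Fin (k i) // x.1 ∈ s} => fam N k v x.1) =
      fam N k v '' {x | x.1 ∈ (s : Set ι)} := by
    ext y
    constructor
    · rintro ⟨x, rfl⟩
      exact ⟨x.1, x.2, rfl⟩
    · rintro ⟨x, hx, rfl⟩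
      exact ⟨⟨x, hx⟩, rfl⟩
  unfold blockSpan
  rw [← hrange, finrank_span_eq_card hli, Fintype.card_subtype]
  have h2 : (Finset.univ.filter (fun x : Σ i, Fin (k i) => x.1 ∈ s)) =
      s.sigma (fun i => Finset.univ) := by
    ext x
    simp [Finset.mem_sigma]
  rw [h2, Finset.card_sigma]
  apply Finset.sum_congr rfl
  intro i _
  rw [Finset.card_univ, Fintype.card_fin]

/-- Sub-multisets of the Jordan type give invariant decompositions. -/
theorem exists_split {N : Module.End F V} {ι : Type*} [Fintype ι] {k : ι → ℕ} {v : ι → V}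
    (h : IsJordan N k v) (ν : Multiset ℕ) (hν : ν ≤ Multiset.map k Finset.univ.val) :
    ∃ U W : Submodule F V, IsCompl U W ∧ finrank F U = ν.sum ∧ (∀ u ∈ U, N u ∈ U) ∧
      (∀ w ∈ W, N w ∈ W) := by
  classical
  obtain ⟨u, hu, hus⟩ := exists_le_map k Finset.univ.val ν hν
  have hnd : u.Nodup := Multiset.nodup_of_le hu Finset.univ.nodup
  refine ⟨blockSpan N k v ((⟨u, hnd⟩ : Finset ι) : Set ι),
    blockSpan N k v ((⟨u, hnd⟩ : Finset ι) : Set ι)ᶜ, blockSpan_isCompl h _, ?_,
    blockSpan_invt h _, blockSpan_invt h _⟩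
  rw [finrank_blockSpan h ⟨u, hnd⟩, ← hus]
  rfl

theorem finrank_range_split [FiniteDimensional F V] (f : Module.End F V) (U W : Submodule F V)
    (hc : IsCompl U W) (hU : ∀ u ∈ U, f u ∈ U) (hW : ∀ w ∈ W, f w ∈ W) :
    finrank F (LinearMap.range f) = finrank F (LinearMap.range (f.restrict hU)) +
      finrank F (LinearMap.range (f.restrict hW)) := by
  have h1 : LinearMap.range f = U.map f ⊔ W.map f := by
    rw [← Submodule.map_sup, hc.sup_eq_top, Submodule.map_top]
  have h2 : U.map f ⊓ W.map f = ⊥ := by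
    apply le_antisymm _ bot_le
    rw [← hc.inf_eq_bot]
    exact inf_le_inf (Submodule.map_le_iff_le_comap.mpr hU) (Submodule.map_le_iff_le_comap.mpr hW)
  have h3 := Submodule.finrank_sup_add_finrank_inf_eq (U.map f) (W.map f)
  rw [h2, finrank_bot, add_zero, ← h1] at h3
  have hr : ∀ (X : Submodule F V) (hX : ∀ u ∈ X, f u ∈ X),
      finrank F (LinearMap.range (f.restrict hX)) = finrank F (X.map f) := by
    intro X hX
    have h5 : Submodule.map X.subtype (LinearMap.range (f.restrict hX)) = X.map f := by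
      rw [LinearMap.range_eq_map, ← Submodule.map_comp]
      have h4 : X.subtype ∘ₗ f.restrict hX = f ∘ₗ X.subtype := by
        ext x
        rfl
      rw [h4, Submodule.map_comp, Submodule.map_subtype_top]
    rw [← Submodule.finrank_map_subtype_eq X (LinearMap.range (f.restrict hX)), h5]
  rw [h3, hr U hU, hr W hW]

/-- An invariant decomposition splits the Jordan type. -/
theorem jordan_split [FiniteDimensional F V] (N : Module.End F V) (hnil : IsNilpotent N)
    (U W : Submodule F V) (hc : IsCompl U W) (hU : ∀ u ∈ U, N u ∈ U) (hW : ∀ w ∈ W, N w ∈ W)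
    {ι : Type*} [Fintype ι] (k : ι → ℕ) (v : ι → V) (hpos : ∀ i, 0 < k i)
    (h : IsJordan N k v) :
    ∃ ν : Multiset ℕ, ν ≤ Multiset.map k Finset.univ.val ∧ ν.sum = finrank F U := by
  classical
  obtain ⟨c, hNc⟩ := hnil
  have hnilX : ∀ (X : Submodule F V) (hX : ∀ u ∈ X, N u ∈ X), IsNilpotent (N.restrict hX) := by
    intro X hX
    refine ⟨c, ?_⟩
    rw [Module.End.pow_restrict]
    apply LinearMap.ext
    intro x
    apply Subtype.ext
    show (N ^ c) (x : V) = 0
    rw [hNc]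
    rfl
  obtain ⟨ι₁, _, k₁, v₁, hpos₁, hJ₁⟩ := exists_jordan _ U (N.restrict hU) (hnilX U hU) rfl
  obtain ⟨ι₂, _, k₂, v₂, hpos₂, hJ₂⟩ := exists_jordan _ W (N.restrict hW) (hnilX W hW) rfl
  have key : ∀ j, ∑ i, (k i - j) = ∑ i : ι₁ ⊕ ι₂, (Sum.elim k₁ k₂ i - j) := by
    intro j
    rw [Fintype.sum_sum_type]
    simp only [Sum.elim_inl, Sum.elim_inr]
    rw [← h.finrank_range_pow j, ← hJ₁.finrank_range_pow j, ← hJ₂.finrank_range_pow j,
      Module.End.pow_restrict, Module.End.pow_restrict]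
    exact finrank_range_split (N ^ j) U W hc _ _
  have hmul := multiset_eq_of_sums k (Sum.elim k₁ k₂) hpos (by
    rintro (i | i)
    · exact hpos₁ i
    · exact hpos₂ i) key
  refine ⟨Multiset.map k₁ Finset.univ.val, ?_, ?_⟩
  · rw [hmul]
    have h1 : (Finset.univ : Finset (ι₁ ⊕ ι₂)).val =
        Multiset.map Sum.inl Finset.univ.val + Multiset.map Sum.inr Finset.univ.val := by
      rw [← Finset.univ_disjSum_univ]
      rfl
    rw [h1, Multiset.map_add, Multiset.map_map, Multiset.map_map]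
    exact Multiset.le_add_right _ _
  · have h1 := hJ₁.finrank_range_pow 0
    rw [pow_zero] at h1
    have h2 : LinearMap.range (1 : Module.End F U) = ⊤ := LinearMap.range_id
    rw [h2, finrank_top] at h1
    rw [h1]
    show ∑ i, k₁ i = ∑ i, (k₁ i - 0)
    simp

end

section mat
variable {F : Type*} [Field F] {n : ℕ}

/-- A nilpotent matrix with `A ^ p = 0` has invariant decompositions of all dimensions allowed
by the partition condition. -/
theorem exists_pair_of_nilpotent (A : Matrix (Fin n) (Fin n) F) (p m : ℕ) (hA : A ^ p = 0)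
    (hcond : ∀ μ : Multiset ℕ, (∀ a ∈ μ, 0 < a ∧ a ≤ p) → μ.sum = n →
      ∃ ν : Multiset ℕ, ν ≤ μ ∧ ν.sum = m) :
    ∃ U W : Submodule F (Fin n → F), IsCompl U W ∧ finrank F U = m ∧
      (∀ u ∈ U, Matrix.toLin' A u ∈ U) ∧ (∀ w ∈ W, Matrix.toLin' A w ∈ W) := by
  obtain ⟨ι, _, k, v, hpos, hJ⟩ := exists_jordan_mat A ⟨p, hA⟩
  have hle := (mat_pow_eq_zero_iff A hJ p).mp hA
  have hsum := sum_eq_card A hJ
  obtain ⟨ν, hν, hνm⟩ := hcond (Multiset.map k Finset.univ.val) (by
    intro a ha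
    rw [Multiset.mem_map] at ha
    obtain ⟨i, -, rfl⟩ := ha
    exact ⟨hpos i, hle i⟩) hsum
  obtain ⟨U, W, hc, hfin, hU, hW⟩ := exists_split hJ ν hν
  exact ⟨U, W, hc, by rw [hfin, hνm], hU, hW⟩

/-- A nilpotent matrix of a given Jordan type; its invariant decompositions come from
sub-multisets of the type. -/
theorem exists_nilpotent_of_type (p : ℕ) (μ : Multiset ℕ) (hμ : ∀ a ∈ μ, 0 < a ∧ a ≤ p)
    (hsum : μ.sum = n) (hbig : ∃ a ∈ μ, 2 ≤ a) :
    ∃ A : Matrix (Fin n) (Fin n) F, A ^ p = 0 ∧ A ≠ 0 ∧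
      ∀ U W : Submodule F (Fin n → F), IsCompl U W → (∀ u ∈ U, Matrix.toLin' A u ∈ U) →
        (∀ w ∈ W, Matrix.toLin' A w ∈ W) → ∃ ν : Multiset ℕ, ν ≤ μ ∧ ν.sum = finrank F U := by
  obtain ⟨t, k, hpos, hmap, hsum'⟩ := exists_indexing
    (⟨μ, fun hi => (hμ _ hi).1, hsum⟩ : Nat.Partition n)
  have hmap' : Multiset.map k Finset.univ.val = μ := hmap
  obtain ⟨A, v, hJ⟩ := exists_model_mat (F := F) k hpos hsum'
  have hmem : ∀ i, k i ∈ μ := by
    intro i
    rw [← hmap']
    exact Multiset.mem_map_of_mem k (Finset.mem_univ_val i)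
  have hAp : A ^ p = 0 := (mat_pow_eq_zero_iff A hJ p).mpr (fun i => (hμ _ (hmem i)).2)
  refine ⟨A, hAp, ?_, ?_⟩
  · intro hA0
    have h1 : A ^ 1 = 0 := by rw [pow_one, hA0]
    have h2 := (mat_pow_eq_zero_iff A hJ 1).mp h1
    obtain ⟨a, ha, ha2⟩ := hbig
    rw [← hmap', Multiset.mem_map] at ha
    obtain ⟨i, -, rfl⟩ := ha
    have := h2 i
    omega
  · intro U W hc hU hW
    have hnil : IsNilpotent (Matrix.toLin' A) := ⟨p, by rw [← Matrix.toLin'_pow, hAp, map_zero]⟩
    obtain ⟨ν, hν, hνs⟩ := jordan_split (Matrix.toLin' A) hnil U W hc hU hW k v hpos hJ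
    exact ⟨ν, by rw [← hmap']; exact hν, hνs⟩

end mat

end Cfsg.Agent.Lib.Helper40.JordanSplit
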