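import Mathlib
import Cfsg.Agent.Lib.Helper40.FExtOdd
import Cfsg.Agent.Lib.Helper40.FExtTwo
import Cfsg.Agent.Lib.Helper40.KStr

set_option autoImplicit false

namespace Cfsg.Agent.Lib.Helper40.KOdd

open Matrix Polynomial UniqueFactorizationMonoid
open Cfsg.Agent.Lib.Helper40.SympConj Cfsg.Agent.Lib.Helper40.FExt
open Cfsg.Agent.Lib.Helper40.FExtIdx Cfsg.Agent.Lib.Helper40.FExtOdd
open Cfsg.Agent.Lib.Helper40.FExtTwo Cfsg.Agent.Lib.Helper40.KStr
open Cfsg.Agent.Lib.Helper40.SSConj Cfsg.Agent.Lib.Helper40.InvDims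
open Cfsg.Agent.Lib.Helper40.SpElt Cfsg.Agent.Lib.Helper40.SpPoly Cfsg.Agent.Lib.Helper40.SpTI

section core
variable {F : Type*} [Field F] [Fintype F]

/-- The idempotent of a multiplicity-one irreducible factor: elements commuting with `x` act on it
by polynomials in `x`, whose adjoints are `Q`-th powers. -/
theorem comm_core [DecidableEq F] {q : ℕ} (hF : Fintype.card F = q) {d : ℕ}
    (x : Matrix (Fin d ⊕ Fin d) (Fin d ⊕ Fin d) F) (hx : sadj x * x = 1)
    (N : ℕ) (hN : (N : F) ≠ 0) (hxN : x ^ N = 1) (P R : F[X]) (hP : Irreducible P)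
    (hPm : P.Monic) (hχ : x.charpoly = P * R) (hPR : ¬ P ∣ R) (t : ℕ)
    (hxQ : x ^ (q ^ t + 1) = 1) :
    ∃ E : Matrix (Fin d ⊕ Fin d) (Fin d ⊕ Fin d) F, E ≠ 0 ∧
      ∀ ω : Matrix (Fin d ⊕ Fin d) (Fin d ⊕ Fin d) F, x * ω = ω * x →
        sadj ω * E = ω ^ (q ^ t) * E := by
  have hq0 : 0 < q := by
    rw [← hF]
    exact Fintype.card_pos
  obtain ⟨Q, hQ⟩ : ∃ Q, Q = q ^ t := ⟨_, rfl⟩
  have hfrob : ∀ g : F[X], aeval (x ^ Q) g = (aeval x g) ^ Q := by
    intro g
    rw [hQ]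
    exact frob_aeval hF x t g
  rw [← hQ] at hxQ ⊢
  have hQpos : 0 < Q := by
    rw [hQ]
    exact pow_pos hq0 t
  have hsx : sadj x = x ^ Q := by
    calc sadj x = sadj x * (x * x ^ Q) := by rw [← pow_succ', hxQ, Matrix.mul_one]
      _ = x ^ Q := by rw [← Matrix.mul_assoc, hx, Matrix.one_mul]
  have hsadj : ∀ g : F[X], sadj (aeval x g) = (aeval x g) ^ Q := by
    intro g
    rw [sadj_aeval, hsx, hfrob]
  obtain ⟨φ, hφ⟩ : ∃ φ : Module.End F (Fin d ⊕ Fin d → F), φ = Matrix.toLin' x := ⟨_, rfl⟩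
  have hcp : φ.charpoly = P * R := by rw [hφ, Matrix.charpoly_toLin', hχ]
  obtain ⟨v₀, hv₀, hPv₀⟩ := exists_ker_of_dvd_charpoly φ P hP (hcp ▸ Dvd.intro R rfl)
  have hfin := finrank_ker x N hN hxN P R hP hPm hχ hPR
  rw [← hφ] at hfin
  have hZle : LinearMap.range (ev φ v₀) ≤ LinearMap.ker (aeval φ P) := by
    rintro w ⟨g, rfl⟩
    rw [LinearMap.mem_ker, ev_apply, ← Module.End.mul_apply, ← map_mul, mul_comm, map_mul,
      Module.End.mul_apply, hPv₀, map_zero]
  have hZfin : Module.finrank F (LinearMap.range (ev φ v₀)) = P.natDegree := by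
    have h1 := charpoly_cycRes φ v₀ hv₀ P hP hPv₀
    have h3 := natDegree_eq_of_degree_eq (degree_eq_degree_of_associated h1)
    rw [LinearMap.charpoly_natDegree] at h3
    exact h3
  have hZeq : LinearMap.range (ev φ v₀) = LinearMap.ker (aeval φ P) :=
    Submodule.eq_of_le_of_finrank_eq hZle (by rw [hZfin, hfin])
  obtain ⟨a, b, hab⟩ := (hP.coprime_iff_not_dvd).mpr hPR
  obtain ⟨E, hE⟩ : ∃ E, E = aeval x (b * R) := ⟨_, rfl⟩
  have hPR0 : aeval x (P * R) = 0 := by
    rw [← hχ]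
    exact Matrix.aeval_self_charpoly x
  have hPE : aeval x P * E = 0 := by
    rw [hE, ← map_mul, show P * (b * R) = b * (P * R) by ring, map_mul, hPR0, mul_zero]
  have hE1 : E + aeval x (a * P) = 1 := by
    rw [hE, ← map_add, add_comm, hab, map_one]
  have hEE : E * E = E := by
    have h5 : E * aeval x (a * P) = 0 := by
      rw [hE, ← map_mul, show b * R * (a * P) = (b * a) * (P * R) by ring, map_mul, hPR0,
        mul_zero]
    calc E * E = E * (E + aeval x (a * P)) := by rw [mul_add, h5, add_zero]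
      _ = E := by rw [hE1, mul_one]
  have hEpow : ∀ k : ℕ, 0 < k → E ^ k = E := by
    intro k hk
    induction k with
    | zero => omega
    | succ k ih =>
      rcases Nat.eq_zero_or_pos k with h | h
      · subst h
        rw [zero_add, pow_one]
      · rw [pow_succ, ih h, hEE]
  have hEv₀ : E *ᵥ v₀ = v₀ := by
    have h6 : (E + aeval x (a * P)) *ᵥ v₀ = v₀ := by rw [hE1, Matrix.one_mulVec]
    rw [Matrix.add_mulVec, map_mul, ← Matrix.mulVec_mulVec] at h6
    have h7 : aeval x P *ᵥ v₀ = 0 := by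
      have h8 := hPv₀
      rw [hφ, toLin_aeval, Matrix.toLin'_apply] at h8
      exact h8
    rw [h7, Matrix.mulVec_zero, add_zero] at h6
    exact h6
  refine ⟨E, ?_, ?_⟩
  · intro hE0
    apply hv₀
    rw [← hEv₀, hE0, Matrix.zero_mulVec]
  · intro ω hc
    have hJv : Matrix.toLin' ω v₀ ∈ LinearMap.range (ev φ v₀) := by
      rw [hZeq]
      have h3 := ker_invt x ω hc P
      rw [← hφ] at h3
      have h4 : LinearMap.ker (aeval φ P) ≤
          (LinearMap.ker (aeval φ P)).comap (Matrix.toLin' ω) := h3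
      exact h4 (LinearMap.mem_ker.mpr hPv₀)
    obtain ⟨ρ, hρ⟩ := hJv
    have hJE_comm : ω * E = E * ω := by
      rw [hE]
      exact (comm_aeval x ω hc (b * R)).symm
    have hN' : ω * E = aeval x (ρ * (b * R)) := by
      rw [map_mul, ← hE]
      apply Matrix.toLin'.injective
      apply LinearMap.ext
      intro w
      rw [Matrix.toLin'_mul_apply, Matrix.toLin'_mul_apply]
      have hEw : Matrix.toLin' E w ∈ LinearMap.range (ev φ v₀) := by
        rw [hZeq, LinearMap.mem_ker, hφ, toLin_aeval, ← Matrix.toLin'_mul_apply, hPE, map_zero]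
        rfl
      obtain ⟨g, hg⟩ := hEw
      rw [← hg, ev_apply]
      have h8 : Matrix.toLin' ω (aeval φ g v₀) = aeval φ g (Matrix.toLin' ω v₀) := by
        rw [hφ, toLin_aeval, ← Matrix.toLin'_mul_apply, ← Matrix.toLin'_mul_apply,
          comm_aeval x ω hc g]
      rw [h8, ← hρ, ev_apply, ← toLin_aeval, ← hφ, ← Module.End.mul_apply,
        ← Module.End.mul_apply, ← map_mul, ← map_mul, mul_comm]
    have hx' : x * sadj x = 1 := mul_eq_one_comm.mp hx
    have hc' : x * sadj ω = sadj ω * x := by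
      have h1 : sadj x * sadj ω = sadj ω * sadj x := by rw [← sadj_mul, ← sadj_mul, hc]
      calc x * sadj ω = x * sadj ω * (sadj x * x) := by rw [hx, Matrix.mul_one]
        _ = x * (sadj ω * sadj x) * x := by simp only [Matrix.mul_assoc]
        _ = x * (sadj x * sadj ω) * x := by rw [h1]
        _ = (x * sadj x) * sadj ω * x := by simp only [Matrix.mul_assoc]
        _ = sadj ω * x := by rw [hx', Matrix.one_mul]
    have hsE : sadj E = E := by rw [hE, hsadj, ← hE, hEpow Q hQpos]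
    have h9 : sadj (ω * E) = (ω * E) ^ Q := by
      rw [hN']
      exact hsadj _
    rw [sadj_mul, hsE, (show Commute ω E from hJE_comm).mul_pow, hEpow Q hQpos] at h9
    have h10 : E * sadj ω = sadj ω * E := by
      rw [hE]
      exact comm_aeval x (sadj ω) hc' (b * R)
    rw [← h10]
    exact h9

theorem exists_not_fixed {q : ℕ} (hF : Fintype.card F = q) {L : Type*} [Field L] [Algebra F L]
    [Finite L] (hfr : Module.finrank F L = 2) (t : ℕ) (ht : Odd t) :
    ∃ a : L, a ^ (q ^ t) ≠ a := by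
  classical
  haveI : Fintype L := Fintype.ofFinite L
  have hcard : Fintype.card L = q ^ 2 := by
    rw [Module.card_eq_pow_finrank (K := F) (V := L), hfr, hF]
  have hq2 : 2 ≤ q := by
    rw [← hF]
    exact Fintype.one_lt_card
  by_contra hall
  push Not at hall
  have hqq : ∀ a : L, a ^ (q ^ 2) = a := by
    intro a
    rw [← hcard]
    exact FiniteField.pow_card a
  have hqq' : ∀ (s : ℕ) (a : L), a ^ ((q ^ 2) ^ s) = a := by
    intro s
    induction s with
    | zero =>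
      intro a
      rw [pow_zero, pow_one]
    | succ s ih =>
      intro a
      rw [pow_succ, pow_mul, ih, hqq]
  obtain ⟨s, hs⟩ := ht
  have hq1 : ∀ a : L, a ^ q = a := by
    intro a
    have h1 := hall a
    rw [hs, pow_succ, pow_mul q 2 s, pow_mul a, hqq' s a] at h1
    exact h1
  have hdeg := FiniteField.X_pow_card_sub_X_natDegree_eq L (by omega : 1 < q)
  have h0 : (X ^ q - X : L[X]) = 0 := by
    apply Polynomial.eq_zero_of_natDegree_lt_card_of_eval_eq_zero (X ^ q - X : L[X])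
      (f := id) Function.injective_id
    · intro a
      simp [hq1 a]
    · rw [hdeg, hcard]
      nlinarith
  rw [h0, natDegree_zero] at hdeg
  omega

end core

section fix
variable {F : Type*} [Field F]

theorem sub_one_mul_aeval {n : Type*} [Fintype n] [DecidableEq n] (y : Matrix n n F) (r : ℕ)
    (hr : (r : F) ≠ 0) (hyr : y ^ r = 1) (e : ℕ) (g : F[X])
    (hχ : y.charpoly = (X - C 1) ^ e * g)
    (hg : g ∣ ∑ i ∈ Finset.range r, (X : F[X]) ^ i) : (y - 1) * aeval y g = 0 := by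
  obtain ⟨S', hS'⟩ := hg
  have hS1 : S'.eval 1 ≠ 0 := by
    intro h
    have h1 := congrArg (Polynomial.eval 1) hS'
    rw [eval_mul, h, mul_zero, eval_finsetSum] at h1
    simp at h1
    exact hr h1
  have hcop : IsCoprime (X - C (1 : F)) S' := by
    rw [(irreducible_X_sub_C (1 : F)).coprime_iff_not_dvd, dvd_iff_isRoot]
    exact hS1
  obtain ⟨a, b, hab⟩ := hcop.pow_left (m := e)
  have h2 : (X : F[X]) ^ r - 1 = (X - C 1) * (g * S') := by
    rw [← hS', C_1, mul_geom_sum]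
  have h1 : (X - C (1 : F)) * g =
      a * (X - C 1) * ((X - C 1) ^ e * g) + b * (X ^ r - 1) := by
    rw [h2]
    linear_combination (-((X - C (1 : F)) * g)) * hab
  have h3 : aeval y ((X - C (1 : F)) * g) = 0 := by
    rw [h1, ← hχ, map_add, map_mul, map_mul, Matrix.aeval_self_charpoly, mul_zero, zero_add]
    simp [hyr]
  rw [map_mul] at h3
  simpa using h3

theorem noncomm_bound {n : Type*} [Fintype n] [DecidableEq n] (y G : Matrix n n F)
    (hG : (y - 1) * G = 0) (a a' c' : Matrix n n F) (hya : y * a = a' * y)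
    (hc' : c' * (a' - a) = 1) :
    Fintype.card n ≤ 2 * Module.finrank F (LinearMap.ker (Matrix.toLin' G)) := by
  have h1 := LinearMap.finrank_range_add_finrank_ker (Matrix.toLin' G)
  have h2 := LinearMap.finrank_range_add_finrank_ker (Matrix.toLin' (y - 1))
  rw [Module.finrank_fintype_fun_eq_card] at h1 h2
  have h3 : LinearMap.range (Matrix.toLin' G) ≤ LinearMap.ker (Matrix.toLin' (y - 1)) := by
    rintro _ ⟨w, rfl⟩
    rw [LinearMap.mem_ker, ← Matrix.toLin'_mul_apply, hG, map_zero]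
    rfl
  have h4 := Submodule.finrank_mono h3
  have hmem : ∀ u : ↥(LinearMap.ker (Matrix.toLin' (y - 1))),
      (Matrix.toLin' (a' - a)).domRestrict (LinearMap.ker (Matrix.toLin' (y - 1))) u ∈
        LinearMap.range (Matrix.toLin' (y - 1)) := by
    intro u
    have hu : y *ᵥ u.1 = u.1 := by
      have h5 := LinearMap.mem_ker.mp u.2
      rw [Matrix.toLin'_apply, Matrix.sub_mulVec, Matrix.one_mulVec] at h5
      exact sub_eq_zero.mp h5
    refine ⟨a *ᵥ u.1, ?_⟩
    rw [LinearMap.domRestrict_apply, Matrix.toLin'_apply, Matrix.toLin'_apply,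
      Matrix.sub_mulVec, Matrix.sub_mulVec, Matrix.one_mulVec, Matrix.mulVec_mulVec, hya,
      ← Matrix.mulVec_mulVec, hu]
  have hinj : Function.Injective (LinearMap.codRestrict (LinearMap.range (Matrix.toLin' (y - 1)))
      ((Matrix.toLin' (a' - a)).domRestrict (LinearMap.ker (Matrix.toLin' (y - 1)))) hmem) := by
    intro u u' huu
    have h5 := congrArg Subtype.val huu
    simp only [LinearMap.codRestrict_apply, LinearMap.domRestrict_apply,
      Matrix.toLin'_apply] at h5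
    apply Subtype.ext
    calc u.1 = (c' * (a' - a)) *ᵥ u.1 := by rw [hc', Matrix.one_mulVec]
      _ = (c' * (a' - a)) *ᵥ u'.1 := by
          rw [← Matrix.mulVec_mulVec, h5, Matrix.mulVec_mulVec]
      _ = u'.1 := by rw [hc', Matrix.one_mulVec]
  have h6 := LinearMap.finrank_le_finrank_of_injective hinj
  omega

theorem cp_invol4 [DecidableEq F] (h2 : (2 : F) ≠ 0)
    (x : Matrix (Fin 2 ⊕ Fin 2) (Fin 2 ⊕ Fin 2) F) (hx : sadj x * x = 1) (hxx : x * x = 1)
    (hx1 : x ≠ 1) (hxm : x ≠ -1) : x.charpoly = (X - C 1) ^ 2 * (X + C 1) ^ 2 := by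
  obtain ⟨s, hs, hc⟩ := cp_pos h2 x hx hxx
  have hch := Matrix.aeval_self_charpoly x
  rw [hc] at hch
  have h8 : (8 : F) ≠ 0 := by
    have h3 : (8 : F) = 2 * 2 * 2 := by norm_num
    rw [h3]
    exact mul_ne_zero (mul_ne_zero h2 h2) h2
  interval_cases s
  · exfalso
    apply hxm
    have h4 : (x + 1) ^ 4 = 0 := by simpa using hch
    have h3 : (x + 1) * (x + 1) = (2 : F) • (x + 1) := by
      rw [add_mul, mul_add, mul_add, hxx, one_mul, mul_one, mul_one, two_smul]
      abel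
    have h5 : (x + 1) ^ 4 = (8 : F) • (x + 1) := by
      have h6 : (x + 1) ^ 4 = ((x + 1) * (x + 1)) * ((x + 1) * (x + 1)) := by noncomm_ring
      rw [h6, h3, Matrix.smul_mul, Matrix.mul_smul, h3, smul_smul, smul_smul]
      norm_num
    rw [h5] at h4
    rcases smul_eq_zero.mp h4 with h | h
    · exact absurd h h8
    · exact eq_neg_of_add_eq_zero_left h
  · exact hc
  · exfalso
    apply hx1
    have h4 : (x - 1) ^ 4 = 0 := by simpa using hch
    have h3 : (x - 1) * (x - 1) = (-2 : F) • (x - 1) := by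
      rw [sub_mul, mul_sub, mul_sub, hxx, one_mul, mul_one, mul_one, neg_smul, two_smul]
      abel
    have h5 : (x - 1) ^ 4 = (-8 : F) • (x - 1) := by
      have h6 : (x - 1) ^ 4 = ((x - 1) * (x - 1)) * ((x - 1) * (x - 1)) := by noncomm_ring
      rw [h6, h3, Matrix.smul_mul, Matrix.mul_smul, h3, smul_smul, smul_smul]
      norm_num
    rw [h5] at h4
    rcases smul_eq_zero.mp h4 with h | h
    · exact absurd (neg_eq_zero.mp h) h8
    · exact sub_eq_zero.mp h

end fix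

section arith

theorem idx_arith (q d k m r : ℕ) (hq : 2 ≤ q) (hk : 1 ≤ k) (hdm : d = k * m) (hr : r.Prime)
    (hrq : ¬ r ∣ q)
    (h : ((q ^ k) ^ (m ^ 2) * ∏ i ∈ Finset.range m, ((q ^ k) ^ (2 * (i + 1)) - 1)) * r ∣
        q ^ (d ^ 2) * ∏ i ∈ Finset.range d, (q ^ (2 * (i + 1)) - 1)) :
    ∃ j, 1 ≤ j ∧ j ≤ d ∧ ¬ k ∣ j ∧ r ∣ q ^ (2 * j) - 1 := by
  have hsplit : ∏ i ∈ Finset.range d, (q ^ (2 * (i + 1)) - 1) =
      (∏ i ∈ Finset.range m, ((q ^ k) ^ (2 * (i + 1)) - 1)) *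
        ∏ i ∈ (Finset.range d).filter (fun i => ¬ k ∣ i + 1), (q ^ (2 * (i + 1)) - 1) := by
    rw [← Finset.prod_filter_mul_prod_filter_not (Finset.range d) (fun i => k ∣ i + 1)]
    congr 1
    symm
    apply Finset.prod_nbij' (fun a => k * (a + 1) - 1) (fun b => (b + 1) / k - 1)
    · intro a ha
      rw [Finset.mem_range] at ha
      rw [Finset.mem_filter, Finset.mem_range]
      have h1 : k * (a + 1) ≤ k * m := Nat.mul_le_mul_left k (by omega)
      have h2 : 1 ≤ k * (a + 1) := Nat.mul_pos (by omega) (by omega)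
      refine ⟨by omega, ?_⟩
      rw [Nat.sub_add_cancel h2]
      exact Dvd.intro _ rfl
    · intro b hb
      rw [Finset.mem_filter, Finset.mem_range] at hb
      rw [Finset.mem_range]
      obtain ⟨c, hc⟩ := hb.2
      rw [hc, Nat.mul_div_cancel_left c (by omega : 0 < k)]
      have h1 : k * c ≤ k * m := by omega
      have h2 : c ≤ m := Nat.le_of_mul_le_mul_left h1 (by omega)
      have h3 : 1 ≤ c := by
        rcases Nat.eq_zero_or_pos c with h | h
        · subst h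
          omega
        · exact h
      omega
    · intro a ha
      have h2 : 1 ≤ k * (a + 1) := Nat.mul_pos (by omega) (by omega)
      show (k * (a + 1) - 1 + 1) / k - 1 = a
      rw [Nat.sub_add_cancel h2, Nat.mul_div_cancel_left (a + 1) (by omega : 0 < k)]
      omega
    · intro b hb
      rw [Finset.mem_filter, Finset.mem_range] at hb
      obtain ⟨c, hc⟩ := hb.2
      show k * ((b + 1) / k - 1 + 1) - 1 = b
      rw [hc, Nat.mul_div_cancel_left c (by omega : 0 < k)]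
      have h3 : 1 ≤ c := by
        rcases Nat.eq_zero_or_pos c with h | h
        · subst h
          omega
        · exact h
      rw [Nat.sub_add_cancel h3]
      omega
    · intro a ha
      have h2 : 1 ≤ k * (a + 1) := Nat.mul_pos (by omega) (by omega)
      show (q ^ k) ^ (2 * (a + 1)) - 1 = q ^ (2 * (k * (a + 1) - 1 + 1)) - 1
      rw [Nat.sub_add_cancel h2, ← pow_mul]
      congr 2
      ring
  have hBpos : 0 < ∏ i ∈ Finset.range m, ((q ^ k) ^ (2 * (i + 1)) - 1) := by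
    apply Finset.prod_pos
    intro i _
    have h1 : 2 ≤ q ^ k := by
      calc 2 ≤ q := hq
        _ = q ^ 1 := (pow_one q).symm
        _ ≤ q ^ k := Nat.pow_le_pow_right (by omega) hk
    have h2 : 2 ≤ (q ^ k) ^ (2 * (i + 1)) := by
      calc 2 ≤ q ^ k := h1
        _ = (q ^ k) ^ 1 := (pow_one _).symm
        _ ≤ (q ^ k) ^ (2 * (i + 1)) := Nat.pow_le_pow_right (by omega) (by omega)
    omega
  rw [hsplit] at h
  have h1 : (∏ i ∈ Finset.range m, ((q ^ k) ^ (2 * (i + 1)) - 1)) * ((q ^ k) ^ (m ^ 2) * r) ∣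
      (∏ i ∈ Finset.range m, ((q ^ k) ^ (2 * (i + 1)) - 1)) * (q ^ (d ^ 2) *
        ∏ i ∈ (Finset.range d).filter (fun i => ¬ k ∣ i + 1), (q ^ (2 * (i + 1)) - 1)) := by
    have h3 : (∏ i ∈ Finset.range m, ((q ^ k) ^ (2 * (i + 1)) - 1)) * ((q ^ k) ^ (m ^ 2) * r) =
        ((q ^ k) ^ (m ^ 2) * ∏ i ∈ Finset.range m, ((q ^ k) ^ (2 * (i + 1)) - 1)) * r := by ring
    have h4 : (∏ i ∈ Finset.range m, ((q ^ k) ^ (2 * (i + 1)) - 1)) * (q ^ (d ^ 2) *
        ∏ i ∈ (Finset.range d).filter (fun i => ¬ k ∣ i + 1), (q ^ (2 * (i + 1)) - 1)) =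
        q ^ (d ^ 2) * ((∏ i ∈ Finset.range m, ((q ^ k) ^ (2 * (i + 1)) - 1)) *
        ∏ i ∈ (Finset.range d).filter (fun i => ¬ k ∣ i + 1), (q ^ (2 * (i + 1)) - 1)) := by ring
    rw [h3, h4]
    exact h
  have h2 := Nat.dvd_of_mul_dvd_mul_left hBpos h1
  have h3 : r ∣ q ^ (d ^ 2) *
      ∏ i ∈ (Finset.range d).filter (fun i => ¬ k ∣ i + 1), (q ^ (2 * (i + 1)) - 1) :=
    dvd_trans (Dvd.intro_left _ rfl) h2
  rcases hr.dvd_mul.mp h3 with h4 | h4
  · exact absurd (hr.dvd_of_dvd_pow h4) hrq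
  · obtain ⟨i, hi, hri⟩ := (hr.prime.dvd_finsetProd_iff _).mp h4
    rw [Finset.mem_filter, Finset.mem_range] at hi
    exact ⟨i + 1, by omega, by omega, hi.2, hri⟩

end arith

section odd
variable {F : Type*} [Field F]

theorem odd_main [Fintype F] [DecidableEq F] {p : ℕ} [Fact p.Prime] [CharP F p] {q : ℕ}
    (hF : Fintype.card F = q) {d : ℕ} (hd : 1 ≤ d) (r : ℕ) [Fact r.Prime] (hr2 : r ≠ 2)
    (hrp : r ≠ p) (k : ℕ) (hk : k.Prime) (hkd : k ≤ d)
    (j : ℕ) (hj1 : 1 ≤ j) (hjd : j ≤ d) (hkj : ¬ k ∣ j) (hrj : r ∣ q ^ (2 * j) - 1)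
    {L : Type*} [Field L] [Algebra F L] [Finite L] (hfr : Module.finrank F L = k)
    (ι : L →ₐ[F] Matrix (Fin d ⊕ Fin d) (Fin d ⊕ Fin d) F) (hinj : Function.Injective ι)
    (hsa : ∀ a, sadj (ι a) = ι a) :
    ∃ x : Matrix (Fin d ⊕ Fin d) (Fin d ⊕ Fin d) F, sadj x * x = 1 ∧ x ^ r = 1 ∧
      (∀ z : F, x ≠ z • 1) ∧
      ∀ y : Matrix (Fin d ⊕ Fin d) (Fin d ⊕ Fin d) F, sadj y * y = 1 → y ^ r = 1 →
        y.charpoly = x.charpoly → (∀ a, ∃ b, y * ι a = ι b * y) → False := by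
  have hr : r.Prime := Fact.out
  have hpp : p.Prime := Fact.out
  have hrq : ¬ r ∣ q := by
    obtain ⟨n, -, hn⟩ := FiniteField.card F p
    rw [hF] at hn
    intro h
    rw [hn] at h
    exact hrp ((Nat.prime_dvd_prime_iff_eq hr hpp).mp (hr.dvd_of_dvd_pow h))
  have hq1 : 1 ≤ q := by
    rw [← hF]
    exact Fintype.card_pos
  obtain ⟨i, hi⟩ : ∃ i, i = orderOf ((Fintype.card F : ℕ) : ZMod r) := ⟨_, rfl⟩
  have hiq : i = orderOf (q : ZMod r) := by rw [hi, hF]
  have hipos : 0 < i := by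
    rw [hiq]
    exact Cfsg.Agent.Lib.Helper40.CycloVal.order_pos q r hrq
  have hi2j : i ∣ 2 * j := by
    rw [hiq]
    exact (Cfsg.Agent.Lib.Helper40.CycloVal.dvd_pow_sub_one_iff q r hq1 (2 * j)).mp hrj
  have hir : i ∣ r - 1 := by
    rw [hi]
    exact Cfsg.Agent.Lib.Helper40.PrimeFix.order_dvd (F := F) (p := p) r hrp
  obtain ⟨t', ht'⟩ : ∃ t', t' * i = r - 1 := by
    obtain ⟨c, hc⟩ := hir
    exact ⟨c, by rw [hc, mul_comm]⟩
  obtain ⟨T, hTcard, hLT, hT, hpar, hTs, hTdvd⟩ :=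
    cyclo_star_facts (F := F) (p := p) r i t' hr hr2 hrp hi ht'
  have hr2le := hr.two_le
  have ht'pos : 0 < t' := by
    rcases Nat.eq_zero_or_pos t' with h | h
    · subst h
      rw [zero_mul] at ht'
      omega
    · exact h
  obtain ⟨P₀, hP₀⟩ : ∃ P₀, P₀ ∈ T := Finset.card_pos.mp (by rw [hTcard]; exact ht'pos)
  obtain ⟨hP₀i, hP₀m, hP₀d, hP₀0⟩ := hT P₀ hP₀
  have hrF : ((r : ℕ) : F) ≠ 0 := by
    intro h
    have h1 := (CharP.cast_eq_zero_iff F p r).mp h
    exact hrp ((Nat.prime_dvd_prime_iff_eq hpp hr).mp h1).symm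
  have hTim : ∀ P ∈ T, Irreducible P ∧ P.Monic := fun P hP => ⟨(hT P hP).1, (hT P hP).2.1⟩
  have hT0 : ∀ P ∈ T, P.coeff 0 ≠ 0 := fun P hP => (hT P hP).2.2.2
  have hnot1' : ∀ P ∈ T, ¬ P ∣ X - C (1 : F) := by
    intro P hP h1
    have h2 := eq_of_monic_of_associated (hT P hP).2.1 (monic_X_sub_C 1)
      ((hT P hP).1.associated_of_dvd (irreducible_X_sub_C 1) h1)
    exact hLT (h2 ▸ hP)
  have hnot1 : ¬ P₀ ∣ X - C (1 : F) := hnot1' P₀ hP₀
  have hgeom : ∀ P ∈ T, P ∣ ∑ i ∈ Finset.range r, (X : F[X]) ^ i := by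
    intro P hP
    have h1 : P ∣ X ^ r - C (1 : F) := (hTdvd P (hT P hP).1 (hT P hP).2.1).mpr (Or.inr hP)
    have h2 : (X : F[X]) ^ r - C 1 = (X - C 1) * ∑ i ∈ Finset.range r, (X : F[X]) ^ i := by
      rw [C_1, mul_geom_sum]
    rw [h2] at h1
    rcases (hT P hP).1.prime.dvd_or_dvd h1 with h | h
    · exact absurd h (hnot1' P hP)
    · exact h
  have hA : ∀ y : Matrix (Fin d ⊕ Fin d) (Fin d ⊕ Fin d) F, y ^ r = 1 → ∀ R' : F[X],
      y.charpoly = P₀ * R' → ¬ P₀ ∣ R' → (∀ a, y * ι a = ι a * y) → k ∣ i := by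
    intro y hyr R' hχ hPR hcomm
    have h1 := finrank_ker y r hrF hyr P₀ R' hP₀i hP₀m hχ hPR
    have h2 := dvd_finrank ι (LinearMap.ker (aeval (Matrix.toLin' y) P₀)) (by
      intro a w hw
      have h3 := ker_invt y (ι a) (hcomm a) P₀
      rw [Module.End.mem_invtSubmodule] at h3
      have h4 := h3 hw
      rw [Submodule.mem_comap, Matrix.toLin'_apply] at h4
      exact h4)
    rw [h1, hfr, hP₀d] at h2
    exact h2
  have hNC : ∀ (y : Matrix (Fin d ⊕ Fin d) (Fin d ⊕ Fin d) F) (e : ℕ) (g : F[X]), y ^ r = 1 →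
      y.charpoly = (X - C 1) ^ e * g → g ∣ ∑ i ∈ Finset.range r, (X : F[X]) ^ i →
      (∀ a, ∃ b, y * ι a = ι b * y) → ¬ (∀ a, y * ι a = ι a * y) →
      r = k ∧ d ≤ Module.finrank F (LinearMap.ker (aeval (Matrix.toLin' y) g)) := by
    intro y e g hyr hχ hg hnorm hnc
    have hrk : r = k := by
      by_contra hrk
      exact hnc (norm_comm k hk hfr ι hinj y r hr hrk hyr hnorm)
    refine ⟨hrk, ?_⟩
    push Not at hnc
    obtain ⟨a, ha⟩ := hnc
    obtain ⟨b, hb⟩ := hnorm a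
    have hba : b - a ≠ 0 := by
      intro h
      apply ha
      rw [hb, sub_eq_zero.mp h]
    have hG := sub_one_mul_aeval y r hrF hyr e g hχ hg
    have hc' : ι (b - a)⁻¹ * (ι b - ι a) = 1 := by
      rw [← map_sub, ← map_mul, inv_mul_cancel₀ hba, map_one]
    have h1 := noncomm_bound y (aeval y g) hG (ι a) (ι b) (ι (b - a)⁻¹) hb hc'
    rw [Fintype.card_sum, Fintype.card_fin, ← toLin_aeval] at h1
    omega
  have hir' : i ≤ r - 1 := Nat.le_of_dvd (by omega) hir
  rcases Nat.even_or_odd i with hie | hio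
  · have hid : i ≤ 2 * d := le_trans (Nat.le_of_dvd (by omega) hi2j) (by omega)
    have hsP₀ : pstar P₀ = P₀ := (hpar P₀ hP₀).mpr hie
    have hR1 : P₀.eval 1 ≠ 0 :=
      eval1_of_nf T hTim hLT P₀ hP₀m (nf_single_sub T hTim P₀ hP₀)
    obtain ⟨i', hi'⟩ := hie
    obtain ⟨hχm, hχd, hχr, hχnf⟩ :=
      adm_mk (2 * d - i) ⟨d - i', by omega⟩ P₀ hP₀m hP₀0 hsP₀ hR1
    have hadm : Adm T d ((X - C (1 : F)) ^ (2 * d - i) * P₀) := by
      refine ⟨hχm, by rw [hχd, hP₀d]; omega, hχr, ?_, ?_⟩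
      · intro P hP
        rw [hχnf] at hP
        rcases Multiset.mem_add.mp hP with h | h
        · left
          exact Multiset.eq_of_mem_replicate h
        · right
          exact nf_single_sub T hTim P₀ hP₀ P h
      · refine ⟨P₀, ?_, hP₀⟩
        rw [hχnf, normalizedFactors_irreducible hP₀i, hP₀m.normalize_eq_self]
        exact Multiset.mem_add.mpr (Or.inr (Multiset.mem_singleton_self P₀))
    obtain ⟨x, hxr, hxns, hxc⟩ := exists_elt p hd r hr hr2 T hLT hTdvd _ hadm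
    refine ⟨x.1, (Cfsg.Agent.Lib.Helper40.SympConj.mem_symp_iff _).mp x.2, hxr, hxns, ?_⟩
    intro y hys hyr hyc hnorm
    rw [hxc] at hyc
    have hχ' : y.charpoly = P₀ * (X - C 1) ^ (2 * d - i) := by
      rw [hyc]
      ring
    have hPR : ¬ P₀ ∣ (X - C 1) ^ (2 * d - i) :=
      fun hdvd' => hnot1 (hP₀i.prime.dvd_of_dvd_pow hdvd')
    by_cases hcomm : ∀ a, y * ι a = ι a * y
    · by_cases hki : k ∣ i
      · have hk2 : k = 2 := by
          have h1 : k ∣ 2 * j := dvd_trans hki hi2j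
          rcases (Nat.Prime.dvd_mul hk).mp h1 with h | h
          · exact (Nat.prime_dvd_prime_iff_eq hk Nat.prime_two).mp h
          · exact absurd h hkj
        have hfr2 : Module.finrank F L = 2 := by rw [hfr, hk2]
        have hkj2 : ¬ 2 ∣ j := hk2 ▸ hkj
        have hi'j : i' ∣ j := by
          obtain ⟨c, hc⟩ := hi2j
          refine ⟨c, ?_⟩
          have h3 : 2 * j = 2 * (i' * c) := by
            rw [hc, hi']
            ring
          omega
        have hi'odd : Odd i' := by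
          by_contra hne
          rw [Nat.not_odd_iff_even] at hne
          exact hkj2 (dvd_trans (even_iff_two_dvd.mp hne) hi'j)
        have hdvd : r ∣ q ^ (i / 2) + 1 := by
          rw [hiq]
          exact dvd_half q r (by rw [← hiq]; exact ⟨i', hi'⟩) (by rw [← hiq]; exact hipos)
        have hi2 : i / 2 = i' := by omega
        rw [hi2] at hdvd
        have hyQ : y ^ (q ^ i' + 1) = 1 := by
          obtain ⟨c, hc⟩ := hdvd
          rw [hc, pow_mul, hyr, one_pow]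
        obtain ⟨E, hE0, hE⟩ := comm_core hF y hys r hrF hyr P₀ _ hP₀i hP₀m hχ' hPR i' hyQ
        obtain ⟨a, ha⟩ := exists_not_fixed hF hfr2 i' hi'odd
        have h1 := hE (ι a) (hcomm a)
        rw [hsa, ← map_pow] at h1
        apply hE0
        have hne : a ^ (q ^ i') - a ≠ 0 := sub_ne_zero.mpr ha
        have h3 : ι (a ^ (q ^ i') - a) * E = 0 := by rw [map_sub, sub_mul, ← h1, sub_self]
        calc E = ι ((a ^ (q ^ i') - a)⁻¹ * (a ^ (q ^ i') - a)) * E := by
              rw [inv_mul_cancel₀ hne, map_one, Matrix.one_mul]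
          _ = 0 := by rw [map_mul, Matrix.mul_assoc, h3, Matrix.mul_zero]
      · exact hki (hA y hyr _ hχ' hPR hcomm)
    · obtain ⟨hrk, hbound⟩ := hNC y (2 * d - i) P₀ hyr hyc (hgeom P₀ hP₀) hnorm hcomm
      have h1 := finrank_ker y r hrF hyr P₀ _ hP₀i hP₀m hχ' hPR
      rw [h1, hP₀d] at hbound
      omega
  · have hij : i ∣ j := by
      obtain ⟨c, hc⟩ := hi2j
      have h1 : Even (i * c) := by
        rw [← hc]
        exact even_two_mul j
      rcases Nat.even_mul.mp h1 with h | h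
      · exact absurd h (Nat.not_even_iff_odd.mpr hio)
      · obtain ⟨e, he⟩ := h
        refine ⟨e, ?_⟩
        have h3 : 2 * j = 2 * (i * e) := by
          rw [hc, he]
          ring
        omega
    have hid : i ≤ d := le_trans (Nat.le_of_dvd (by omega) hij) hjd
    have hki : ¬ k ∣ i := fun h => hkj (dvd_trans h hij)
    obtain ⟨R, hR⟩ : ∃ R, R = P₀ * pstar P₀ := ⟨_, rfl⟩
    have hsP₀ : pstar P₀ ∈ T := hTs P₀ hP₀
    have hne : pstar P₀ ≠ P₀ := by
      intro h
      exact (Nat.not_even_iff_odd.mpr hio) ((hpar P₀ hP₀).mp h)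
    have hRm : R.Monic := hR ▸ hP₀m.mul (hT _ hsP₀).2.1
    have hRf : ∀ Q ∈ normalizedFactors R, Q ∈ T :=
      hR ▸ nf_pair_sub T hTim P₀ (pstar P₀) hP₀ hsP₀
    have hR0 : R.coeff 0 ≠ 0 := coeff0_of_nf T hT0 R hRm hRf
    have hR1 : R.eval 1 ≠ 0 := eval1_of_nf T hTim hLT R hRm hRf
    have hRs : pstar R = R := by
      rw [hR, pstar_mul, pstar_pstar P₀ hP₀m hP₀0, mul_comm]
    have hRd : R.natDegree = 2 * i := by
      rw [hR, hP₀m.natDegree_mul (hT _ hsP₀).2.1, hP₀d, (hT _ hsP₀).2.2.1]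
      ring
    obtain ⟨hχm, hχd, hχr, hχnf⟩ := adm_mk (2 * (d - i)) (even_two_mul _) R hRm hR0 hRs hR1
    have hadm : Adm T d ((X - C (1 : F)) ^ (2 * (d - i)) * R) := by
      refine ⟨hχm, by rw [hχd, hRd]; omega, hχr, ?_, ?_⟩
      · intro P hP
        rw [hχnf] at hP
        rcases Multiset.mem_add.mp hP with h | h
        · left
          exact Multiset.eq_of_mem_replicate h
        · right
          exact hRf P h
      · refine ⟨P₀, ?_, hP₀⟩
        rw [hχnf]
        apply Multiset.mem_add.mpr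
        right
        rw [hR, nf_mul' P₀ (pstar P₀) hP₀m (hT _ hsP₀).2.1, normalizedFactors_irreducible hP₀i,
          hP₀m.normalize_eq_self]
        exact Multiset.mem_add.mpr (Or.inl (Multiset.mem_singleton_self P₀))
    obtain ⟨x, hxr, hxns, hxc⟩ := exists_elt p hd r hr hr2 T hLT hTdvd _ hadm
    refine ⟨x.1, (Cfsg.Agent.Lib.Helper40.SympConj.mem_symp_iff _).mp x.2, hxr, hxns, ?_⟩
    intro y hys hyr hyc hnorm
    rw [hxc] at hyc
    have hχ' : y.charpoly = P₀ * ((X - C 1) ^ (2 * (d - i)) * pstar P₀) := by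
      rw [hyc, hR]
      ring
    have hPR : ¬ P₀ ∣ (X - C 1) ^ (2 * (d - i)) * pstar P₀ := by
      intro hdvd
      rcases hP₀i.prime.dvd_or_dvd hdvd with h | h
      · exact hnot1 (hP₀i.prime.dvd_of_dvd_pow h)
      · have h2 := eq_of_monic_of_associated hP₀m (hT _ hsP₀).2.1
          (hP₀i.associated_of_dvd (hT _ hsP₀).1 h)
        exact hne h2.symm
    by_cases hcomm : ∀ a, y * ι a = ι a * y
    · exact hki (hA y hyr _ hχ' hPR hcomm)
    · have hcop : IsCoprime P₀ (pstar P₀) := by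
        rw [hP₀i.coprime_iff_not_dvd]
        intro h
        have h2 := eq_of_monic_of_associated hP₀m (hT _ hsP₀).2.1
          (hP₀i.associated_of_dvd (hT _ hsP₀).1 h)
        exact hne h2.symm
      have hRg : R ∣ ∑ i ∈ Finset.range r, (X : F[X]) ^ i := by
        rw [hR]
        exact hcop.mul_dvd (hgeom P₀ hP₀) (hgeom _ hsP₀)
      obtain ⟨hrk, hbound⟩ := hNC y (2 * (d - i)) R hyr hyc hRg hnorm hcomm
      have h1 := finrank_ker y r hrF hyr P₀ _ hP₀i hP₀m hχ' hPR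
      have hχ'' : y.charpoly = pstar P₀ * ((X - C 1) ^ (2 * (d - i)) * P₀) := by
        rw [hyc, hR]
        ring
      have hPR' : ¬ pstar P₀ ∣ (X - C 1) ^ (2 * (d - i)) * P₀ := by
        intro hdvd
        have hsi := (hT _ hsP₀).1
        rcases hsi.prime.dvd_or_dvd hdvd with h | h
        · exact hnot1' _ hsP₀ (hsi.prime.dvd_of_dvd_pow h)
        · have h2 := eq_of_monic_of_associated (hT _ hsP₀).2.1 hP₀m
            (hsi.associated_of_dvd hP₀i h)
          exact hne h2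
      have h2 := finrank_ker y r hrF hyr (pstar P₀) _ (hT _ hsP₀).1 (hT _ hsP₀).2.1 hχ'' hPR'
      have h3 : Module.finrank F (LinearMap.ker (aeval (Matrix.toLin' y) R)) ≤ i + i := by
        rw [hR, ← Polynomial.sup_ker_aeval_eq_ker_aeval_mul_of_coprime (Matrix.toLin' y) hcop]
        have h4 := Submodule.finrank_add_le_finrank_add_finrank
          (LinearMap.ker (aeval (Matrix.toLin' y) P₀))
          (LinearMap.ker (aeval (Matrix.toLin' y) (pstar P₀)))
        rw [h1, h2, hP₀d, (hT _ hsP₀).2.2.1] at h4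
        exact h4
      have hre : Even (r - 1) := by
        obtain ⟨c, hc⟩ := hr.odd_of_ne_two hr2
        exact ⟨c, by omega⟩
      have h5 : Even (t' * i) := ht' ▸ hre
      rcases Nat.even_mul.mp h5 with h | h
      · obtain ⟨c, hc⟩ := h
        have hc1 : 1 ≤ c := by omega
        have h7 : 1 * i ≤ c * i := Nat.mul_le_mul_right i hc1
        have h8 : (c + c) * i = c * i + c * i := by ring
        rw [hc, h8] at ht'
        omega
      · exact absurd h (Nat.not_even_iff_odd.mpr hio)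

end odd

section back
variable {F : Type*} [Field F]

theorem mem_normalizer_of {n : Type} [Fintype n] [DecidableEq n]
    (K : Subalgebra F (Matrix n n F)) {L : Type*} [Field L] [Algebra F L]
    (ι : L →ₐ[F] Matrix n n F) (hιK : ∀ a, ι a ∈ K) (hKι : ∀ x ∈ K, ∃ a, ι a = x)
    (g : GL n F) (h1 : ∀ a, ∃ b, g.val * ι a = ι b * g.val)
    (h2 : ∀ b, ∃ a, g.val * ι a = ι b * g.val) : g ∈ Cfsg.Geo.subalgebraNormalizer K := by
  show ∀ k : Matrix n n F, k ∈ K ↔ g.val * k * (g⁻¹).val ∈ K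
  intro k
  constructor
  · intro hk
    obtain ⟨a, rfl⟩ := hKι k hk
    obtain ⟨b, hb⟩ := h1 a
    rw [hb, Matrix.mul_assoc, Units.mul_inv, Matrix.mul_one]
    exact hιK b
  · intro hk
    obtain ⟨b, hb⟩ := hKι _ hk
    obtain ⟨a, ha⟩ := h2 b
    have h3 : g.val * k * (g⁻¹).val = g.val * ι a * (g⁻¹).val := by
      rw [ha, Matrix.mul_assoc (ι b), Units.mul_inv, Matrix.mul_one, hb]
    have h4 := conj_cancel g k
    rw [h3, conj_cancel g (ι a)] at h4
    rw [← h4]
    exact hιK a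

theorem norm_of_mem {n : Type} [Fintype n] [DecidableEq n]
    (K : Subalgebra F (Matrix n n F)) {L : Type*} [Field L] [Algebra F L]
    (ι : L →ₐ[F] Matrix n n F) (hιK : ∀ a, ι a ∈ K) (hKι : ∀ x ∈ K, ∃ a, ι a = x)
    (g : GL n F) (hg : g ∈ Cfsg.Geo.subalgebraNormalizer K) :
    ∀ a, ∃ b, g.val * ι a = ι b * g.val := by
  intro a
  have h1 : g.val * ι a * (g⁻¹).val ∈ K := (hg (ι a)).mp (hιK a)
  obtain ⟨b, hb⟩ := hKι _ h1
  refine ⟨b, ?_⟩
  rw [hb, Matrix.mul_assoc, Units.inv_mul, Matrix.mul_one]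

theorem back_dir [Fintype F] [DecidableEq F] (h2 : (2 : F) ≠ 0)
    {L : Type*} [Field L] [Algebra F L] [Finite L] (hfr : Module.finrank F L = 2)
    (ι : L →ₐ[F] Matrix (Fin 2 ⊕ Fin 2) (Fin 2 ⊕ Fin 2) F)
    (hsa : ∀ a u v, Cfsg.sympForm 2 F (ι a *ᵥ u) v = Cfsg.sympForm 2 F u (ι a *ᵥ v))
    (halt : ∀ a v, Cfsg.sympForm 2 F (ι a *ᵥ v) v = 0)
    (x : Matrix (Fin 2 ⊕ Fin 2) (Fin 2 ⊕ Fin 2) F) (hx : sadj x * x = 1)
    (hxx : x * x = 1 ∨ x * x = -1) (hns : ∀ z : F, x ≠ z • 1) :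
    ∃ S Si : Matrix (Fin 2 ⊕ Fin 2) (Fin 2 ⊕ Fin 2) F, sadj Si * Si = 1 ∧ S * Si = 1 ∧
      Si * S = 1 ∧ (∀ a, ∃ b, (S * x * Si) * ι a = ι b * (S * x * Si)) ∧
      (∀ b, ∃ a, (S * x * Si) * ι a = ι b * (S * x * Si)) := by
  classical
  have h4 : ((4 : ℕ) : F) ≠ 0 := by
    have h3 : ((4 : ℕ) : F) = 2 * 2 := by norm_num
    rw [h3]
    exact mul_ne_zero h2 h2
  obtain ⟨a₁, ha₁⟩ := Algebra.trace_surjective F L (1 : F)
  have hτ : Algebra.trace F L ≠ 0 := by
    intro h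
    rw [h] at ha₁
    simp at ha₁
  obtain ⟨m, Φ, hΦ, hf⟩ := exists_coords ι hsa halt (Algebra.trace F L) hτ
  have hinj : Function.Injective ι :=
    (ι : L →+* Matrix (Fin 2 ⊕ Fin 2) (Fin 2 ⊕ Fin 2) F).injective
  have hx4 := pow4 x hxx
  have hfin : ∀ Y : Matrix (Fin 2 ⊕ Fin 2) (Fin 2 ⊕ Fin 2) F, sadj Y * Y = 1 → Y ^ 4 = 1 →
      x.charpoly = Y.charpoly → (∀ a, ∃ b, Y * ι a = ι b * Y) →
      (∀ b, ∃ a, Y * ι a = ι b * Y) →
      ∃ S Si : Matrix (Fin 2 ⊕ Fin 2) (Fin 2 ⊕ Fin 2) F, sadj Si * Si = 1 ∧ S * Si = 1 ∧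
        Si * S = 1 ∧ (∀ a, ∃ b, (S * x * Si) * ι a = ι b * (S * x * Si)) ∧
        (∀ b, ∃ a, (S * x * Si) * ι a = ι b * (S * x * Si)) := by
    intro Y hY hY4 hcp hn1 hn2
    obtain ⟨S, Si, hS, hSSi, hSiS, hSx⟩ := sp_conj_mat x Y hx hY 4 h4 hx4 hY4 hcp
    have hsS : sadj S = Si := by
      calc sadj S = sadj S * (S * Si) := by rw [hSSi, Matrix.mul_one]
        _ = Si := by rw [← Matrix.mul_assoc, hS, Matrix.one_mul]
    have hsSi : sadj Si = S := by rw [← hsS, sadj_sadj]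
    have hY' : S * x * Si = Y := by rw [hSx, Matrix.mul_assoc, hSSi, Matrix.mul_one]
    refine ⟨S, Si, by rw [hsSi, hSSi], hSSi, hSiS, ?_, ?_⟩
    · rw [hY']
      exact hn1
    · rw [hY']
      exact hn2
  rcases hxx with hxx1 | hxxm
  · have hc2 : Nat.card (L ≃ₐ[F] L) = 2 := by rw [IsGalois.card_aut_eq_finrank, hfr]
    obtain ⟨σ, hσ1, -⟩ := (Nat.card_eq_two_iff' (1 : L ≃ₐ[F] L)).mp hc2
    have hσσ : ∀ a, σ (σ a) = a := by
      intro a
      have h1 : σ ^ 2 = 1 := by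
        rw [← hc2]
        exact pow_card_eq_one'
      rw [pow_two] at h1
      rw [← AlgEquiv.mul_apply, h1, AlgEquiv.one_apply]
    have hτσ : ∀ a, Algebra.trace F L (σ a) = Algebra.trace F L a :=
      fun a => Algebra.trace_eq_of_algEquiv σ a
    have hYs := sig_symp Φ σ ι (Algebra.trace F L) hτσ hf
    have hYY := sig_sq Φ σ hσσ
    have hYc := sig_comm Φ σ ι hΦ
    have hY1 : sig Φ σ ≠ 1 := by
      intro h
      apply hσ1
      apply AlgEquiv.ext
      intro a
      have h3 := hYc a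
      rw [h, Matrix.one_mul, Matrix.mul_one] at h3
      rw [AlgEquiv.one_apply]
      exact (hinj h3).symm
    have hYm : sig Φ σ ≠ -1 := by
      intro h
      apply hσ1
      apply AlgEquiv.ext
      intro a
      have h3 := hYc a
      rw [h, Matrix.neg_mul, Matrix.mul_neg, Matrix.one_mul, Matrix.mul_one, neg_inj] at h3
      rw [AlgEquiv.one_apply]
      exact (hinj h3).symm
    have hx1 : x ≠ 1 := by
      intro h
      exact hns 1 (by rw [one_smul]; exact h)
    have hxm : x ≠ -1 := by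
      intro h
      exact hns (-1) (by rw [neg_smul, one_smul]; exact h)
    have hcpx := cp_invol4 h2 x hx hxx1 hx1 hxm
    have hcpY := cp_invol4 h2 (sig Φ σ) hYs hYY hY1 hYm
    exact hfin (sig Φ σ) hYs (pow4 _ (Or.inl hYY)) (by rw [hcpx, hcpY])
      (fun a => ⟨σ a, hYc a⟩) (fun b => ⟨σ b, by rw [hYc, hσσ]⟩)
  · have hYs := rho_symp Φ ι (Algebra.trace F L) hf (Matrix.J (Fin m) L)
      (_root_.SymplecticGroup.J_mem (Fin m) L)
    have hYY : rho Φ (Matrix.J (Fin m) L) * rho Φ (Matrix.J (Fin m) L) = -1 := by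
      rw [← rho_mul, Matrix.J_squared, rho_neg, rho_one]
    have hcpx := cp_neg h2 x hx hxxm
    have hcpY := cp_neg h2 (rho Φ (Matrix.J (Fin m) L)) hYs hYY
    exact hfin (rho Φ (Matrix.J (Fin m) L)) hYs (pow4 _ (Or.inr hYY)) (by rw [hcpx, hcpY])
      (fun a => ⟨a, rho_comm Φ ι hΦ _ a⟩) (fun b => ⟨b, rho_comm Φ ι hΦ _ b⟩)

end back

end Cfsg.Agent.Lib.Helper40.KOdd
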