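import Mathlib
import Cfsg.Prelude.Def_ClassicalGeometry
import Cfsg.Agent.Lib.Helper13.SympMat
import Cfsg.Agent.Lib.Helper40.SpTI

set_option autoImplicit false

namespace Cfsg.Agent.Lib.Helper40.NDPeel

open Module

universe u

section basic
variable {F : Type*} [Field F] {V : Type*} [AddCommGroup V] [Module F V]

/-- Nondegeneracy of a bilinear form on a subspace. -/
def ND (f : LinearMap.BilinForm F V) (W : Submodule F V) : Prop :=
  ∀ u ∈ W, u ≠ 0 → ∃ v ∈ W, f u v ≠ 0

theorem nd_bot (f : LinearMap.BilinForm F V) : ND f ⊥ := by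
  intro u hu hu0
  exact absurd ((Submodule.mem_bot F).mp hu) hu0

variable (f : LinearMap.BilinForm F V) (x : Module.End F V)

theorem id1 (hiso : ∀ u v, f (x u) (x v) = f u v) (u v : V) :
    f ((x - 1) u) v = -f (x u) ((x - 1) v) := by
  have h1 : (x - 1) u = x u - u := rfl
  have h2 : (x - 1) v = x v - v := rfl
  rw [h1, h2, map_sub, LinearMap.sub_apply, map_sub, hiso]
  ring

theorem comm_pow (j : ℕ) (u : V) : (x ^ j) ((x - 1) u) = (x - 1) ((x ^ j) u) := by
  have h1 : Commute (x ^ j) (x - 1) :=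
    (((Commute.refl x).sub_right (Commute.one_right x))).pow_left j
  have h2 := congrArg (fun φ : Module.End F V => φ u) h1.eq
  exact h2

theorem id2 (hiso : ∀ u v, f (x u) (x v) = f u v) (j : ℕ) :
    ∀ u v : V, f (((x - 1) ^ j) u) v = (-1) ^ j * f ((x ^ j) u) (((x - 1) ^ j) v) := by
  induction j with
  | zero =>
    intro u v
    simp
  | succ j ih =>
    intro u v
    have e1 : ((x - 1) ^ (j + 1)) u = ((x - 1) ^ j) ((x - 1) u) := by
      rw [pow_succ]
      rfl
    have e2 : ((x - 1) ^ (j + 1)) v = (x - 1) (((x - 1) ^ j) v) := by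
      rw [pow_succ']
      rfl
    have e3 : (x ^ (j + 1)) u = x ((x ^ j) u) := by
      rw [pow_succ']
      rfl
    rw [e1, ih, comm_pow, id1 f x hiso, e2, e3, pow_succ]
    ring

theorem pow_apply_add (j k : ℕ) (v : V) :
    ((x - 1) ^ j) (((x - 1) ^ k) v) = ((x - 1) ^ (j + k)) v := by
  rw [pow_add]
  rfl

theorem id3 (hiso : ∀ u v, f (x u) (x v) = f u v) (a : ℕ) (hN : (x - 1) ^ a = 0) (j k : ℕ)
    (hjk : a ≤ j + k) (u v : V) : f (((x - 1) ^ j) u) (((x - 1) ^ k) v) = 0 := by
  rw [id2 f x hiso, pow_apply_add, pow_eq_zero_of_le hjk hN]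
  simp

theorem id4 (hiso : ∀ u v, f (x u) (x v) = f u v) (a : ℕ) (ha : 1 ≤ a) (hN : (x - 1) ^ a = 0)
    (v : V) (j : ℕ) :
    ∀ w : V, f ((x ^ j) w) (((x - 1) ^ (a - 1)) v) = f w (((x - 1) ^ (a - 1)) v) := by
  induction j with
  | zero =>
    intro w
    simp
  | succ j ih =>
    intro w
    have e1 : (x ^ (j + 1)) w = (x ^ j) (x w) := by
      rw [pow_succ]
      rfl
    have e2 : x w = w + ((x - 1 : Module.End F V) ^ 1) w := by
      rw [pow_one]
      have h1 : (x - 1) w = x w - w := rfl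
      rw [h1]
      abel
    rw [e1, ih, e2, map_add, LinearMap.add_apply,
      id3 f x hiso a hN 1 (a - 1) (by omega), add_zero]

theorem id5 (hiso : ∀ u v, f (x u) (x v) = f u v) (a : ℕ) (hN : (x - 1) ^ a = 0) (j k : ℕ)
    (hjk : j + k + 1 = a) (u v : V) :
    f (((x - 1) ^ j) u) (((x - 1) ^ k) v) = (-1) ^ j * f u (((x - 1) ^ (a - 1)) v) := by
  have e : j + k = a - 1 := by omega
  rw [id2 f x hiso, pow_apply_add, e, id4 f x hiso a (by omega) hN]

theorem id6 (hA : f.IsAlt) (hiso : ∀ u v, f (x u) (x v) = f u v) (a : ℕ) (ha : 1 ≤ a)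
    (hN : (x - 1) ^ a = 0) (u v : V) :
    f v (((x - 1) ^ (a - 1)) u) = (-1) ^ a * f u (((x - 1) ^ (a - 1)) v) := by
  rw [← hA.neg_eq, id2 f x hiso, id4 f x hiso a ha hN]
  obtain ⟨b, rfl⟩ : ∃ b, a = b + 1 := ⟨a - 1, by omega⟩
  rw [Nat.add_sub_cancel, pow_succ]
  ring

/-- The span of the cyclic subspaces generated by a family with nonsingular Gram matrix is a
nondegenerate invariant subspace. -/
theorem cyc_span (hiso : ∀ u v, f (x u) (x v) = f u v) (a : ℕ) (ha : 1 ≤ a)
    (hN : (x - 1) ^ a = 0) {ι : Type*} [Fintype ι] (g : ι → V)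
    (hg : ∀ c : ι → F, c ≠ 0 → ∃ t, ∑ s, c s * f (g s) (((x - 1) ^ (a - 1)) (g t)) ≠ 0) :
    ∃ W : Submodule F V, ND f W ∧ (∀ w ∈ W, x w ∈ W) ∧ finrank F W = a * Fintype.card ι := by
  classical
  obtain ⟨fam, hfam⟩ : ∃ fam : Fin a × ι → V,
      fam = fun js => ((x - 1) ^ (js.1 : ℕ)) (g js.2) := ⟨_, rfl⟩
  have keyA : ∀ c : Fin a × ι → F, c ≠ 0 →
      ∃ t : Fin a × ι, f (∑ js, c js • fam js) (fam t) ≠ 0 := by
    intro c hc
    obtain ⟨js₀, hjs₀⟩ := Function.ne_iff.mp hc
    have hne : (Finset.univ.filter (fun j : Fin a => ∃ s, c (j, s) ≠ 0)).Nonempty :=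
      ⟨js₀.1, Finset.mem_filter.mpr ⟨Finset.mem_univ _, js₀.2, hjs₀⟩⟩
    obtain ⟨j₀, hj₀def⟩ : ∃ j₀, j₀ =
        (Finset.univ.filter (fun j : Fin a => ∃ s, c (j, s) ≠ 0)).min' hne := ⟨_, rfl⟩
    have hj₀mem : j₀ ∈ Finset.univ.filter (fun j : Fin a => ∃ s, c (j, s) ≠ 0) := by
      rw [hj₀def]
      exact Finset.min'_mem _ hne
    have hj₀ : ∃ s, c (j₀, s) ≠ 0 := (Finset.mem_filter.mp hj₀mem).2
    have hmin : ∀ j : Fin a, j < j₀ → ∀ s, c (j, s) = 0 := by
      intro j hj s
      by_contra hcon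
      have h1 : j ∈ Finset.univ.filter (fun j : Fin a => ∃ s, c (j, s) ≠ 0) :=
        Finset.mem_filter.mpr ⟨Finset.mem_univ _, s, hcon⟩
      have h2 := Finset.min'_le _ j h1
      rw [← hj₀def] at h2
      exact absurd hj (not_lt.mpr h2)
    have hc₀ : (fun s => c (j₀, s)) ≠ 0 := by
      obtain ⟨s, hs⟩ := hj₀
      intro h0
      exact hs (congrFun h0 s)
    obtain ⟨t, ht⟩ := hg _ hc₀
    have hk : a - 1 - (j₀ : ℕ) < a := by omega
    refine ⟨(⟨a - 1 - (j₀ : ℕ), hk⟩, t), ?_⟩
    have h1 : f (∑ js, c js • fam js) (fam (⟨a - 1 - (j₀ : ℕ), hk⟩, t)) =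
        (-1) ^ (j₀ : ℕ) * ∑ s, c (j₀, s) * f (g s) (((x - 1) ^ (a - 1)) (g t)) := by
      rw [map_sum, LinearMap.sum_apply, Fintype.sum_prod_type, Finset.sum_eq_single j₀]
      · rw [Finset.mul_sum]
        apply Finset.sum_congr rfl
        intro s _
        rw [map_smul, LinearMap.smul_apply, smul_eq_mul, hfam]
        show c (j₀, s) * f (((x - 1) ^ (j₀ : ℕ)) (g s)) (((x - 1) ^ (a - 1 - (j₀ : ℕ))) (g t)) = _
        rw [id5 f x hiso a hN (j₀ : ℕ) (a - 1 - (j₀ : ℕ)) (by omega)]
        ring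
      · intro j _ hj
        apply Finset.sum_eq_zero
        intro s _
        rw [map_smul, LinearMap.smul_apply, smul_eq_mul]
        rcases lt_or_gt_of_ne hj with hlt | hgt
        · rw [hmin j hlt s, zero_mul]
        · rw [hfam]
          show c (j, s) * f (((x - 1) ^ (j : ℕ)) (g s)) (((x - 1) ^ (a - 1 - (j₀ : ℕ))) (g t)) = _
          have hgt' : (j₀ : ℕ) < (j : ℕ) := hgt
          rw [id3 f x hiso a hN (j : ℕ) (a - 1 - (j₀ : ℕ)) (by omega), mul_zero]
      · intro h
        exact absurd (Finset.mem_univ _) h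
    rw [h1]
    exact mul_ne_zero (pow_ne_zero _ (neg_ne_zero.mpr one_ne_zero)) ht
  have keyB : LinearIndependent F fam := by
    rw [Fintype.linearIndependent_iff]
    intro c hc
    by_contra hcon
    have hc0 : c ≠ 0 := by
      intro h0
      apply hcon
      intro i
      rw [h0]
      rfl
    obtain ⟨t, ht⟩ := keyA c hc0
    rw [hc, map_zero, LinearMap.zero_apply] at ht
    exact ht rfl
  refine ⟨Submodule.span F (Set.range fam), ?_, ?_, ?_⟩
  · intro u hu hu0
    obtain ⟨c, hc⟩ := (Submodule.mem_span_range_iff_exists_fun F).mp hu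
    have hc0 : c ≠ 0 := by
      intro h0
      apply hu0
      rw [← hc, h0]
      simp
    obtain ⟨t, ht⟩ := keyA c hc0
    rw [hc] at ht
    exact ⟨fam t, Submodule.subset_span (Set.mem_range_self t), ht⟩
  · have hNW : ∀ w ∈ Submodule.span F (Set.range fam),
        (x - 1) w ∈ Submodule.span F (Set.range fam) := by
      intro w hw
      refine Submodule.span_induction ?_ ?_ ?_ ?_ hw
      · rintro _ ⟨⟨j, s⟩, rfl⟩
        rw [hfam]
        show (x - 1) (((x - 1) ^ (j : ℕ)) (g s)) ∈ _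
        have e1 : (x - 1) (((x - 1) ^ (j : ℕ)) (g s)) = ((x - 1) ^ ((j : ℕ) + 1)) (g s) := by
          rw [pow_succ']
          rfl
        rw [e1]
        by_cases hj : (j : ℕ) + 1 < a
        · apply Submodule.subset_span
          exact ⟨(⟨(j : ℕ) + 1, hj⟩, s), rfl⟩
        · have e2 : (j : ℕ) + 1 = a := by
            have := j.2
            omega
          rw [e2, hN]
          exact Submodule.zero_mem _
      · rw [map_zero]
        exact Submodule.zero_mem _
      · intro y z _ _ hy hz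
        rw [map_add]
        exact Submodule.add_mem _ hy hz
      · intro r y _ hy
        rw [map_smul]
        exact Submodule.smul_mem _ r hy
    intro w hw
    have e : x w = w + (x - 1) w := by
      have h1 : (x - 1) w = x w - w := rfl
      rw [h1]
      abel
    rw [e]
    exact Submodule.add_mem _ hw (hNW w hw)
  · rw [finrank_span_eq_card keyB, Fintype.card_prod, Fintype.card_fin]

/-- Peeling off a nondegenerate invariant subspace. -/
theorem peel [Nontrivial V] (hA : f.IsAlt) (hnd : ∀ u, (∀ v, f u v = 0) → u = 0)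
    (hiso : ∀ u v, f (x u) (x v) = f u v) (e : ℕ) (hNe : (x - 1) ^ e = 0) :
    ∃ a, 1 ≤ a ∧ a ≤ e ∧ (x - 1) ^ a = 0 ∧ (x - 1) ^ (a - 1) ≠ 0 ∧
      (((∃ u, f u (((x - 1) ^ (a - 1)) u) ≠ 0) ∧
        ∃ W : Submodule F V, ND f W ∧ (∀ w ∈ W, x w ∈ W) ∧ finrank F W = a) ∨
      ((∀ u, f u (((x - 1) ^ (a - 1)) u) = 0) ∧
        ∃ W : Submodule F V, ND f W ∧ (∀ w ∈ W, x w ∈ W) ∧ finrank F W = 2 * a)) := by
  classical
  have hex : ∃ a, (x - 1) ^ a = 0 := ⟨e, hNe⟩
  obtain ⟨a, hadef⟩ : ∃ a, a = Nat.find hex := ⟨_, rfl⟩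
  have hNa : (x - 1) ^ a = 0 := by
    rw [hadef]
    exact Nat.find_spec hex
  have hae : a ≤ e := by
    rw [hadef]
    exact Nat.find_min' hex hNe
  have ha1 : 1 ≤ a := by
    by_contra hcon
    have ha0 : a = 0 := by omega
    rw [ha0, pow_zero] at hNa
    obtain ⟨u, hu⟩ := exists_ne (0 : V)
    apply hu
    have h1 := congrArg (fun φ : Module.End F V => φ u) hNa
    exact h1
  have hNa' : (x - 1) ^ (a - 1) ≠ 0 := by
    have h1 : a - 1 < Nat.find hex := by
      rw [← hadef]
      omega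
    exact Nat.find_min hex h1
  obtain ⟨v₀, hv₀⟩ : ∃ v₀, ((x - 1) ^ (a - 1)) v₀ ≠ 0 := by
    by_contra hcon
    push Not at hcon
    apply hNa'
    apply LinearMap.ext
    intro v
    rw [hcon v]
    rfl
  obtain ⟨u₀, hu₀⟩ : ∃ u₀, f u₀ (((x - 1) ^ (a - 1)) v₀) ≠ 0 := by
    by_contra hcon
    push Not at hcon
    apply hv₀
    apply hnd
    intro v
    rw [← hA.neg_eq, hcon v, neg_zero]
  refine ⟨a, ha1, hae, hNa, hNa', ?_⟩
  by_cases h : ∃ u, f u (((x - 1) ^ (a - 1)) u) ≠ 0
  · left
    refine ⟨h, ?_⟩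
    obtain ⟨u, hu⟩ := h
    obtain ⟨W, hW1, hW2, hW3⟩ := cyc_span f x hiso a ha1 hNa (fun _ : Unit => u) (by
      intro c hc
      refine ⟨(), ?_⟩
      have hc' : c () ≠ 0 := by
        intro h0
        apply hc
        funext s
        exact h0
      simp only [Finset.univ_unique, Finset.sum_singleton]
      exact mul_ne_zero hc' hu)
    refine ⟨W, hW1, hW2, ?_⟩
    rw [hW3, Fintype.card_unit, mul_one]
  · right
    push Not at h
    refine ⟨h, ?_⟩
    have hvu : f v₀ (((x - 1) ^ (a - 1)) u₀) ≠ 0 := by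
      rw [id6 f x hA hiso a ha1 hNa]
      exact mul_ne_zero (pow_ne_zero _ (neg_ne_zero.mpr one_ne_zero)) hu₀
    obtain ⟨W, hW1, hW2, hW3⟩ := cyc_span f x hiso a ha1 hNa
      (fun b : Bool => if b then u₀ else v₀) (by
      intro c hc
      by_cases hct : c true = 0
      · have hcf : c false ≠ 0 := by
          intro h0
          apply hc
          funext s
          cases s
          · exact h0
          · exact hct
        refine ⟨true, ?_⟩
        rw [Fintype.sum_bool]
        simp only [if_true, Bool.false_eq_true, if_false]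
        rw [hct, zero_mul, zero_add]
        exact mul_ne_zero hcf hvu
      · refine ⟨false, ?_⟩
        rw [Fintype.sum_bool]
        simp only [if_true, Bool.false_eq_true, if_false]
        rw [h v₀, mul_zero, add_zero]
        exact mul_ne_zero hct hu₀)
    refine ⟨W, hW1, hW2, ?_⟩
    rw [hW3, Fintype.card_bool, mul_comm]

end basic

section decomp
variable {F : Type u} [Field F]

theorem nd_restrict {V : Type*} [AddCommGroup V] [Module F V] (f : LinearMap.BilinForm F V)
    (hA : f.IsAlt) (W : Submodule F V) (hW : ND f W) : (f.restrict W).Nondegenerate := by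
  constructor
  · intro w hw
    by_contra hne
    have hne' : (w : V) ≠ 0 := fun h => hne (Subtype.ext h)
    obtain ⟨y, hy, hy'⟩ := hW w w.2 hne'
    exact hy' (hw ⟨y, hy⟩)
  · intro w hw
    by_contra hne
    have hne' : (w : V) ≠ 0 := fun h => hne (Subtype.ext h)
    obtain ⟨y, hy, hy'⟩ := hW w w.2 hne'
    apply hy'
    rw [← hA.neg_eq]
    have h1 := hw ⟨y, hy⟩
    have h2 : f y (w : V) = 0 := h1
    rw [h2, neg_zero]

theorem nd_compl {V : Type*} [AddCommGroup V] [Module F V] [FiniteDimensional F V]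
    (f : LinearMap.BilinForm F V) (hA : f.IsAlt) (W : Submodule F V) (hW : ND f W) :
    IsCompl W (f.orthogonal W) :=
  LinearMap.BilinForm.isCompl_orthogonal_of_restrict_nondegenerate hA.isRefl
    (nd_restrict f hA W hW)

theorem nd_sup {V : Type*} [AddCommGroup V] [Module F V] (f : LinearMap.BilinForm F V)
    (hA : f.IsAlt) (W₁ W₂ : Submodule F V) (h1 : ND f W₁) (h2 : ND f W₂)
    (hle : W₂ ≤ f.orthogonal W₁) : ND f (W₁ ⊔ W₂) := by
  intro u hu hu0
  obtain ⟨u₁, hu₁, u₂, hu₂, rfl⟩ := Submodule.mem_sup.mp hu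
  have horth : ∀ a ∈ W₁, ∀ b ∈ W₂, f a b = 0 := by
    intro a ha b hb
    have := hle hb
    rw [LinearMap.BilinForm.mem_orthogonal_iff] at this
    exact this a ha
  by_cases h : u₁ = 0
  · have hu₂0 : u₂ ≠ 0 := by
      intro h0
      apply hu0
      rw [h, h0, add_zero]
    obtain ⟨v, hv, hv'⟩ := h2 u₂ hu₂ hu₂0
    refine ⟨v, Submodule.mem_sup_right hv, ?_⟩
    rw [map_add, LinearMap.add_apply, horth u₁ hu₁ v hv, zero_add]
    exact hv'
  · obtain ⟨v, hv, hv'⟩ := h1 u₁ hu₁ h
    refine ⟨v, Submodule.mem_sup_left hv, ?_⟩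
    rw [map_add, LinearMap.add_apply, ← hA.neg_eq v u₂, horth v hv u₂ hu₂, neg_zero, add_zero]
    exact hv'

/-- Generic decomposition into nondegenerate invariant pieces. -/
theorem decomp (e : ℕ) (P Good Q : Multiset ℕ → Prop)
    (hQ0 : Q 0) (hQ : ∀ π μ, P π → Q μ → Q (π + μ))
    (hcomb : ∀ π μ ν, P π → ν ≤ π + μ → Good ν → ν ≤ μ ∨ (π ≤ ν ∧ Good (ν - π)))
    (hpeel : ∀ (V : Type u) [AddCommGroup V] [Module F V] [FiniteDimensional F V]
      (f : LinearMap.BilinForm F V) (x : Module.End F V), f.IsAlt →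
      (∀ u, (∀ v, f u v = 0) → u = 0) → (∀ u v, f (x u) (x v) = f u v) → (x - 1) ^ e = 0 →
      Nontrivial V → ∃ π, P π ∧ 0 < π.sum ∧ ∃ W : Submodule F V, ND f W ∧ (∀ w ∈ W, x w ∈ W) ∧
        finrank F W = π.sum) :
    ∀ (n : ℕ) (V : Type u) [AddCommGroup V] [Module F V] [FiniteDimensional F V]
      (f : LinearMap.BilinForm F V) (x : Module.End F V), f.IsAlt →
      (∀ u, (∀ v, f u v = 0) → u = 0) → (∀ u v, f (x u) (x v) = f u v) → (x - 1) ^ e = 0 →
      finrank F V = n →
      ∃ μ : Multiset ℕ, Q μ ∧ μ.sum = n ∧ ∀ ν ≤ μ, Good ν →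
        ∃ W : Submodule F V, ND f W ∧ (∀ w ∈ W, x w ∈ W) ∧ finrank F W = ν.sum := by
  intro n
  induction n using Nat.strong_induction_on with
  | _ n ih =>
    intro V _ _ _ f x hA hnd hiso hNe hn
    by_cases hsub : Subsingleton V
    · have hn0 : n = 0 := by
        rw [← hn]
        exact finrank_zero_of_subsingleton
      refine ⟨0, hQ0, by rw [hn0, Multiset.sum_zero], ?_⟩
      intro ν hν _
      have hν0 : ν = 0 := Multiset.le_zero.mp hν
      refine ⟨⊥, nd_bot f, ?_, ?_⟩
      · intro w hw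
        rw [Submodule.mem_bot] at hw ⊢
        rw [hw, map_zero]
      · rw [finrank_bot, hν0, Multiset.sum_zero]
    · have hnt : Nontrivial V := not_subsingleton_iff_nontrivial.mp hsub
      obtain ⟨π, hPπ, hπpos, W₁, hW₁nd, hW₁x, hW₁d⟩ := hpeel V f x hA hnd hiso hNe hnt
      have hcompl : IsCompl W₁ (f.orthogonal W₁) := nd_compl f hA W₁ hW₁nd
      have hxinj : Function.Injective x := by
        rw [injective_iff_map_eq_zero]
        intro u hu
        apply hnd
        intro v
        rw [← hiso, hu, map_zero, LinearMap.zero_apply]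
      have hmap : W₁.map x = W₁ := by
        apply Submodule.eq_of_le_of_finrank_eq
        · rintro _ ⟨w, hw, rfl⟩
          exact hW₁x w hw
        · exact (LinearEquiv.finrank_eq (Submodule.equivMapOfInjective x hxinj W₁)).symm
      have hOx : ∀ v ∈ f.orthogonal W₁, x v ∈ f.orthogonal W₁ := by
        intro v hv
        rw [LinearMap.BilinForm.mem_orthogonal_iff] at hv ⊢
        intro w hw
        rw [← hmap] at hw
        obtain ⟨w', hw', rfl⟩ := hw
        show f (x w') (x v) = 0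
        rw [hiso]
        exact hv w' hw'
      obtain ⟨f', hf'⟩ : ∃ f' : LinearMap.BilinForm F ↥(f.orthogonal W₁),
          ∀ a b, f' a b = f (a : V) (b : V) := ⟨f.restrict _, fun a b => rfl⟩
      obtain ⟨x', hx'⟩ : ∃ x' : Module.End F ↥(f.orthogonal W₁),
          ∀ a, ((x' a : ↥(f.orthogonal W₁)) : V) = x (a : V) := ⟨x.restrict hOx, fun a => rfl⟩
      have hA' : f'.IsAlt := by
        intro a
        rw [hf']
        exact hA _
      have hnd' : ∀ u, (∀ v, f' u v = 0) → u = 0 := by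
        intro u hu
        apply Subtype.ext
        apply hnd
        intro v
        have hv : v ∈ W₁ ⊔ f.orthogonal W₁ := by
          rw [hcompl.sup_eq_top]
          exact Submodule.mem_top
        obtain ⟨v₁, hv₁, v₂, hv₂, rfl⟩ := Submodule.mem_sup.mp hv
        rw [map_add]
        have e1 : f (u : V) v₁ = 0 := by
          rw [← hA.neg_eq]
          have := u.2
          rw [LinearMap.BilinForm.mem_orthogonal_iff] at this
          have h3 : f v₁ (u : V) = 0 := this v₁ hv₁
          rw [h3, neg_zero]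
        have e2 : f (u : V) v₂ = 0 := by
          have := hu ⟨v₂, hv₂⟩
          rwa [hf'] at this
        rw [e1, e2, add_zero]
      have hiso' : ∀ a b, f' (x' a) (x' b) = f' a b := by
        intro a b
        rw [hf', hx', hx', hiso, hf']
      have hpow : ∀ (k : ℕ) (a : ↥(f.orthogonal W₁)),
          ((((x' - 1) ^ k) a : ↥(f.orthogonal W₁)) : V) = ((x - 1) ^ k) (a : V) := by
        intro k
        induction k with
        | zero =>
          intro a
          simp
        | succ k ihk =>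
          intro a
          have e1 : ((x' - 1) ^ (k + 1)) a = (x' - 1) (((x' - 1) ^ k) a) := by
            rw [pow_succ']
            rfl
          have e2 : ((x - 1) ^ (k + 1)) (a : V) = (x - 1) (((x - 1) ^ k) (a : V)) := by
            rw [pow_succ']
            rfl
          have e3 : ∀ b : ↥(f.orthogonal W₁),
              (((x' - 1) b : ↥(f.orthogonal W₁)) : V) = (x - 1) (b : V) := by
            intro b
            have h1 : (x' - 1) b = x' b - b := rfl
            have h2 : (x - 1) (b : V) = x (b : V) - b := rfl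
            rw [h1, h2, Submodule.coe_sub, hx']
          rw [e1, e2, e3, ihk]
      have hNe' : (x' - 1) ^ e = 0 := by
        apply LinearMap.ext
        intro a
        apply Subtype.ext
        rw [hpow, hNe]
        rfl
      have hdim := Submodule.finrank_add_eq_of_isCompl hcompl
      obtain ⟨μ', hQμ', hμ'sum, hμ'⟩ := ih (finrank F ↥(f.orthogonal W₁)) (by omega)
        ↥(f.orthogonal W₁) f' x' hA' hnd' hiso' hNe' rfl
      have hndmap : ∀ W' : Submodule F ↥(f.orthogonal W₁), ND f' W' →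
          ND f (W'.map (f.orthogonal W₁).subtype) := by
        intro W' hW'
        rintro _ ⟨u', hu', rfl⟩ hu0
        have hu0' : u' ≠ 0 := by
          intro h0
          apply hu0
          rw [h0]
          rfl
        obtain ⟨v', hv', hv''⟩ := hW' u' hu' hu0'
        refine ⟨v', Submodule.mem_map_of_mem hv', ?_⟩
        rw [hf'] at hv''
        exact hv''
      have hxmap : ∀ W' : Submodule F ↥(f.orthogonal W₁), (∀ w ∈ W', x' w ∈ W') →
          ∀ w ∈ W'.map (f.orthogonal W₁).subtype, x w ∈ W'.map (f.orthogonal W₁).subtype := by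
        intro W' hW'
        rintro _ ⟨u', hu', rfl⟩
        exact ⟨x' u', hW' u' hu', hx' u'⟩
      refine ⟨π + μ', hQ π μ' hPπ hQμ', by rw [Multiset.sum_add, hμ'sum]; omega, ?_⟩
      intro ν hν hGν
      rcases hcomb π μ' ν hPπ hν hGν with h | ⟨h1, h2⟩
      · obtain ⟨W', hW'nd, hW'x, hW'd⟩ := hμ' ν h hGν
        refine ⟨W'.map (f.orthogonal W₁).subtype, hndmap W' hW'nd, hxmap W' hW'x, ?_⟩
        rw [Submodule.finrank_map_subtype_eq, hW'd]
      · have h3 : ν - π ≤ μ' := tsub_le_iff_left.mpr hν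
        obtain ⟨W', hW'nd, hW'x, hW'd⟩ := hμ' (ν - π) h3 h2
        have hle : W'.map (f.orthogonal W₁).subtype ≤ f.orthogonal W₁ := by
          rintro _ ⟨u', _, rfl⟩
          exact u'.2
        refine ⟨W₁ ⊔ W'.map (f.orthogonal W₁).subtype,
          nd_sup f hA _ _ hW₁nd (hndmap W' hW'nd) hle, ?_, ?_⟩
        · intro w hw
          obtain ⟨w₁, hw₁, w₂, hw₂, rfl⟩ := Submodule.mem_sup.mp hw
          rw [map_add]
          exact Submodule.add_mem _ (Submodule.mem_sup_left (hW₁x w₁ hw₁))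
            (Submodule.mem_sup_right (hxmap W' hW'x w₂ hw₂))
        · have hinf : W₁ ⊓ W'.map (f.orthogonal W₁).subtype = ⊥ := by
            apply le_antisymm _ bot_le
            rw [← hcompl.inf_eq_bot]
            exact inf_le_inf_left _ hle
          have h4 := Submodule.finrank_sup_add_finrank_inf_eq W₁
            (W'.map (f.orthogonal W₁).subtype)
          rw [hinf, finrank_bot, add_zero, Submodule.finrank_map_subtype_eq, hW'd, hW₁d] at h4
          rw [h4, ← Multiset.sum_add, add_tsub_cancel_of_le h1]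

/-- The decomposition for symplectic matrices. -/
theorem decomp_symp (e : ℕ) (P Good Q : Multiset ℕ → Prop)
    (hQ0 : Q 0) (hQ : ∀ π μ, P π → Q μ → Q (π + μ))
    (hcomb : ∀ π μ ν, P π → ν ≤ π + μ → Good ν → ν ≤ μ ∨ (π ≤ ν ∧ Good (ν - π)))
    (hpeel : ∀ (V : Type u) [AddCommGroup V] [Module F V] [FiniteDimensional F V]
      (f : LinearMap.BilinForm F V) (x : Module.End F V), f.IsAlt →
      (∀ u, (∀ v, f u v = 0) → u = 0) → (∀ u v, f (x u) (x v) = f u v) → (x - 1) ^ e = 0 →
      Nontrivial V → ∃ π, P π ∧ 0 < π.sum ∧ ∃ W : Submodule F V, ND f W ∧ (∀ w ∈ W, x w ∈ W) ∧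
        finrank F W = π.sum)
    {d : ℕ} (A : Matrix (Fin d ⊕ Fin d) (Fin d ⊕ Fin d) F)
    (hA : A ∈ Matrix.symplecticGroup (Fin d) F) (hAe : (A - 1) ^ e = 0) :
    ∃ μ : Multiset ℕ, Q μ ∧ μ.sum = 2 * d ∧ ∀ ν ≤ μ, Good ν →
      ∃ W : Submodule F (Fin d ⊕ Fin d → F), finrank F W = ν.sum ∧
        (∀ u ∈ W, u ≠ 0 → ∃ v ∈ W, Cfsg.sympForm d F u v ≠ 0) ∧
        W.map (Matrix.toLin' A) ≤ W := by
  have hfin : finrank F (Fin d ⊕ Fin d → F) = 2 * d := by
    rw [Module.finrank_pi, Fintype.card_sum, Fintype.card_fin]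
    ring
  have hNe : (Matrix.toLin' A - 1) ^ e = 0 := by
    have h1 : Matrix.toLin' A - 1 = Matrix.toLin' (A - 1) := by
      rw [map_sub, Matrix.toLin'_one]
      rfl
    rw [h1, ← Matrix.toLin'_pow, hAe, map_zero]
  obtain ⟨μ, hQμ, hsum, hμ⟩ := decomp e P Good Q hQ0 hQ hcomb hpeel (2 * d)
    (Fin d ⊕ Fin d → F) (Cfsg.Agent.Lib.Helper13.SympMat.form d F) (Matrix.toLin' A)
    (Cfsg.Agent.Lib.Helper13.SympMat.form_alt d)
    (Cfsg.Agent.Lib.Helper13.SympMat.form_nondeg (F := F) d).1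
    (Cfsg.Agent.Lib.Helper40.SpTI.form_isometry A hA) hNe hfin
  refine ⟨μ, hQμ, hsum, ?_⟩
  intro ν hν hG
  obtain ⟨W, hW1, hW2, hW3⟩ := hμ ν hν hG
  refine ⟨W, hW3, ?_, ?_⟩
  · intro u hu hu0
    obtain ⟨v, hv, hv'⟩ := hW1 u hu hu0
    rw [Cfsg.Agent.Lib.Helper13.SympMat.form_apply] at hv'
    exact ⟨v, hv, hv'⟩
  · rintro _ ⟨w, hw, rfl⟩
    exact hW2 w hw

end decomp

section apps
variable {F : Type u} [Field F]

/-- Peeling in odd characteristic: a single even block or a pair of odd blocks. -/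
theorem peel_odd (h2 : (2 : F) ≠ 0) (e : ℕ) :
    ∀ (V : Type u) [AddCommGroup V] [Module F V] [FiniteDimensional F V]
      (f : LinearMap.BilinForm F V) (x : Module.End F V), f.IsAlt →
      (∀ u, (∀ v, f u v = 0) → u = 0) → (∀ u v, f (x u) (x v) = f u v) → (x - 1) ^ e = 0 →
      Nontrivial V → ∃ π : Multiset ℕ, (∃ a, 0 < a ∧ a ≤ e ∧
        ((Even a ∧ π = {a}) ∨ (Odd a ∧ π = Multiset.replicate 2 a))) ∧ 0 < π.sum ∧
        ∃ W : Submodule F V, ND f W ∧ (∀ w ∈ W, x w ∈ W) ∧ finrank F W = π.sum := by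
  intro V _ _ _ f x hA hnd hiso hNe hnt
  obtain ⟨a, ha1, hae, hNa, hNa', h⟩ := peel f x hA hnd hiso e hNe
  rcases h with ⟨⟨u, hu⟩, W, hW1, hW2, hW3⟩ | ⟨hall, W, hW1, hW2, hW3⟩
  · have hev : Even a := by
      by_contra hodd
      rw [Nat.not_even_iff_odd] at hodd
      have h1 := id6 f x hA hiso a ha1 hNa u u
      rw [Odd.neg_one_pow hodd] at h1
      have h3 : (2 : F) * f u (((x - 1) ^ (a - 1)) u) = 0 := by linear_combination h1
      rcases mul_eq_zero.mp h3 with h | h
      · exact h2 h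
      · exact hu h
    refine ⟨{a}, ⟨a, by omega, hae, Or.inl ⟨hev, rfl⟩⟩, by rw [Multiset.sum_singleton]; omega,
      W, hW1, hW2, by rw [hW3, Multiset.sum_singleton]⟩
  · have hodd : Odd a := by
      by_contra heven
      rw [Nat.not_odd_iff_even] at heven
      apply hNa'
      apply LinearMap.ext
      intro v
      rw [LinearMap.zero_apply]
      apply hnd
      intro w
      rw [← hA.neg_eq]
      have h1 := hall (w + v)
      simp only [map_add, LinearMap.add_apply] at h1
      rw [hall w, hall v] at h1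
      have h3 := id6 f x hA hiso a ha1 hNa w v
      rw [Even.neg_one_pow heven, one_mul] at h3
      have h4 : (2 : F) * f w (((x - 1) ^ (a - 1)) v) = 0 := by linear_combination h1 - h3
      rcases mul_eq_zero.mp h4 with h | h
      · exact absurd h h2
      · rw [h, neg_zero]
    refine ⟨Multiset.replicate 2 a, ⟨a, by omega, hae, Or.inr ⟨hodd, rfl⟩⟩, ?_, W, hW1, hW2, ?_⟩
    · rw [Multiset.sum_replicate, smul_eq_mul]
      omega
    · rw [hW3, Multiset.sum_replicate, smul_eq_mul]

/-- Unipotent symplectic matrices in odd characteristic: a multiset of block sizes all of whose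
good sub-multisets are realised by invariant nondegenerate subspaces. -/
theorem unip_odd (h2 : (2 : F) ≠ 0) (e : ℕ) {d : ℕ}
    (A : Matrix (Fin d ⊕ Fin d) (Fin d ⊕ Fin d) F)
    (hA : A ∈ Matrix.symplecticGroup (Fin d) F) (hAe : (A - 1) ^ e = 0) :
    ∃ μ : Multiset ℕ, (∀ a ∈ μ, 0 < a ∧ a ≤ e) ∧ (∀ a, Odd a → Even (μ.count a)) ∧
      μ.sum = 2 * d ∧ ∀ ν ≤ μ, (∀ a, Odd a → Even (ν.count a)) →
      ∃ W : Submodule F (Fin d ⊕ Fin d → F), finrank F W = ν.sum ∧
        (∀ u ∈ W, u ≠ 0 → ∃ v ∈ W, Cfsg.sympForm d F u v ≠ 0) ∧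
        W.map (Matrix.toLin' A) ≤ W := by
  obtain ⟨μ, ⟨hQ1, hQ2⟩, hsum, hμ⟩ := decomp_symp e
    (fun π => ∃ a, 0 < a ∧ a ≤ e ∧ ((Even a ∧ π = {a}) ∨ (Odd a ∧ π = Multiset.replicate 2 a)))
    (fun ν => ∀ a, Odd a → Even (ν.count a))
    (fun μ => (∀ a ∈ μ, 0 < a ∧ a ≤ e) ∧ (∀ a, Odd a → Even (μ.count a)))
    ⟨fun a ha => absurd ha (Multiset.notMem_zero a), fun a _ => by
      rw [Multiset.count_zero]
      exact Even.zero⟩
    (by
      rintro π μ ⟨a, ha0, hae, h | h⟩ ⟨hμ1, hμ2⟩
      · obtain ⟨hev, rfl⟩ := h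
        refine ⟨?_, ?_⟩
        · intro b hb
          rw [Multiset.mem_add, Multiset.mem_singleton] at hb
          rcases hb with rfl | hb
          · exact ⟨ha0, hae⟩
          · exact hμ1 b hb
        · intro b hb
          have hne : b ≠ a := by
            rintro rfl
            exact (Nat.not_even_iff_odd.mpr hb) hev
          rw [Multiset.count_add, Multiset.count_singleton, if_neg hne, zero_add]
          exact hμ2 b hb
      · obtain ⟨hodd, rfl⟩ := h
        refine ⟨?_, ?_⟩
        · intro b hb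
          rw [Multiset.mem_add] at hb
          rcases hb with hb | hb
          · rw [Multiset.eq_of_mem_replicate hb]
            exact ⟨ha0, hae⟩
          · exact hμ1 b hb
        · intro b hb
          rw [Multiset.count_add, Multiset.count_replicate]
          split_ifs
          · exact even_two.add (hμ2 b hb)
          · rw [zero_add]
            exact hμ2 b hb)
    (by
      rintro π μ ν ⟨a, ha0, hae, h | h⟩ hν hG
      · obtain ⟨hev, rfl⟩ := h
        by_cases hmem : a ∈ ν
        · right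
          refine ⟨Multiset.singleton_le.mpr hmem, ?_⟩
          intro b hb
          have hne : b ≠ a := by
            rintro rfl
            exact (Nat.not_even_iff_odd.mpr hb) hev
          rw [Multiset.count_sub, Multiset.count_singleton, if_neg hne, Nat.sub_zero]
          exact hG b hb
        · left
          rw [Multiset.singleton_add] at hν
          exact (Multiset.le_cons_of_notMem hmem).mp hν
      · obtain ⟨hodd, rfl⟩ := h
        by_cases hmem : a ∈ ν
        · right
          have h1 : 1 ≤ ν.count a := Multiset.one_le_count_iff_mem.mpr hmem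
          have h2' : 2 ≤ ν.count a := by
            obtain ⟨r, hr⟩ := hG a hodd
            omega
          refine ⟨Multiset.le_count_iff_replicate_le.mp h2', ?_⟩
          intro b hb
          rw [Multiset.count_sub, Multiset.count_replicate]
          obtain ⟨r, hr⟩ := hG b hb
          split_ifs with hba
          · subst hba
            exact ⟨r - 1, by omega⟩
          · rw [Nat.sub_zero]
            exact hG b hb
        · left
          have e1 : Multiset.replicate 2 a + μ = a ::ₘ a ::ₘ μ := by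
            rw [show Multiset.replicate 2 a = a ::ₘ a ::ₘ 0 from rfl, Multiset.cons_add,
              Multiset.cons_add, zero_add]
          rw [e1] at hν
          exact (Multiset.le_cons_of_notMem hmem).mp ((Multiset.le_cons_of_notMem hmem).mp hν))
    (peel_odd h2 e) A hA hAe
  exact ⟨μ, hQ1, hQ2, hsum, hμ⟩

/-- Peeling for `(x - 1)^2 = 0`: pieces of dimension `2` or `4`. -/
theorem peel_two :
    ∀ (V : Type u) [AddCommGroup V] [Module F V] [FiniteDimensional F V]
      (f : LinearMap.BilinForm F V) (x : Module.End F V), f.IsAlt →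
      (∀ u, (∀ v, f u v = 0) → u = 0) → (∀ u v, f (x u) (x v) = f u v) → (x - 1) ^ 2 = 0 →
      Nontrivial V → ∃ π : Multiset ℕ, (π = {2} ∨ π = {4}) ∧ 0 < π.sum ∧
        ∃ W : Submodule F V, ND f W ∧ (∀ w ∈ W, x w ∈ W) ∧ finrank F W = π.sum := by
  intro V _ _ _ f x hA hnd hiso hNe hnt
  obtain ⟨a, ha1, hae, hNa, hNa', h⟩ := peel f x hA hnd hiso 2 hNe
  rcases h with ⟨⟨u, hu⟩, W, hW1, hW2, hW3⟩ | ⟨hall, W, hW1, hW2, hW3⟩
  · have ha2 : a = 2 := by
      by_contra hne
      have ha : a = 1 := by omega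
      apply hu
      rw [ha]
      exact hA u
    refine ⟨{2}, Or.inl rfl, by rw [Multiset.sum_singleton]; omega, W, hW1, hW2, ?_⟩
    rw [hW3, Multiset.sum_singleton, ha2]
  · have ha : a = 1 ∨ a = 2 := by omega
    rcases ha with ha | ha
    · refine ⟨{2}, Or.inl rfl, by rw [Multiset.sum_singleton]; omega, W, hW1, hW2, ?_⟩
      rw [hW3, Multiset.sum_singleton, ha]
    · refine ⟨{4}, Or.inr rfl, by rw [Multiset.sum_singleton]; omega, W, hW1, hW2, ?_⟩
      rw [hW3, Multiset.sum_singleton, ha]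

/-- Symplectic matrices with `(A - 1)^2 = 0`: invariant nondegenerate subspaces. -/
theorem invol_fix {d : ℕ} (A : Matrix (Fin d ⊕ Fin d) (Fin d ⊕ Fin d) F)
    (hA : A ∈ Matrix.symplecticGroup (Fin d) F) (hA2 : (A - 1) ^ 2 = 0) (m : ℕ)
    (hm : m ≤ 2 * d) (hme : Even m) (hcond : (2 * d) % 4 = 2 ∨ m % 4 = 0) :
    ∃ W : Submodule F (Fin d ⊕ Fin d → F), finrank F W = m ∧
      (∀ u ∈ W, u ≠ 0 → ∃ v ∈ W, Cfsg.sympForm d F u v ≠ 0) ∧
      W.map (Matrix.toLin' A) ≤ W := by
  obtain ⟨μ, hμ1, hsum, hμ⟩ := decomp_symp 2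
    (fun π => π = {2} ∨ π = {4}) (fun _ => True) (fun μ => ∀ a ∈ μ, a = 2 ∨ a = 4)
    (fun a ha => absurd ha (Multiset.notMem_zero a))
    (by
      rintro π μ (rfl | rfl) hμ b hb
      · rw [Multiset.mem_add, Multiset.mem_singleton] at hb
        rcases hb with rfl | hb
        · exact Or.inl rfl
        · exact hμ b hb
      · rw [Multiset.mem_add, Multiset.mem_singleton] at hb
        rcases hb with rfl | hb
        · exact Or.inr rfl
        · exact hμ b hb)
    (by
      rintro π μ ν (rfl | rfl) hν -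
      · by_cases hmem : 2 ∈ ν
        · exact Or.inr ⟨Multiset.singleton_le.mpr hmem, trivial⟩
        · left
          rw [Multiset.singleton_add] at hν
          exact (Multiset.le_cons_of_notMem hmem).mp hν
      · by_cases hmem : 4 ∈ ν
        · exact Or.inr ⟨Multiset.singleton_le.mpr hmem, trivial⟩
        · left
          rw [Multiset.singleton_add] at hν
          exact (Multiset.le_cons_of_notMem hmem).mp hν)
    peel_two A hA hA2
  have hμeq : μ = Multiset.replicate (μ.count 2) 2 + Multiset.replicate (μ.count 4) 4 := by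
    ext a
    rw [Multiset.count_add, Multiset.count_replicate, Multiset.count_replicate]
    by_cases h2 : a = 2
    · subst h2
      simp
    · by_cases h4 : a = 4
      · subst h4
        simp
      · rw [if_neg (Ne.symm h2), if_neg (Ne.symm h4)]
        exact Multiset.count_eq_zero_of_notMem (fun hmem => by
          rcases hμ1 a hmem with h | h
          · exact h2 h
          · exact h4 h)
  have hsum' : 2 * μ.count 2 + 4 * μ.count 4 = 2 * d := by
    have h1 := congrArg Multiset.sum hμeq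
    rw [Multiset.sum_add, Multiset.sum_replicate, Multiset.sum_replicate, smul_eq_mul,
      smul_eq_mul, hsum] at h1
    omega
  obtain ⟨t₂, ht₂⟩ : ∃ t₂, t₂ = μ.count 2 := ⟨_, rfl⟩
  obtain ⟨t₄, ht₄⟩ : ∃ t₄, t₄ = μ.count 4 := ⟨_, rfl⟩
  rw [← ht₂, ← ht₄] at hsum' hμeq
  obtain ⟨r, hr⟩ := hme
  obtain ⟨j, k, hj, hk, hjk⟩ : ∃ j k : ℕ, j ≤ t₄ ∧ k ≤ t₂ ∧ 2 * k + 4 * j = m := by
    by_cases hc : m / 4 ≤ t₄
    · exact ⟨m / 4, (m - 4 * (m / 4)) / 2, hc, by omega, by omega⟩
    · exact ⟨t₄, (m - 4 * t₄) / 2, le_refl _, by omega, by omega⟩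
  have hνle : Multiset.replicate k 2 + Multiset.replicate j 4 ≤ μ := by
    rw [hμeq]
    exact add_le_add ((Multiset.replicate_le_replicate 2).mpr hk)
      ((Multiset.replicate_le_replicate 4).mpr hj)
  obtain ⟨W, hW1, hW2, hW3⟩ := hμ _ hνle trivial
  refine ⟨W, ?_, hW2, hW3⟩
  rw [hW1, Multiset.sum_add, Multiset.sum_replicate, Multiset.sum_replicate, smul_eq_mul,
    smul_eq_mul]
  omega

end apps

end Cfsg.Agent.Lib.Helper40.NDPeel
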