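import Mathlib
import Cfsg.Prelude.Def_ClassicalGeometry
import Cfsg.Agent.Lib.Helper13.SympMat
import Cfsg.Agent.Lib.Helper40.NDPeel

set_option autoImplicit false

namespace Cfsg.Agent.Lib.Helper40.NDCount

open Module Cfsg.Agent.Lib.Helper13.SympMat Cfsg.Agent.Lib.Helper40.NDPeel

section
variable {F : Type*} [Field F] [Fintype F] {V : Type*} [AddCommGroup V] [Module F V] [Finite V]

/-- Hyperbolic frames of length `k` inside a subspace `U`. -/
abbrev HF (B : LinearMap.BilinForm F V) (U : Submodule F V) (k : ℕ) : Type _ :=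
  {s : Fin k → V × V // (∀ a, (s a).1 ∈ U ∧ (s a).2 ∈ U ∧ B (s a).1 (s a).2 = 1) ∧
    ∀ a b, a ≠ b → (B (s a).1 (s b).1 = 0 ∧ B (s a).1 (s b).2 = 0 ∧ B (s a).2 (s b).2 = 0)}

/-- The family of vectors of a frame. -/
def fam {k : ℕ} (s : Fin k → V × V) : Fin k ⊕ Fin k → V :=
  Sum.elim (fun a => (s a).1) (fun a => (s a).2)

omit [Fintype F] [Finite V] in
theorem gram (B : LinearMap.BilinForm F V) (hA : B.IsAlt) {k : ℕ} (s : Fin k → V × V)
    (h1 : ∀ a, B (s a).1 (s a).2 = 1)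
    (h2 : ∀ a b, a ≠ b →
      (B (s a).1 (s b).1 = 0 ∧ B (s a).1 (s b).2 = 0 ∧ B (s a).2 (s b).2 = 0))
    (c : Fin k ⊕ Fin k → F) (a : Fin k) :
    B (∑ i, c i • fam s i) (s a).2 = c (Sum.inl a) ∧
      B (∑ i, c i • fam s i) (s a).1 = -c (Sum.inr a) := by
  classical
  have e1 : ∀ w : V, B (∑ i, c i • fam s i) w =
      ∑ b, c (Sum.inl b) * B (s b).1 w + ∑ b, c (Sum.inr b) * B (s b).2 w := by
    intro w
    simp only [map_sum, LinearMap.sum_apply, map_smul, LinearMap.smul_apply, smul_eq_mul,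
      Fintype.sum_sum_type, fam, Sum.elim_inl, Sum.elim_inr, map_add, LinearMap.add_apply]
  constructor
  · rw [e1, Finset.sum_eq_single a (fun b _ hb => by rw [(h2 b a hb).2.1, mul_zero])
      (fun h => absurd (Finset.mem_univ a) h), h1, mul_one,
      Finset.sum_eq_zero (fun b _ => by
        by_cases hb : b = a
        · subst hb
          rw [hA, mul_zero]
        · rw [(h2 b a hb).2.2, mul_zero]), add_zero]
  · rw [e1, Finset.sum_eq_zero (fun b _ => by
        by_cases hb : b = a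
        · subst hb
          rw [hA, mul_zero]
        · rw [(h2 b a hb).1, mul_zero]), zero_add,
      Finset.sum_eq_single a (fun b _ hb => by
        rw [← hA.neg_eq, (h2 a b (Ne.symm hb)).2.1, neg_zero, mul_zero])
      (fun h => absurd (Finset.mem_univ a) h), ← hA.neg_eq, h1, mul_neg, mul_one]

omit [Fintype F] [Finite V] in
theorem frame_li (B : LinearMap.BilinForm F V) (hA : B.IsAlt) {k : ℕ} (s : Fin k → V × V)
    (h1 : ∀ a, B (s a).1 (s a).2 = 1)
    (h2 : ∀ a b, a ≠ b →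
      (B (s a).1 (s b).1 = 0 ∧ B (s a).1 (s b).2 = 0 ∧ B (s a).2 (s b).2 = 0)) :
    LinearIndependent F (fam s) := by
  rw [Fintype.linearIndependent_iff]
  intro c hc i
  rcases i with a | a
  · have h := (gram B hA s h1 h2 c a).1
    rw [hc, map_zero, LinearMap.zero_apply] at h
    exact h.symm
  · have h := (gram B hA s h1 h2 c a).2
    rw [hc, map_zero, LinearMap.zero_apply] at h
    exact neg_eq_zero.mp h.symm

omit [Fintype F] [Finite V] in
theorem frame_nd (B : LinearMap.BilinForm F V) (hA : B.IsAlt) {k : ℕ} (s : Fin k → V × V)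
    (h1 : ∀ a, B (s a).1 (s a).2 = 1)
    (h2 : ∀ a b, a ≠ b →
      (B (s a).1 (s b).1 = 0 ∧ B (s a).1 (s b).2 = 0 ∧ B (s a).2 (s b).2 = 0)) :
    ND B (Submodule.span F (Set.range (fam s))) := by
  intro u hu hu0
  obtain ⟨c, hc⟩ := (Submodule.mem_span_range_iff_exists_fun F).mp hu
  have hc0 : c ≠ 0 := by
    intro h0
    apply hu0
    rw [← hc, h0]
    simp
  obtain ⟨i, hi⟩ := Function.ne_iff.mp hc0
  rcases i with a | a
  · refine ⟨(s a).2, Submodule.subset_span ⟨Sum.inr a, rfl⟩, ?_⟩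
    rw [← hc, (gram B hA s h1 h2 c a).1]
    exact hi
  · refine ⟨(s a).1, Submodule.subset_span ⟨Sum.inl a, rfl⟩, ?_⟩
    rw [← hc, (gram B hA s h1 h2 c a).2]
    exact neg_ne_zero.mpr hi

omit [Fintype F] [Finite V] in
theorem frame_finrank (B : LinearMap.BilinForm F V) (hA : B.IsAlt) {k : ℕ} (s : Fin k → V × V)
    (h1 : ∀ a, B (s a).1 (s a).2 = 1)
    (h2 : ∀ a b, a ≠ b →
      (B (s a).1 (s b).1 = 0 ∧ B (s a).1 (s b).2 = 0 ∧ B (s a).2 (s b).2 = 0)) :
    finrank F (Submodule.span F (Set.range (fam s))) = 2 * k := by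
  rw [finrank_span_eq_card (frame_li B hA s h1 h2), Fintype.card_sum, Fintype.card_fin]
  ring

omit [Fintype F] [Finite V] in
theorem frame_le {k : ℕ} (s : Fin k → V × V) (U : Submodule F V)
    (h : ∀ a, (s a).1 ∈ U ∧ (s a).2 ∈ U) : Submodule.span F (Set.range (fam s)) ≤ U := by
  rw [Submodule.span_le]
  rintro _ ⟨i, rfl⟩
  rcases i with a | a
  · exact (h a).1
  · exact (h a).2

omit [Fintype F] [Finite V] in
theorem mem_orth_iff (B : LinearMap.BilinForm F V) {k : ℕ} (s : Fin k → V × V) (v : V) :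
    v ∈ B.orthogonal (Submodule.span F (Set.range (fam s))) ↔
      ∀ a, B (s a).1 v = 0 ∧ B (s a).2 v = 0 := by
  rw [LinearMap.BilinForm.mem_orthogonal_iff]
  constructor
  · intro h a
    exact ⟨h _ (Submodule.subset_span ⟨Sum.inl a, rfl⟩),
      h _ (Submodule.subset_span ⟨Sum.inr a, rfl⟩)⟩
  · intro h n hn
    have h3 : Submodule.span F (Set.range (fam s)) ≤ LinearMap.ker (B.flip v) := by
      rw [Submodule.span_le]
      rintro _ ⟨i, rfl⟩
      rcases i with a | a
      · exact (h a).1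
      · exact (h a).2
    exact h3 hn

omit [Fintype F] in
theorem nd_inf_orth (B : LinearMap.BilinForm F V) (hA : B.IsAlt) (U S : Submodule F V)
    (hU : ND B U) (hS : ND B S) (hSU : S ≤ U) :
    ND B (U ⊓ B.orthogonal S) ∧
      finrank F ↥(U ⊓ B.orthogonal S) + finrank F S = finrank F U := by
  have hcompl := nd_compl B hA S hS
  constructor
  · intro u hu hu0
    obtain ⟨v, hv, hv'⟩ := hU u hu.1 hu0
    have hv2 : v ∈ S ⊔ B.orthogonal S := by
      rw [hcompl.sup_eq_top]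
      exact Submodule.mem_top
    obtain ⟨v₁, hv₁, v₂, hv₂, rfl⟩ := Submodule.mem_sup.mp hv2
    refine ⟨v₂, ⟨?_, hv₂⟩, ?_⟩
    · have e : v₂ = (v₁ + v₂) - v₁ := by abel
      rw [e]
      exact U.sub_mem hv (hSU hv₁)
    · rw [map_add] at hv'
      have e1 : B u v₁ = 0 := by
        rw [← hA.neg_eq]
        have h3 : u ∈ B.orthogonal S := hu.2
        rw [LinearMap.BilinForm.mem_orthogonal_iff] at h3
        have h4 : B v₁ u = 0 := h3 v₁ hv₁
        rw [h4, neg_zero]
      rwa [e1, zero_add] at hv'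
  · have h1 : S ⊔ (U ⊓ B.orthogonal S) = U := by
      rw [inf_comm, ← sup_inf_assoc_of_le _ hSU, hcompl.sup_eq_top, top_inf_eq]
    have h2 : S ⊓ (U ⊓ B.orthogonal S) = ⊥ := by
      apply le_antisymm _ bot_le
      rw [← hcompl.inf_eq_bot]
      exact inf_le_inf_left _ inf_le_right
    have h3 := Submodule.finrank_sup_add_finrank_inf_eq S (U ⊓ B.orthogonal S)
    rw [h1, h2, finrank_bot, add_zero] at h3
    omega

/-- The number of hyperbolic pairs of a nondegenerate subspace. -/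
theorem card_pairs (B : LinearMap.BilinForm F V) (U : Submodule F V) (hU : ND B U) :
    Nat.card {p : V × V // p.1 ∈ U ∧ p.2 ∈ U ∧ B p.1 p.2 = 1} =
      (Fintype.card F ^ finrank F U - 1) * Fintype.card F ^ (finrank F U - 1) := by
  classical
  have hfib : ∀ u : {u : V // u ∈ U ∧ u ≠ 0},
      Nat.card {v : V // v ∈ U ∧ B u.1 v = 1} = Fintype.card F ^ (finrank F U - 1) := by
    rintro ⟨u, huU, hu0⟩
    obtain ⟨v₀, hv₀, hv₀'⟩ := hU u huU hu0
    obtain ⟨v₁, hv₁def⟩ : ∃ v₁, v₁ = (B u v₀)⁻¹ • v₀ := ⟨_, rfl⟩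
    have hv₁U : v₁ ∈ U := by
      rw [hv₁def]
      exact U.smul_mem _ hv₀
    have hv₁ : B u v₁ = 1 := by
      rw [hv₁def, map_smul, smul_eq_mul, inv_mul_cancel₀ hv₀']
    obtain ⟨φ, hφ⟩ : ∃ φ : ↥U →ₗ[F] F, ∀ w : U, φ w = B u (w : V) :=
      ⟨(B u).domRestrict U, fun w => rfl⟩
    have hsurj : LinearMap.range φ = ⊤ := by
      rw [LinearMap.range_eq_top]
      intro c
      refine ⟨⟨c • v₁, U.smul_mem c hv₁U⟩, ?_⟩
      rw [hφ]
      show B u (c • v₁) = c
      rw [map_smul, hv₁, smul_eq_mul, mul_one]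
    have hrn := LinearMap.finrank_range_add_finrank_ker φ
    rw [hsurj, finrank_top, Module.finrank_self] at hrn
    have e : {v : V // v ∈ U ∧ B u v = 1} ≃ ↥(LinearMap.ker φ) :=
      { toFun := fun v => ⟨⟨v.1 - v₁, U.sub_mem v.2.1 hv₁U⟩, by
          rw [LinearMap.mem_ker, hφ]
          show B u (v.1 - v₁) = 0
          rw [map_sub, v.2.2, hv₁, sub_self]⟩
        invFun := fun k => ⟨(k.1 : V) + v₁, U.add_mem k.1.2 hv₁U, by
          have hk : φ k.1 = 0 := k.2
          rw [hφ] at hk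
          rw [map_add, hk, hv₁, zero_add]⟩
        left_inv := fun v => by
          apply Subtype.ext
          show v.1 - v₁ + v₁ = v.1
          abel
        right_inv := fun k => by
          apply Subtype.ext
          apply Subtype.ext
          show (k.1 : V) + v₁ - v₁ = k.1
          abel }
    rw [Nat.card_congr e, Module.natCard_eq_pow_finrank (K := F), Nat.card_eq_fintype_card]
    congr 1
    omega
  have e : {p : V × V // p.1 ∈ U ∧ p.2 ∈ U ∧ B p.1 p.2 = 1} ≃
      Σ u : {u : V // u ∈ U ∧ u ≠ 0}, {v : V // v ∈ U ∧ B u.1 v = 1} :=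
    { toFun := fun p => ⟨⟨p.1.1, p.2.1, by
          intro h0
          have h := p.2.2.2
          rw [h0, map_zero, LinearMap.zero_apply] at h
          exact zero_ne_one h⟩, ⟨p.1.2, p.2.2.1, p.2.2.2⟩⟩
      invFun := fun t => ⟨(t.1.1, t.2.1), t.1.2.1, t.2.2.1, t.2.2.2⟩
      left_inv := fun p => rfl
      right_inv := fun t => rfl }
  have : Fintype {u : V // u ∈ U ∧ u ≠ 0} := Fintype.ofFinite _
  rw [Nat.card_congr e, Nat.card_sigma, Finset.sum_congr rfl (fun u _ => hfib u),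
    Finset.sum_const, Finset.card_univ, smul_eq_mul, ← Nat.card_eq_fintype_card]
  congr 1
  have hset : {u : V | u ∈ U ∧ u ≠ 0} = (U : Set V) \ {0} := by
    ext v
    rw [Set.mem_ofPred_eq, Set.mem_sdiff, SetLike.mem_coe, Set.mem_singleton_iff]
  have hsub : ({0} : Set V) ⊆ (U : Set V) := by
    intro v hv
    rw [Set.mem_singleton_iff] at hv
    rw [hv]
    exact U.zero_mem
  show Nat.card ↥{u : V | u ∈ U ∧ u ≠ 0} = _
  rw [hset, Nat.card_coe_set_eq, Set.ncard_sdiff hsub (Set.toFinite _), Set.ncard_singleton,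
    ← Nat.card_coe_set_eq]
  show Nat.card ↥U - 1 = _
  rw [Module.natCard_eq_pow_finrank (K := F), Nat.card_eq_fintype_card]

/-- A frame of length `k + 1` is a frame of length `k` and a hyperbolic pair orthogonal to it. -/
noncomputable def stepEquiv (B : LinearMap.BilinForm F V) (hA : B.IsAlt) (U : Submodule F V)
    (k : ℕ) :
    HF B U (k + 1) ≃ {t : HF B U k × (V × V) // t.2.1 ∈ U ∧ t.2.2 ∈ U ∧ B t.2.1 t.2.2 = 1 ∧
      ∀ a, (B (t.1.1 a).1 t.2.1 = 0 ∧ B (t.1.1 a).1 t.2.2 = 0 ∧ B (t.1.1 a).2 t.2.1 = 0 ∧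
        B (t.1.1 a).2 t.2.2 = 0)} where
  toFun s := ⟨(⟨Fin.init s.1, fun a => s.2.1 (Fin.castSucc a), fun a b hab => s.2.2 _ _ (by
      intro h
      exact hab (Fin.castSucc_injective _ h))⟩, s.1 (Fin.last k)),
    (s.2.1 (Fin.last k)).1, (s.2.1 (Fin.last k)).2.1, (s.2.1 (Fin.last k)).2.2, fun a => by
      have h1 := s.2.2 (Fin.castSucc a) (Fin.last k) (Fin.castSucc_lt_last a).ne
      have h2 := s.2.2 (Fin.last k) (Fin.castSucc a) (Fin.castSucc_lt_last a).ne'
      refine ⟨h1.1, h1.2.1, ?_, h1.2.2⟩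
      show B (s.1 (Fin.castSucc a)).2 (s.1 (Fin.last k)).1 = 0
      rw [← hA.neg_eq, h2.2.1, neg_zero]⟩
  invFun t := ⟨(Fin.snoc t.1.1.1 t.1.2 : Fin (k + 1) → V × V), by
      intro a
      induction a using Fin.lastCases with
      | last =>
        rw [Fin.snoc_last]
        exact ⟨t.2.1, t.2.2.1, t.2.2.2.1⟩
      | cast a =>
        rw [Fin.snoc_castSucc]
        exact t.1.1.2.1 a, by
      intro a b hab
      induction a using Fin.lastCases with
      | last =>
        induction b using Fin.lastCases with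
        | last => exact absurd rfl hab
        | cast b =>
          rw [Fin.snoc_last, Fin.snoc_castSucc]
          have h := t.2.2.2.2 b
          refine ⟨?_, ?_, ?_⟩
          · rw [← hA.neg_eq, h.1, neg_zero]
          · rw [← hA.neg_eq, h.2.2.1, neg_zero]
          · rw [← hA.neg_eq, h.2.2.2, neg_zero]
      | cast a =>
        induction b using Fin.lastCases with
        | last =>
          rw [Fin.snoc_last, Fin.snoc_castSucc]
          have h := t.2.2.2.2 a
          exact ⟨h.1, h.2.1, h.2.2.2⟩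
        | cast b =>
          rw [Fin.snoc_castSucc, Fin.snoc_castSucc]
          exact t.1.1.2.2 a b (fun h => hab (by rw [h]))⟩
  left_inv s := by
    apply Subtype.ext
    exact Fin.snoc_init_self s.1
  right_inv t := by
    apply Subtype.ext
    apply Prod.ext
    · apply Subtype.ext
      exact Fin.init_snoc (α := fun _ => V × V) t.1.2 t.1.1.1
    · exact Fin.snoc_last (α := fun _ => V × V) t.1.2 t.1.1.1

theorem card_fiber (B : LinearMap.BilinForm F V) (hA : B.IsAlt) (U : Submodule F V)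
    (hU : ND B U) (k : ℕ) (s : HF B U k) :
    Nat.card {p : V × V // p.1 ∈ U ∧ p.2 ∈ U ∧ B p.1 p.2 = 1 ∧
      ∀ a, (B (s.1 a).1 p.1 = 0 ∧ B (s.1 a).1 p.2 = 0 ∧ B (s.1 a).2 p.1 = 0 ∧
        B (s.1 a).2 p.2 = 0)} =
      (Fintype.card F ^ (finrank F U - 2 * k) - 1) *
        Fintype.card F ^ (finrank F U - 2 * k - 1) := by
  obtain ⟨S, hS⟩ : ∃ S, S = Submodule.span F (Set.range (fam s.1)) := ⟨_, rfl⟩
  have hSnd : ND B S := by
    rw [hS]
    exact frame_nd B hA s.1 (fun a => (s.2.1 a).2.2) s.2.2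
  have hSU : S ≤ U := by
    rw [hS]
    exact frame_le s.1 U (fun a => ⟨(s.2.1 a).1, (s.2.1 a).2.1⟩)
  have hSd : finrank F S = 2 * k := by
    rw [hS]
    exact frame_finrank B hA s.1 (fun a => (s.2.1 a).2.2) s.2.2
  obtain ⟨h1, h2⟩ := nd_inf_orth B hA U S hU hSnd hSU
  have e : {p : V × V // p.1 ∈ U ∧ p.2 ∈ U ∧ B p.1 p.2 = 1 ∧
      ∀ a, (B (s.1 a).1 p.1 = 0 ∧ B (s.1 a).1 p.2 = 0 ∧ B (s.1 a).2 p.1 = 0 ∧
        B (s.1 a).2 p.2 = 0)} ≃
      {p : V × V // p.1 ∈ U ⊓ B.orthogonal S ∧ p.2 ∈ U ⊓ B.orthogonal S ∧ B p.1 p.2 = 1} :=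
    Equiv.subtypeEquivRight (fun p => by
      rw [Submodule.mem_inf, Submodule.mem_inf, hS, mem_orth_iff, mem_orth_iff]
      constructor
      · rintro ⟨h1, h2, h3, h4⟩
        exact ⟨⟨h1, fun a => ⟨(h4 a).1, (h4 a).2.2.1⟩⟩,
          ⟨h2, fun a => ⟨(h4 a).2.1, (h4 a).2.2.2⟩⟩, h3⟩
      · rintro ⟨⟨h1, h5⟩, ⟨h2, h6⟩, h3⟩
        exact ⟨h1, h2, h3, fun a => ⟨(h5 a).1, (h6 a).1, (h5 a).2, (h6 a).2⟩⟩)
  rw [Nat.card_congr e, card_pairs B _ h1]
  have h3 : finrank F ↥(U ⊓ B.orthogonal S) = finrank F U - 2 * k := by omega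
  rw [h3]

theorem card_hf (B : LinearMap.BilinForm F V) (hA : B.IsAlt) (U : Submodule F V)
    (hU : ND B U) : ∀ k : ℕ, Nat.card (HF B U k) =
      ∏ j ∈ Finset.range k, ((Fintype.card F ^ (finrank F U - 2 * j) - 1) *
        Fintype.card F ^ (finrank F U - 2 * j - 1)) := by
  classical
  intro k
  induction k with
  | zero =>
    rw [Finset.prod_range_zero]
    have : Unique (HF B U 0) :=
      { default := ⟨fun a => a.elim0, fun a => a.elim0, fun a => a.elim0⟩
        uniq := fun s => Subtype.ext (funext fun a => a.elim0) }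
    exact Nat.card_unique
  | succ k ih =>
    have : Finite (HF B U k) := by
      unfold HF
      infer_instance
    have : Fintype (HF B U k) := Fintype.ofFinite _
    rw [Nat.card_congr ((stepEquiv B hA U k).trans (Equiv.subtypeProdEquivSigmaSubtype
      (fun (s : HF B U k) (p : V × V) => p.1 ∈ U ∧ p.2 ∈ U ∧ B p.1 p.2 = 1 ∧
        ∀ a, (B (s.1 a).1 p.1 = 0 ∧ B (s.1 a).1 p.2 = 0 ∧ B (s.1 a).2 p.1 = 0 ∧
          B (s.1 a).2 p.2 = 0)))), Nat.card_sigma,
      Finset.sum_congr rfl (fun s _ => card_fiber B hA U hU k s), Finset.sum_const,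
      Finset.card_univ, smul_eq_mul, ← Nat.card_eq_fintype_card, ih, Finset.prod_range_succ]

/-- The frames spanning a given nondegenerate subspace. -/
noncomputable def frameFiberEquiv (B : LinearMap.BilinForm F V) (hA : B.IsAlt) (k : ℕ)
    (W : Submodule F V) (hW : finrank F W = 2 * k) :
    {s : HF B ⊤ k // Submodule.span F (Set.range (fam s.1)) = W} ≃ HF B W k where
  toFun s := ⟨s.1.1, fun a => ⟨by
      have h := Submodule.subset_span (R := F) (Set.mem_range_self (f := fam s.1.1) (Sum.inl a))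
      rw [s.2] at h
      exact h, by
      have h := Submodule.subset_span (R := F) (Set.mem_range_self (f := fam s.1.1) (Sum.inr a))
      rw [s.2] at h
      exact h, (s.1.2.1 a).2.2⟩, s.1.2.2⟩
  invFun s := ⟨⟨s.1, fun a => ⟨Submodule.mem_top, Submodule.mem_top, (s.2.1 a).2.2⟩, s.2.2⟩, by
    apply Submodule.eq_of_le_of_finrank_eq
    · exact frame_le s.1 W (fun a => ⟨(s.2.1 a).1, (s.2.1 a).2.1⟩)
    · rw [frame_finrank B hA s.1 (fun a => (s.2.1 a).2.2) s.2.2, hW]⟩
  left_inv s := rfl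
  right_inv s := rfl

theorem card_nd_mul (B : LinearMap.BilinForm F V) (hA : B.IsAlt)
    (hnd : ∀ u, (∀ v, B u v = 0) → u = 0) (k : ℕ) :
    Nat.card {W : Submodule F V // finrank F W = 2 * k ∧ ND B W} *
      ∏ j ∈ Finset.range k, ((Fintype.card F ^ (2 * k - 2 * j) - 1) *
        Fintype.card F ^ (2 * k - 2 * j - 1)) =
    ∏ j ∈ Finset.range k, ((Fintype.card F ^ (finrank F V - 2 * j) - 1) *
        Fintype.card F ^ (finrank F V - 2 * j - 1)) := by
  classical
  have htop : ND B (⊤ : Submodule F V) := by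
    intro u _ hu0
    by_contra hcon
    push Not at hcon
    exact hu0 (hnd u (fun v => hcon v Submodule.mem_top))
  have h0 := card_hf B hA ⊤ htop k
  rw [finrank_top] at h0
  rw [← h0]
  let f : HF B ⊤ k → {W : Submodule F V // finrank F W = 2 * k ∧ ND B W} :=
    fun s => ⟨Submodule.span F (Set.range (fam s.1)),
      frame_finrank B hA s.1 (fun a => (s.2.1 a).2.2) s.2.2,
      frame_nd B hA s.1 (fun a => (s.2.1 a).2.2) s.2.2⟩
  rw [← Nat.card_congr (Equiv.sigmaFiberEquiv f)]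
  have : Fintype {W : Submodule F V // finrank F W = 2 * k ∧ ND B W} := Fintype.ofFinite _
  rw [Nat.card_sigma]
  have h : ∀ W : {W : Submodule F V // finrank F W = 2 * k ∧ ND B W},
      Nat.card {s // f s = W} =
      ∏ j ∈ Finset.range k, ((Fintype.card F ^ (2 * k - 2 * j) - 1) *
        Fintype.card F ^ (2 * k - 2 * j - 1)) := by
    intro W
    have e : {s // f s = W} ≃ {s : HF B ⊤ k // Submodule.span F (Set.range (fam s.1)) = W.1} :=
      Equiv.subtypeEquivRight (fun s => Subtype.ext_iff)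
    rw [Nat.card_congr (e.trans (frameFiberEquiv B hA k W.1 W.2.1)),
      card_hf B hA W.1 W.2.2 k, W.2.1]
  rw [Finset.sum_congr rfl (fun W _ => h W), Finset.sum_const, Finset.card_univ, smul_eq_mul,
    Nat.card_eq_fintype_card]

end

section
variable {F : Type*} [Field F] [Fintype F]

/-- The number of nondegenerate `2k`-spaces of the symplectic space of dimension `2d`. -/
theorem card_nd_symp (d k : ℕ) :
    Nat.card {W : Submodule F (Fin d ⊕ Fin d → F) // finrank F W = 2 * k ∧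
      ∀ u ∈ W, u ≠ 0 → ∃ v ∈ W, Cfsg.sympForm d F u v ≠ 0} *
      ∏ j ∈ Finset.range k, ((Fintype.card F ^ (2 * k - 2 * j) - 1) *
        Fintype.card F ^ (2 * k - 2 * j - 1)) =
    ∏ j ∈ Finset.range k, ((Fintype.card F ^ (2 * d - 2 * j) - 1) *
        Fintype.card F ^ (2 * d - 2 * j - 1)) := by
  have h := card_nd_mul (form d F) (form_alt (F := F) d) (form_nondeg (F := F) d).1 k
  have hfin : finrank F (Fin d ⊕ Fin d → F) = 2 * d := by
    rw [Module.finrank_pi, Fintype.card_sum, Fintype.card_fin]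
    ring
  rw [hfin] at h
  rw [← h]
  congr 1
  apply Nat.card_congr
  apply Equiv.subtypeEquivRight
  intro W
  simp only [ND, form_apply]

/-- A prime not dividing `q` and dividing the number of nondegenerate `2k`-spaces divides some
`q^(2d-2j) - 1`, `j < k`. -/
theorem exists_dvd_of_dvd_card_nd (d k : ℕ) (r : ℕ) (hr : r.Prime)
    (hrq : ¬ r ∣ Fintype.card F)
    (h : r ∣ Nat.card {W : Submodule F (Fin d ⊕ Fin d → F) // finrank F W = 2 * k ∧
      ∀ u ∈ W, u ≠ 0 → ∃ v ∈ W, Cfsg.sympForm d F u v ≠ 0}) :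
    ∃ j < k, r ∣ Fintype.card F ^ (2 * d - 2 * j) - 1 := by
  have h1 : r ∣ ∏ j ∈ Finset.range k, ((Fintype.card F ^ (2 * d - 2 * j) - 1) *
        Fintype.card F ^ (2 * d - 2 * j - 1)) := by
    rw [← card_nd_symp d k]
    exact Dvd.dvd.mul_right h _
  obtain ⟨j, hj, hd⟩ := (Prime.dvd_finsetProd_iff hr.prime _).mp h1
  rcases (Nat.Prime.dvd_mul hr).mp hd with h2 | h2
  · exact ⟨j, Finset.mem_range.mp hj, h2⟩
  · exact absurd (hr.dvd_of_dvd_pow h2) hrq

end

end Cfsg.Agent.Lib.Helper40.NDCount
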