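import Mathlib
import Cfsg.Prelude.Def_ClassicalGeometry
import Cfsg.Agent.S2568
import Cfsg.Agent.Lib.Helper40.SpPoly
import Cfsg.Agent.Lib.Helper40.SpModel
import Cfsg.Agent.Lib.Helper40.SpTI
import Cfsg.Agent.Lib.Helper40.SpElt
import Cfsg.Agent.Lib.Helper40.InvDims
import Cfsg.Agent.Lib.Helper40.SSConj
import Cfsg.Agent.Lib.Helper40.SpReal
import Cfsg.Agent.Lib.Helper40.NDPeel

set_option autoImplicit false

namespace Cfsg.Agent.Lib.Helper40.NDSemi

open Polynomial UniqueFactorizationMonoid Matrix Cfsg.Agent.Lib.Helper40.RecipPoly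
  Cfsg.Agent.Lib.Helper40.SpTI Cfsg.Agent.Lib.Helper40.SpPoly Cfsg.Agent.Lib.Helper40.SpModel
  Cfsg.Agent.Lib.Helper40.InvDims Cfsg.Agent.Lib.Helper13.SympMat
  Cfsg.Agent.Lib.Helper40.NDPeel

section model
variable {F : Type*} [Field F]

/-- `χ` has a monic palindromic divisor of degree `m`. -/
def HasN (m : ℕ) (χ : F[X]) : Prop :=
  ∃ D : F[X], D.Monic ∧ D.natDegree = m ∧ D.reverse = D ∧ D ∣ χ

/-- `χ` has a monic divisor of degree `m` fixed by `pstar`. -/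
def HasN' (m : ℕ) (χ : F[X]) : Prop :=
  ∃ D : F[X], D.Monic ∧ D.natDegree = m ∧ pstar D = D ∧ D ∣ χ

theorem hasN_of_hasD (k : ℕ) (χ : F[X]) (h : HasD k χ) : HasN (2 * k) χ := by
  obtain ⟨D, hDm, hDd, hD0, hdvd⟩ := h
  have hsm : (pstar D).Monic := pstar_monic D hD0
  refine ⟨D * pstar D, hDm.mul hsm, ?_, reverse_mul_pstar D hD0, hdvd⟩
  rw [hDm.natDegree_mul hsm, pstar_natDegree D hD0, hDd]
  ring

/-- The embedding of the first summand of an orthogonal direct sum. -/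
def iota2 (m k : ℕ) : (Fin m ⊕ Fin m → F) →ₗ[F] (Fin (m + k) ⊕ Fin (m + k) → F) where
  toFun u := (Sum.elim u (0 : Fin k ⊕ Fin k → F)) ∘ (eqv m k).symm
  map_add' u v := by
    funext x
    simp only [Function.comp_apply, Pi.add_apply]
    generalize (eqv m k).symm x = y
    rcases y with (a | b) <;> simp
  map_smul' c u := by
    funext x
    simp only [Function.comp_apply, Pi.smul_apply, RingHom.id_apply]
    generalize (eqv m k).symm x = y
    rcases y with (a | b) <;> simp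

theorem iota2_apply (m k : ℕ) (u : Fin m ⊕ Fin m → F) :
    iota2 m k u = (Sum.elim u (0 : Fin k ⊕ Fin k → F)) ∘ (eqv m k).symm := rfl

theorem iota2_injective (m k : ℕ) : Function.Injective (iota2 (F := F) m k) := by
  intro u v huv
  funext a
  have h := congrFun huv (eqv m k (Sum.inl a))
  rw [iota2_apply, iota2_apply] at h
  simpa using h

theorem dsum_mulVec_iota2 {m k : ℕ} (H : Matrix (Fin m ⊕ Fin m) (Fin m ⊕ Fin m) F)
    (Y : Matrix (Fin k ⊕ Fin k) (Fin k ⊕ Fin k) F) (u : Fin m ⊕ Fin m → F) :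
    dsum H Y *ᵥ iota2 m k u = iota2 m k (H *ᵥ u) := by
  unfold dsum
  rw [Matrix.submatrix_mulVec_equiv, iota2_apply, iota2_apply]
  congr 1
  have h1 : ((Sum.elim u (0 : Fin k ⊕ Fin k → F)) ∘ (eqv m k).symm) ∘ (eqv m k).symm.symm =
      Sum.elim u (0 : Fin k ⊕ Fin k → F) := by
    funext x
    simp
  rw [h1, Matrix.fromBlocks_mulVec, Sum.elim_comp_inl, Sum.elim_comp_inr]
  simp

theorem sympForm_iota2 (m k : ℕ) (u v : Fin m ⊕ Fin m → F) :
    Cfsg.sympForm (m + k) F (iota2 m k u) (iota2 m k v) = Cfsg.sympForm m F u v := by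
  unfold Cfsg.sympForm
  rw [J_eq]
  unfold dsum
  rw [Matrix.submatrix_mulVec_equiv, iota2_apply, iota2_apply]
  have h1 : ((Sum.elim v (0 : Fin k ⊕ Fin k → F)) ∘ (eqv m k).symm) ∘ (eqv m k).symm.symm =
      Sum.elim v (0 : Fin k ⊕ Fin k → F) := by
    funext x
    simp
  rw [h1, Matrix.fromBlocks_mulVec, Sum.elim_comp_inl, Sum.elim_comp_inr,
    comp_equiv_symm_dotProduct]
  have h2 : ∀ w : (Fin m ⊕ Fin m) ⊕ (Fin k ⊕ Fin k) → F,
      (w ∘ (eqv m k).symm) ∘ (eqv m k) = w := by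
    intro w
    funext x
    simp
  rw [h2]
  simp

/-- **Model lemma.** A monic palindromic divisor of even degree of the characteristic polynomial
of a symplectic matrix `x` of order prime to the characteristic gives an `x`-invariant
nondegenerate subspace. -/
theorem exists_nd_of_dvd [Fintype F] (p : ℕ) [Fact p.Prime] [CharP F p] {d : ℕ}
    (x : Matrix (Fin d ⊕ Fin d) (Fin d ⊕ Fin d) F) (hx : x ∈ Matrix.symplecticGroup (Fin d) F)
    (N : ℕ) (hN : (N : F) ≠ 0) (hxN : x ^ N = 1) (m : ℕ)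
    (D : F[X]) (hDm : D.Monic) (hDd : D.natDegree = 2 * m) (hDr : D.reverse = D)
    (hdvd : D ∣ x.charpoly) :
    ∃ W : Submodule F (Fin d ⊕ Fin d → F), Module.finrank F W = 2 * m ∧
      (∀ u ∈ W, u ≠ 0 → ∃ v ∈ W, Cfsg.sympForm d F u v ≠ 0) ∧
      W.map (Matrix.toLin' x) ≤ W := by
  classical
  have hpp : p.Prime := Fact.out
  have hxd : x.charpoly.natDegree = 2 * d := by
    rw [Matrix.charpoly_natDegree_eq_dim, Fintype.card_sum, Fintype.card_fin]
    ring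
  obtain ⟨χ₀, hχ₀⟩ := hdvd
  have hχm : χ₀.Monic := Monic.of_mul_monic_left hDm (hχ₀ ▸ Matrix.charpoly_monic x)
  have hdeg : 2 * d = 2 * m + χ₀.natDegree := by
    rw [← hxd, hχ₀, hDm.natDegree_mul hχm, hDd]
  obtain ⟨k, rfl⟩ : ∃ k, d = m + k := ⟨d - m, by omega⟩
  have hχd : χ₀.natDegree = 2 * k := by omega
  have hχr : χ₀.reverse = χ₀ := by
    have h1 := Cfsg.Agent.Lib.Helper40.SpReal.charpoly_reverse x hx
    rw [hχ₀, reverse_mul_of_domain, hDr] at h1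
    exact mul_left_cancel₀ hDm.ne_zero h1
  obtain ⟨y₁, hy₁o, hy₁c⟩ := exists_symp_of_palindromic p m D hDm hDd hDr
  obtain ⟨y₀, hy₀o, hy₀c⟩ := exists_symp_of_palindromic p k χ₀ hχm hχd hχr
  obtain ⟨N₁, hN₁⟩ : ∃ N₁, N₁ = orderOf y₁ := ⟨_, rfl⟩
  obtain ⟨N₂, hN₂⟩ : ∃ N₂, N₂ = orderOf y₀ := ⟨_, rfl⟩
  have hy₁N : (y₁ : Matrix (Fin m ⊕ Fin m) (Fin m ⊕ Fin m) F) ^ N₁ = 1 := by
    have h1 : y₁ ^ N₁ = 1 := by rw [hN₁, pow_orderOf_eq_one]
    exact congrArg Subtype.val h1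
  have hy₀N : (y₀ : Matrix (Fin k ⊕ Fin k) (Fin k ⊕ Fin k) F) ^ N₂ = 1 := by
    have h1 : y₀ ^ N₂ = 1 := by rw [hN₂, pow_orderOf_eq_one]
    exact congrArg Subtype.val h1
  obtain ⟨y, hy⟩ : ∃ y, y = dsum (y₁ : Matrix (Fin m ⊕ Fin m) (Fin m ⊕ Fin m) F)
      (y₀ : Matrix (Fin k ⊕ Fin k) (Fin k ⊕ Fin k) F) := ⟨_, rfl⟩
  have hymem : y ∈ Matrix.symplecticGroup (Fin (m + k)) F := by
    rw [hy]
    exact dsum_mem _ _ y₁.2 y₀.2
  have hyc : y.charpoly = x.charpoly := by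
    rw [hy, dsum_charpoly, hy₁c, hy₀c, hχ₀]
  obtain ⟨M, hM⟩ : ∃ M, M = N * (N₁ * N₂) := ⟨_, rfl⟩
  have hMF : (M : F) ≠ 0 := by
    rw [hM, Nat.cast_mul, Nat.cast_mul]
    exact mul_ne_zero hN (mul_ne_zero (cast_ne_zero_of_coprime p N₁ (hN₁ ▸ hy₁o))
      (cast_ne_zero_of_coprime p N₂ (hN₂ ▸ hy₀o)))
  have hxM : x ^ M = 1 := by rw [hM, pow_mul, hxN, one_pow]
  have hyM : y ^ M = 1 := by
    rw [hM, mul_comm, pow_mul, hy, dsum_pow, pow_mul, hy₁N, one_pow, mul_comm, pow_mul, hy₀N,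
      one_pow, dsum_one, one_pow]
  obtain ⟨P, Q, hPQ, hQP, hPA⟩ := Cfsg.Agent.Lib.Helper40.SSConj.matrix_conj x y M hMF hxM hyM
    hyc.symm
  have hconj := Cfsg.Agent.Lib.Helper40.SympConj.symp_conj
    (⟨x, hx⟩ : Matrix.symplecticGroup (Fin (m + k)) F) ⟨y, hymem⟩ M hMF hxM P
    (IsUnit.of_mul_eq_one Q hPQ) hPA
  obtain ⟨S, hS⟩ := isConj_iff.mp hconj
  have hS' : (⟨x, hx⟩ : Matrix.symplecticGroup (Fin (m + k)) F) * S⁻¹ =
      S⁻¹ * ⟨y, hymem⟩ := by
    rw [← hS]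
    group
  have hS'' : x * (S⁻¹ : Matrix.symplecticGroup (Fin (m + k)) F).1 =
      (S⁻¹ : Matrix.symplecticGroup (Fin (m + k)) F).1 * y :=
    congrArg Subtype.val hS'
  obtain ⟨T, hT⟩ : ∃ T : Matrix.symplecticGroup (Fin (m + k)) F, T = S⁻¹ := ⟨_, rfl⟩
  rw [← hT] at hS''
  have hcoe : ((Φ (m + k) T : (Fin (m + k) ⊕ Fin (m + k) → F) ≃ₗ[F]
      (Fin (m + k) ⊕ Fin (m + k) → F)) :
      (Fin (m + k) ⊕ Fin (m + k) → F) →ₗ[F]
        (Fin (m + k) ⊕ Fin (m + k) → F)) = Matrix.toLin' T.1 := by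
    apply LinearMap.ext
    intro v
    rw [LinearEquiv.coe_coe, Φ_apply, Matrix.toLin'_apply]
  refine ⟨(LinearMap.range (iota2 (F := F) m k)).map (Matrix.toLin' T.1), ?_, ?_, ?_⟩
  · rw [← hcoe, LinearEquiv.finrank_map_eq,
      LinearMap.finrank_range_of_inj (iota2_injective m k), Module.finrank_pi,
      Fintype.card_sum, Fintype.card_fin]
    ring
  · intro u hu hu0
    obtain ⟨u', hu', rfl⟩ := Submodule.mem_map.mp hu
    obtain ⟨a, rfl⟩ := LinearMap.mem_range.mp hu'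
    have ha0 : a ≠ 0 := by
      intro h0
      apply hu0
      rw [h0, map_zero, map_zero]
    obtain ⟨b, hb⟩ : ∃ b, form m F a b ≠ 0 := by
      by_contra hcon
      push Not at hcon
      exact ha0 ((form_nondeg (F := F) m).1 a hcon)
    refine ⟨Matrix.toLin' T.1 (iota2 m k b),
      Submodule.mem_map.mpr ⟨_, LinearMap.mem_range.mpr ⟨b, rfl⟩, rfl⟩, ?_⟩
    rw [← form_apply, form_isometry T.1 T.2, form_apply, sympForm_iota2, ← form_apply]
    exact hb
  · intro w hw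
    obtain ⟨w', hw', rfl⟩ := Submodule.mem_map.mp hw
    obtain ⟨u', hu', rfl⟩ := Submodule.mem_map.mp hw'
    obtain ⟨a, rfl⟩ := LinearMap.mem_range.mp hu'
    rw [Matrix.toLin'_apply, Matrix.toLin'_apply, Matrix.mulVec_mulVec, hS'',
      ← Matrix.mulVec_mulVec, hy, dsum_mulVec_iota2]
    exact Submodule.mem_map.mpr ⟨_, LinearMap.mem_range.mpr ⟨_, rfl⟩, Matrix.toLin'_apply _ _⟩

/-- The characteristic polynomial of an isometry on an invariant nondegenerate subspace is fixed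
by `pstar`. -/
theorem pstar_res {d : ℕ} (φ : Module.End F (Fin d ⊕ Fin d → F))
    (hiso : ∀ u v, form d F (φ u) (φ v) = form d F u v)
    (W : Submodule F (Fin d ⊕ Fin d → F)) (hW : W ∈ Module.End.invtSubmodule φ)
    (hnd : ND (form d F) W) :
    pstar (res φ W hW).charpoly = (res φ W hW).charpoly := by
  classical
  obtain ⟨b, hb⟩ : ∃ b : Module.Basis (Fin (Module.finrank F W)) F W,
      b = Module.finBasis F W := ⟨_, rfl⟩
  obtain ⟨BW, hBW⟩ : ∃ BW : LinearMap.BilinForm F W, BW = (form d F).restrict W := ⟨_, rfl⟩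
  obtain ⟨MW, hMW⟩ : ∃ MW, MW = LinearMap.toMatrix b b (res φ W hW) := ⟨_, rfl⟩
  obtain ⟨G, hG⟩ : ∃ G, G = LinearMap.BilinForm.toMatrix b BW := ⟨_, rfl⟩
  have hBres : BW.Nondegenerate := by
    rw [hBW]
    exact nd_restrict (form d F) (form_alt d) W hnd
  have hGdet : G.det ≠ 0 := by
    rw [hG]
    exact (LinearMap.BilinForm.nondegenerate_iff_det_ne_zero b).mp hBres
  have hcomp : BW.comp (res φ W hW) (res φ W hW) = BW := by
    rw [hBW]
    ext y z
    show form d F (φ y) (φ z) = form d F y z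
    rw [hiso]
  have hAG : MWᵀ * G * MW = G := by
    rw [hMW, hG, ← LinearMap.BilinForm.toMatrix_comp b b, hcomp]
  have hGu : IsUnit G.det := isUnit_iff_ne_zero.mpr hGdet
  have h1 : (G⁻¹ * MWᵀ * G) * MW = 1 := by
    rw [Matrix.mul_assoc, Matrix.mul_assoc, ← Matrix.mul_assoc MWᵀ, hAG,
      Matrix.nonsing_inv_mul _ hGu]
  have h2 : MW.charpoly = pstar (G⁻¹ * MWᵀ * G).charpoly := charpoly_inv_eq _ _ h1
  have h3 : (G⁻¹ * MWᵀ * G).charpoly = MW.charpoly := by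
    rw [Matrix.mul_assoc, Matrix.charpoly_mul_comm, Matrix.mul_assoc,
      Matrix.mul_nonsing_inv _ hGu, Matrix.mul_one, Matrix.charpoly_transpose]
  rw [h3] at h2
  rw [← LinearMap.charpoly_toMatrix (res φ W hW) b, ← hMW]
  exact h2.symm

/-- An invariant nondegenerate subspace of a semisimple symplectic matrix gives a `pstar`-fixed
divisor of the characteristic polynomial. -/
theorem hasN'_of_nd {d : ℕ} (x : Matrix (Fin d ⊕ Fin d) (Fin d ⊕ Fin d) F)
    (hx : x ∈ Matrix.symplecticGroup (Fin d) F)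
    (hs : Module.End.IsSemisimple (Matrix.toLin' x)) (W : Submodule F (Fin d ⊕ Fin d → F))
    (hnd : ∀ u ∈ W, u ≠ 0 → ∃ v ∈ W, Cfsg.sympForm d F u v ≠ 0)
    (hinv : W.map (Matrix.toLin' x) ≤ W) : HasN' (Module.finrank F W) x.charpoly := by
  have hW : W ∈ Module.End.invtSubmodule (Matrix.toLin' x) := by
    rw [Module.End.mem_invtSubmodule]
    exact Submodule.map_le_iff_le_comap.mp hinv
  have hND : ND (form d F) W := by
    intro u hu hu0
    obtain ⟨v, hv, hv'⟩ := hnd u hu hu0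
    refine ⟨v, hv, ?_⟩
    rw [form_apply]
    exact hv'
  refine ⟨(res (Matrix.toLin' x) W hW).charpoly, LinearMap.charpoly_monic _,
    LinearMap.charpoly_natDegree _, pstar_res _ (form_isometry x hx) W hW hND, ?_⟩
  have h := charpoly_restrict_dvd (Matrix.toLin' x) hs W hW
  rwa [Matrix.charpoly_toLin'] at h

end model

section crit
variable {F : Type*} [Field F] [DecidableEq F]

/-- `c` divides the degree of a `pstar`-fixed product of members of `T`. -/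
theorem c_dvd (T : Finset F[X]) (i : ℕ)
    (hT : ∀ P ∈ T, Irreducible P ∧ P.Monic ∧ P.natDegree = i ∧ P.coeff 0 ≠ 0)
    (hpar : ∀ P ∈ T, (pstar P = P ↔ Even i)) (c : ℕ) (hc : c = if Even i then i else 2 * i)
    (R : F[X]) (hRm : R.Monic) (hRf : ∀ Q ∈ normalizedFactors R, Q ∈ T) (hRs : pstar R = R) :
    ∃ M : ℕ, i * Multiset.card (normalizedFactors R) = c * M := by
  by_cases hev : Even i
  · rw [hc, if_pos hev]
    exact ⟨_, rfl⟩
  · rw [hc, if_neg hev]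
    have hfp : ∀ P ∈ T, pstar P ≠ P := fun P hP h => hev ((hpar P hP).mp h)
    obtain ⟨M, hM⟩ := even_card_odd T i hT hfp _ R hRm hRf hRs rfl
    exact ⟨M, by rw [hM]; ring⟩

/-- Palindromic divisors of a `pstar`-fixed product of members of `T`. -/
theorem exists_pal_dvd (T : Finset F[X]) (i : ℕ) (hi : 0 < i)
    (hT : ∀ P ∈ T, Irreducible P ∧ P.Monic ∧ P.natDegree = i ∧ P.coeff 0 ≠ 0)
    (hLT : (X - C (1 : F)) ∉ T)
    (hpar : ∀ P ∈ T, (pstar P = P ↔ Even i)) (c : ℕ) (hc : c = if Even i then i else 2 * i)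
    (R : F[X]) (hRm : R.Monic) (hRf : ∀ Q ∈ normalizedFactors R, Q ∈ T) (hRs : pstar R = R)
    (A : ℕ) (hA : c * A ≤ i * Multiset.card (normalizedFactors R)) :
    ∃ D : F[X], D.Monic ∧ D.natDegree = c * A ∧ D.reverse = D ∧ D ∣ R := by
  by_cases hev : Even i
  · rw [hc, if_pos hev] at hA ⊢
    have hfix : ∀ P ∈ T, pstar P = P := fun P hP => (hpar P hP).mpr hev
    have hA' : A ≤ Multiset.card (normalizedFactors R) := Nat.le_of_mul_le_mul_left hA hi
    obtain ⟨w, hw, hwc⟩ := exists_le_card (normalizedFactors R) A hA'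
    have hwT : ∀ P ∈ w, P ∈ T := fun P hP => hRf P (Multiset.mem_of_le hw hP)
    have hwm : w.prod.Monic := by
      have h := monic_multiset_prod_of_monic w id (fun P hP => (hT P (hwT P hP)).2.1)
      rwa [Multiset.map_id] at h
    have hwnf : normalizedFactors w.prod = w :=
      Cfsg.Agent.S2568.nf_prod w (fun P hP => ⟨(hT P (hwT P hP)).1, (hT P (hwT P hP)).2.1⟩)
    have hws : pstar w.prod = w.prod := by
      show rstar (RingHom.id F) w.prod = w.prod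
      rw [rstar_multiset_prod]
      congr 1
      conv_rhs => rw [← Multiset.map_id w]
      exact Multiset.map_congr rfl (fun P hP => hfix P (hwT P hP))
    have hw0 : w.prod.coeff 0 ≠ 0 := coeff0_of_nf T (fun P hP => (hT P hP).2.2.2) _ hwm (by
      rw [hwnf]
      exact hwT)
    have hw1 : w.prod.eval 1 ≠ 0 :=
      eval1_of_nf T (fun P hP => ⟨(hT P hP).1, (hT P hP).2.1⟩) hLT _ hwm (by
        rw [hwnf]
        exact hwT)
    refine ⟨w.prod, hwm, ?_, pal_of_star _ hw0 hws hw1, ?_⟩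
    · rw [Cfsg.Agent.S2568.natDegree_eq_sum_nf _ hwm, hwnf,
        Multiset.map_congr rfl (fun P hP => (hT P (hwT P hP)).2.2.1), Multiset.map_const',
        Multiset.sum_replicate, hwc, smul_eq_mul, mul_comm]
    · rw [← Cfsg.Agent.S2568.prod_nf R hRm]
      exact Multiset.prod_dvd_prod_of_le hw
  · rw [hc, if_neg hev] at hA ⊢
    have hfp : ∀ P ∈ T, pstar P ≠ P := fun P hP h => hev ((hpar P hP).mp h)
    have hA' : 2 * A ≤ Multiset.card (normalizedFactors R) := by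
      have h1 : i * (2 * A) ≤ i * Multiset.card (normalizedFactors R) := by
        rw [← mul_assoc, mul_comm i 2]
        exact hA
      exact Nat.le_of_mul_le_mul_left h1 hi
    obtain ⟨D₁, hD₁m, hD₁0, hD₁d, hD₁dvd⟩ := greedy_odd T i hT hfp A R hRm hRf hRs hA'
    have hsm : (pstar D₁).Monic := pstar_monic D₁ hD₁0
    refine ⟨D₁ * pstar D₁, hD₁m.mul hsm, ?_, reverse_mul_pstar D₁ hD₁0, hD₁dvd⟩
    rw [hD₁m.natDegree_mul hsm, pstar_natDegree D₁ hD₁0, hD₁d]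
    ring

/-- Sufficiency of the numerical criterion. -/
theorem hasN_of_adm (T : Finset F[X]) (i : ℕ) (hi : 0 < i)
    (hT : ∀ P ∈ T, Irreducible P ∧ P.Monic ∧ P.natDegree = i ∧ P.coeff 0 ≠ 0)
    (hLT : (X - C (1 : F)) ∉ T)
    (hpar : ∀ P ∈ T, (pstar P = P ↔ Even i)) (c : ℕ) (hc : c = if Even i then i else 2 * i)
    (d m : ℕ) (hme : Even m) (hm : m ≤ 2 * d) (hmod : m % c ≤ (2 * d) % c)
    (χ : F[X]) (hχ : Adm T d χ) : HasN m χ := by
  obtain ⟨hχm, hχd, hχr, hχf, hχT⟩ := hχ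
  have hχs : pstar χ = χ := (star_of_pal χ hχm hχr).2
  obtain ⟨e, R, hχe, hRm, hRf, hdeg, hRs, hRne, he⟩ := adm_split T i hT hLT χ hχm hχf
  have hRs' := hRs hχs
  obtain ⟨M, hM⟩ := c_dvd T i hT hpar c hc R hRm hRf hRs'
  rw [hχd, hM] at hdeg
  have hcpos : 0 < c := by
    rw [hc]
    split_ifs <;> omega
  have hceven : Even c := by
    rw [hc]
    split_ifs with h
    · exact h
    · exact even_two_mul i
  obtain ⟨s, hs⟩ : ∃ s, s = min (e / c) (m / c) := ⟨_, rfl⟩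
  obtain ⟨A, hAdef⟩ : ∃ A, A = m / c - s := ⟨_, rfl⟩
  obtain ⟨e', he'⟩ : ∃ e', e' = m % c + c * s := ⟨_, rfl⟩
  have hs1 : s ≤ e / c := by
    rw [hs]
    exact min_le_left _ _
  have hs2 : s ≤ m / c := by
    rw [hs]
    exact min_le_right _ _
  have hemod : e % c = (2 * d) % c := by rw [← hdeg, Nat.add_mul_mod_self_left]
  have hAM : A ≤ M := by
    have h1 : m / c ≤ (e + c * M) / c := Nat.div_le_div_right (by omega)
    rw [Nat.add_mul_div_left _ _ hcpos] at h1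
    rcases le_total (e / c) (m / c) with h | h
    · have h2 : s = e / c := by
        rw [hs]
        exact min_eq_left h
      omega
    · have h2 : s = m / c := by
        rw [hs]
        exact min_eq_right h
      omega
  have he'e : e' ≤ e := by
    have h1 := Nat.mod_add_div e c
    have h2 : c * s ≤ c * (e / c) := Nat.mul_le_mul_left c hs1
    omega
  have he'm : e' + c * A = m := by
    have h1 := Nat.mod_add_div m c
    have h2 : c * A = c * (m / c) - c * s := by rw [hAdef, Nat.mul_sub]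
    have h3 : c * s ≤ c * (m / c) := Nat.mul_le_mul_left c hs2
    omega
  have he'even : Even e' := by
    have h1 : Even (m % c) := by
      have h2 := Nat.mod_add_div m c
      have h3 : Even (m % c + c * (m / c)) := by
        rw [h2]
        exact hme
      exact (Nat.even_add.mp h3).mpr (hceven.mul_right _)
    rw [he']
    exact h1.add (hceven.mul_right s)
  have hAle : c * A ≤ i * Multiset.card (normalizedFactors R) := by
    rw [hM]
    exact Nat.mul_le_mul_left c hAM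
  obtain ⟨D', hD'm, hD'd, hD'r, hD'dvd⟩ :=
    exists_pal_dvd T i hi hT hLT hpar c hc R hRm hRf hRs' A hAle
  have hLm : ((X - C (1 : F)) ^ e').Monic := (monic_X_sub_C 1).pow e'
  refine ⟨(X - C 1) ^ e' * D', hLm.mul hD'm, ?_, ?_, ?_⟩
  · rw [hLm.natDegree_mul hD'm, natDegree_pow, natDegree_X_sub_C, mul_one, hD'd]
    exact he'm
  · rw [reverse_mul_of_domain, L_pow_reverse e' he'even, hD'r]
  · rw [hχe]
    exact mul_dvd_mul (pow_dvd_pow _ he'e) hD'dvd

/-- Necessity of the numerical criterion: a bad characteristic polynomial. -/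
theorem exists_bad (T : Finset F[X]) (i : ℕ) (hi : 0 < i)
    (hT : ∀ P ∈ T, Irreducible P ∧ P.Monic ∧ P.natDegree = i ∧ P.coeff 0 ≠ 0)
    (hLT : (X - C (1 : F)) ∉ T) (hTs : ∀ P ∈ T, pstar P ∈ T)
    (hpar : ∀ P ∈ T, (pstar P = P ↔ Even i)) (c : ℕ) (hc : c = if Even i then i else 2 * i)
    (d m : ℕ) (P₀ : F[X]) (hP₀ : P₀ ∈ T) (hc2d : c ≤ 2 * d) (hlt : (2 * d) % c < m)
    (hneg : ¬ (c ≤ m ∧ m % c ≤ (2 * d) % c)) : ∃ χ : F[X], Adm T d χ ∧ ¬ HasN' m χ := by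
  have hcpos : 0 < c := by
    rw [hc]
    split_ifs <;> omega
  have hceven : Even c := by
    rw [hc]
    split_ifs with h
    · exact h
    · exact even_two_mul i
  have hT' : ∀ P ∈ T, Irreducible P ∧ P.Monic := fun P hP => ⟨(hT P hP).1, (hT P hP).2.1⟩
  have hP₀nf : normalizedFactors P₀ = {P₀} := by
    rw [normalizedFactors_irreducible (hT P₀ hP₀).1, (hT P₀ hP₀).2.1.normalize_eq_self]
  obtain ⟨Q, hQm, hQd, hQ0, hQs, hQf, hQP⟩ : ∃ Q : F[X], Q.Monic ∧ Q.natDegree = c ∧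
      Q.coeff 0 ≠ 0 ∧ pstar Q = Q ∧ (∀ P ∈ normalizedFactors Q, P ∈ T) ∧
      P₀ ∈ normalizedFactors Q := by
    by_cases hev : Even i
    · refine ⟨P₀, (hT P₀ hP₀).2.1, ?_, (hT P₀ hP₀).2.2.2, (hpar P₀ hP₀).mpr hev,
        nf_single_sub T hT' P₀ hP₀, ?_⟩
      · rw [hc, if_pos hev]
        exact (hT P₀ hP₀).2.2.1
      · rw [hP₀nf]
        exact Multiset.mem_singleton_self _
    · have hs := hTs P₀ hP₀
      refine ⟨P₀ * pstar P₀, (hT P₀ hP₀).2.1.mul (hT _ hs).2.1, ?_, ?_, ?_,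
        nf_pair_sub T hT' P₀ (pstar P₀) hP₀ hs, ?_⟩
      · rw [(hT P₀ hP₀).2.1.natDegree_mul (hT _ hs).2.1, (hT P₀ hP₀).2.2.1, (hT _ hs).2.2.1, hc,
          if_neg hev]
        ring
      · rw [mul_coeff_zero]
        exact mul_ne_zero (hT P₀ hP₀).2.2.2 (hT _ hs).2.2.2
      · rw [pstar_mul, pstar_pstar P₀ (hT P₀ hP₀).2.1 (hT P₀ hP₀).2.2.2, mul_comm]
      · rw [nf_mul' P₀ (pstar P₀) (hT P₀ hP₀).2.1 (hT _ hs).2.1, Multiset.mem_add, hP₀nf]
        exact Or.inl (Multiset.mem_singleton_self _)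
  obtain ⟨A₀, hA₀⟩ : ∃ A₀, A₀ = (2 * d) / c := ⟨_, rfl⟩
  have hA₀pos : 0 < A₀ := by
    rw [hA₀]
    exact Nat.div_pos hc2d hcpos
  obtain ⟨R, hRdef⟩ : ∃ R, R = Q ^ A₀ := ⟨_, rfl⟩
  have hRm : R.Monic := by
    rw [hRdef]
    exact hQm.pow A₀
  have hR0 : R.coeff 0 ≠ 0 := by
    rw [hRdef, coeff_zero_eq_eval_zero, eval_pow, ← coeff_zero_eq_eval_zero]
    exact pow_ne_zero _ hQ0
  have hRs : pstar R = R := by rw [hRdef, pstar_pow, hQs]
  have hRnf : normalizedFactors R = A₀ • normalizedFactors Q := by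
    rw [hRdef, normalizedFactors_pow]
  have hRf : ∀ P ∈ normalizedFactors R, P ∈ T := by
    intro P hP
    rw [hRnf] at hP
    exact hQf P (Multiset.mem_of_mem_nsmul hP)
  have hR1 : R.eval 1 ≠ 0 := eval1_of_nf T hT' hLT R hRm hRf
  have hRd : R.natDegree = c * A₀ := by
    rw [hRdef, hQm.natDegree_pow, hQd, mul_comm]
  obtain ⟨e₀, he₀⟩ : ∃ e₀, e₀ = (2 * d) % c := ⟨_, rfl⟩
  have he₀even : Even e₀ := by
    have h2 := Nat.mod_add_div (2 * d) c
    have h3 : Even ((2 * d) % c + c * ((2 * d) / c)) := by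
      rw [h2]
      exact even_two_mul d
    rw [he₀]
    exact (Nat.even_add.mp h3).mpr (hceven.mul_right _)
  obtain ⟨h1, h2, h3, h4⟩ := adm_mk e₀ he₀even R hRm hR0 hRs hR1
  have hLR : (X - C (1 : F)) ∉ normalizedFactors R := fun h => hLT (hRf _ h)
  refine ⟨(X - C 1) ^ e₀ * R, ⟨h1, ?_, h3, ?_, ?_⟩, ?_⟩
  · rw [h2, hRd, he₀, hA₀]
    exact Nat.mod_add_div (2 * d) c
  · intro P hP
    rw [h4, Multiset.mem_add] at hP
    rcases hP with hP | hP
    · exact Or.inl (Multiset.eq_of_mem_replicate hP)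
    · exact Or.inr (hRf P hP)
  · refine ⟨P₀, ?_, hP₀⟩
    rw [h4, Multiset.mem_add, hRnf]
    exact Or.inr ((Multiset.mem_nsmul_of_ne_zero hA₀pos.ne').mpr hQP)
  · rintro ⟨D, hDm, hDd, hDs, hDdvd⟩
    have hle := nf_le_of_dvd D _ hDm h1 hDdvd
    have hDf : ∀ P ∈ normalizedFactors D, P = X - C (1 : F) ∨ P ∈ T := by
      intro P hP
      have hP' := Multiset.mem_of_le hle hP
      rw [h4, Multiset.mem_add] at hP'
      rcases hP' with hP' | hP'
      · exact Or.inl (Multiset.eq_of_mem_replicate hP')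
      · exact Or.inr (hRf P hP')
    obtain ⟨e', R', hDe, hR'm, hR'f, hdeg', hR's, -, he'⟩ := adm_split T i hT hLT D hDm hDf
    obtain ⟨M, hM⟩ := c_dvd T i hT hpar c hc R' hR'm hR'f (hR's hDs)
    rw [hDd, hM] at hdeg'
    have he'le : e' ≤ e₀ := by
      rw [he']
      have h5 := Multiset.count_le_of_le (X - C (1 : F)) hle
      rw [h4, Multiset.count_add, Multiset.count_replicate_self,
        Multiset.count_eq_zero_of_notMem hLR, add_zero] at h5
      exact h5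
    have he₀lt : e₀ < c := by
      rw [he₀]
      exact Nat.mod_lt _ hcpos
    apply hneg
    have hMpos : 0 < M := by
      rcases Nat.eq_zero_or_pos M with h0 | h0
      · rw [h0, mul_zero, add_zero] at hdeg'
        omega
      · exact h0
    have hcM : c ≤ c * M := Nat.le_mul_of_pos_right c hMpos
    refine ⟨by omega, ?_⟩
    rw [← hdeg', Nat.add_mul_mod_self_left, Nat.mod_eq_of_lt (by omega), ← he₀]
    exact he'le

end crit

section elt
variable {F : Type*} [Field F] [Fintype F] [DecidableEq F]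

/-- Elements of odd prime order `r ≠ p` and invariant nondegenerate subspaces. -/
theorem nd_odd {p : ℕ} [Fact p.Prime] [CharP F p] {d : ℕ} (hd : 1 ≤ d) (r : ℕ) (hr : r.Prime)
    (hr2 : r ≠ 2) (hrp : r ≠ p) (T : Finset F[X]) (i : ℕ) (hi : 0 < i)
    (hT : ∀ P ∈ T, Irreducible P ∧ P.Monic ∧ P.natDegree = i ∧ P.coeff 0 ≠ 0)
    (hLT : (X - C (1 : F)) ∉ T) (hTs : ∀ P ∈ T, pstar P ∈ T)
    (hpar : ∀ P ∈ T, (pstar P = P ↔ Even i))
    (hTdvd : ∀ P : F[X], Irreducible P → P.Monic →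
      (P ∣ X ^ r - C (1 : F) ↔ P = X - C 1 ∨ P ∈ T))
    (hTne : T.Nonempty) (c : ℕ) (hc : c = if Even i then i else 2 * i)
    (m : ℕ) (hme : Even m) (hm : m ≤ 2 * d) (hc2d : c ≤ 2 * d) (hlt : (2 * d) % c < m) :
    (∀ x : ↥(Matrix.symplecticGroup (Fin d) F),
      (∃ z : F, ((x ^ r : ↥(Matrix.symplecticGroup (Fin d) F)) :
        Matrix (Fin d ⊕ Fin d) (Fin d ⊕ Fin d) F) =
          z • (1 : Matrix (Fin d ⊕ Fin d) (Fin d ⊕ Fin d) F)) →
      (∀ z : F, (x : Matrix (Fin d ⊕ Fin d) (Fin d ⊕ Fin d) F) ≠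
        z • (1 : Matrix (Fin d ⊕ Fin d) (Fin d ⊕ Fin d) F)) →
      ∃ W : Submodule F (Fin d ⊕ Fin d → F), Module.finrank F ↥W = m ∧
        (∀ u ∈ W, u ≠ 0 → ∃ v ∈ W, Cfsg.sympForm d F u v ≠ 0) ∧
        W.map (Matrix.toLin' (x : Matrix (Fin d ⊕ Fin d) (Fin d ⊕ Fin d) F)) ≤ W) ↔
    (c ≤ m ∧ m % c ≤ (2 * d) % c) := by
  have hpp : p.Prime := Fact.out
  have hrF : ((r : ℕ) : F) ≠ 0 := by
    rw [Ne, CharP.cast_eq_zero_iff F p]
    intro h
    exact hrp ((Nat.prime_dvd_prime_iff_eq hpp hr).mp h).symm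
  constructor
  · intro H
    by_contra hneg
    obtain ⟨P₀, hP₀⟩ := hTne
    obtain ⟨χ, hχ, hbad⟩ := exists_bad T i hi hT hLT hTs hpar c hc d m P₀ hP₀ hc2d hlt hneg
    obtain ⟨x, hxr, hxs, hxc⟩ :=
      Cfsg.Agent.Lib.Helper40.SpElt.exists_elt p hd r hr hr2 T hLT hTdvd χ hχ
    obtain ⟨W, hW1, hW2, hW3⟩ := H x ⟨1, by
      rw [one_smul]
      exact hxr⟩ hxs
    have hs := Cfsg.Agent.Lib.Helper40.SSConj.isSemisimple_toLin' _ r hrF hxr
    have h1 := hasN'_of_nd _ x.2 hs W hW2 hW3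
    rw [hW1, hxc] at h1
    exact hbad h1
  · rintro ⟨-, hmod⟩ x hxz hxs
    obtain ⟨z, hz⟩ := hxz
    have hz' : (x : Matrix (Fin d ⊕ Fin d) (Fin d ⊕ Fin d) F) ^ r = z • 1 := hz
    have hz2 : z * z = 1 := by
      apply Cfsg.Agent.Lib.Helper40.SpElt.scalar_sq hd z
      rw [← hz]
      exact (x ^ r).2
    have hz0 : z ≠ 0 := by
      intro h0
      rw [h0, zero_mul] at hz2
      exact zero_ne_one hz2
    obtain ⟨y, hy⟩ : ∃ y : Matrix (Fin d ⊕ Fin d) (Fin d ⊕ Fin d) F,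
        y = z • (x : Matrix (Fin d ⊕ Fin d) (Fin d ⊕ Fin d) F) := ⟨_, rfl⟩
    have hymem : y ∈ Matrix.symplecticGroup (Fin d) F := by
      rw [SymplecticGroup.mem_iff, hy, Matrix.transpose_smul, Matrix.smul_mul, Matrix.smul_mul,
        Matrix.mul_smul, smul_smul, hz2, one_smul]
      exact SymplecticGroup.mem_iff.mp x.2
    obtain ⟨k, hk⟩ := hr.odd_of_ne_two hr2
    have hyr : y ^ r = 1 := by
      rw [hy, _root_.smul_pow, hz', smul_smul, ← pow_succ, hk]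
      have h1 : z ^ (2 * k + 1 + 1) = 1 := by
        rw [show 2 * k + 1 + 1 = 2 * (k + 1) by ring, pow_mul, pow_two, hz2, one_pow]
      rw [h1, one_smul]
    have hy1 : y ≠ 1 := by
      intro h1
      apply hxs z⁻¹
      have h2 : z⁻¹ • y = z⁻¹ • (1 : Matrix (Fin d ⊕ Fin d) (Fin d ⊕ Fin d) F) := by rw [h1]
      rw [hy, smul_smul, inv_mul_cancel₀ hz0, one_smul] at h2
      exact h2
    have hadm := Cfsg.Agent.Lib.Helper40.SpElt.adm_of_elt (p := p) r hr hrp T hTdvd y hymem hyr hy1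
    obtain ⟨D, hDm, hDd, hDr, hDdvd⟩ :=
      hasN_of_adm T i hi hT hLT hpar c hc d m hme hm hmod _ hadm
    obtain ⟨m', hm'⟩ := hme
    obtain ⟨W, hW1, hW2, hW3⟩ := exists_nd_of_dvd p y hymem r hrF hyr m' D hDm
      (by rw [hDd, hm']; ring) hDr hDdvd
    refine ⟨W, by rw [hW1, hm']; ring, hW2, ?_⟩
    intro w hw
    obtain ⟨w', hw', rfl⟩ := Submodule.mem_map.mp hw
    have h1 : Matrix.toLin' y w' ∈ W := hW3 (Submodule.mem_map.mpr ⟨w', hw', rfl⟩)
    have h2 : Matrix.toLin' (x : Matrix (Fin d ⊕ Fin d) (Fin d ⊕ Fin d) F) w' =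
        z⁻¹ • Matrix.toLin' y w' := by
      rw [hy, map_smul, LinearMap.smul_apply, smul_smul, inv_mul_cancel₀ hz0, one_smul]
    rw [h2]
    exact W.smul_mem _ h1

/-- Elements of order `2` (modulo scalars) in odd characteristic fix nondegenerate subspaces of
every even dimension. -/
theorem nd_two {p : ℕ} [Fact p.Prime] [CharP F p] (hp2 : p ≠ 2) {d : ℕ} (hd : 1 ≤ d)
    (m : ℕ) (hme : Even m) (hm : m ≤ 2 * d) (x : ↥(Matrix.symplecticGroup (Fin d) F))
    (hxz : ∃ z : F, ((x ^ 2 : ↥(Matrix.symplecticGroup (Fin d) F)) :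
        Matrix (Fin d ⊕ Fin d) (Fin d ⊕ Fin d) F) =
          z • (1 : Matrix (Fin d ⊕ Fin d) (Fin d ⊕ Fin d) F)) :
    ∃ W : Submodule F (Fin d ⊕ Fin d → F), Module.finrank F ↥W = m ∧
      (∀ u ∈ W, u ≠ 0 → ∃ v ∈ W, Cfsg.sympForm d F u v ≠ 0) ∧
      W.map (Matrix.toLin' (x : Matrix (Fin d ⊕ Fin d) (Fin d ⊕ Fin d) F)) ≤ W := by
  have hpp : p.Prime := Fact.out
  have h2 : (2 : F) ≠ 0 := by
    have h : ((2 : ℕ) : F) ≠ 0 := by
      rw [Ne, CharP.cast_eq_zero_iff F p]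
      intro h
      exact hp2 ((Nat.prime_dvd_prime_iff_eq hpp Nat.prime_two).mp h)
    exact_mod_cast h
  have h4 : ((4 : ℕ) : F) ≠ 0 := by
    rw [Ne, CharP.cast_eq_zero_iff F p]
    intro h
    have h' : p ∣ 2 ^ 2 := by
      norm_num
      exact h
    exact hp2 ((Nat.prime_dvd_prime_iff_eq hpp Nat.prime_two).mp (hpp.dvd_of_dvd_pow h'))
  obtain ⟨z, hz⟩ := hxz
  have hz' : (x : Matrix (Fin d ⊕ Fin d) (Fin d ⊕ Fin d) F) ^ 2 = z • 1 := hz
  have hz2 : z * z = 1 := by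
    apply Cfsg.Agent.Lib.Helper40.SpElt.scalar_sq hd z
    rw [← hz]
    exact (x ^ 2).2
  obtain ⟨m', hm'⟩ := hme
  have hm'd : m' ≤ d := by omega
  have hx4 : (x : Matrix (Fin d ⊕ Fin d) (Fin d ⊕ Fin d) F) ^ 4 = 1 := by
    rw [show 4 = 2 * 2 by norm_num, pow_mul, hz', _root_.smul_pow, one_pow, pow_two, hz2,
      one_smul]
  have hN : HasN (2 * m') (x : Matrix (Fin d ⊕ Fin d) (Fin d ⊕ Fin d) F).charpoly := by
    rcases mul_self_eq_one_iff.mp hz2 with h | h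
    · rw [h, one_smul] at hz'
      exact hasN_of_hasD m' _ (Cfsg.Agent.Lib.Helper40.SpElt.hasD_sq_one h2 m' hm'd _ x.2 hz')
    · rw [h, neg_smul, one_smul] at hz'
      by_cases hsq : IsSquare (-1 : F)
      · obtain ⟨s, hs⟩ := hsq
        exact hasN_of_hasD m' _
          (Cfsg.Agent.Lib.Helper40.SpElt.hasD_sq_neg_one_split h2 s hs.symm m' hm'd _ x.2 hz')
      · have hns : ∀ b : F, b ^ 2 ≠ -1 := by
          intro b hb
          exact hsq ⟨b, by rw [← hb, pow_two]⟩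
        obtain ⟨T, hTc, hLT, hT, hfix, hfacT⟩ := Cfsg.Agent.Lib.Helper40.SpElt.sq_facts hns
        have hfac := hfacT (x : Matrix (Fin d ⊕ Fin d) (Fin d ⊕ Fin d) F) hz'
        have hχm := Matrix.charpoly_monic (x : Matrix (Fin d ⊕ Fin d) (Fin d ⊕ Fin d) F)
        have hχd : (x : Matrix (Fin d ⊕ Fin d) (Fin d ⊕ Fin d) F).charpoly.natDegree = 2 * d := by
          rw [Matrix.charpoly_natDegree_eq_dim, Fintype.card_sum, Fintype.card_fin]
          ring
        have hχs : pstar (x : Matrix (Fin d ⊕ Fin d) (Fin d ⊕ Fin d) F).charpoly =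
            (x : Matrix (Fin d ⊕ Fin d) (Fin d ⊕ Fin d) F).charpoly :=
          (star_of_pal _ hχm (Cfsg.Agent.Lib.Helper40.SpReal.charpoly_reverse _ x.2)).2
        have hcard : 2 * Multiset.card (normalizedFactors
            (x : Matrix (Fin d ⊕ Fin d) (Fin d ⊕ Fin d) F).charpoly) = 2 * d := by
          rw [← hχd, Cfsg.Agent.S2568.natDegree_eq_sum_nf _ hχm,
            Multiset.map_congr rfl (fun P hP => (hT P (hfac P hP)).2.2.1), Multiset.map_const',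
            Multiset.sum_replicate, smul_eq_mul, mul_comm]
        obtain ⟨D, hDm, hDd, hDr, hDdvd⟩ := exists_pal_dvd T 2 (by norm_num) hT hLT
          (fun P hP => ⟨fun _ => even_two, fun _ => hfix P hP⟩) 2 (by rw [if_pos even_two])
          _ hχm hfac hχs m' (by omega)
        exact ⟨D, hDm, hDd, hDr, hDdvd⟩
  obtain ⟨D, hDm, hDd, hDr, hDdvd⟩ := hN
  obtain ⟨W, hW1, hW2, hW3⟩ := exists_nd_of_dvd p _ x.2 4 h4 hx4 m' D hDm hDd hDr hDdvd
  exact ⟨W, by rw [hW1, hm']; ring, hW2, hW3⟩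

end elt

end Cfsg.Agent.Lib.Helper40.NDSemi
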