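import Mathlib
import Cfsg.Prelude.Def_ClassicalGeometry
import Cfsg.Agent.Lib.Helper13.SympMat
import Cfsg.Agent.Lib.Helper40.SpTI
import Cfsg.Agent.Lib.Helper40.NDPeel
import Cfsg.Agent.Lib.Helper40.AltRank
import Cfsg.Agent.Lib.Helper95.JAsm
import Cfsg.Agent.S5959
import Cfsg.Agent.Lib.Helper40.SpElt

set_option autoImplicit false

namespace Cfsg.Agent.Lib.Helper40.NDUnip

open Module Matrix Cfsg.Agent.Lib.Helper95.NilJordan Cfsg.Agent.Lib.Helper95.JType
  Cfsg.Agent.Lib.Helper95.JAsm Cfsg.Agent.Lib.Helper13.SympMat Cfsg.Agent.Lib.Helper40.NDPeel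

universe u

section
variable {F : Type u} [Field F]

theorem exists_index' (μ : Multiset ℕ) :
    ∃ (t : ℕ) (d : Fin t → ℕ), Multiset.map d Finset.univ.val = μ := by
  refine ⟨μ.toList.length, fun i => μ.toList.get i, ?_⟩
  rw [Fin.univ_val_map, List.ofFn_get, Multiset.coe_toList]

/-- Unipotent symplectic matrices of prescribed Jordan type. -/
theorem exists_unip (d : ℕ) (μ : Multiset ℕ) (hpos : ∀ b ∈ μ, 0 < b)
    (hpar : ∀ a, Odd a → Even (μ.count a)) (hsum : μ.sum = 2 * d) :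
    ∃ A : Matrix (Fin d ⊕ Fin d) (Fin d ⊕ Fin d) F, A ∈ Matrix.symplecticGroup (Fin d) F ∧
      IsNilpotent (A - 1) ∧ ∀ i, ((A - 1) ^ i).rank = (μ.map (fun b => b - i)).sum := by
  classical
  obtain ⟨t, dd, hd⟩ := exists_index' μ
  have hdpos : ∀ k, 0 < dd k := fun k => hpos _ (by
    rw [← hd]
    exact Multiset.mem_map_of_mem dd (Finset.mem_univ_val k))
  have hpar' : ∀ j : ℕ, Odd j → Even (Finset.univ.filter (fun k => dd k = j)).card := by
    intro j hj
    rw [← count_map_univ, hd]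
    exact hpar j hj
  have hsumi : ∀ i, ∑ k, (dd k - i) = (μ.map (fun b => b - i)).sum := by
    intro i
    rw [← hd, Multiset.map_map]
    rfl
  have hgood := goodAlt_of_parity (F := F) dd hdpos hpar'
  obtain ⟨A, hA, hnil, hrank⟩ := exists_symp_of_goodAlt d _ hgood (by
    show ∑ k, (dd k - 0) = 2 * d
    rw [hsumi 0, ← hsum]
    simp)
  exact ⟨A, hA, hnil, fun i => by rw [hrank i, hsumi i]⟩

/-- The Jordan type of a unipotent symplectic matrix on an invariant nondegenerate subspace. -/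
theorem restrict_type {d : ℕ} (A : Matrix (Fin d ⊕ Fin d) (Fin d ⊕ Fin d) F)
    (hA : A ∈ Matrix.symplecticGroup (Fin d) F) (hnil : IsNilpotent (A - 1)) (μ : Multiset ℕ)
    (hpos : ∀ b ∈ μ, 0 < b)
    (hrank : ∀ i, ((A - 1) ^ i).rank = (μ.map (fun b => b - i)).sum)
    (W : Submodule F (Fin d ⊕ Fin d → F))
    (hW : ∀ u ∈ W, u ≠ 0 → ∃ v ∈ W, Cfsg.sympForm d F u v ≠ 0)
    (hWx : W.map (Matrix.toLin' A) ≤ W) :
    ∃ ν : Multiset ℕ, ν ≤ μ ∧ ν.sum = finrank F W ∧ (∀ e, Odd e → Even (ν.count e)) := by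
  classical
  obtain ⟨X, hX⟩ : ∃ X : Module.End F (Fin d ⊕ Fin d → F), X = Matrix.toLin' A := ⟨_, rfl⟩
  obtain ⟨N, hN⟩ : ∃ N : Module.End F (Fin d ⊕ Fin d → F), N = X - 1 := ⟨_, rfl⟩
  have hNmat : N = Matrix.toLin' (A - 1) := by
    rw [hN, hX, map_sub, Matrix.toLin'_one]
    rfl
  have hNnil : IsNilpotent N := by
    obtain ⟨c, hc⟩ := hnil
    exact ⟨c, by rw [hNmat, ← Matrix.toLin'_pow, hc, map_zero]⟩
  obtain ⟨B, hB⟩ : ∃ B : LinearMap.BilinForm F (Fin d ⊕ Fin d → F), B = form d F := ⟨_, rfl⟩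
  have hBalt : B.IsAlt := by
    rw [hB]
    exact form_alt d
  have hND : ND B W := by
    intro u hu hu0
    obtain ⟨v, hv, hv'⟩ := hW u hu hu0
    refine ⟨v, hv, ?_⟩
    rw [hB, form_apply]
    exact hv'
  have hiso : ∀ u v, B (X u) (X v) = B u v := by
    intro u v
    rw [hB, hX]
    exact Cfsg.Agent.Lib.Helper40.SpTI.form_isometry A hA u v
  have hcompl : IsCompl W (B.orthogonal W) := nd_compl B hBalt W hND
  have hXW : ∀ w ∈ W, X w ∈ W := fun w hw => hWx (by
    rw [hX]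
    exact Submodule.mem_map_of_mem hw)
  have hNapp : ∀ w, N w = X w - w := fun w => by
    rw [hN]
    rfl
  have hNW : ∀ w ∈ W, N w ∈ W := fun w hw => by
    rw [hNapp]
    exact W.sub_mem (hXW w hw) hw
  have hWinv : W ∈ Module.End.invtSubmodule (Matrix.toLin' A) := by
    rw [Module.End.mem_invtSubmodule]
    exact Submodule.map_le_iff_le_comap.mp hWx
  have hXWp : ∀ v ∈ B.orthogonal W, X v ∈ B.orthogonal W := by
    have h1 := Cfsg.Agent.Lib.Helper40.SpTI.orthogonal_invt A hA W hWinv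
    rw [Module.End.mem_invtSubmodule] at h1
    intro v hv
    rw [hB] at hv ⊢
    rw [hX]
    exact h1 hv
  have hNWp : ∀ w ∈ B.orthogonal W, N w ∈ B.orthogonal W := fun w hw => by
    rw [hNapp]
    exact (B.orthogonal W).sub_mem (hXWp w hw) hw
  obtain ⟨c, hc⟩ := hNnil
  have hnilW : IsNilpotent (N.restrict hNW : Module.End F W) := by
    refine ⟨c, ?_⟩
    ext1 y
    apply Subtype.ext
    rw [restrict_pow_apply, hc]
    rfl
  have hnilWp : IsNilpotent (N.restrict hNWp : Module.End F (B.orthogonal W)) := by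
    refine ⟨c, ?_⟩
    ext1 y
    apply Subtype.ext
    rw [restrict_pow_apply, hc]
    rfl
  obtain ⟨κ, _, k, v, hkpos, hJ⟩ := exists_jordan _ W (N.restrict hNW) hnilW rfl
  obtain ⟨κ', _, k', v', hkpos', hJ'⟩ :=
    exists_jordan _ (B.orthogonal W) (N.restrict hNWp) hnilWp rfl
  obtain ⟨t, dd, hd⟩ := exists_index' μ
  have hdpos : ∀ j, 0 < dd j := fun j => hpos _ (by
    rw [← hd]
    exact Multiset.mem_map_of_mem dd (Finset.mem_univ_val j))
  have hsums : ∀ m, ∑ i, (dd i - m) = ∑ s : κ ⊕ κ', (Sum.elim k k' s - m) := by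
    intro m
    have h1 : ∑ i, (dd i - m) = (μ.map (fun b => b - m)).sum := by
      rw [← hd, Multiset.map_map]
      rfl
    rw [h1, ← hrank m, ← rk_toLin', ← hNmat]
    show finrank F (LinearMap.range (N ^ m)) = _
    rw [Cfsg.Agent.S5959.finrank_range_pow_add N W (B.orthogonal W) hNW hNWp hcompl.inf_eq_bot
      hcompl.sup_eq_top m, hJ.finrank_range_pow m, hJ'.finrank_range_pow m,
      Fintype.sum_sum_type]
    simp
  have heq := multiset_eq_of_sums dd (Sum.elim k k') hdpos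
    (by rintro (i | i); exacts [hkpos i, hkpos' i]) hsums
  have hsplit : Multiset.map (Sum.elim k k') (Finset.univ : Finset (κ ⊕ κ')).val =
      Multiset.map k Finset.univ.val + Multiset.map k' Finset.univ.val := by
    rw [← Finset.univ_disjSum_univ]
    simp [Finset.disjSum, Multiset.disjSum, Multiset.map_map]
  have hfW : finrank F W = ∑ i, k i := by
    have h0 := hJ.finrank_range_pow 0
    rw [pow_zero] at h0
    have h1 : LinearMap.range (1 : Module.End F W) = ⊤ := LinearMap.range_id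
    rw [h1, finrank_top] at h0
    rw [h0]
    simp
  refine ⟨Multiset.map k Finset.univ.val, ?_, ?_, ?_⟩
  · rw [← hd, heq, hsplit]
    exact Multiset.le_add_right _ _
  · rw [hfW]
    rfl
  · intro e he
    obtain ⟨s, hs⟩ := he
    rw [count_map_univ]
    obtain ⟨b, hb⟩ : ∃ b : Basis (Fin (finrank F W)) F W, b = Module.finBasis F W := ⟨_, rfl⟩
    obtain ⟨XW, hXWdef⟩ : ∃ XW : Module.End F W, XW = X.restrict hXW := ⟨_, rfl⟩
    obtain ⟨BW, hBW⟩ : ∃ BW : LinearMap.BilinForm F W, BW = B.restrict W := ⟨_, rfl⟩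
    obtain ⟨Am, hAm⟩ : ∃ Am, Am = LinearMap.toMatrix b b XW := ⟨_, rfl⟩
    obtain ⟨G, hG⟩ : ∃ G, G = LinearMap.BilinForm.toMatrix b BW := ⟨_, rfl⟩
    have hXN : XW - 1 = N.restrict hNW := by
      rw [hXWdef]
      ext1 y
      apply Subtype.ext
      show X (y : Fin d ⊕ Fin d → F) - y = N y
      rw [hNapp]
    have hBres : BW.Nondegenerate := by
      rw [hBW]
      exact nd_restrict B hBalt W hND
    have hGdet : IsUnit G.det := by
      rw [isUnit_iff_ne_zero, hG]
      exact (LinearMap.BilinForm.nondegenerate_iff_det_ne_zero b).mp hBres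
    have hcomp : BW.comp XW XW = BW := by
      rw [hBW, hXWdef]
      ext y z
      show B (X y) (X z) = B y z
      rw [hiso]
    have hAG : Amᵀ * G * Am = G := by
      rw [hAm, hG, ← LinearMap.BilinForm.toMatrix_comp b b, hcomp]
    have hBWalt : ∀ w : W, BW w w = 0 := by
      intro w
      rw [hBW]
      exact hBalt _
    have halt : ∀ v : Fin (finrank F W) → F, v ⬝ᵥ (G *ᵥ v) = 0 := by
      intro v
      have h1 : BW (∑ i, v i • b i) (∑ j, v j • b j) = 0 := hBWalt _
      rw [← h1]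
      simp only [dotProduct, Matrix.mulVec, map_sum, map_smul, LinearMap.sum_apply,
        LinearMap.smul_apply, smul_eq_mul, Finset.mul_sum, hG,
        LinearMap.BilinForm.toMatrix_apply]
      rw [Finset.sum_comm]
      apply Finset.sum_congr rfl
      intro i _
      apply Finset.sum_congr rfl
      intro j _
      ring
    have hrk : ∀ i, ((Am - 1) ^ i).rank = ∑ j, (k j - i) := by
      intro i
      rw [hAm, rank_toMatrix_pow b XW i, hXN]
      exact hJ.finrank_range_pow i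
    have h0 := even_rank_even_pow G Am hGdet hAG halt s
    have h2' := even_rank_even_pow G Am hGdet hAG halt (s + 1)
    rw [hrk] at h0 h2'
    have hc' := sum_key k (2 * s)
    have e2 : 2 * (s + 1) = 2 * s + 2 := by ring
    rw [e2] at h2'
    have h3 : Even (2 * ∑ j, (k j - (2 * s + 1)) +
        (Finset.univ.filter (fun j => k j = 2 * s + 1)).card) := by
      rw [← hc']
      exact h0.add h2'
    rw [hs]
    exact (Nat.even_add.mp h3).mp (even_two_mul _)

end

section four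
variable {F : Type*} [Field F] {V : Type*} [AddCommGroup V] [Module F V] [FiniteDimensional F V]

/-- For a square-zero map `N` with `ker N ⊆ im N` and `f (u, N u) = 0`, every `N`-invariant
nondegenerate subspace (with invariant orthogonal complement) has dimension divisible by `4`. -/
theorem four_dvd (f : LinearMap.BilinForm F V) (hA : f.IsAlt) (N : Module.End F V)
    (hNN : ∀ v, N (N v) = 0) (hker : ∀ v, N v = 0 → ∃ u, N u = v) (halt : ∀ u, f u (N u) = 0)
    (W : Submodule F V) (hW : ND f W) (hNW : ∀ w ∈ W, N w ∈ W)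
    (hNWp : ∀ w ∈ f.orthogonal W, N w ∈ f.orthogonal W) : 4 ∣ finrank F W := by
  have hcompl := nd_compl f hA W hW
  obtain ⟨g, hg⟩ : ∃ g : ↥W →ₗ[F] V, g = N.domRestrict W := ⟨_, rfl⟩
  have hgapp : ∀ w : W, g w = N (w : V) := by
    intro w
    rw [hg]
    rfl
  have hrange : LinearMap.range g = W.map N := by rw [hg, LinearMap.range_domRestrict]
  have hrn := LinearMap.finrank_range_add_finrank_ker g
  have hkermap : (LinearMap.ker g).map W.subtype = W.map N := by
    ext v
    constructor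
    · rintro ⟨w, hw, rfl⟩
      have hw0 : N (w : V) = 0 := by
        rw [← hgapp]
        exact hw
      obtain ⟨u, hu⟩ := hker _ hw0
      have hu' : u ∈ W ⊔ f.orthogonal W := by
        rw [hcompl.sup_eq_top]
        exact Submodule.mem_top
      obtain ⟨u₁, hu₁, u₂, hu₂, rfl⟩ := Submodule.mem_sup.mp hu'
      rw [map_add] at hu
      have h2 : N u₂ ∈ W ⊓ f.orthogonal W := by
        refine ⟨?_, hNWp u₂ hu₂⟩
        have e : N u₂ = (w : V) - N u₁ := by
          rw [← hu]
          abel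
        rw [e]
        exact W.sub_mem w.2 (hNW u₁ hu₁)
      rw [hcompl.inf_eq_bot, Submodule.mem_bot] at h2
      rw [h2, add_zero] at hu
      exact ⟨u₁, hu₁, hu⟩
    · rintro ⟨w, hw, rfl⟩
      refine ⟨⟨N w, hNW w hw⟩, ?_, rfl⟩
      show g ⟨N w, hNW w hw⟩ = 0
      rw [hgapp]
      exact hNN w
  have hkerdim : finrank F (LinearMap.ker g) = finrank F (W.map N) := by
    rw [← hkermap, Submodule.finrank_map_subtype_eq]
  obtain ⟨C, hC⟩ := Submodule.exists_isCompl (LinearMap.ker g)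
  have hCdim := Submodule.finrank_add_eq_of_isCompl hC
  obtain ⟨β, hβ⟩ : ∃ β : LinearMap.BilinForm F ↥C,
      ∀ a b : ↥C, β a b = f ((a : W) : V) (N ((b : W) : V)) :=
    ⟨LinearMap.BilinForm.restrict (LinearMap.BilinForm.restrict (f.compl₂ N) W) C,
      fun a b => rfl⟩
  have hskew : ∀ u v : V, f u (N v) = -f v (N u) := by
    intro u v
    have h := halt (u + v)
    simp only [map_add, LinearMap.add_apply] at h
    rw [halt u, halt v] at h
    linear_combination h
  have hev : Even (finrank F ↥C) := by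
    apply Cfsg.Agent.Lib.Helper40.AltRank.even_finrank_of_alt β
    · intro a
      rw [hβ]
      exact halt _
    · intro c hc
      have h1 : ∀ w : W, f ((c : W) : V) (N (w : V)) = 0 := by
        intro w
        have hw : w ∈ LinearMap.ker g ⊔ C := by
          rw [hC.sup_eq_top]
          exact Submodule.mem_top
        obtain ⟨k, hk, c', hc', rfl⟩ := Submodule.mem_sup.mp hw
        have hk0 : N (k : V) = 0 := by
          rw [← hgapp]
          exact hk
        rw [Submodule.coe_add, map_add, hk0, zero_add]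
        have h := hc ⟨c', hc'⟩
        rwa [hβ] at h
      have h2 : N ((c : W) : V) = 0 := by
        by_contra hne
        obtain ⟨v, hv, hv'⟩ := hW _ (hNW _ (c : W).2) hne
        apply hv'
        rw [← hA.neg_eq, hskew, h1 ⟨v, hv⟩]
        simp
      have h3 : (c : W) ∈ LinearMap.ker g ⊓ C := by
        refine ⟨?_, c.2⟩
        show g (c : W) = 0
        rw [hgapp]
        exact h2
      rw [hC.inf_eq_bot, Submodule.mem_bot] at h3
      exact Subtype.ext h3
  rw [hrange] at hrn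
  obtain ⟨r, hr⟩ := hev
  exact ⟨r, by omega⟩

end four

section bad
variable {F : Type u} [Field F]

/-- In characteristic `2` and for `d` even there is a symplectic involution all of whose invariant
nondegenerate subspaces have dimension divisible by `4`. -/
theorem exists_bad_invol (h2 : (2 : F) = 0) (d : ℕ) (hd : 1 ≤ d) (hde : Even d) :
    ∃ A : Matrix (Fin d ⊕ Fin d) (Fin d ⊕ Fin d) F, A ∈ Matrix.symplecticGroup (Fin d) F ∧
      A ^ 2 = 1 ∧ (∀ z : F, A ≠ z • (1 : Matrix (Fin d ⊕ Fin d) (Fin d ⊕ Fin d) F)) ∧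
      ∀ W : Submodule F (Fin d ⊕ Fin d → F),
        (∀ u ∈ W, u ≠ 0 → ∃ v ∈ W, Cfsg.sympForm d F u v ≠ 0) →
        W.map (Matrix.toLin' A) ≤ W → 4 ∣ finrank F W := by
  classical
  obtain ⟨S, hS⟩ : ∃ S : Matrix (Fin d) (Fin d) F,
      S = Matrix.of (fun i j => if j = Fin.rev i then (1 : F) else 0) := ⟨_, rfl⟩
  have hSt : Sᵀ = S := by
    ext i j
    rw [Matrix.transpose_apply, hS, Matrix.of_apply, Matrix.of_apply]
    by_cases h : j = Fin.rev i
    · have h' : i = Fin.rev j := by rw [h, Fin.rev_rev]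
      rw [if_pos h, if_pos h']
    · have h' : ¬ i = Fin.rev j := by
        intro h''
        apply h
        rw [h'', Fin.rev_rev]
      rw [if_neg h, if_neg h']
  have hSv : ∀ w : Fin d → F, S *ᵥ w = w ∘ Fin.rev := by
    intro w
    funext i
    rw [hS, Matrix.mulVec, dotProduct]
    simp only [Matrix.of_apply, ite_mul, one_mul, zero_mul, Finset.sum_ite_eq',
      Finset.mem_univ, if_true, Function.comp_apply]
  have hSS : S + S = 0 := by
    rw [← two_smul F S, h2, zero_smul]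
  obtain ⟨A, hAdef⟩ : ∃ A : Matrix (Fin d ⊕ Fin d) (Fin d ⊕ Fin d) F,
      A = Matrix.fromBlocks 1 S 0 1 := ⟨_, rfl⟩
  have hAmem : A ∈ Matrix.symplecticGroup (Fin d) F := by
    rw [hAdef, SymplecticGroup.mem_iff, Matrix.J, Matrix.fromBlocks_transpose,
      Matrix.fromBlocks_multiply, Matrix.fromBlocks_multiply]
    simp [hSt]
  have hA2 : A ^ 2 = 1 := by
    rw [pow_two, hAdef, Matrix.fromBlocks_multiply]
    simp only [Matrix.one_mul, Matrix.mul_zero, add_zero, Matrix.mul_one, Matrix.zero_mul,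
      zero_add, hSS]
    exact Matrix.fromBlocks_one
  have hAns : ∀ z : F, A ≠ z • (1 : Matrix (Fin d ⊕ Fin d) (Fin d ⊕ Fin d) F) := by
    intro z hz
    have h1 := congrFun (congrFun hz (Sum.inl ⟨0, by omega⟩))
      (Sum.inr (Fin.rev ⟨0, by omega⟩))
    rw [hAdef, Matrix.fromBlocks_apply₁₂, hS, Matrix.of_apply, if_pos rfl] at h1
    simp at h1
  refine ⟨A, hAmem, hA2, hAns, ?_⟩
  intro W hW hWx
  obtain ⟨N, hN⟩ : ∃ N : Module.End F (Fin d ⊕ Fin d → F), N = Matrix.toLin' (A - 1) :=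
    ⟨_, rfl⟩
  have hA1 : A - 1 = Matrix.fromBlocks 0 S 0 0 := by
    rw [hAdef]
    ext (i | i) (j | j) <;> simp [Matrix.one_apply]
  have hNapp : ∀ v : Fin d ⊕ Fin d → F, N v = Sum.elim ((v ∘ Sum.inr) ∘ Fin.rev) 0 := by
    intro v
    rw [hN, Matrix.toLin'_apply, hA1, Matrix.fromBlocks_mulVec, hSv]
    simp
  have hNN : ∀ v, N (N v) = 0 := by
    intro v
    rw [hNapp, hNapp]
    funext i
    rcases i with i | i <;> simp
  have hker : ∀ v, N v = 0 → ∃ u, N u = v := by
    intro v hv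
    rw [hNapp] at hv
    have hv2 : ∀ i, v (Sum.inr i) = 0 := by
      intro i
      have h1 := congrFun hv (Sum.inl (Fin.rev i))
      simpa using h1
    refine ⟨Sum.elim 0 ((v ∘ Sum.inl) ∘ Fin.rev), ?_⟩
    rw [hNapp]
    funext i
    rcases i with i | i
    · simp
    · simp [hv2 i]
  have halt : ∀ u, Cfsg.Agent.Lib.Helper13.SympMat.form d F u (N u) = 0 := by
    intro u
    rw [form_apply, Cfsg.sympForm, hNapp, Matrix.J, Matrix.fromBlocks_mulVec]
    simp only [Sum.elim_comp_inl, Sum.elim_comp_inr, Matrix.zero_mulVec, Matrix.neg_mulVec,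
      Matrix.one_mulVec, Pi.zero_apply, neg_zero, add_zero, zero_add]
    rw [dotProduct, Fintype.sum_sum_type]
    simp only [Sum.elim_inl, Sum.elim_inr, Pi.zero_apply, mul_zero, Finset.sum_const_zero,
      zero_add, Function.comp_apply]
    apply Finset.sum_involution (fun i _ => Fin.rev i)
    · intro i _
      rw [Fin.rev_rev]
      have h3 : u (Sum.inr i) * u (Sum.inr (Fin.rev i)) +
          u (Sum.inr (Fin.rev i)) * u (Sum.inr i) =
          (2 : F) * (u (Sum.inr i) * u (Sum.inr (Fin.rev i))) := by ring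
      rw [h3, h2, zero_mul]
    · intro i _ _ hi
      have h3 := congrArg Fin.val hi
      rw [Fin.val_rev] at h3
      obtain ⟨r, hr⟩ := hde
      have := i.2
      omega
    · intro i _
      exact Finset.mem_univ _
    · intro i _
      exact Fin.rev_rev i
  have hND : ND (form d F) W := by
    intro u hu hu0
    obtain ⟨v, hv, hv'⟩ := hW u hu hu0
    refine ⟨v, hv, ?_⟩
    rw [form_apply]
    exact hv'
  have hWinv : W ∈ Module.End.invtSubmodule (Matrix.toLin' A) := by
    rw [Module.End.mem_invtSubmodule]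
    exact Submodule.map_le_iff_le_comap.mp hWx
  have hNeq : ∀ v, N v = Matrix.toLin' A v - v := by
    intro v
    rw [hN, map_sub, Matrix.toLin'_one]
    rfl
  have hNW : ∀ w ∈ W, N w ∈ W := by
    intro w hw
    rw [hNeq]
    exact W.sub_mem (hWx (Submodule.mem_map_of_mem hw)) hw
  have hNWp : ∀ w ∈ (form d F).orthogonal W, N w ∈ (form d F).orthogonal W := by
    have h1 := Cfsg.Agent.Lib.Helper40.SpTI.orthogonal_invt A hAmem W hWinv
    rw [Module.End.mem_invtSubmodule] at h1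
    intro w hw
    rw [hNeq]
    exact ((form d F).orthogonal W).sub_mem (h1 hw) hw
  exact four_dvd (form d F) (form_alt d) N hNN hker halt W hND hNW hNWp

end bad

section final
variable {F : Type u} [Field F]

theorem eq_zero_of_rank_zero {ι : Type*} [Fintype ι] [DecidableEq ι] (M : Matrix ι ι F)
    (h : M.rank = 0) : M = 0 := by
  rw [Matrix.rank] at h
  have h1 : LinearMap.range M.mulVecLin = ⊥ := Submodule.finrank_eq_zero.mp h
  have h2 : M.mulVecLin = 0 := LinearMap.range_eq_bot.mp h1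
  ext i j
  have := congrFun (congrArg (fun f => f (Pi.single j 1)) h2) i
  simpa using this

/-- Necessity for `r = p`: every good partition has a good sub-partition of `m`. -/
theorem unip_core {p : ℕ} [Fact p.Prime] [CharP F p] {d : ℕ} (hd : 1 ≤ d) (m : ℕ)
    (hme : Even m) (hm : m ≤ 2 * d)
    (H : ∀ A : Matrix (Fin d ⊕ Fin d) (Fin d ⊕ Fin d) F,
      A ∈ Matrix.symplecticGroup (Fin d) F → A ^ p = 1 →
      (∀ z : F, A ≠ z • (1 : Matrix (Fin d ⊕ Fin d) (Fin d ⊕ Fin d) F)) →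
      ∃ W : Submodule F (Fin d ⊕ Fin d → F), finrank F W = m ∧
        (∀ u ∈ W, u ≠ 0 → ∃ v ∈ W, Cfsg.sympForm d F u v ≠ 0) ∧ W.map (Matrix.toLin' A) ≤ W)
    (μ : Multiset ℕ) (hμ1 : ∀ a ∈ μ, 0 < a ∧ a ≤ p) (hμ2 : ∀ a, Odd a → Even (μ.count a))
    (hsum : μ.sum = 2 * d) :
    ∃ ν : Multiset ℕ, ν ≤ μ ∧ ν.sum = m ∧ ∀ a, Odd a → Even (ν.count a) := by
  classical
  have hp : p.Prime := Fact.out
  by_cases hall : ∀ a ∈ μ, a = 1
  · have hμ1' : μ = Multiset.replicate (Multiset.card μ) 1 :=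
      Multiset.eq_replicate_card.mpr hall
    have hcard : Multiset.card μ = 2 * d := by
      have h1 := hsum
      rw [hμ1'] at h1
      simpa using h1
    rw [hcard] at hμ1'
    refine ⟨Multiset.replicate m 1, ?_, by simp, ?_⟩
    · rw [hμ1']
      exact (Multiset.replicate_le_replicate 1).mpr hm
    · intro a _
      rw [Multiset.count_replicate]
      split_ifs
      · exact hme
      · exact Even.zero
  · push Not at hall
    obtain ⟨a₀, ha₀, ha₀1⟩ := hall
    obtain ⟨A, hAmem, hAnil, hArank⟩ :=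
      exists_unip (F := F) d μ (fun b hb => (hμ1 b hb).1) hμ2 hsum
    have : Nonempty (Fin d ⊕ Fin d) := ⟨Sum.inl ⟨0, hd⟩⟩
    have : CharP (Matrix (Fin d ⊕ Fin d) (Fin d ⊕ Fin d) F) p := inferInstance
    have hNp : (A - 1) ^ p = 0 := by
      apply eq_zero_of_rank_zero
      rw [hArank]
      apply Multiset.sum_eq_zero
      intro y hy
      obtain ⟨b, hb, rfl⟩ := Multiset.mem_map.mp hy
      have := (hμ1 b hb).2
      omega
    have hAp : A ^ p = 1 := by
      have e : A = (A - 1) + 1 := (sub_add_cancel _ _).symm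
      rw [e, add_pow_char_of_commute _ (Commute.one_right _), hNp, one_pow, zero_add]
    have hAns : ∀ z : F, A ≠ z • (1 : Matrix (Fin d ⊕ Fin d) (Fin d ⊕ Fin d) F) := by
      intro z hz
      have h1 := hAp
      rw [hz, smul_pow, one_pow] at h1
      have h2 := congrFun (congrFun h1 (Sum.inl ⟨0, hd⟩)) (Sum.inl ⟨0, hd⟩)
      rw [Matrix.smul_apply, Matrix.one_apply_eq, smul_eq_mul, mul_one] at h2
      have h3 : (z - 1) ^ p = 0 := by rw [sub_pow_char, h2, one_pow, sub_self]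
      have h4 : z = 1 := sub_eq_zero.mp ((pow_eq_zero_iff hp.ne_zero).mp h3)
      have h5 := hArank 1
      rw [hz, h4, one_smul, sub_self, pow_one, Matrix.rank_zero] at h5
      have h6 := (Multiset.sum_eq_zero_iff.mp h5.symm) (a₀ - 1) (Multiset.mem_map_of_mem _ ha₀)
      have := (hμ1 a₀ ha₀).1
      omega
    obtain ⟨W, hW1, hW2, hW3⟩ := H A hAmem hAp hAns
    obtain ⟨ν, hνle, hνsum, hνpar⟩ := restrict_type A hAmem hAnil μ
      (fun b hb => (hμ1 b hb).1) hArank W hW2 hW3
    exact ⟨ν, hνle, by rw [hνsum, hW1], hνpar⟩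

/-- Sufficiency for `r = p` odd. -/
theorem unip_fix {p : ℕ} [Fact p.Prime] [CharP F p] (h2 : (2 : F) ≠ 0) {d : ℕ} (hd : 1 ≤ d)
    (m : ℕ)
    (hpart : ∀ μ : Multiset ℕ, (∀ a ∈ μ, 0 < a ∧ a ≤ p) →
      (∀ a : ℕ, Odd a → Even (μ.count a)) → μ.sum = 2 * d →
      ∃ ν : Multiset ℕ, ν ≤ μ ∧ ν.sum = m ∧ ∀ a : ℕ, Odd a → Even (ν.count a))
    (x : Matrix (Fin d ⊕ Fin d) (Fin d ⊕ Fin d) F)
    (hx : x ∈ Matrix.symplecticGroup (Fin d) F) (z : F) (hz : x ^ p = z • 1) :
    ∃ W : Submodule F (Fin d ⊕ Fin d → F), finrank F W = m ∧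
      (∀ u ∈ W, u ≠ 0 → ∃ v ∈ W, Cfsg.sympForm d F u v ≠ 0) ∧
      W.map (Matrix.toLin' x) ≤ W := by
  have hp : p.Prime := Fact.out
  have hp2 : p ≠ 2 := by
    rintro rfl
    apply h2
    have := CharP.cast_eq_zero F 2
    exact_mod_cast this
  have : Nonempty (Fin d ⊕ Fin d) := ⟨Sum.inl ⟨0, hd⟩⟩
  have : CharP (Matrix (Fin d ⊕ Fin d) (Fin d ⊕ Fin d) F) p := inferInstance
  have hz2 : z * z = 1 := by
    apply Cfsg.Agent.Lib.Helper40.SpElt.scalar_sq hd z
    rw [← hz]
    exact (Matrix.symplecticGroup (Fin d) F).pow_mem hx p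
  have hz0 : z ≠ 0 := by
    intro h0
    rw [h0, zero_mul] at hz2
    exact zero_ne_one hz2
  obtain ⟨y, hy⟩ : ∃ y : Matrix (Fin d ⊕ Fin d) (Fin d ⊕ Fin d) F, y = z • x := ⟨_, rfl⟩
  have hymem : y ∈ Matrix.symplecticGroup (Fin d) F := by
    rw [SymplecticGroup.mem_iff, hy, Matrix.transpose_smul, Matrix.smul_mul, Matrix.smul_mul,
      Matrix.mul_smul, smul_smul, hz2, one_smul]
    exact SymplecticGroup.mem_iff.mp hx
  obtain ⟨k, hk⟩ := hp.odd_of_ne_two hp2
  have hyp : y ^ p = 1 := by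
    rw [hy, _root_.smul_pow, hz, smul_smul, ← pow_succ, hk]
    have h1 : z ^ (2 * k + 1 + 1) = 1 := by
      rw [show 2 * k + 1 + 1 = 2 * (k + 1) by ring, pow_mul, pow_two, hz2, one_pow]
    rw [h1, one_smul]
  have hNp : (y - 1) ^ p = 0 := by
    rw [sub_pow_char_of_commute _ (Commute.one_right _), hyp, one_pow, sub_self]
  obtain ⟨μ, hμ1, hμ2, hμsum, hμ⟩ := unip_odd h2 p y hymem hNp
  obtain ⟨ν, hνle, hνsum, hνpar⟩ := hpart μ hμ1 hμ2 hμsum
  obtain ⟨W, hW1, hW2, hW3⟩ := hμ ν hνle hνpar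
  refine ⟨W, by rw [hW1, hνsum], hW2, ?_⟩
  intro w hw
  obtain ⟨w', hw', rfl⟩ := Submodule.mem_map.mp hw
  have h1 : Matrix.toLin' y w' ∈ W := hW3 (Submodule.mem_map.mpr ⟨w', hw', rfl⟩)
  have h3 : Matrix.toLin' x w' = z⁻¹ • Matrix.toLin' y w' := by
    rw [hy, map_smul, LinearMap.smul_apply, smul_smul, inv_mul_cancel₀ hz0, one_smul]
  rw [h3]
  exact W.smul_mem _ h1

/-- Sufficiency for `r = p = 2`. -/
theorem invol_fix' (h2 : (2 : F) = 0) {d : ℕ} (hd : 1 ≤ d) (m : ℕ) (hm : m ≤ 2 * d)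
    (hme : Even m) (hcond : (2 * d) % 4 = 2 ∨ m % 4 = 0)
    (x : Matrix (Fin d ⊕ Fin d) (Fin d ⊕ Fin d) F)
    (hx : x ∈ Matrix.symplecticGroup (Fin d) F) (z : F) (hz : x ^ 2 = z • 1) :
    ∃ W : Submodule F (Fin d ⊕ Fin d → F), finrank F W = m ∧
      (∀ u ∈ W, u ≠ 0 → ∃ v ∈ W, Cfsg.sympForm d F u v ≠ 0) ∧
      W.map (Matrix.toLin' x) ≤ W := by
  have hz2 : z * z = 1 := by
    apply Cfsg.Agent.Lib.Helper40.SpElt.scalar_sq hd z
    rw [← hz]
    exact (Matrix.symplecticGroup (Fin d) F).pow_mem hx 2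
  have hz1 : z = 1 := by
    have h1 : (z - 1) * (z - 1) = 0 := by linear_combination hz2 - (z - 1) * h2
    rcases mul_eq_zero.mp h1 with h | h <;> exact sub_eq_zero.mp h
  rw [hz1, one_smul] at hz
  have hN : (x - 1) ^ 2 = 0 := by
    have h1 : (x - 1) ^ 2 = x ^ 2 - (2 : F) • x + 1 := by
      rw [pow_two, pow_two, two_smul]
      noncomm_ring
    have h3 : (1 : Matrix (Fin d ⊕ Fin d) (Fin d ⊕ Fin d) F) + 1 = (2 : F) • 1 := by
      rw [two_smul]
    rw [h1, hz, h2, zero_smul, sub_zero, h3, h2, zero_smul]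
  exact invol_fix x hx hN m hm hme hcond

end final

end Cfsg.Agent.Lib.Helper40.NDUnip
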