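import Mathlib
import Cfsg.Prelude.Def_ClassicalGeometry
import Cfsg.Agent.Lib.Helper40.NDSemi

set_option autoImplicit false

namespace Cfsg.Agent.Lib.Helper40.ODModel

open Polynomial UniqueFactorizationMonoid Matrix Cfsg.Agent.Lib.Helper40.RecipPoly
  Cfsg.Agent.Lib.Helper40.SpTI Cfsg.Agent.Lib.Helper40.SpPoly Cfsg.Agent.Lib.Helper40.SpModel
  Cfsg.Agent.Lib.Helper40.InvDims Cfsg.Agent.Lib.Helper13.SympMat
  Cfsg.Agent.Lib.Helper40.NDPeel Cfsg.Agent.Lib.Helper40.NDSemi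

section model
variable {F : Type*} [Field F]

/-- The embedding of the second summand of an orthogonal direct sum. -/
def iotaR (m k : ℕ) : (Fin k ⊕ Fin k → F) →ₗ[F] (Fin (m + k) ⊕ Fin (m + k) → F) where
  toFun u := (Sum.elim (0 : Fin m ⊕ Fin m → F) u) ∘ (eqv m k).symm
  map_add' u v := by
    funext x
    simp only [Function.comp_apply, Pi.add_apply]
    generalize (eqv m k).symm x = y
    rcases y with (a | b) <;> simp
  map_smul' c u := by
    funext x
    simp only [Function.comp_apply, Pi.smul_apply, RingHom.id_apply]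
    generalize (eqv m k).symm x = y
    rcases y with (a | b) <;> simp

theorem iotaR_apply (m k : ℕ) (u : Fin k ⊕ Fin k → F) :
    iotaR m k u = (Sum.elim (0 : Fin m ⊕ Fin m → F) u) ∘ (eqv m k).symm := rfl

theorem iotaR_injective (m k : ℕ) : Function.Injective (iotaR (F := F) m k) := by
  intro u v huv
  funext a
  have h := congrFun huv (eqv m k (Sum.inr a))
  rw [iotaR_apply, iotaR_apply] at h
  simpa using h

theorem dsum_mulVec_iotaR {m k : ℕ} (H : Matrix (Fin m ⊕ Fin m) (Fin m ⊕ Fin m) F)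
    (Y : Matrix (Fin k ⊕ Fin k) (Fin k ⊕ Fin k) F) (u : Fin k ⊕ Fin k → F) :
    dsum H Y *ᵥ iotaR m k u = iotaR m k (Y *ᵥ u) := by
  unfold dsum
  rw [Matrix.submatrix_mulVec_equiv, iotaR_apply, iotaR_apply]
  congr 1
  have h1 : ((Sum.elim (0 : Fin m ⊕ Fin m → F) u) ∘ (eqv m k).symm) ∘ (eqv m k).symm.symm =
      Sum.elim (0 : Fin m ⊕ Fin m → F) u := by
    funext x
    simp
  rw [h1, Matrix.fromBlocks_mulVec, Sum.elim_comp_inl, Sum.elim_comp_inr]
  simp

theorem sympForm_elim (m k : ℕ) (u u' : Fin m ⊕ Fin m → F) (v v' : Fin k ⊕ Fin k → F) :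
    Cfsg.sympForm (m + k) F ((Sum.elim u v) ∘ (eqv m k).symm)
        ((Sum.elim u' v') ∘ (eqv m k).symm) =
      Cfsg.sympForm m F u u' + Cfsg.sympForm k F v v' := by
  unfold Cfsg.sympForm
  rw [J_eq]
  unfold dsum
  rw [Matrix.submatrix_mulVec_equiv]
  have h1 : ((Sum.elim u' v') ∘ (eqv m k).symm) ∘ (eqv m k).symm.symm = Sum.elim u' v' := by
    funext x
    simp
  rw [h1, Matrix.fromBlocks_mulVec, Sum.elim_comp_inl, Sum.elim_comp_inr,
    comp_equiv_symm_dotProduct]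
  have h2 : ∀ w : (Fin m ⊕ Fin m) ⊕ (Fin k ⊕ Fin k) → F,
      (w ∘ (eqv m k).symm) ∘ (eqv m k) = w := by
    intro w
    funext x
    simp
  rw [h2]
  simp

theorem sympForm_zero_left (m : ℕ) (v : Fin m ⊕ Fin m → F) : Cfsg.sympForm m F 0 v = 0 := by
  unfold Cfsg.sympForm
  simp

theorem sympForm_zero_right (m : ℕ) (u : Fin m ⊕ Fin m → F) : Cfsg.sympForm m F u 0 = 0 := by
  unfold Cfsg.sympForm
  simp

theorem sympForm_iotaR (m k : ℕ) (u v : Fin k ⊕ Fin k → F) :
    Cfsg.sympForm (m + k) F (iotaR m k u) (iotaR m k v) = Cfsg.sympForm k F u v := by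
  rw [iotaR_apply, iotaR_apply, sympForm_elim, sympForm_zero_left, zero_add]

theorem sympForm_iota2_iotaR (m k : ℕ) (u : Fin m ⊕ Fin m → F) (v : Fin k ⊕ Fin k → F) :
    Cfsg.sympForm (m + k) F (iota2 m k u) (iotaR m k v) = 0 := by
  rw [iota2_apply, iotaR_apply, sympForm_elim, sympForm_zero_left, sympForm_zero_right, add_zero]

theorem sympForm_iotaR_iota2 (m k : ℕ) (u : Fin m ⊕ Fin m → F) (v : Fin k ⊕ Fin k → F) :
    Cfsg.sympForm (m + k) F (iotaR m k v) (iota2 m k u) = 0 := by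
  rw [iota2_apply, iotaR_apply, sympForm_elim, sympForm_zero_left, sympForm_zero_right, add_zero]

theorem iota_decomp (m k : ℕ) (w : Fin (m + k) ⊕ Fin (m + k) → F) :
    ∃ (u : Fin m ⊕ Fin m → F) (v : Fin k ⊕ Fin k → F), w = iota2 m k u + iotaR m k v := by
  refine ⟨fun a => w (eqv m k (Sum.inl a)), fun b => w (eqv m k (Sum.inr b)), ?_⟩
  funext x
  obtain ⟨y, rfl⟩ := (eqv m k).surjective x
  rw [Pi.add_apply, iota2_apply, iotaR_apply]
  rcases y with (a | b) <;> simp

theorem iota_disjoint (m k : ℕ) (u : Fin m ⊕ Fin m → F) (v : Fin k ⊕ Fin k → F)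
    (h : iota2 m k u = iotaR m k v) : u = 0 := by
  funext a
  have h1 := congrFun h (eqv m k (Sum.inl a))
  rw [iota2_apply, iotaR_apply] at h1
  simpa using h1

theorem dsum_eq_one_right {m k : ℕ} (H : Matrix (Fin m ⊕ Fin m) (Fin m ⊕ Fin m) F)
    (Y : Matrix (Fin k ⊕ Fin k) (Fin k ⊕ Fin k) F) (h : dsum H Y = 1) : Y = 1 := by
  apply (Matrix.toLin' : _ ≃ₗ[F] _).injective
  apply LinearMap.ext
  intro v
  rw [Matrix.toLin'_apply, Matrix.toLin'_one, LinearMap.id_apply]
  apply iotaR_injective m k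
  rw [← dsum_mulVec_iotaR H Y, h, Matrix.one_mulVec]

theorem dsum_eq_smul_left {m k : ℕ} (H : Matrix (Fin m ⊕ Fin m) (Fin m ⊕ Fin m) F)
    (Y : Matrix (Fin k ⊕ Fin k) (Fin k ⊕ Fin k) F) (z : F) (h : dsum H Y = z • 1) :
    H = z • 1 := by
  apply (Matrix.toLin' : _ ≃ₗ[F] _).injective
  apply LinearMap.ext
  intro v
  rw [Matrix.toLin'_apply, map_smul, Matrix.toLin'_one, LinearMap.smul_apply, LinearMap.id_apply]
  apply iota2_injective m k
  rw [← dsum_mulVec_iota2 H Y, h, Matrix.smul_mulVec, Matrix.one_mulVec, map_smul]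

/-- Independence of a family obtained by adding a summand disjoint from the span of the
others. -/
theorem indep_cons {V : Type*} [AddCommGroup V] [Module F V] {t : ℕ} (A : Submodule F V)
    (E : Fin t → Submodule F V) (hE : iSupIndep E) (hd : Disjoint A (⨆ j, E j)) :
    iSupIndep (Fin.cons A E : Fin (t + 1) → Submodule F V) := by
  classical
  rw [iSupIndep_iff_finsetSum_eq_zero_imp_eq_zero]
  intro s v hv hsum
  obtain ⟨v', hv'⟩ : ∃ v' : Fin (t + 1) → V, v' = fun j => if j ∈ s then v j else 0 := ⟨_, rfl⟩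
  have hmem : ∀ j, v' j ∈ (Fin.cons A E : Fin (t + 1) → Submodule F V) j := by
    intro j
    rw [hv']
    show (if j ∈ s then v j else 0) ∈ _
    split_ifs with h
    · exact hv j h
    · exact Submodule.zero_mem _
  have hsum' : ∑ j, v' j = 0 := by
    rw [hv', Finset.sum_ite_mem, Finset.univ_inter]
    exact hsum
  rw [Fin.sum_univ_succ] at hsum'
  have h0 : v' 0 ∈ A := by
    have := hmem 0
    rwa [Fin.cons_zero] at this
  have hS : ∑ j : Fin t, v' j.succ ∈ ⨆ j, E j := by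
    apply Submodule.sum_mem
    intro j _
    have := hmem j.succ
    rw [Fin.cons_succ] at this
    exact Submodule.mem_iSup_of_mem j this
  have h0' : v' 0 ∈ ⨆ j, E j := by
    have h1 : v' 0 = -∑ j : Fin t, v' j.succ := eq_neg_of_add_eq_zero_left hsum'
    rw [h1]
    exact Submodule.neg_mem _ hS
  have hz : v' 0 = 0 := by
    have := Submodule.disjoint_def.mp hd (v' 0) h0 h0'
    exact this
  rw [hz, zero_add] at hsum'
  have hrest := (iSupIndep_iff_finsetSum_eq_zero_imp_eq_zero E).mp hE Finset.univ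
    (fun j => v' j.succ) (fun j _ => by
      have := hmem j.succ
      rwa [Fin.cons_succ] at this) hsum'
  intro j hj
  have hvj : v j = v' j := by
    rw [hv']
    show v j = if j ∈ s then v j else 0
    rw [if_pos hj]
  rw [hvj]
  refine Fin.cases ?_ (fun j' => ?_) j
  · exact hz
  · exact hrest j' (Finset.mem_univ _)

/-- An orthogonal decomposition into `x`-invariant nondegenerate subspaces of dimension `a`. -/
def ODec {d t : ℕ} (a : ℕ) (x : Matrix (Fin d ⊕ Fin d) (Fin d ⊕ Fin d) F)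
    (D : Fin t → Submodule F (Fin d ⊕ Fin d → F)) : Prop :=
  (∀ j, Module.finrank F (D j) = a) ∧ iSupIndep D ∧ iSup D = ⊤ ∧
    (∀ j, ∀ u ∈ D j, u ≠ 0 → ∃ v ∈ D j, Cfsg.sympForm d F u v ≠ 0) ∧
    (∀ j j', j ≠ j' → ∀ u ∈ D j, ∀ v ∈ D j', Cfsg.sympForm d F u v = 0) ∧
    (∀ j, (D j).map (Matrix.toLin' x) ≤ D j)

theorem odec_map {d t : ℕ} (a : ℕ) (x y : Matrix (Fin d ⊕ Fin d) (Fin d ⊕ Fin d) F)
    (g : Matrix.symplecticGroup (Fin d) F) (hxg : x * g.1 = g.1 * y)
    (D : Fin t → Submodule F (Fin d ⊕ Fin d → F)) (h : ODec a y D) :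
    ODec a x (fun j => (D j).map (Matrix.toLin' g.1)) := by
  obtain ⟨h1, h2, h3, h4, h5, h6⟩ := h
  have hcoe : ((Φ d g : (Fin d ⊕ Fin d → F) ≃ₗ[F] (Fin d ⊕ Fin d → F)) :
      (Fin d ⊕ Fin d → F) →ₗ[F] (Fin d ⊕ Fin d → F)) = Matrix.toLin' g.1 := by
    apply LinearMap.ext
    intro v
    rw [LinearEquiv.coe_coe, Φ_apply, Matrix.toLin'_apply]
  have hinj : Function.Injective (Matrix.toLin' g.1) := by
    rw [← hcoe]
    exact (Φ d g).injective
  have hsurj : Function.Surjective (Matrix.toLin' g.1) := by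
    rw [← hcoe]
    exact (Φ d g).surjective
  refine ⟨?_, ?_, ?_, ?_, ?_, ?_⟩
  · intro j
    show Module.finrank F ((D j).map (Matrix.toLin' g.1)) = a
    rw [← hcoe, LinearEquiv.finrank_map_eq, h1]
  · exact LinearMap.iSupIndep_map (Matrix.toLin' g.1) hinj h2
  · show (⨆ j, (D j).map (Matrix.toLin' g.1)) = ⊤
    rw [← Submodule.map_iSup, h3, Submodule.map_top, LinearMap.range_eq_top]
    exact hsurj
  · intro j u hu hu0
    obtain ⟨u', hu', rfl⟩ := Submodule.mem_map.mp hu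
    have hu'0 : u' ≠ 0 := by
      intro h0
      apply hu0
      rw [h0, map_zero]
    obtain ⟨v', hv', hv⟩ := h4 j u' hu' hu'0
    refine ⟨Matrix.toLin' g.1 v', Submodule.mem_map.mpr ⟨v', hv', rfl⟩, ?_⟩
    rw [← form_apply, form_isometry g.1 g.2, form_apply]
    exact hv
  · intro j j' hjj u hu v hv
    obtain ⟨u', hu', rfl⟩ := Submodule.mem_map.mp hu
    obtain ⟨v', hv', rfl⟩ := Submodule.mem_map.mp hv
    rw [← form_apply, form_isometry g.1 g.2, form_apply]
    exact h5 j j' hjj u' hu' v' hv'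
  · intro j w hw
    obtain ⟨w', hw', rfl⟩ := Submodule.mem_map.mp hw
    obtain ⟨u', hu', rfl⟩ := Submodule.mem_map.mp hw'
    rw [Matrix.toLin'_apply, Matrix.toLin'_apply, Matrix.mulVec_mulVec, hxg,
      ← Matrix.mulVec_mulVec]
    refine Submodule.mem_map.mpr ⟨y *ᵥ u', ?_, Matrix.toLin'_apply _ _⟩
    have := h6 j (Submodule.mem_map.mpr ⟨u', hu', rfl⟩)
    rwa [Matrix.toLin'_apply] at this

theorem odec_dsum {m k t : ℕ} (a : ℕ) (ha : a = 2 * m)
    (y₁ : Matrix (Fin m ⊕ Fin m) (Fin m ⊕ Fin m) F)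
    (y₀ : Matrix (Fin k ⊕ Fin k) (Fin k ⊕ Fin k) F)
    (D : Fin t → Submodule F (Fin k ⊕ Fin k → F)) (h : ODec a y₀ D) :
    ODec a (dsum y₁ y₀) (Fin.cons (LinearMap.range (iota2 (F := F) m k))
      (fun j => (D j).map (iotaR m k)) :
        Fin (t + 1) → Submodule F (Fin (m + k) ⊕ Fin (m + k) → F)) := by
  obtain ⟨h1, h2, h3, h4, h5, h6⟩ := h
  have hsup_le : (⨆ j : Fin t, (D j).map (iotaR (F := F) m k)) ≤
      LinearMap.range (iotaR (F := F) m k) := by
    apply iSup_le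
    intro j
    exact LinearMap.map_le_range
  refine ⟨?_, ?_, ?_, ?_, ?_, ?_⟩
  · intro j
    refine Fin.cases ?_ (fun j => ?_) j
    · rw [Fin.cons_zero, LinearMap.finrank_range_of_inj (iota2_injective m k), Module.finrank_pi,
        Fintype.card_sum, Fintype.card_fin, ha]
      ring
    · rw [Fin.cons_succ,
        ← (Submodule.equivMapOfInjective (iotaR m k) (iotaR_injective m k) (D j)).finrank_eq, h1]
  · apply indep_cons
    · exact LinearMap.iSupIndep_map (iotaR m k) (iotaR_injective m k) h2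
    · rw [Submodule.disjoint_def]
      intro w hw1 hw2
      obtain ⟨u, rfl⟩ := LinearMap.mem_range.mp hw1
      obtain ⟨v, hv⟩ := LinearMap.mem_range.mp (hsup_le hw2)
      rw [iota_disjoint m k u v hv.symm, map_zero]
  · rw [eq_top_iff]
    intro w _
    obtain ⟨u, v, rfl⟩ := iota_decomp m k w
    apply Submodule.add_mem
    · apply Submodule.mem_iSup_of_mem (0 : Fin (t + 1))
      rw [Fin.cons_zero]
      exact LinearMap.mem_range.mpr ⟨u, rfl⟩
    · have hv : v ∈ ⨆ j, D j := by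
        have h3' : (⨆ j, D j) = ⊤ := h3
        rw [h3']
        exact Submodule.mem_top
      have h7 : iotaR m k v ∈ (⨆ j, D j).map (iotaR m k) := Submodule.mem_map.mpr ⟨v, hv, rfl⟩
      rw [Submodule.map_iSup] at h7
      refine (iSup_le ?_ : (⨆ j : Fin t, (D j).map (iotaR (F := F) m k)) ≤ _) h7
      intro j
      have h8 := le_iSup (Fin.cons (LinearMap.range (iota2 (F := F) m k))
        (fun j => (D j).map (iotaR m k)) :
          Fin (t + 1) → Submodule F (Fin (m + k) ⊕ Fin (m + k) → F)) j.succ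
      rwa [Fin.cons_succ] at h8
  · intro j
    refine Fin.cases ?_ (fun j => ?_) j
    · rw [Fin.cons_zero]
      intro u hu hu0
      obtain ⟨a', rfl⟩ := LinearMap.mem_range.mp hu
      have ha0 : a' ≠ 0 := by
        intro h0
        apply hu0
        rw [h0, map_zero]
      obtain ⟨b, hb⟩ : ∃ b, form m F a' b ≠ 0 := by
        by_contra hcon
        push Not at hcon
        exact ha0 ((form_nondeg (F := F) m).1 a' hcon)
      refine ⟨iota2 m k b, LinearMap.mem_range.mpr ⟨b, rfl⟩, ?_⟩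
      rw [sympForm_iota2, ← form_apply]
      exact hb
    · rw [Fin.cons_succ]
      intro u hu hu0
      obtain ⟨u', hu', rfl⟩ := Submodule.mem_map.mp hu
      have hu'0 : u' ≠ 0 := by
        intro h0
        apply hu0
        rw [h0, map_zero]
      obtain ⟨v', hv', hv⟩ := h4 j u' hu' hu'0
      refine ⟨iotaR m k v', Submodule.mem_map.mpr ⟨v', hv', rfl⟩, ?_⟩
      rw [sympForm_iotaR]
      exact hv
  · intro j j'
    refine Fin.cases ?_ (fun j => ?_) j
    · refine Fin.cases ?_ (fun j' => ?_) j'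
      · intro h
        exact absurd rfl h
      · intro _ u hu v hv
        rw [Fin.cons_zero] at hu
        rw [Fin.cons_succ] at hv
        obtain ⟨u', rfl⟩ := LinearMap.mem_range.mp hu
        obtain ⟨v', hv', rfl⟩ := Submodule.mem_map.mp hv
        exact sympForm_iota2_iotaR m k u' v'
    · refine Fin.cases ?_ (fun j' => ?_) j'
      · intro _ u hu v hv
        rw [Fin.cons_zero] at hv
        rw [Fin.cons_succ] at hu
        obtain ⟨v', rfl⟩ := LinearMap.mem_range.mp hv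
        obtain ⟨u', hu', rfl⟩ := Submodule.mem_map.mp hu
        exact sympForm_iotaR_iota2 m k v' u'
      · intro hjj u hu v hv
        rw [Fin.cons_succ] at hu hv
        obtain ⟨u', hu', rfl⟩ := Submodule.mem_map.mp hu
        obtain ⟨v', hv', rfl⟩ := Submodule.mem_map.mp hv
        rw [sympForm_iotaR]
        exact h5 j j' (fun h => hjj (congrArg Fin.succ h)) u' hu' v' hv'
  · intro j
    refine Fin.cases ?_ (fun j => ?_) j
    · rw [Fin.cons_zero]
      intro w hw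
      obtain ⟨w', hw', rfl⟩ := Submodule.mem_map.mp hw
      obtain ⟨u, rfl⟩ := LinearMap.mem_range.mp hw'
      rw [Matrix.toLin'_apply, dsum_mulVec_iota2]
      exact LinearMap.mem_range.mpr ⟨_, rfl⟩
    · rw [Fin.cons_succ]
      intro w hw
      obtain ⟨w', hw', rfl⟩ := Submodule.mem_map.mp hw
      obtain ⟨u, hu, rfl⟩ := Submodule.mem_map.mp hw'
      rw [Matrix.toLin'_apply, dsum_mulVec_iotaR]
      refine Submodule.mem_map.mpr ⟨y₀ *ᵥ u, ?_, rfl⟩
      have := h6 j (Submodule.mem_map.mpr ⟨u, hu, rfl⟩)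
      rwa [Matrix.toLin'_apply] at this

theorem odec_zero (a : ℕ) (x : Matrix (Fin 0 ⊕ Fin 0) (Fin 0 ⊕ Fin 0) F) :
    ODec a x (fun j : Fin 0 => Fin.elim0 j) := by
  refine ⟨fun j => Fin.elim0 j, fun j => Fin.elim0 j, ?_, fun j => Fin.elim0 j,
    fun j => Fin.elim0 j, fun j => Fin.elim0 j⟩
  rw [eq_top_iff]
  intro w _
  have hw : w = 0 := Subsingleton.elim _ _
  rw [hw]
  exact Submodule.zero_mem _

theorem exists_odec_one (m : ℕ) : ∀ (t d : ℕ), d = m * t →
    ∃ D : Fin t → Submodule F (Fin d ⊕ Fin d → F),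
      ODec (2 * m) (1 : Matrix (Fin d ⊕ Fin d) (Fin d ⊕ Fin d) F) D := by
  intro t
  induction t with
  | zero =>
    intro d hd
    have hd0 : d = 0 := by rw [hd, mul_zero]
    subst hd0
    exact ⟨_, odec_zero _ _⟩
  | succ t ih =>
    intro d hd
    have hd' : d = m + m * t := by
      rw [hd]
      ring
    subst hd'
    obtain ⟨D', hD'⟩ := ih (m * t) rfl
    have h := odec_dsum (2 * m) rfl (1 : Matrix (Fin m ⊕ Fin m) (Fin m ⊕ Fin m) F) 1 D' hD'
    rw [dsum_one] at h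
    exact ⟨_, h⟩

/-- A symplectic matrix of order prime to the characteristic whose characteristic polynomial
has a palindromic divisor of degree `2m` is conjugate in the symplectic group to an orthogonal
direct sum with first block of size `2m`. -/
theorem exists_conj_dsum [Fintype F] (p : ℕ) [Fact p.Prime] [CharP F p] {m k : ℕ}
    (x : Matrix (Fin (m + k) ⊕ Fin (m + k)) (Fin (m + k) ⊕ Fin (m + k)) F)
    (hx : x ∈ Matrix.symplecticGroup (Fin (m + k)) F)
    (N : ℕ) (hN : (N : F) ≠ 0) (hxN : x ^ N = 1)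
    (D : F[X]) (hDm : D.Monic) (hDd : D.natDegree = 2 * m) (hDr : D.reverse = D)
    (hdvd : D ∣ x.charpoly) :
    ∃ (y₁ : Matrix.symplecticGroup (Fin m) F) (y₀ : Matrix.symplecticGroup (Fin k) F)
      (T : Matrix.symplecticGroup (Fin (m + k)) F), x * T.1 = T.1 * dsum y₁.1 y₀.1 := by
  classical
  have hpp : p.Prime := Fact.out
  have hxd : x.charpoly.natDegree = 2 * (m + k) := by
    rw [Matrix.charpoly_natDegree_eq_dim, Fintype.card_sum, Fintype.card_fin]
    ring
  obtain ⟨χ₀, hχ₀⟩ := hdvd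
  have hχm : χ₀.Monic := Monic.of_mul_monic_left hDm (hχ₀ ▸ Matrix.charpoly_monic x)
  have hdeg : 2 * (m + k) = 2 * m + χ₀.natDegree := by
    rw [← hxd, hχ₀, hDm.natDegree_mul hχm, hDd]
  have hχd : χ₀.natDegree = 2 * k := by omega
  have hχr : χ₀.reverse = χ₀ := by
    have h1 := Cfsg.Agent.Lib.Helper40.SpReal.charpoly_reverse x hx
    rw [hχ₀, reverse_mul_of_domain, hDr] at h1
    exact mul_left_cancel₀ hDm.ne_zero h1
  obtain ⟨y₁, hy₁o, hy₁c⟩ := exists_symp_of_palindromic p m D hDm hDd hDr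
  obtain ⟨y₀, hy₀o, hy₀c⟩ := exists_symp_of_palindromic p k χ₀ hχm hχd hχr
  obtain ⟨N₁, hN₁⟩ : ∃ N₁, N₁ = orderOf y₁ := ⟨_, rfl⟩
  obtain ⟨N₂, hN₂⟩ : ∃ N₂, N₂ = orderOf y₀ := ⟨_, rfl⟩
  have hy₁N : (y₁ : Matrix (Fin m ⊕ Fin m) (Fin m ⊕ Fin m) F) ^ N₁ = 1 := by
    have h1 : y₁ ^ N₁ = 1 := by rw [hN₁, pow_orderOf_eq_one]
    exact congrArg Subtype.val h1
  have hy₀N : (y₀ : Matrix (Fin k ⊕ Fin k) (Fin k ⊕ Fin k) F) ^ N₂ = 1 := by
    have h1 : y₀ ^ N₂ = 1 := by rw [hN₂, pow_orderOf_eq_one]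
    exact congrArg Subtype.val h1
  obtain ⟨y, hy⟩ : ∃ y, y = dsum (y₁ : Matrix (Fin m ⊕ Fin m) (Fin m ⊕ Fin m) F)
      (y₀ : Matrix (Fin k ⊕ Fin k) (Fin k ⊕ Fin k) F) := ⟨_, rfl⟩
  have hymem : y ∈ Matrix.symplecticGroup (Fin (m + k)) F := by
    rw [hy]
    exact dsum_mem _ _ y₁.2 y₀.2
  have hyc : y.charpoly = x.charpoly := by
    rw [hy, dsum_charpoly, hy₁c, hy₀c, hχ₀]
  obtain ⟨M, hM⟩ : ∃ M, M = N * (N₁ * N₂) := ⟨_, rfl⟩
  have hMF : (M : F) ≠ 0 := by
    rw [hM, Nat.cast_mul, Nat.cast_mul]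
    exact mul_ne_zero hN (mul_ne_zero (cast_ne_zero_of_coprime p N₁ (hN₁ ▸ hy₁o))
      (cast_ne_zero_of_coprime p N₂ (hN₂ ▸ hy₀o)))
  have hxM : x ^ M = 1 := by rw [hM, pow_mul, hxN, one_pow]
  have hyM : y ^ M = 1 := by
    rw [hM, mul_comm, pow_mul, hy, dsum_pow, pow_mul, hy₁N, one_pow, mul_comm, pow_mul, hy₀N,
      one_pow, dsum_one, one_pow]
  obtain ⟨P, Q, hPQ, hQP, hPA⟩ := Cfsg.Agent.Lib.Helper40.SSConj.matrix_conj x y M hMF hxM hyM
    hyc.symm
  have hconj := Cfsg.Agent.Lib.Helper40.SympConj.symp_conj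
    (⟨x, hx⟩ : Matrix.symplecticGroup (Fin (m + k)) F) ⟨y, hymem⟩ M hMF hxM P
    (IsUnit.of_mul_eq_one Q hPQ) hPA
  obtain ⟨S, hS⟩ := isConj_iff.mp hconj
  have hS' : (⟨x, hx⟩ : Matrix.symplecticGroup (Fin (m + k)) F) * S⁻¹ =
      S⁻¹ * ⟨y, hymem⟩ := by
    rw [← hS]
    group
  have hS'' : x * (S⁻¹ : Matrix.symplecticGroup (Fin (m + k)) F).1 =
      (S⁻¹ : Matrix.symplecticGroup (Fin (m + k)) F).1 * y :=
    congrArg Subtype.val hS'
  rw [hy] at hS''
  exact ⟨y₁, y₀, S⁻¹, hS''⟩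

end model

section elt
variable {F : Type*} [Field F] [Fintype F] [DecidableEq F]

/-- **Sufficiency.** Under the numerical criterion every symplectic matrix of order dividing `r`
preserves each member of some orthogonal decomposition into nondegenerate `2m`-spaces. -/
theorem exists_odec {p : ℕ} [Fact p.Prime] [CharP F p] (r : ℕ) (hr : r.Prime) (hrp : r ≠ p)
    (T : Finset F[X]) (i : ℕ) (hi : 0 < i)
    (hT : ∀ P ∈ T, Irreducible P ∧ P.Monic ∧ P.natDegree = i ∧ P.coeff 0 ≠ 0)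
    (hLT : (X - C (1 : F)) ∉ T)
    (hpar : ∀ P ∈ T, (pstar P = P ↔ Even i))
    (hTdvd : ∀ P : F[X], Irreducible P → P.Monic →
      (P ∣ X ^ r - C (1 : F) ↔ P = X - C 1 ∨ P ∈ T))
    (c : ℕ) (hc : c = if Even i then i else 2 * i) (m : ℕ) :
    ∀ (t d : ℕ) (x : Matrix (Fin d ⊕ Fin d) (Fin d ⊕ Fin d) F),
      x ∈ Matrix.symplecticGroup (Fin d) F → x ^ r = 1 → d = m * t →
      (2 * d) % c = t * ((2 * m) % c) →
      ∃ D : Fin t → Submodule F (Fin d ⊕ Fin d → F), ODec (2 * m) x D := by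
  have hpp : p.Prime := Fact.out
  have hrF : ((r : ℕ) : F) ≠ 0 := by
    rw [Ne, CharP.cast_eq_zero_iff F p]
    intro h
    exact hrp ((Nat.prime_dvd_prime_iff_eq hpp hr).mp h).symm
  have hcpos : 0 < c := by
    rw [hc]
    split_ifs <;> omega
  intro t
  induction t with
  | zero =>
    intro d x hx hxr hd hmod
    have hd0 : d = 0 := by rw [hd, mul_zero]
    subst hd0
    exact ⟨_, odec_zero _ _⟩
  | succ t ih =>
    intro d x hx hxr hd hmod
    have hd' : d = m + m * t := by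
      rw [hd]
      ring
    subst hd'
    have hN : HasN (2 * m) x.charpoly := by
      by_cases hx1 : x = 1
      · subst hx1
        have hX1 : (X - C (1 : F)) = X - 1 := by rw [C_1]
        refine ⟨(X - C 1) ^ (2 * m), (monic_X_sub_C 1).pow _, ?_,
          L_pow_reverse _ (even_two_mul m), ?_⟩
        · rw [natDegree_pow, natDegree_X_sub_C, mul_one]
        · rw [Matrix.charpoly_one, Fintype.card_sum, Fintype.card_fin, hX1]
          exact pow_dvd_pow _ (by omega)
      · have hadm := Cfsg.Agent.Lib.Helper40.SpElt.adm_of_elt (p := p) r hr hrp T hTdvd x hx hxr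
          hx1
        refine hasN_of_adm T i hi hT hLT hpar c hc (m + m * t) (2 * m) (even_two_mul m)
          (by omega) ?_ _ hadm
        rw [hmod]
        exact Nat.le_mul_of_pos_left _ (Nat.succ_pos t)
    obtain ⟨D₀, hDm, hDd, hDr, hDdvd⟩ := hN
    obtain ⟨y₁, y₀, S, hS⟩ := exists_conj_dsum p x hx r hrF hxr D₀ hDm hDd hDr hDdvd
    have hsc : SemiconjBy S.1 (dsum y₁.1 y₀.1) x := hS.symm
    have h1 : S.1 * (dsum y₁.1 y₀.1) ^ r = x ^ r * S.1 := hsc.pow_right r
    rw [hxr, Matrix.one_mul] at h1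
    have hSinv : (S⁻¹ : Matrix.symplecticGroup (Fin (m + m * t)) F).1 * S.1 = 1 :=
      congrArg Subtype.val (inv_mul_cancel S)
    have hyr : (dsum y₁.1 y₀.1) ^ r = 1 := by
      calc (dsum y₁.1 y₀.1) ^ r
          = (S⁻¹ : Matrix.symplecticGroup (Fin (m + m * t)) F).1 *
              (S.1 * (dsum y₁.1 y₀.1) ^ r) := by
            rw [← Matrix.mul_assoc, hSinv, Matrix.one_mul]
        _ = 1 := by rw [h1, hSinv]
    rw [dsum_pow] at hyr
    have hy₀r : y₀.1 ^ r = 1 := dsum_eq_one_right _ _ hyr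
    have hmod' : (2 * (m * t)) % c = t * ((2 * m) % c) := by
      have h2 : (t + 1) * ((2 * m) % c) < c := by
        rw [← hmod]
        exact Nat.mod_lt _ hcpos
      have h3 : t * ((2 * m) % c) < c :=
        lt_of_le_of_lt (Nat.mul_le_mul_right _ (Nat.le_succ t)) h2
      have h4 := Nat.div_add_mod (2 * m) c
      have h5 : 2 * (m * t) = t * ((2 * m) % c) + c * ((2 * m / c) * t) := by
        calc 2 * (m * t) = (2 * m) * t := by ring
          _ = (c * (2 * m / c) + (2 * m) % c) * t := by rw [h4]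
          _ = _ := by ring
      rw [h5, Nat.add_mul_mod_self_left, Nat.mod_eq_of_lt h3]
    obtain ⟨D', hD'⟩ := ih (m * t) y₀.1 y₀.2 hy₀r rfl hmod'
    have hod := odec_dsum (2 * m) rfl y₁.1 y₀.1 D' hD'
    exact ⟨_, odec_map (2 * m) x _ S hS _ hod⟩

end elt

end Cfsg.Agent.Lib.Helper40.ODModel
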