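import Mathlib
import Cfsg.Prelude.Def_ClassicalGeometry
import Cfsg.Agent.S0752
import Cfsg.Agent.Lib.Helper40.ODModel

set_option autoImplicit false

namespace Cfsg.Agent.Lib.Helper40.ODCount

open Matrix Cfsg.Agent.Lib.Helper40.SpModel Cfsg.Agent.Lib.Helper13.SympMat
  Cfsg.Agent.Lib.Helper40.ODModel

/-- A free action of a finite group: the order of the group divides the size of an invariant
set. -/
theorem free_dvd {G α : Type*} [Group G] [MulAction G α] (X : Set α)
    (hinv : ∀ g : G, ∀ x ∈ X, g • x ∈ X) (hfree : ∀ g : G, ∀ x ∈ X, g • x = x → g = 1) :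
    Nat.card G ∣ Nat.card X := by
  obtain ⟨S, hS⟩ : ∃ S : SubMulAction G α, S.carrier = X :=
    ⟨⟨X, fun g x hx => hinv g x hx⟩, rfl⟩
  have hstab : ∀ b : S, MulAction.stabilizer G b = ⊥ := by
    intro b
    rw [Subgroup.eq_bot_iff_forall]
    intro g hg
    have h1 : g • b = b := MulAction.mem_stabilizer_iff.mp hg
    have h2 : g • (b : α) = (b : α) := congrArg Subtype.val h1
    have hb : (b : α) ∈ X := by
      rw [← hS]
      exact b.2
    exact hfree g b hb h2
  have e := MulAction.selfEquivOrbitsQuotientProd hstab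
  have h3 : Nat.card S = Nat.card (Quotient (MulAction.orbitRel G S)) * Nat.card G := by
    rw [← Nat.card_prod]
    exact Nat.card_congr e
  have h4 : Nat.card X = Nat.card S := by
    rw [← hS]
    rfl
  rw [h4, h3]
  exact Dvd.intro_left _ rfl

/-- A transitive action: the size of the set divides the order of the group. -/
theorem trans_dvd {G α : Type*} [Group G] [MulAction G α] (X : Set α)
    (hinv : ∀ g : G, ∀ x ∈ X, g • x ∈ X) (htrans : ∀ x ∈ X, ∀ y ∈ X, ∃ g : G, g • x = y)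
    (hne : X.Nonempty) : Nat.card X ∣ Nat.card G := by
  obtain ⟨x₀, hx₀⟩ := hne
  have hX : X = MulAction.orbit G x₀ := by
    ext y
    constructor
    · intro hy
      obtain ⟨g, hg⟩ := htrans x₀ hx₀ y hy
      exact ⟨g, hg⟩
    · rintro ⟨g, rfl⟩
      exact hinv g x₀ hx₀
  rw [hX, Nat.card_congr (MulAction.orbitEquivQuotientStabilizer G x₀)]
  exact Subgroup.card_quotient_dvd_card _

section
variable {F : Type*} [Field F]

/-- The action of the symplectic group on families of subspaces. -/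
noncomputable def spAct (d t : ℕ) : MulAction (Matrix.symplecticGroup (Fin d) F)
    (Fin t → Submodule F (Fin d ⊕ Fin d → F)) where
  smul g D := fun j => (D j).map (Matrix.toLin' g.1)
  one_smul D := by
    funext j
    show (D j).map (Matrix.toLin' (1 : Matrix (Fin d ⊕ Fin d) (Fin d ⊕ Fin d) F)) = D j
    rw [Matrix.toLin'_one, Submodule.map_id]
  mul_smul g h D := by
    funext j
    show (D j).map (Matrix.toLin' (g.1 * h.1)) =
      ((D j).map (Matrix.toLin' h.1)).map (Matrix.toLin' g.1)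
    rw [Matrix.toLin'_mul, Submodule.map_comp]

/-- The action of the symmetric group on families indexed by `Fin t`. -/
def permAct (t : ℕ) (β : Type*) : MulAction (Equiv.Perm (Fin t)) (Fin t → β) where
  smul σ D := fun j => D (σ⁻¹ j)
  one_smul D := by
    funext j
    show D ((1 : Equiv.Perm (Fin t))⁻¹ j) = D j
    rw [inv_one]
    rfl
  mul_smul σ τ D := by
    funext j
    show D ((σ * τ)⁻¹ j) = D (τ⁻¹ (σ⁻¹ j))
    rw [_root_.mul_inv_rev]
    rfl

/-- A Darboux basis of a nondegenerate subspace. -/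
theorem darboux_sub {d m : ℕ} (W : Submodule F (Fin d ⊕ Fin d → F))
    (hW : Module.finrank F W = 2 * m)
    (hnd : ∀ u ∈ W, u ≠ 0 → ∃ v ∈ W, Cfsg.sympForm d F u v ≠ 0) :
    ∃ b : Module.Basis (Fin m ⊕ Fin m) F W,
      (∀ i j : Fin m, form d F (b (Sum.inl i) : Fin d ⊕ Fin d → F) (b (Sum.inr j)) =
        if i = j then 1 else 0) ∧
      (∀ i j : Fin m, form d F (b (Sum.inl i) : Fin d ⊕ Fin d → F) (b (Sum.inl j)) = 0) ∧
      (∀ i j : Fin m, form d F (b (Sum.inr i) : Fin d ⊕ Fin d → F) (b (Sum.inr j)) = 0) := by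
  classical
  have hfd : FiniteDimensional F W := inferInstance
  have hA : ((form d F).restrict W).IsAlt := fun u => form_alt d (u : Fin d ⊕ Fin d → F)
  obtain ⟨m', k', b, h11, h12, h13, h14⟩ := Cfsg.Agent.S0752.result ((form d F).restrict W) hA
  have hk : k' = 0 := by
    by_contra hk
    obtain ⟨k, rfl⟩ := Nat.exists_eq_succ_of_ne_zero hk
    have hne : ((b (Sum.inr 0) : W) : Fin d ⊕ Fin d → F) ≠ 0 :=
      fun h => b.ne_zero (Sum.inr 0) (Subtype.ext h)
    obtain ⟨v, hv, hv'⟩ := hnd _ (b (Sum.inr 0)).2 hne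
    apply hv'
    rw [← form_apply]
    exact h14 0 ⟨v, hv⟩
  subst hk
  have hm : m' = m := by
    have e1 := Module.finrank_eq_card_basis b
    rw [hW] at e1
    simp only [Fintype.card_sum, Fintype.card_fin] at e1
    omega
  subst hm
  refine ⟨b.reindex (Equiv.sumEmpty (Fin m' ⊕ Fin m') (Fin 0)), ?_, ?_, ?_⟩
  · intro i j
    rw [Module.Basis.reindex_apply, Module.Basis.reindex_apply]
    exact h11 i j
  · intro i j
    rw [Module.Basis.reindex_apply, Module.Basis.reindex_apply]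
    exact h12 i j
  · intro i j
    rw [Module.Basis.reindex_apply, Module.Basis.reindex_apply]
    exact h13 i j

/-- The symplectic group is transitive on orthogonal decompositions into nondegenerate subspaces
of the same dimension. -/
theorem od_trans {d m t : ℕ} (D D' : Fin t → Submodule F (Fin d ⊕ Fin d → F))
    (hD : ODec (2 * m) (1 : Matrix (Fin d ⊕ Fin d) (Fin d ⊕ Fin d) F) D)
    (hD' : ODec (2 * m) (1 : Matrix (Fin d ⊕ Fin d) (Fin d ⊕ Fin d) F) D') :
    ∃ g : Matrix.symplecticGroup (Fin d) F, ∀ j, (D j).map (Matrix.toLin' g.1) = D' j := by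
  classical
  obtain ⟨h1, h2, h3, h4, h5, -⟩ := hD
  obtain ⟨h1', h2', h3', h4', h5', -⟩ := hD'
  choose b hb1 hb2 hb3 using fun j => darboux_sub (D j) (h1 j) (h4 j)
  choose b' hb1' hb2' hb3' using fun j => darboux_sub (D' j) (h1' j) (h4' j)
  have hI : DirectSum.IsInternal D :=
    DirectSum.isInternal_submodule_of_iSupIndep_of_iSup_eq_top h2 h3
  have hI' : DirectSum.IsInternal D' :=
    DirectSum.isInternal_submodule_of_iSupIndep_of_iSup_eq_top h2' h3'
  obtain ⟨B, hB⟩ : ∃ B : Module.Basis (Σ _ : Fin t, Fin m ⊕ Fin m) F (Fin d ⊕ Fin d → F),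
      ∀ a, B a = (b a.1 a.2 : Fin d ⊕ Fin d → F) :=
    ⟨hI.collectedBasis b, fun a => by rw [DirectSum.IsInternal.collectedBasis_coe]⟩
  obtain ⟨B', hB'⟩ : ∃ B' : Module.Basis (Σ _ : Fin t, Fin m ⊕ Fin m) F (Fin d ⊕ Fin d → F),
      ∀ a, B' a = (b' a.1 a.2 : Fin d ⊕ Fin d → F) :=
    ⟨hI'.collectedBasis b', fun a => by rw [DirectSum.IsInternal.collectedBasis_coe]⟩
  obtain ⟨g, hg⟩ : ∃ g : (Fin d ⊕ Fin d → F) ≃ₗ[F] (Fin d ⊕ Fin d → F), ∀ a, g (B a) = B' a :=
    ⟨B.equiv B' (Equiv.refl _), fun a => by rw [Module.Basis.equiv_apply, Equiv.refl_apply]⟩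
  have key : (form d F).compl₁₂ g.toLinearMap g.toLinearMap = form d F := by
    apply LinearMap.ext_basis B B
    intro a a'
    rw [LinearMap.compl₁₂_apply]
    show form d F (g (B a)) (g (B a')) = form d F (B a) (B a')
    rw [hg, hg, hB, hB, hB', hB']
    obtain ⟨j, s⟩ := a
    obtain ⟨j', s'⟩ := a'
    show form d F (b' j s : Fin d ⊕ Fin d → F) (b' j' s') =
      form d F (b j s : Fin d ⊕ Fin d → F) (b j' s')
    by_cases hjj : j = j'
    · subst hjj
      rcases s with i | i <;> rcases s' with i' | i'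
      · rw [hb2, hb2']
      · rw [hb1, hb1']
      · rw [← (form_alt d).neg_eq (b j (Sum.inl i') : Fin d ⊕ Fin d → F) (b j (Sum.inr i)),
          ← (form_alt d).neg_eq (b' j (Sum.inl i') : Fin d ⊕ Fin d → F) (b' j (Sum.inr i)),
          hb1, hb1']
      · rw [hb3, hb3']
    · rw [form_apply, form_apply, h5 j j' hjj _ (b j s).2 _ (b j' s').2,
        h5' j j' hjj _ (b' j s).2 _ (b' j' s').2]
  have hiso : ∀ u v, form d F (g u) (g v) = form d F u v := by
    intro u v
    conv_rhs => rw [← key]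
    rw [LinearMap.compl₁₂_apply]
    rfl
  obtain ⟨G, hG⟩ : ∃ G : Matrix (Fin d ⊕ Fin d) (Fin d ⊕ Fin d) F,
      Matrix.toLin' G = g.toLinearMap := ⟨LinearMap.toMatrix' g.toLinearMap,
    Matrix.toLin'_toMatrix' _⟩
  have hGmem : G ∈ Matrix.symplecticGroup (Fin d) F := by
    rw [Cfsg.Agent.Lib.Helper13.SympMat.mem_symp_iff]
    intro u v
    rw [← Matrix.toLin'_apply, ← Matrix.toLin'_apply, hG]
    exact hiso u v
  refine ⟨⟨G, hGmem⟩, fun j => ?_⟩
  show (D j).map (Matrix.toLin' G) = D' j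
  rw [hG]
  apply Submodule.eq_of_le_of_finrank_eq
  · intro w hw
    obtain ⟨u, hu, rfl⟩ := Submodule.mem_map.mp hw
    have hrep := (b j).sum_repr ⟨u, hu⟩
    have hu' : u = ∑ s, (b j).repr ⟨u, hu⟩ s • (b j s : Fin d ⊕ Fin d → F) := by
      have h6 := congrArg Subtype.val hrep
      rw [Submodule.coe_sum] at h6
      simp only [Submodule.coe_smul] at h6
      exact h6.symm
    rw [hu', LinearEquiv.coe_coe, map_sum]
    apply Submodule.sum_mem
    intro s _
    rw [map_smul]
    apply Submodule.smul_mem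
    have h7 : g (b j s : Fin d ⊕ Fin d → F) = (b' j s : Fin d ⊕ Fin d → F) := by
      rw [← hB ⟨j, s⟩, hg, hB']
    rw [h7]
    exact (b' j s).2
  · rw [LinearEquiv.finrank_map_eq, h1, h1']

/-- Counting orthogonal decompositions: the symmetric group acts freely and the symplectic
group transitively. -/
theorem od_count [Fintype F] (d m t : ℕ) (hm : 1 ≤ m) (hd : d = m * t) :
    Nat.factorial t ∣ Nat.card {D : Fin t → Submodule F (Fin d ⊕ Fin d → F) //
      ODec (2 * m) (1 : Matrix (Fin d ⊕ Fin d) (Fin d ⊕ Fin d) F) D} ∧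
    Nat.card {D : Fin t → Submodule F (Fin d ⊕ Fin d → F) //
      ODec (2 * m) (1 : Matrix (Fin d ⊕ Fin d) (Fin d ⊕ Fin d) F) D} ∣
      Nat.card (Matrix.symplecticGroup (Fin d) F) := by
  classical
  obtain ⟨X, hX⟩ : ∃ X : Set (Fin t → Submodule F (Fin d ⊕ Fin d → F)),
      X = {D | ODec (2 * m) (1 : Matrix (Fin d ⊕ Fin d) (Fin d ⊕ Fin d) F) D} := ⟨_, rfl⟩
  have hcard : Nat.card {D : Fin t → Submodule F (Fin d ⊕ Fin d → F) //
      ODec (2 * m) (1 : Matrix (Fin d ⊕ Fin d) (Fin d ⊕ Fin d) F) D} = Nat.card X := by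
    rw [hX]
    rfl
  rw [hcard]
  constructor
  · letI := permAct t (Submodule F (Fin d ⊕ Fin d → F))
    have h := free_dvd (G := Equiv.Perm (Fin t)) X ?_ ?_
    · rwa [Nat.card_eq_fintype_card, Fintype.card_perm, Fintype.card_fin] at h
    · intro σ D hDX
      rw [hX] at hDX ⊢
      obtain ⟨h1, h2, h3, h4, h5, h6⟩ := hDX
      show ODec (2 * m) (1 : Matrix (Fin d ⊕ Fin d) (Fin d ⊕ Fin d) F) (fun j => D (σ⁻¹ j))
      refine ⟨fun j => h1 _, h2.comp σ⁻¹.injective, ?_, fun j => h4 _,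
        fun j j' hjj => h5 _ _ (fun h => hjj (σ⁻¹.injective h)), fun j => h6 _⟩
      show (⨆ j, D (σ⁻¹ j)) = ⊤
      rw [Equiv.iSup_comp (g := D) σ⁻¹]
      exact h3
    · intro σ D hDX hσ
      rw [hX] at hDX
      obtain ⟨h1, h2, -⟩ := hDX
      have hne : ∀ j, D j ≠ ⊥ := by
        intro j hj
        have h7 := h1 j
        rw [hj, finrank_bot] at h7
        omega
      have hinj := h2.injective hne
      have h7 : ∀ j, σ⁻¹ j = j := fun j => hinj (congrFun hσ j)
      have h8 : σ⁻¹ = 1 := Equiv.ext h7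
      exact inv_eq_one.mp h8
  · letI := spAct (F := F) d t
    refine trans_dvd (G := Matrix.symplecticGroup (Fin d) F) X ?_ ?_ ?_
    · intro g D hDX
      rw [hX] at hDX ⊢
      exact odec_map (2 * m) 1 1 g (by rw [Matrix.one_mul, Matrix.mul_one]) D hDX
    · intro D hDX D' hD'X
      rw [hX] at hDX hD'X
      obtain ⟨g, hg⟩ := od_trans D D' hDX hD'X
      exact ⟨g, funext hg⟩
    · obtain ⟨D, hD⟩ := exists_odec_one (F := F) m t d hd
      exact ⟨D, by rw [hX]; exact hD⟩

/-- A prime dividing the number of unordered orthogonal decompositions divides the order of the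
symplectic group. -/
theorem dvd_card_sp [Fintype F] (d m t : ℕ) (hm : 1 ≤ m) (hd : d = m * t) (r : ℕ)
    (h : r ∣ Nat.card {D : Fin t → Submodule F (Fin d ⊕ Fin d → F) //
      ODec (2 * m) (1 : Matrix (Fin d ⊕ Fin d) (Fin d ⊕ Fin d) F) D} / Nat.factorial t) :
    r ∣ Nat.card (Matrix.symplecticGroup (Fin d) F) := by
  obtain ⟨h1, h2⟩ := od_count (F := F) d m t hm hd
  exact dvd_trans (dvd_trans h (Nat.div_dvd_of_dvd h1)) h2

end

end Cfsg.Agent.Lib.Helper40.ODCount
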