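import Mathlib
import Cfsg.Prelude.Def_ClassicalGeometry
import Cfsg.Agent.Lib.Helper40.ODModel

set_option autoImplicit false

namespace Cfsg.Agent.Lib.Helper40.ODNec

open Polynomial UniqueFactorizationMonoid Matrix Cfsg.Agent.Lib.Helper40.RecipPoly
  Cfsg.Agent.Lib.Helper40.SpTI Cfsg.Agent.Lib.Helper40.SpPoly Cfsg.Agent.Lib.Helper40.SpModel
  Cfsg.Agent.Lib.Helper40.InvDims Cfsg.Agent.Lib.Helper13.SympMat
  Cfsg.Agent.Lib.Helper40.NDPeel Cfsg.Agent.Lib.Helper40.NDSemi Cfsg.Agent.Lib.Helper40.ODModel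

section general
variable {F : Type*} [Field F] [DecidableEq F] {V : Type*} [AddCommGroup V] [Module F V]

theorem res_charpoly_congr [FiniteDimensional F V] (φ : Module.End F V) (W W' : Submodule F V)
    (h : W = W') (hW : W ∈ φ.invtSubmodule) (hW' : W' ∈ φ.invtSubmodule) :
    (res φ W hW).charpoly = (res φ W' hW').charpoly := by
  subst h
  rfl

theorem charpoly_res_bot [FiniteDimensional F V] (φ : Module.End F V)
    (h : (⊥ : Submodule F V) ∈ φ.invtSubmodule) : (res φ ⊥ h).charpoly = 1 := by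
  apply eq_one_of_monic_natDegree_zero (LinearMap.charpoly_monic _)
  rw [LinearMap.charpoly_natDegree, finrank_bot]

theorem charpoly_res_top [FiniteDimensional F V] (φ : Module.End F V)
    (h : (⊤ : Submodule F V) ∈ φ.invtSubmodule) : (res φ ⊤ h).charpoly = φ.charpoly := by
  have hb : (⊥ : Submodule F V) ∈ φ.invtSubmodule := by
    rw [Module.End.mem_invtSubmodule]
    exact bot_le
  have h1 := Cfsg.Agent.Lib.Helper40.SSConj.charpoly_eq_mul φ ⊤ ⊥ h hb isCompl_top_bot
  have h2 : (res φ ⊥ hb).charpoly = 1 := charpoly_res_bot φ hb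
  rw [h2, mul_one] at h1
  exact h1.symm

/-- The multiplicity of an irreducible factor of the characteristic polynomial is additive over
an invariant direct sum decomposition. -/
theorem cnt_decomp [FiniteDimensional F V] {ι : Type*} [Fintype ι] (φ : Module.End F V)
    (D : ι → Submodule F V) (hinv : ∀ j, D j ∈ φ.invtSubmodule) (hind : iSupIndep D)
    (htop : iSup D = ⊤) (P : F[X]) :
    Multiset.count P (normalizedFactors φ.charpoly) =
      ∑ j, Multiset.count P (normalizedFactors (res φ (D j) (hinv j)).charpoly) := by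
  classical
  have hsup : ∀ s : Finset ι, (⨆ j ∈ s, D j) ∈ φ.invtSubmodule := by
    intro s
    rw [Module.End.mem_invtSubmodule]
    apply iSup₂_le
    intro j hj
    have hj' : D j ≤ (D j).comap φ := hinv j
    exact le_trans hj' (Submodule.comap_mono (le_biSup D hj))
  have key : ∀ s : Finset ι,
      Multiset.count P (normalizedFactors (res φ (⨆ j ∈ s, D j) (hsup s)).charpoly) =
      ∑ j ∈ s, Multiset.count P (normalizedFactors (res φ (D j) (hinv j)).charpoly) := by
    intro s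
    induction s using Finset.induction_on with
    | empty =>
      have hb : (⊥ : Submodule F V) ∈ φ.invtSubmodule := by
        rw [Module.End.mem_invtSubmodule]
        exact bot_le
      have h0 : (⨆ j ∈ (∅ : Finset ι), D j) = ⊥ := by simp
      rw [res_charpoly_congr φ _ ⊥ h0 (hsup ∅) hb, charpoly_res_bot, normalizedFactors_one,
        Multiset.count_zero, Finset.sum_empty]
    | insert a s ha ih =>
      have h1 : (⨆ j ∈ insert a s, D j) = D a ⊔ ⨆ j ∈ s, D j := Finset.iSup_insert a s D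
      have hS : D a ⊔ ⨆ j ∈ s, D j ∈ φ.invtSubmodule := by
        rw [← h1]
        exact hsup (insert a s)
      have hdis : D a ⊓ ⨆ j ∈ s, D j = ⊥ := by
        have h2 := hind.disjoint_biSup (x := a) (y := (s : Set ι)) (by simpa using ha)
        have h3 : (⨆ j ∈ (s : Set ι), D j) = ⨆ j ∈ s, D j := by simp
        rw [h3] at h2
        exact disjoint_iff.mp h2
      rw [res_charpoly_congr φ _ _ h1 (hsup (insert a s)) hS,
        charpoly_sup φ (D a) (⨆ j ∈ s, D j) (hinv a) (hsup s) hdis hS,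
        normalizedFactors_mul (LinearMap.charpoly_monic _).ne_zero
          (LinearMap.charpoly_monic _).ne_zero,
        Multiset.count_add, ih, Finset.sum_insert ha]
  have h1 : (⨆ j ∈ (Finset.univ : Finset ι), D j) = ⊤ := by
    rw [← htop]
    simp
  have ht : (⊤ : Submodule F V) ∈ φ.invtSubmodule := by
    rw [← h1]
    exact hsup Finset.univ
  rw [← charpoly_res_top φ ht, ← res_charpoly_congr φ _ ⊤ h1 (hsup Finset.univ) ht, key]

/-- A point moved by a permutation that is induced by an endomorphism of prime order `r`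
gives `r` independent translates of the corresponding summand. -/
theorem orbit_family (φ : Module.End F V) (r : ℕ) (hr : r.Prime) (hφr : φ ^ r = 1) {t : ℕ}
    (D : Fin t → Submodule F V) (hind : iSupIndep D) (hne : ∀ j, D j ≠ ⊥)
    (σ : Equiv.Perm (Fin t)) (hmap : ∀ j, (D j).map φ = D (σ j)) (j₀ : Fin t)
    (hj₀ : σ j₀ ≠ j₀) :
    ∃ W : Fin r → Submodule F V, iSupIndep W ∧
      ∀ s : Fin r, ∀ u ∈ D j₀, (φ ^ (s : ℕ)) u ∈ W s := by
  have hpow : ∀ n : ℕ, ∀ j, (D j).map (φ ^ n) = D ((σ ^ n) j) := by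
    intro n
    induction n with
    | zero =>
      intro j
      rw [pow_zero, pow_zero, Module.End.one_eq_id, Submodule.map_id, Equiv.Perm.coe_one, id_eq]
    | succ n ih =>
      intro j
      rw [pow_succ', pow_succ', Module.End.mul_eq_comp, Submodule.map_comp, ih, hmap,
        Equiv.Perm.mul_apply]
  have hinj := hind.injective hne
  have hper : (σ ^ r) j₀ = j₀ := by
    apply hinj
    rw [← hpow, hφr, Module.End.one_eq_id, Submodule.map_id]
  have hmin : Function.minimalPeriod σ j₀ = r := by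
    have h1 : Function.IsPeriodicPt σ r j₀ := by
      show (⇑σ)^[r] j₀ = j₀
      rw [Equiv.Perm.iterate_eq_pow]
      exact hper
    rcases (Nat.dvd_prime hr).mp h1.minimalPeriod_dvd with h | h
    · exact absurd (Function.minimalPeriod_eq_one_iff_isFixedPt.mp h) hj₀
    · exact h
  have hι : Function.Injective (fun s : Fin r => (σ ^ (s : ℕ)) j₀) := by
    intro s s' hss
    have h1 : (⇑σ)^[(s : ℕ)] j₀ = (⇑σ)^[(s' : ℕ)] j₀ := by
      rw [Equiv.Perm.iterate_eq_pow, Equiv.Perm.iterate_eq_pow]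
      exact hss
    have h2 := (Function.iterate_eq_iterate_iff_of_lt_minimalPeriod
      (by rw [hmin]; exact s.2) (by rw [hmin]; exact s'.2)).mp h1
    exact Fin.ext h2
  refine ⟨fun s => D ((σ ^ (s : ℕ)) j₀), hind.comp hι, ?_⟩
  intro s u hu
  show (φ ^ (s : ℕ)) u ∈ D ((σ ^ (s : ℕ)) j₀)
  rw [← hpow]
  exact Submodule.mem_map_of_mem hu

/-- The rank of `φ - 1` when `φ` moves a subspace through independent subspaces. -/
theorem orbit_rank [FiniteDimensional F V] (φ : Module.End F V) (hφ : Function.Injective φ)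
    (D : Submodule F V) (r : ℕ) (hr : 0 < r) (W : Fin r → Submodule F V) (hW : iSupIndep W)
    (hmem : ∀ s : Fin r, ∀ u ∈ D, (φ ^ (s : ℕ)) u ∈ W s) :
    (r - 1) * Module.finrank F D ≤ Module.finrank F (LinearMap.range (φ - 1)) := by
  classical
  obtain ⟨n, rfl⟩ : ∃ n, r = n + 1 := ⟨r - 1, by omega⟩
  have hpinj : ∀ k : ℕ, Function.Injective (φ ^ k) := by
    intro k
    induction k with
    | zero =>
      rw [pow_zero]
      exact fun a b h => h
    | succ k ih =>
      rw [pow_succ, Module.End.mul_eq_comp, LinearMap.coe_comp]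
      exact ih.comp hφ
  obtain ⟨Φ, hΦ⟩ : ∃ Φ : (Fin n → D) →ₗ[F] V,
      ∀ u, Φ u = ∑ s : Fin n, ((φ ^ ((s : ℕ) + 1)) (u s : V) - (u s : V)) := by
    refine ⟨∑ s : Fin n, ((φ ^ ((s : ℕ) + 1) - 1) ∘ₗ D.subtype) ∘ₗ LinearMap.proj s, ?_⟩
    intro u
    rw [LinearMap.sum_apply]
    rfl
  have hΦinj : Function.Injective Φ := by
    rw [← LinearMap.ker_eq_bot, LinearMap.ker_eq_bot']
    intro u hu
    rw [hΦ] at hu
    obtain ⟨v, hv⟩ : ∃ v : Fin (n + 1) → V, v = Fin.cons (-∑ s : Fin n, (u s : V))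
        (fun s : Fin n => (φ ^ ((s : ℕ) + 1)) (u s : V)) := ⟨_, rfl⟩
    have hv0 : v 0 = -∑ s : Fin n, (u s : V) := by rw [hv, Fin.cons_zero]
    have hvs : ∀ s : Fin n, v s.succ = (φ ^ ((s : ℕ) + 1)) (u s : V) := by
      intro s
      rw [hv, Fin.cons_succ]
    have hvmem : ∀ j ∈ (Finset.univ : Finset (Fin (n + 1))), v j ∈ W j := by
      intro j _
      refine Fin.cases ?_ (fun s => ?_) j
      · rw [hv0]
        apply Submodule.neg_mem
        apply Submodule.sum_mem
        intro s _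
        have h1 := hmem 0 (u s) (u s).2
        rwa [Fin.val_zero, pow_zero] at h1
      · rw [hvs]
        have h1 := hmem s.succ (u s) (u s).2
        rwa [Fin.val_succ] at h1
    have hvsum : ∑ j, v j = 0 := by
      rw [Fin.sum_univ_succ, hv0]
      simp only [hvs]
      rw [← hu, Finset.sum_sub_distrib]
      abel
    have hz := (iSupIndep_iff_finsetSum_eq_zero_imp_eq_zero W).mp hW Finset.univ v hvmem hvsum
    funext s
    apply Subtype.ext
    apply hpinj ((s : ℕ) + 1)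
    rw [← hvs, hz s.succ (Finset.mem_univ _)]
    simp
  have hrange : LinearMap.range Φ ≤ LinearMap.range (φ - 1) := by
    rintro w ⟨u, rfl⟩
    rw [hΦ]
    apply Submodule.sum_mem
    intro s _
    have h1 : (φ - 1) * ∑ i ∈ Finset.range ((s : ℕ) + 1), φ ^ i = φ ^ ((s : ℕ) + 1) - 1 :=
      mul_geom_sum φ _
    refine LinearMap.mem_range.mpr ⟨(∑ i ∈ Finset.range ((s : ℕ) + 1), φ ^ i) (u s : V), ?_⟩
    rw [← Module.End.mul_apply, h1]
    rfl
  have h2 := LinearMap.finrank_range_of_inj hΦinj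
  have h3 := Submodule.finrank_mono hrange
  rw [h2, Module.finrank_pi_fintype] at h3
  simpa using h3

/-- The fixed space of `φ` of order `r` when `φ` moves a subspace through `r` independent
subspaces. -/
theorem orbit_fix [FiniteDimensional F V] (φ : Module.End F V) (r : ℕ) (hr : 0 < r)
    (hφr : φ ^ r = 1) (D : Submodule F V) (W : Fin r → Submodule F V) (hW : iSupIndep W)
    (hmem : ∀ s : Fin r, ∀ u ∈ D, (φ ^ (s : ℕ)) u ∈ W s) :
    Module.finrank F D ≤ Module.finrank F (Module.End.eigenspace φ 1) := by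
  classical
  obtain ⟨N, hN⟩ : ∃ N : Module.End F V, N = ∑ i ∈ Finset.range r, φ ^ i := ⟨_, rfl⟩
  have hfix : ∀ u, N u ∈ Module.End.eigenspace φ 1 := by
    intro u
    rw [Module.End.mem_eigenspace_iff, one_smul]
    have h1 : (φ - 1) * N = 0 := by rw [hN, mul_geom_sum, hφr, sub_self]
    have h2 : ((φ - 1) * N) u = 0 := by
      rw [h1]
      rfl
    rw [Module.End.mul_apply, LinearMap.sub_apply, Module.End.one_apply, sub_eq_zero] at h2
    exact h2
  obtain ⟨f, hf⟩ : ∃ f : D →ₗ[F] Module.End.eigenspace φ 1, ∀ u : D, (f u : V) = N (u : V) :=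
    ⟨LinearMap.codRestrict _ (N ∘ₗ D.subtype) (fun u => hfix _), fun u => rfl⟩
  have hfinj : Function.Injective f := by
    rw [← LinearMap.ker_eq_bot, LinearMap.ker_eq_bot']
    intro u hu
    have h1 : N (u : V) = 0 := by
      rw [← hf, hu]
      rfl
    rw [hN, LinearMap.sum_apply, ← Fin.sum_univ_eq_sum_range (fun i => (φ ^ i) (u : V)) r] at h1
    have hz := (iSupIndep_iff_finsetSum_eq_zero_imp_eq_zero W).mp hW Finset.univ
      (fun s : Fin r => (φ ^ (s : ℕ)) (u : V)) (fun s _ => hmem s u u.2) h1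
    have h0 := hz ⟨0, hr⟩ (Finset.mem_univ _)
    apply Subtype.ext
    simpa using h0
  exact LinearMap.finrank_le_finrank_of_injective hfinj

theorem fix_le_cnt [FiniteDimensional F V] (φ : Module.End F V) :
    Module.finrank F (Module.End.eigenspace φ 1) ≤
      Multiset.count (X - C (1 : F)) (normalizedFactors φ.charpoly) := by
  have h1 := LinearMap.finrank_eigenspace_le φ (1 : F)
  refine le_trans h1 ?_
  have hχ : φ.charpoly ≠ 0 := (LinearMap.charpoly_monic φ).ne_zero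
  have h2 : (X - C (1 : F)) ^ (φ.charpoly.rootMultiplicity 1) ∣ φ.charpoly :=
    (le_rootMultiplicity_iff hχ).mp le_rfl
  have h3 := nf_le_of_dvd _ _ ((monic_X_sub_C (1 : F)).pow _) (LinearMap.charpoly_monic φ) h2
  have h4 := Multiset.count_le_of_le (X - C (1 : F)) h3
  rw [normalizedFactors_pow, normalizedFactors_irreducible (irreducible_X_sub_C 1),
    (monic_X_sub_C (1 : F)).normalize_eq_self, Multiset.count_nsmul,
    Multiset.count_singleton_self, mul_one] at h4
  exact h4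

end general

section crit
variable {F : Type*} [Field F] [DecidableEq F]

/-- An admissible polynomial with the least possible multiplicity of `X - 1`. -/
theorem exists_adm_min (T : Finset F[X]) (i : ℕ) (hi : 0 < i)
    (hT : ∀ P ∈ T, Irreducible P ∧ P.Monic ∧ P.natDegree = i ∧ P.coeff 0 ≠ 0)
    (hLT : (X - C (1 : F)) ∉ T) (hTs : ∀ P ∈ T, pstar P ∈ T)
    (hpar : ∀ P ∈ T, (pstar P = P ↔ Even i)) (c : ℕ) (hc : c = if Even i then i else 2 * i)
    (d : ℕ) (P₀ : F[X]) (hP₀ : P₀ ∈ T) (hc2d : c ≤ 2 * d) :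
    ∃ χ : F[X], Adm T d χ ∧
      Multiset.count (X - C (1 : F)) (normalizedFactors χ) = (2 * d) % c := by
  have hcpos : 0 < c := by
    rw [hc]
    split_ifs <;> omega
  have hceven : Even c := by
    rw [hc]
    split_ifs with h
    · exact h
    · exact even_two_mul i
  have hT' : ∀ P ∈ T, Irreducible P ∧ P.Monic := fun P hP => ⟨(hT P hP).1, (hT P hP).2.1⟩
  have hP₀nf : normalizedFactors P₀ = {P₀} := by
    rw [normalizedFactors_irreducible (hT P₀ hP₀).1, (hT P₀ hP₀).2.1.normalize_eq_self]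
  obtain ⟨Q, hQm, hQd, hQ0, hQs, hQf, hQP⟩ : ∃ Q : F[X], Q.Monic ∧ Q.natDegree = c ∧
      Q.coeff 0 ≠ 0 ∧ pstar Q = Q ∧ (∀ P ∈ normalizedFactors Q, P ∈ T) ∧
      P₀ ∈ normalizedFactors Q := by
    by_cases hev : Even i
    · refine ⟨P₀, (hT P₀ hP₀).2.1, ?_, (hT P₀ hP₀).2.2.2, (hpar P₀ hP₀).mpr hev,
        nf_single_sub T hT' P₀ hP₀, ?_⟩
      · rw [hc, if_pos hev]
        exact (hT P₀ hP₀).2.2.1
      · rw [hP₀nf]
        exact Multiset.mem_singleton_self _
    · have hs := hTs P₀ hP₀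
      refine ⟨P₀ * pstar P₀, (hT P₀ hP₀).2.1.mul (hT _ hs).2.1, ?_, ?_, ?_,
        nf_pair_sub T hT' P₀ (pstar P₀) hP₀ hs, ?_⟩
      · rw [(hT P₀ hP₀).2.1.natDegree_mul (hT _ hs).2.1, (hT P₀ hP₀).2.2.1, (hT _ hs).2.2.1, hc,
          if_neg hev]
        ring
      · rw [mul_coeff_zero]
        exact mul_ne_zero (hT P₀ hP₀).2.2.2 (hT _ hs).2.2.2
      · rw [pstar_mul, pstar_pstar P₀ (hT P₀ hP₀).2.1 (hT P₀ hP₀).2.2.2, mul_comm]
      · rw [nf_mul' P₀ (pstar P₀) (hT P₀ hP₀).2.1 (hT _ hs).2.1, Multiset.mem_add, hP₀nf]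
        exact Or.inl (Multiset.mem_singleton_self _)
  obtain ⟨A₀, hA₀⟩ : ∃ A₀, A₀ = (2 * d) / c := ⟨_, rfl⟩
  have hA₀pos : 0 < A₀ := by
    rw [hA₀]
    exact Nat.div_pos hc2d hcpos
  obtain ⟨R, hRdef⟩ : ∃ R, R = Q ^ A₀ := ⟨_, rfl⟩
  have hRm : R.Monic := by
    rw [hRdef]
    exact hQm.pow A₀
  have hR0 : R.coeff 0 ≠ 0 := by
    rw [hRdef, coeff_zero_eq_eval_zero, eval_pow, ← coeff_zero_eq_eval_zero]
    exact pow_ne_zero _ hQ0
  have hRs : pstar R = R := by rw [hRdef, pstar_pow, hQs]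
  have hRnf : normalizedFactors R = A₀ • normalizedFactors Q := by
    rw [hRdef, normalizedFactors_pow]
  have hRf : ∀ P ∈ normalizedFactors R, P ∈ T := by
    intro P hP
    rw [hRnf] at hP
    exact hQf P (Multiset.mem_of_mem_nsmul hP)
  have hR1 : R.eval 1 ≠ 0 := eval1_of_nf T hT' hLT R hRm hRf
  have hRd : R.natDegree = c * A₀ := by
    rw [hRdef, hQm.natDegree_pow, hQd, mul_comm]
  obtain ⟨e₀, he₀⟩ : ∃ e₀, e₀ = (2 * d) % c := ⟨_, rfl⟩
  have he₀even : Even e₀ := by
    have h2 := Nat.mod_add_div (2 * d) c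
    have h3 : Even ((2 * d) % c + c * ((2 * d) / c)) := by
      rw [h2]
      exact even_two_mul d
    rw [he₀]
    exact (Nat.even_add.mp h3).mpr (hceven.mul_right _)
  obtain ⟨h1, h2, h3, h4⟩ := adm_mk e₀ he₀even R hRm hR0 hRs hR1
  have hLR : (X - C (1 : F)) ∉ normalizedFactors R := fun h => hLT (hRf _ h)
  refine ⟨(X - C 1) ^ e₀ * R, ⟨h1, ?_, h3, ?_, ?_⟩, ?_⟩
  · rw [h2, hRd, he₀, hA₀]
    exact Nat.mod_add_div (2 * d) c
  · intro P hP
    rw [h4, Multiset.mem_add] at hP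
    rcases hP with hP | hP
    · exact Or.inl (Multiset.eq_of_mem_replicate hP)
    · exact Or.inr (hRf P hP)
  · refine ⟨P₀, ?_, hP₀⟩
    rw [h4, Multiset.mem_add, hRnf]
    exact Or.inr ((Multiset.mem_nsmul_of_ne_zero hA₀pos.ne').mpr hQP)
  · rw [h4, Multiset.count_add, Multiset.count_replicate_self,
      Multiset.count_eq_zero_of_notMem hLR, add_zero, he₀]

theorem cnt_lt_of_adm (T : Finset F[X]) (i : ℕ) (hi : 0 < i)
    (hT : ∀ P ∈ T, Irreducible P ∧ P.Monic ∧ P.natDegree = i ∧ P.coeff 0 ≠ 0)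
    (hLT : (X - C (1 : F)) ∉ T) (d : ℕ) (χ : F[X]) (hχ : Adm T d χ) :
    Multiset.count (X - C (1 : F)) (normalizedFactors χ) < 2 * d := by
  obtain ⟨hχm, hχd, hχr, hχf, hχT⟩ := hχ
  obtain ⟨e, R, hχe, hRm, hRf, hdeg, hRs, hRne, he⟩ := adm_split T i hT hLT χ hχm hχf
  have h1 : 0 < Multiset.card (normalizedFactors R) := Multiset.card_pos.mpr (hRne hχT)
  have h2 : 0 < i * Multiset.card (normalizedFactors R) := Nat.mul_pos hi h1
  rw [← he, ← hχd, ← hdeg]
  omega

end crit

section sp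
variable {F : Type*} [Field F] [Fintype F] [DecidableEq F]

/-- The multiplicity of `X - 1` in the characteristic polynomial of the restriction of an
element of order `r` to an invariant nondegenerate subspace. -/
theorem cnt_res {p : ℕ} [Fact p.Prime] [CharP F p] {d : ℕ} (r : ℕ) (hr : r.Prime) (hrp : r ≠ p)
    (T : Finset F[X]) (i : ℕ)
    (hT : ∀ P ∈ T, Irreducible P ∧ P.Monic ∧ P.natDegree = i ∧ P.coeff 0 ≠ 0)
    (hLT : (X - C (1 : F)) ∉ T) (hpar : ∀ P ∈ T, (pstar P = P ↔ Even i))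
    (c : ℕ) (hc : c = if Even i then i else 2 * i)
    (x : Matrix (Fin d ⊕ Fin d) (Fin d ⊕ Fin d) F) (hx : x ∈ Matrix.symplecticGroup (Fin d) F)
    (hxr : x ^ r = 1)
    (hfac : ∀ P ∈ normalizedFactors x.charpoly, P = X - C (1 : F) ∨ P ∈ T)
    (W : Submodule F (Fin d ⊕ Fin d → F)) (hW : W ∈ Module.End.invtSubmodule (Matrix.toLin' x))
    (hnd : ∀ u ∈ W, u ≠ 0 → ∃ v ∈ W, Cfsg.sympForm d F u v ≠ 0) :
    ∃ M : ℕ, Multiset.count (X - C (1 : F))
      (normalizedFactors (res (Matrix.toLin' x) W hW).charpoly) + c * M =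
        Module.finrank F W := by
  have hpp : p.Prime := Fact.out
  have hrF : ((r : ℕ) : F) ≠ 0 := by
    rw [Ne, CharP.cast_eq_zero_iff F p]
    intro h
    exact hrp ((Nat.prime_dvd_prime_iff_eq hpp hr).mp h).symm
  have hs := Cfsg.Agent.Lib.Helper40.SSConj.isSemisimple_toLin' x r hrF hxr
  have hND : ND (form d F) W := by
    intro u hu hu0
    obtain ⟨v, hv, hv'⟩ := hnd u hu hu0
    refine ⟨v, hv, ?_⟩
    rw [form_apply]
    exact hv'
  obtain ⟨R, hR⟩ : ∃ R, R = (res (Matrix.toLin' x) W hW).charpoly := ⟨_, rfl⟩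
  have hRm : R.Monic := by
    rw [hR]
    exact LinearMap.charpoly_monic _
  have hRd : R.natDegree = Module.finrank F W := by
    rw [hR]
    exact LinearMap.charpoly_natDegree _
  have hRs : pstar R = R := by
    rw [hR]
    exact pstar_res _ (form_isometry x hx) W hW hND
  have hRdvd : R ∣ x.charpoly := by
    have h := charpoly_restrict_dvd (Matrix.toLin' x) hs W hW
    rwa [Matrix.charpoly_toLin', ← hR] at h
  have hRf : ∀ P ∈ normalizedFactors R, P = X - C (1 : F) ∨ P ∈ T := by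
    intro P hP
    exact hfac P (Multiset.mem_of_le (nf_le_of_dvd R _ hRm (Matrix.charpoly_monic x) hRdvd) hP)
  obtain ⟨e, R', hRe, hR'm, hR'f, hdeg, hR's, -, he⟩ := adm_split T i hT hLT R hRm hRf
  obtain ⟨M, hM⟩ := c_dvd T i hT hpar c hc R' hR'm hR'f (hR's hRs)
  refine ⟨M, ?_⟩
  rw [← hR, ← he, ← hM, hdeg, hRd]

/-- The two ways an element of order `r` can stabilize an orthogonal decomposition. -/
theorem core {p : ℕ} [Fact p.Prime] [CharP F p] {d : ℕ} (r : ℕ) (hr : r.Prime) (hrp : r ≠ p)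
    (T : Finset F[X]) (i : ℕ)
    (hT : ∀ P ∈ T, Irreducible P ∧ P.Monic ∧ P.natDegree = i ∧ P.coeff 0 ≠ 0)
    (hLT : (X - C (1 : F)) ∉ T) (hpar : ∀ P ∈ T, (pstar P = P ↔ Even i))
    (hTdvd : ∀ P : F[X], Irreducible P → P.Monic →
      (P ∣ X ^ r - C (1 : F) ↔ P = X - C 1 ∨ P ∈ T))
    (c : ℕ) (hc : c = if Even i then i else 2 * i)
    (x : Matrix (Fin d ⊕ Fin d) (Fin d ⊕ Fin d) F) (hx : x ∈ Matrix.symplecticGroup (Fin d) F)
    (hxr : x ^ r = 1) (hx1 : x ≠ 1) (m t : ℕ) (hm : 1 ≤ m)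
    (D : Fin t → Submodule F (Fin d ⊕ Fin d → F))
    (hD : ODec (2 * m) (1 : Matrix (Fin d ⊕ Fin d) (Fin d ⊕ Fin d) F) D)
    (σ : Equiv.Perm (Fin t)) (hσ : ∀ j, (D j).map (Matrix.toLin' x) = D (σ j)) :
    (∃ e : Fin t → ℕ, (∀ j, ∃ M, e j + c * M = 2 * m) ∧
      Multiset.count (X - C (1 : F)) (normalizedFactors x.charpoly) = ∑ j, e j) ∨
    ((r - 1) * (2 * m) ≤ Module.finrank F (LinearMap.range (Matrix.toLin' x - 1)) ∧
      2 * m ≤ Multiset.count (X - C (1 : F)) (normalizedFactors x.charpoly)) := by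
  obtain ⟨h1, h2, h3, h4, h5, -⟩ := hD
  have hadm := Cfsg.Agent.Lib.Helper40.SpElt.adm_of_elt (p := p) r hr hrp T hTdvd x hx hxr hx1
  obtain ⟨-, -, -, hfac, -⟩ := hadm
  by_cases hfix : ∀ j, σ j = j
  · left
    have hinv : ∀ j, D j ∈ Module.End.invtSubmodule (Matrix.toLin' x) := by
      intro j
      rw [Module.End.mem_invtSubmodule_iff_map_le, hσ, hfix]
    choose M hM using fun j =>
      cnt_res r hr hrp T i hT hLT hpar c hc x hx hxr hfac (D j) (hinv j) (h4 j)
    refine ⟨fun j => Multiset.count (X - C (1 : F))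
      (normalizedFactors (res (Matrix.toLin' x) (D j) (hinv j)).charpoly),
      fun j => ⟨M j, by rw [hM j, h1 j]⟩, ?_⟩
    rw [← Matrix.charpoly_toLin' x]
    exact cnt_decomp (Matrix.toLin' x) D hinv h2 h3 _
  · right
    push Not at hfix
    obtain ⟨j₀, hj₀⟩ := hfix
    have hφr : (Matrix.toLin' x) ^ r = 1 := by
      rw [← Matrix.toLin'_pow, hxr, Matrix.toLin'_one]
      rfl
    have hne : ∀ j, D j ≠ ⊥ := by
      intro j hj
      have h7 := h1 j
      rw [hj, finrank_bot] at h7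
      omega
    obtain ⟨W, hWind, hWmem⟩ := orbit_family (Matrix.toLin' x) r hr hφr D h2 hne σ hσ j₀ hj₀
    have hinj : Function.Injective (Matrix.toLin' x) := by
      have hcoe : ((Φ d ⟨x, hx⟩ : (Fin d ⊕ Fin d → F) ≃ₗ[F] (Fin d ⊕ Fin d → F)) :
          (Fin d ⊕ Fin d → F) →ₗ[F] (Fin d ⊕ Fin d → F)) = Matrix.toLin' x := by
        apply LinearMap.ext
        intro v
        rw [LinearEquiv.coe_coe, Φ_apply, Matrix.toLin'_apply]
      rw [← hcoe]
      exact (Φ d ⟨x, hx⟩).injective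
    constructor
    · have h6 := orbit_rank (Matrix.toLin' x) hinj (D j₀) r hr.pos W hWind hWmem
      rwa [h1 j₀] at h6
    · have h6 := orbit_fix (Matrix.toLin' x) r hr.pos hφr (D j₀) W hWind hWmem
      have h7 := fix_le_cnt (Matrix.toLin' x)
      rw [Matrix.charpoly_toLin'] at h7
      rw [h1 j₀] at h6
      exact le_trans h6 h7

/-- **Necessity.** If every element of order `r` stabilizes an orthogonal decomposition into
nondegenerate `2m`-spaces then the numerical criterion holds. -/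
theorem nec {p : ℕ} [Fact p.Prime] [CharP F p] {d : ℕ} (hd : 1 ≤ d) (r : ℕ) (hr : r.Prime)
    (hr2 : r ≠ 2) (hrp : r ≠ p) (T : Finset F[X]) (i : ℕ) (hi : 0 < i)
    (hT : ∀ P ∈ T, Irreducible P ∧ P.Monic ∧ P.natDegree = i ∧ P.coeff 0 ≠ 0)
    (hLT : (X - C (1 : F)) ∉ T) (hTs : ∀ P ∈ T, pstar P ∈ T)
    (hpar : ∀ P ∈ T, (pstar P = P ↔ Even i))
    (hTdvd : ∀ P : F[X], Irreducible P → P.Monic →
      (P ∣ X ^ r - C (1 : F) ↔ P = X - C 1 ∨ P ∈ T))
    (hTne : T.Nonempty) (c : ℕ) (hc : c = if Even i then i else 2 * i) (hcr : c ≤ r - 1)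
    (m t : ℕ) (hm : 1 ≤ m) (hdt : d = m * t) (hc2d : c ≤ 2 * d)
    (H : ∀ x : Matrix (Fin d ⊕ Fin d) (Fin d ⊕ Fin d) F,
      x ∈ Matrix.symplecticGroup (Fin d) F → x ^ r = 1 → (∀ z : F, x ≠ z • 1) →
      ∃ D : Fin t → Submodule F (Fin d ⊕ Fin d → F),
        ODec (2 * m) (1 : Matrix (Fin d ⊕ Fin d) (Fin d ⊕ Fin d) F) D ∧
        ∃ σ : Equiv.Perm (Fin t), ∀ j, (D j).map (Matrix.toLin' x) = D (σ j)) :
    c ≤ 2 * m ∧ (2 * d) % c = t * ((2 * m) % c) := by
  have hpp : p.Prime := Fact.out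
  have hcpos : 0 < c := by
    rw [hc]
    split_ifs <;> omega
  have hceven : Even c := by
    rw [hc]
    split_ifs with h
    · exact h
    · exact even_two_mul i
  obtain ⟨P₀, hP₀⟩ := hTne
  by_contra hneg
  by_cases hca : c ≤ 2 * m
  · have hk_le : (2 * d) % c ≤ t * ((2 * m) % c) := by
      have h4 := Nat.div_add_mod (2 * m) c
      have h5 : 2 * d = t * ((2 * m) % c) + c * ((2 * m / c) * t) := by
        calc 2 * d = (2 * m) * t := by
              rw [hdt]
              ring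
          _ = (c * (2 * m / c) + (2 * m) % c) * t := by rw [h4]
          _ = _ := by ring
      rw [h5, Nat.add_mul_mod_self_left]
      exact Nat.mod_le _ _
    have hlt : (2 * d) % c < t * ((2 * m) % c) :=
      lt_of_le_of_ne hk_le (fun h => hneg ⟨hca, h⟩)
    obtain ⟨χ, hχ, hcnt⟩ := exists_adm_min T i hi hT hLT hTs hpar c hc d P₀ hP₀ hc2d
    obtain ⟨x, hxr, hxs, hxc⟩ :=
      Cfsg.Agent.Lib.Helper40.SpElt.exists_elt p hd r hr hr2 T hLT hTdvd χ hχ
    have hx1 : x.1 ≠ 1 := by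
      intro h
      exact hxs 1 (by rw [h, one_smul])
    obtain ⟨D, hD, σ, hσ⟩ := H x.1 x.2 hxr hxs
    rcases core r hr hrp T i hT hLT hpar hTdvd c hc x.1 x.2 hxr hx1 m t hm D hD σ hσ with
      ⟨e, he, hsum⟩ | ⟨-, hfixle⟩
    · rw [hxc, hcnt] at hsum
      have hge : ∀ j, (2 * m) % c ≤ e j := by
        intro j
        obtain ⟨M, hM⟩ := he j
        rw [← hM, Nat.add_mul_mod_self_left]
        exact Nat.mod_le _ _
      have h6 : t * ((2 * m) % c) ≤ ∑ j, e j := by
        have h7 := Finset.sum_le_sum (fun j (_ : j ∈ Finset.univ) => hge j)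
        rw [Finset.sum_const, Finset.card_univ, Fintype.card_fin, smul_eq_mul] at h7
        exact h7
      omega
    · rw [hxc, hcnt] at hfixle
      have h6 := Nat.mod_lt (2 * d) hcpos
      omega
  · push Not at hca
    obtain ⟨c', hc'⟩ := hceven
    have hc'pos : 1 ≤ c' := by omega
    obtain ⟨k', hk'⟩ : ∃ k', d = c' + k' := ⟨d - c', by omega⟩
    subst hk'
    obtain ⟨χ, hχ, -⟩ := exists_adm_min T i hi hT hLT hTs hpar c hc c' P₀ hP₀ (by omega)
    obtain ⟨y, hyr, hys, hyc⟩ :=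
      Cfsg.Agent.Lib.Helper40.SpElt.exists_elt p hc'pos r hr hr2 T hLT hTdvd χ hχ
    obtain ⟨x, hxdef⟩ : ∃ x, x = dsum y.1 (1 : Matrix (Fin k' ⊕ Fin k') (Fin k' ⊕ Fin k') F) :=
      ⟨_, rfl⟩
    have hxmem : x ∈ Matrix.symplecticGroup (Fin (c' + k')) F := by
      rw [hxdef]
      exact dsum_mem _ _ y.2 (one_mem _)
    have hxr : x ^ r = 1 := by rw [hxdef, dsum_pow, hyr, one_pow, dsum_one]
    have hxs : ∀ z : F, x ≠ z • 1 := by
      intro z hz
      rw [hxdef] at hz
      exact hys z (dsum_eq_smul_left _ _ z hz)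
    have hx1 : x ≠ 1 := fun h => hxs 1 (by rw [h, one_smul])
    obtain ⟨D, hD, σ, hσ⟩ := H x hxmem hxr hxs
    rcases core r hr hrp T i hT hLT hpar hTdvd c hc x hxmem hxr hx1 m t hm D hD σ hσ with
      ⟨e, he, hsum⟩ | ⟨hrank, -⟩
    · have hadm := Cfsg.Agent.Lib.Helper40.SpElt.adm_of_elt (p := p) r hr hrp T hTdvd x hxmem
        hxr hx1
      have hlt := cnt_lt_of_adm T i hi hT hLT _ _ hadm
      have he' : ∀ j, e j = 2 * m := by
        intro j
        obtain ⟨M, hM⟩ := he j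
        rcases Nat.eq_zero_or_pos M with h0 | h0
        · rw [h0, mul_zero, add_zero] at hM
          exact hM
        · have h8 : c ≤ c * M := Nat.le_mul_of_pos_right c h0
          omega
      rw [hsum, Finset.sum_congr rfl (fun j _ => he' j), Finset.sum_const, Finset.card_univ,
        Fintype.card_fin, smul_eq_mul] at hlt
      have h9 : t * (2 * m) = 2 * (c' + k') := by
        rw [hdt]
        ring
      omega
    · have hle : LinearMap.range (Matrix.toLin' x - 1) ≤
          LinearMap.range (iota2 (F := F) c' k') := by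
        rintro w ⟨v, rfl⟩
        obtain ⟨u, v', rfl⟩ := iota_decomp c' k' v
        rw [LinearMap.sub_apply, Module.End.one_apply, Matrix.toLin'_apply, hxdef,
          Matrix.mulVec_add, dsum_mulVec_iota2, dsum_mulVec_iotaR, Matrix.one_mulVec]
        refine LinearMap.mem_range.mpr ⟨y.1 *ᵥ u - u, ?_⟩
        rw [map_sub]
        abel
      have h6 := Submodule.finrank_mono hle
      rw [LinearMap.finrank_range_of_inj (iota2_injective c' k'), Module.finrank_pi,
        Fintype.card_sum, Fintype.card_fin] at h6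
      have h7 : (r - 1) * 2 ≤ (r - 1) * (2 * m) := Nat.mul_le_mul_left _ (by omega)
      have hr2' : 2 ≤ r := hr.two_le
      omega

end sp

end Cfsg.Agent.Lib.Helper40.ODNec
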