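import Mathlib
import Cfsg.Agent.Lib.Helper40.CycloVal

set_option autoImplicit false

namespace Cfsg.Agent.Lib.Helper40.SubspCount

open Module

/-- `∏_{j<t} (q^(j+1) - 1)`. -/
def gfun (q t : ℕ) : ℕ := ∏ j ∈ Finset.range t, (q ^ (j + 1) - 1)

/-- `∏_{i<k} (q^(n-i) - 1)`. -/
def bfun (q n k : ℕ) : ℕ := ∏ i ∈ Finset.range k, (q ^ (n - i) - 1)

theorem gfun_pos (q t : ℕ) (hq : 2 ≤ q) : 0 < gfun q t := by
  unfold gfun
  apply Finset.prod_pos
  intro j _
  have : 2 ≤ q ^ (j + 1) := by
    calc 2 ≤ q := hq
      _ = q ^ 1 := (pow_one q).symm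
      _ ≤ q ^ (j + 1) := Nat.pow_le_pow_right (by omega) (by omega)
  omega

theorem bfun_mul_gfun (q n : ℕ) : ∀ k, k ≤ n → bfun q n k * gfun q (n - k) = gfun q n := by
  intro k
  induction k with
  | zero =>
    intro _
    unfold bfun
    rw [Finset.prod_range_zero, one_mul, Nat.sub_zero]
  | succ k ih =>
    intro hk
    have h1 : n - k = (n - (k + 1)) + 1 := by omega
    have h2 : gfun q (n - k) = gfun q (n - (k + 1)) * (q ^ (n - k) - 1) := by
      conv_lhs => rw [h1]
      unfold gfun
      rw [Finset.prod_range_succ, ← h1]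
    have h3 : bfun q n (k + 1) = bfun q n k * (q ^ (n - k) - 1) := by
      unfold bfun
      rw [Finset.prod_range_succ]
    rw [h3, ← ih (by omega), h2]
    ring

theorem bfun_self (q m : ℕ) : bfun q m m = gfun q m := by
  have h := bfun_mul_gfun q m m le_rfl
  rw [Nat.sub_self] at h
  unfold gfun at h
  rw [Finset.prod_range_zero, mul_one] at h
  exact h

theorem prod_pow_sub (q n m : ℕ) (hm : m ≤ n) :
    ∏ i : Fin m, (q ^ n - q ^ (i : ℕ)) = (∏ i ∈ Finset.range m, q ^ i) * bfun q n m := by
  rw [Fin.prod_univ_eq_prod_range (fun i => q ^ n - q ^ i) m]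
  unfold bfun
  rw [← Finset.prod_mul_distrib]
  apply Finset.prod_congr rfl
  intro i hi
  have hi' : i ≤ n := by
    have := Finset.mem_range.mp hi
    omega
  rw [Nat.mul_sub, mul_one, ← pow_add, Nat.add_sub_cancel' hi']

section
variable {F : Type*} [Field F] [Fintype F] {V : Type*} [AddCommGroup V] [Module F V] [Finite V]

/-- Linearly independent `m`-tuples spanning the `m`-dimensional subspace `W` are the linearly
independent `m`-tuples of `W`. -/
noncomputable def fiberEquiv (m : ℕ) (W : Submodule F V) (hW : finrank F W = m) :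
    {s : {s : Fin m → V // LinearIndependent F s} // Submodule.span F (Set.range s.1) = W} ≃
    {s : Fin m → W // LinearIndependent F s} where
  toFun s := ⟨fun i => ⟨s.1.1 i, by
      have h := Submodule.subset_span (s := Set.range s.1.1) (R := F) (Set.mem_range_self i)
      rw [s.2] at h
      exact h⟩,
    LinearIndependent.of_comp W.subtype (by exact s.1.2)⟩
  invFun s := ⟨⟨fun i => (s.1 i : V), s.2.map' W.subtype (Submodule.ker_subtype W)⟩, by
    have h1 : Submodule.span F (Set.range s.1) = ⊤ :=
      s.2.span_eq_top_of_card_eq_finrank' (by rw [Fintype.card_fin, hW])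
    have h2 : Set.range (fun i => (s.1 i : V)) = W.subtype '' Set.range s.1 := by
      rw [← Set.range_comp]
      rfl
    rw [h2, ← Submodule.map_span, h1, Submodule.map_subtype_top]⟩
  left_inv s := by
    ext
    rfl
  right_inv s := by
    ext
    rfl

theorem card_subspaces_mul' (m : ℕ) (hm : m ≤ finrank F V) :
    Nat.card {W : Submodule F V // finrank F W = m} *
      ∏ i : Fin m, (Fintype.card F ^ m - Fintype.card F ^ (i : ℕ)) =
    ∏ i : Fin m, (Fintype.card F ^ finrank F V - Fintype.card F ^ (i : ℕ)) := by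
  classical
  rw [← card_linearIndependent hm]
  let f : {s : Fin m → V // LinearIndependent F s} → {W : Submodule F V // finrank F W = m} :=
    fun s => ⟨Submodule.span F (Set.range s.1), by rw [finrank_span_eq_card s.2, Fintype.card_fin]⟩
  rw [← Nat.card_congr (Equiv.sigmaFiberEquiv f)]
  have : Fintype {W : Submodule F V // finrank F W = m} := Fintype.ofFinite _
  rw [Nat.card_sigma]
  have h : ∀ W : {W : Submodule F V // finrank F W = m}, Nat.card {s // f s = W} =
      ∏ i : Fin m, (Fintype.card F ^ m - Fintype.card F ^ (i : ℕ)) := by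
    intro W
    have e : {s // f s = W} ≃ {s : {s : Fin m → V // LinearIndependent F s} //
        Submodule.span F (Set.range s.1) = W.1} :=
      Equiv.subtypeEquivRight (fun s => Subtype.ext_iff)
    rw [Nat.card_congr (e.trans (fiberEquiv m W.1 W.2)),
      card_linearIndependent (le_of_eq W.2.symm), W.2]
  rw [Finset.sum_congr rfl (fun W _ => h W), Finset.sum_const, Finset.card_univ, smul_eq_mul,
    Nat.card_eq_fintype_card]

/-- The number of `m`-dimensional subspaces, in product form. -/
theorem card_subspaces_mul (m : ℕ) (hm : m ≤ finrank F V) :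
    Nat.card {W : Submodule F V // finrank F W = m} * gfun (Fintype.card F) m =
    bfun (Fintype.card F) (finrank F V) m := by
  have h := card_subspaces_mul' (F := F) (V := V) m hm
  rw [prod_pow_sub _ _ _ hm, prod_pow_sub _ _ _ le_rfl, bfun_self] at h
  have hq : 0 < Fintype.card F := Fintype.card_pos
  have hpos : 0 < ∏ i ∈ Finset.range m, Fintype.card F ^ i :=
    Finset.prod_pos (fun i _ => pow_pos hq i)
  apply Nat.eq_of_mul_eq_mul_left hpos
  rw [← h]
  ring

theorem card_subspaces_mul_mul (m : ℕ) (hm : m ≤ finrank F V) :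
    Nat.card {W : Submodule F V // finrank F W = m} * gfun (Fintype.card F) m *
      gfun (Fintype.card F) (finrank F V - m) = gfun (Fintype.card F) (finrank F V) := by
  rw [card_subspaces_mul m hm, bfun_mul_gfun _ _ _ hm]

theorem card_subspaces_dual (m : ℕ) (hm : m ≤ finrank F V) :
    Nat.card {W : Submodule F V // finrank F W = finrank F V - m} =
    Nat.card {W : Submodule F V // finrank F W = m} := by
  have h1 := card_subspaces_mul_mul (F := F) (V := V) m hm
  have h2 := card_subspaces_mul_mul (F := F) (V := V) (finrank F V - m) (Nat.sub_le _ _)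
  rw [Nat.sub_sub_self hm] at h2
  have hq : 2 ≤ Fintype.card F := Fintype.one_lt_card
  have hpos : 0 < gfun (Fintype.card F) m * gfun (Fintype.card F) (finrank F V - m) :=
    Nat.mul_pos (gfun_pos _ _ hq) (gfun_pos _ _ hq)
  apply Nat.eq_of_mul_eq_mul_right hpos
  rw [← mul_assoc, ← mul_assoc, h1, mul_assoc, mul_comm (gfun _ m), ← mul_assoc, h2]

/-- A prime dividing the number of `m`-subspaces divides some `q^(n-i) - 1`, `i < m`. -/
theorem exists_dvd_of_dvd_card (m : ℕ) (hm : m ≤ finrank F V) (r : ℕ) (hr : r.Prime)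
    (h : r ∣ Nat.card {W : Submodule F V // finrank F W = m}) :
    ∃ i < m, r ∣ Fintype.card F ^ (finrank F V - i) - 1 := by
  have h1 : r ∣ bfun (Fintype.card F) (finrank F V) m := by
    rw [← card_subspaces_mul m hm]
    exact Dvd.dvd.mul_right h _
  unfold bfun at h1
  obtain ⟨i, hi, hd⟩ := (Prime.dvd_finsetProd_iff hr.prime _).mp h1
  exact ⟨i, Finset.mem_range.mp hi, hd⟩

/-- The number of flags `U ≤ W` with `dim U = m`, `dim W = n - m`. -/
theorem card_flags (m : ℕ) (hm : 2 * m ≤ finrank F V) :
    Nat.card {P : Submodule F V × Submodule F V //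
        P.1 ≤ P.2 ∧ finrank F P.1 = m ∧ finrank F P.2 = finrank F V - m} * gfun (Fintype.card F) m *
      gfun (Fintype.card F) m =
    bfun (Fintype.card F) (finrank F V) m * bfun (Fintype.card F) (finrank F V - m) m := by
  classical
  let f : {P : Submodule F V × Submodule F V //
        P.1 ≤ P.2 ∧ finrank F P.1 = m ∧ finrank F P.2 = finrank F V - m} →
      {W : Submodule F V // finrank F W = finrank F V - m} := fun P => ⟨P.1.2, P.2.2.2⟩
  rw [← Nat.card_congr (Equiv.sigmaFiberEquiv f)]
  have : Fintype {W : Submodule F V // finrank F W = finrank F V - m} := Fintype.ofFinite _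
  rw [Nat.card_sigma]
  have h : ∀ W : {W : Submodule F V // finrank F W = finrank F V - m},
      Nat.card {P // f P = W} * gfun (Fintype.card F) m =
      bfun (Fintype.card F) (finrank F V - m) m := by
    intro W
    have e : {P // f P = W} ≃ {U : Submodule F W.1 // finrank F U = m} :=
      { toFun := fun P => ⟨Submodule.comap W.1.subtype P.1.1.1, by
          have h1 := P.1.2.1
          have h2 : P.1.1.2 = W.1 := congrArg Subtype.val P.2
          rw [h2] at h1
          rw [← Submodule.finrank_map_subtype_eq, Submodule.map_comap_subtype,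
            inf_eq_right.mpr h1]
          exact P.1.2.2.1⟩
        invFun := fun U => ⟨⟨(U.1.map W.1.subtype, W.1), Submodule.map_subtype_le _ _, by
          rw [Submodule.finrank_map_subtype_eq]
          exact U.2, W.2⟩, rfl⟩
        left_inv := by
          intro P
          have h1 := P.1.2.1
          have h2 : P.1.1.2 = W.1 := congrArg Subtype.val P.2
          rw [h2] at h1
          apply Subtype.ext
          apply Subtype.ext
          apply Prod.ext
          · show Submodule.map W.1.subtype (Submodule.comap W.1.subtype P.1.1.1) = P.1.1.1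
            rw [Submodule.map_comap_subtype, inf_eq_right.mpr h1]
          · exact h2.symm
        right_inv := by
          intro U
          apply Subtype.ext
          exact Submodule.comap_map_eq_of_injective W.1.subtype_injective U.1 }
    rw [Nat.card_congr e, card_subspaces_mul m (by rw [W.2]; omega), W.2]
  rw [Finset.sum_mul, Finset.sum_congr rfl (fun W _ => h W), Finset.sum_const, Finset.card_univ,
    smul_eq_mul, ← Nat.card_eq_fintype_card, card_subspaces_dual m (by omega), mul_assoc,
    mul_comm (bfun _ _ _) (gfun _ _), ← mul_assoc, card_subspaces_mul m (by omega)]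

theorem flags_dvd (m : ℕ) (hm : 2 * m ≤ finrank F V) (r : ℕ) (hr : r.Prime)
    (h : r ∣ Nat.card {P : Submodule F V × Submodule F V //
        P.1 ≤ P.2 ∧ finrank F P.1 = m ∧ finrank F P.2 = finrank F V - m}) :
    ∃ i < m, r ∣ Fintype.card F ^ (finrank F V - i) - 1 ∨
      r ∣ Fintype.card F ^ (finrank F V - m - i) - 1 := by
  have h1 : r ∣ bfun (Fintype.card F) (finrank F V) m * bfun (Fintype.card F) (finrank F V - m) m := by
    rw [← card_flags m hm, mul_assoc]
    exact Dvd.dvd.mul_right h _
  rcases (Nat.Prime.dvd_mul hr).mp h1 with h2 | h2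
  · unfold bfun at h2
    obtain ⟨i, hi, hd⟩ := (Prime.dvd_finsetProd_iff hr.prime _).mp h2
    exact ⟨i, Finset.mem_range.mp hi, Or.inl hd⟩
  · unfold bfun at h2
    obtain ⟨i, hi, hd⟩ := (Prime.dvd_finsetProd_iff hr.prime _).mp h2
    exact ⟨i, Finset.mem_range.mp hi, Or.inr hd⟩

end

section
variable {F : Type*} [Field F] [Fintype F] {p : ℕ} [Fact p.Prime] [CharP F p]

theorem order_aux (r : ℕ) [Fact r.Prime] (n j m' : ℕ) (hj : j < m') (hjn : j < n)
    (h : r ∣ Fintype.card F ^ (n - j) - 1) :
    r ≠ p ∧ orderOf ((Fintype.card F : ℕ) : ZMod r) ≤ n ∧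
      n % orderOf ((Fintype.card F : ℕ) : ZMod r) < m' := by
  have hq : 1 ≤ Fintype.card F := Fintype.card_pos
  have hpos : 1 ≤ Fintype.card F ^ (n - j) := Nat.one_le_pow _ _ hq
  refine ⟨?_, ?_⟩
  · intro hrp
    have h1 : p ∣ Fintype.card F := by
      rw [← CharP.cast_eq_zero_iff F p]
      exact FiniteField.cast_card_eq_zero F
    have h2 : r ∣ Fintype.card F ^ (n - j) := by
      rw [hrp]
      exact Dvd.dvd.trans h1 (dvd_pow_self _ (by omega))
    have h3 := Nat.dvd_sub h2 h
    have h4 : Fintype.card F ^ (n - j) - (Fintype.card F ^ (n - j) - 1) = 1 := by omega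
    rw [h4] at h3
    exact (Fact.out : r.Prime).one_lt.ne' (Nat.dvd_one.mp h3)
  · have h1 := (Cfsg.Agent.Lib.Helper40.CycloVal.dvd_pow_sub_one_iff (Fintype.card F) r hq (n - j)).mp h
    obtain ⟨c, hc⟩ := h1
    have h2 := Nat.le_of_dvd (by omega) ⟨c, hc⟩
    refine ⟨by omega, ?_⟩
    have h3 : n = orderOf ((Fintype.card F : ℕ) : ZMod r) * c + j := by omega
    have h4 : n % orderOf ((Fintype.card F : ℕ) : ZMod r) =
        j % orderOf ((Fintype.card F : ℕ) : ZMod r) := by
      conv_lhs => rw [h3]
      exact Nat.mul_add_mod _ _ _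
    have h5 := Nat.mod_le j (orderOf ((Fintype.card F : ℕ) : ZMod r))
    omega

/-- Consequences of a prime dividing the number of `m`-subspaces of `F^n`. -/
theorem order_facts_subspaces (n m : ℕ) (hmn : m ≤ n) (r : ℕ) [Fact r.Prime]
    (h : r ∣ Nat.card {W : Submodule F (Fin n → F) // finrank F W = m}) :
    r ≠ p ∧ orderOf ((Fintype.card F : ℕ) : ZMod r) ≤ n ∧
      n % orderOf ((Fintype.card F : ℕ) : ZMod r) < m := by
  have hfin : finrank F (Fin n → F) = n := Module.finrank_fin_fun F
  obtain ⟨i, hi, hd⟩ := exists_dvd_of_dvd_card m (by rw [hfin]; exact hmn) r Fact.out h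
  rw [hfin] at hd
  exact order_aux r n i m hi (by omega) hd

/-- Consequences of a prime dividing the number of `(m, n - m)`-flags of `F^n`. -/
theorem order_facts_flags (n m : ℕ) (hmn : 2 * m ≤ n) (r : ℕ) [Fact r.Prime]
    (h : r ∣ Nat.card {P : Submodule F (Fin n → F) × Submodule F (Fin n → F) //
        P.1 ≤ P.2 ∧ finrank F P.1 = m ∧ finrank F P.2 = n - m}) :
    r ≠ p ∧ orderOf ((Fintype.card F : ℕ) : ZMod r) ≤ n ∧
      n % orderOf ((Fintype.card F : ℕ) : ZMod r) < 2 * m := by
  have hfin : finrank F (Fin n → F) = n := Module.finrank_fin_fun F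
  have h' : r ∣ Nat.card {P : Submodule F (Fin n → F) × Submodule F (Fin n → F) //
      P.1 ≤ P.2 ∧ finrank F P.1 = m ∧ finrank F P.2 = finrank F (Fin n → F) - m} := by
    rw [hfin]
    exact h
  obtain ⟨i, hi, hd⟩ := flags_dvd m (by rw [hfin]; exact hmn) r Fact.out h'
  rw [hfin] at hd
  rcases hd with hd | hd
  · exact order_aux r n i (2 * m) (by omega) (by omega) hd
  · rw [Nat.sub_sub] at hd
    exact order_aux r n (m + i) (2 * m) (by omega) (by omega) hd

end

end Cfsg.Agent.Lib.Helper40.SubspCount
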