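import Mathlib
import Cfsg.Agent.Lib.Helper40.HCrit
import Cfsg.Agent.Lib.Helper40.SpTI
import Cfsg.Agent.Lib.Helper40.HermDiag
import Cfsg.Agent.Lib.Helper40.SSCount

set_option autoImplicit false

namespace Cfsg.Agent.Lib.Helper40.TGeo

open Module Polynomial Matrix Cfsg.Agent.Lib.Helper40.UnitDet Cfsg.Agent.Lib.Helper40.HermAdj
  Cfsg.Agent.Lib.Helper40.HGeo Cfsg.Agent.Lib.Helper40.RecipPoly
  Cfsg.Agent.Lib.Helper40.GUReal Cfsg.Agent.Lib.Helper40.InvDims Cfsg.Agent.Lib.Helper40.HCrit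
  Cfsg.Agent.Lib.Helper40.SUCount

universe u

section ti
variable {K : Type u} [Field K]

/-- Totally isotropic subspaces. -/
def TI (φ : K →+* K) {n : ℕ} (W : Submodule K (Fin n → K)) : Prop :=
  ∀ u ∈ W, ∀ v ∈ W, hB φ u v = 0

/-- `χ` has a monic divisor `D` of degree `m` with `D * D^*` dividing `χ`. -/
def HasT (φ : K →+* K) (m : ℕ) (χ : K[X]) : Prop :=
  ∃ D : K[X], D.Monic ∧ D.natDegree = m ∧ D * rstar φ D ∣ χ

theorem pstar_map (φ : K →+* K) (D : K[X]) :
    Cfsg.Agent.Lib.Helper40.SpTI.pstar (D.map φ) = rstar φ D := by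
  rw [Cfsg.Agent.Lib.Helper40.SpTI.pstar_eq]
  unfold rstar
  rw [coeff_map, reverse_map']

theorem hB_basis_right (φ : K →+* K) {n : ℕ} {ι : Type*} [Fintype ι]
    (W : Submodule K (Fin n → K)) (b : Basis ι K W) (c : Fin n → K)
    (h : ∀ i, hB φ c (b i : Fin n → K) = 0) : ∀ w ∈ W, hB φ c w = 0 := by
  intro w hw
  have h1 := b.sum_repr ⟨w, hw⟩
  have h2 : w = ∑ i, (b.repr ⟨w, hw⟩ i) • (b i : Fin n → K) := by
    have h3 := congrArg Subtype.val h1
    rw [AddSubmonoidClass.coe_finsetSum] at h3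
    exact h3.symm
  rw [h2, hB_sum_right]
  apply Finset.sum_eq_zero
  intro i _
  rw [hB_smul_right, h i, mul_zero]

theorem hB_basis_left (φ : K →+* K) {n : ℕ} {ι : Type*} [Fintype ι]
    (W : Submodule K (Fin n → K)) (b : Basis ι K W) (c : Fin n → K)
    (h : ∀ i, hB φ (b i : Fin n → K) c = 0) : ∀ w ∈ W, hB φ w c = 0 := by
  intro w hw
  have h1 := b.sum_repr ⟨w, hw⟩
  have h2 : w = ∑ i, (b.repr ⟨w, hw⟩ i) • (b i : Fin n → K) := by
    have h3 := congrArg Subtype.val h1
    rw [AddSubmonoidClass.coe_finsetSum] at h3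
    exact h3.symm
  rw [h2, hB_sum_left]
  apply Finset.sum_eq_zero
  intro i _
  rw [hB_smul_left, h i, mul_zero]

/-- **Key lemma.** For a semisimple isometry and an invariant totally isotropic subspace `W`,
`D * D^*` divides the characteristic polynomial, `D` the characteristic polynomial on `W`. -/
theorem dvd_of_ti (φ : K →+* K) (hφ : ∀ x, φ (φ x) = x) {n : ℕ}
    (X' : Module.End K (Fin n → K)) (hiso : ∀ u v, hB φ (X' u) (X' v) = hB φ u v)
    (hs : Module.End.IsSemisimple X') (W : Submodule K (Fin n → K))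
    (hW : W ∈ Module.End.invtSubmodule X') (hti : TI φ W) :
    (res X' W hW).charpoly * rstar φ (res X' W hW).charpoly ∣ X'.charpoly := by
  classical
  have hW' : ∀ w ∈ W, X' w ∈ W := fun w hw => (Module.End.mem_invtSubmodule _).mp hW hw
  have hWp : perp φ W ∈ Module.End.invtSubmodule X' := by
    rw [Module.End.mem_invtSubmodule]
    intro v hv
    exact perp_invt φ X' hφ hiso W hW' v hv
  obtain ⟨Cc, hC, hcompl⟩ := (Module.End.isSemisimple_iff.mp hs) _ hWp
  have hWle : W ≤ perp φ W := by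
    intro u hu
    rw [mem_perp]
    intro w hw
    exact hti w hw u hu
  have hdisj : W ⊓ Cc = ⊥ := by
    apply le_antisymm _ bot_le
    rw [← hcompl.inf_eq_bot]
    exact inf_le_inf_right _ hWle
  have hleft : ∀ c ∈ Cc, (∀ w ∈ W, hB φ c w = 0) → c = 0 := by
    intro c hc h
    have h1 : c ∈ perp φ W ⊓ Cc := by
      refine Submodule.mem_inf.mpr ⟨?_, hc⟩
      rw [mem_perp]
      intro w hw
      exact (hB_eq_zero_comm φ hφ c w).mp (h w hw)
    rw [hcompl.inf_eq_bot] at h1
    exact (Submodule.mem_bot K).mp h1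
  have hright : ∀ w ∈ W, (∀ c ∈ Cc, hB φ w c = 0) → w = 0 := by
    intro w hw h
    apply hB_nondeg φ hφ
    intro v
    have hv : v ∈ perp φ W ⊔ Cc := by
      rw [hcompl.sup_eq_top]
      exact Submodule.mem_top
    obtain ⟨u1, hu1, u2, hu2, rfl⟩ := Submodule.mem_sup.mp hv
    rw [hB_add_right, (mem_perp φ W u1).mp hu1 w hw, h u2 hu2, add_zero]
  obtain ⟨m, hm⟩ : ∃ m, m = finrank K W := ⟨_, rfl⟩
  obtain ⟨mc, hmc⟩ : ∃ mc, mc = finrank K Cc := ⟨_, rfl⟩
  let bW : Basis (Fin m) K W := Module.finBasisOfFinrankEq K W hm.symm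
  let bC0 : Basis (Fin mc) K Cc := Module.finBasisOfFinrankEq K Cc hmc.symm
  have hle1 : mc ≤ m := by
    let L : Cc →ₗ[K] (Fin m → K) :=
      { toFun := fun c b => hB φ (c : Fin n → K) (bW b : Fin n → K)
        map_add' := by
          intro c c'
          funext b
          rw [Submodule.coe_add, hB_add_left]
          rfl
        map_smul' := by
          intro a c
          funext b
          rw [Submodule.coe_smul, hB_smul_left]
          rfl }
    have hinj : Function.Injective L := by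
      rw [injective_iff_map_eq_zero]
      intro c hc
      apply Subtype.ext
      apply hleft c c.2
      apply hB_basis_right φ W bW
      intro i
      exact congrFun hc i
    have h1 := LinearMap.finrank_le_finrank_of_injective hinj
    rw [Module.finrank_fin_fun, ← hmc] at h1
    exact h1
  have hle2 : m ≤ mc := by
    let L : W →ₗ[K] (Fin mc → K) :=
      { toFun := fun w a => hB φ (w : Fin n → K) (bC0 a : Fin n → K)
        map_add' := by
          intro c c'
          funext b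
          rw [Submodule.coe_add, hB_add_left]
          rfl
        map_smul' := by
          intro a c
          funext b
          rw [Submodule.coe_smul, hB_smul_left]
          rfl }
    have hinj : Function.Injective L := by
      rw [injective_iff_map_eq_zero]
      intro w hw
      apply Subtype.ext
      apply hright w w.2
      intro c hc
      apply (hB_eq_zero_comm φ hφ c w).mp
      apply hB_basis_left φ Cc bC0
      · intro i
        exact (hB_eq_zero_comm φ hφ _ _).mp (congrFun hw i)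
      · exact hc
    have h1 := LinearMap.finrank_le_finrank_of_injective hinj
    rw [Module.finrank_fin_fun, ← hm] at h1
    exact h1
  have hCm : finrank K Cc = m := by omega
  have hS : W ⊔ Cc ∈ Module.End.invtSubmodule X' := Sublattice.sup_mem hW hC
  have hdvd : (res X' W hW).charpoly * (res X' Cc hC).charpoly ∣ X'.charpoly := by
    rw [← charpoly_sup X' W Cc hW hC hdisj hS]
    exact charpoly_restrict_dvd X' hs _ hS
  have hstar : (res X' Cc hC).charpoly = rstar φ (res X' W hW).charpoly := by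
    let bC : Basis (Fin m) K Cc := Module.finBasisOfFinrankEq K Cc hCm
    obtain ⟨MW, hMW⟩ : ∃ MW, MW = LinearMap.toMatrix bW bW (res X' W hW) := ⟨_, rfl⟩
    obtain ⟨MC, hMC⟩ : ∃ MC, MC = LinearMap.toMatrix bC bC (res X' Cc hC) := ⟨_, rfl⟩
    obtain ⟨G, hG⟩ : ∃ G : Matrix (Fin m) (Fin m) K,
        G = Matrix.of (fun a b => hB φ (bC a : Fin n → K) (bW b : Fin n → K)) := ⟨_, rfl⟩
    have eW : ∀ b, X' (bW b : Fin n → K) = ∑ b', MW b' b • (bW b' : Fin n → K) := by
      intro b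
      have h1 : (res X' W hW) (bW b) = ∑ b', MW b' b • bW b' := by
        rw [hMW]
        simp_rw [LinearMap.toMatrix_apply]
        exact (bW.sum_repr _).symm
      have h2 := congrArg (Subtype.val) h1
      rw [AddSubmonoidClass.coe_finsetSum] at h2
      exact h2
    have eC : ∀ a, X' (bC a : Fin n → K) = ∑ a', MC a' a • (bC a' : Fin n → K) := by
      intro a
      have h1 : (res X' Cc hC) (bC a) = ∑ a', MC a' a • bC a' := by
        rw [hMC]
        simp_rw [LinearMap.toMatrix_apply]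
        exact (bC.sum_repr _).symm
      have h2 := congrArg (Subtype.val) h1
      rw [AddSubmonoidClass.coe_finsetSum] at h2
      exact h2
    have key : MCᵀ * G * MW.map φ = G := by
      ext a b
      have h1 := hiso (bC a : Fin n → K) (bW b : Fin n → K)
      rw [eC, eW] at h1
      rw [hG, Matrix.of_apply, ← h1, hB_sum_left]
      simp only [Matrix.mul_apply, Matrix.transpose_apply, Matrix.of_apply, Matrix.map_apply,
        hB_sum_right, hB_smul_left, hB_smul_right, Finset.sum_mul]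
      rw [Finset.sum_comm]
      apply Finset.sum_congr rfl
      intro a' _
      apply Finset.sum_congr rfl
      intro b' _
      ring
    have hGdet : G.det ≠ 0 := by
      intro h0
      obtain ⟨v, hv, hGv⟩ := Matrix.exists_vecMul_eq_zero_iff.mpr h0
      apply hv
      obtain ⟨c, hc⟩ : ∃ c : Cc, c = ∑ a, v a • bC a := ⟨_, rfl⟩
      have hcW : ∀ b, hB φ (c : Fin n → K) (bW b : Fin n → K) = 0 := by
        intro b
        have h1 := congrFun hGv b
        rw [hc, AddSubmonoidClass.coe_finsetSum, hB_sum_left]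
        rw [Matrix.vecMul, dotProduct] at h1
        rw [Pi.zero_apply] at h1
        rw [← h1]
        apply Finset.sum_congr rfl
        intro a _
        rw [Submodule.coe_smul, hB_smul_left, hG, Matrix.of_apply]
      have hc0 : c = 0 := by
        apply Subtype.ext
        exact hleft c c.2 (hB_basis_right φ W bW c hcW)
      rw [hc] at hc0
      have hli := bC.linearIndependent
      rw [Fintype.linearIndependent_iff] at hli
      funext a
      exact hli v hc0 a
    have hdetrel : MCᵀ.det * G.det * (MW.map φ).det = G.det := by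
      rw [← Matrix.det_mul, ← Matrix.det_mul, key]
    have hMWdet : (MW.map φ).det ≠ 0 := by
      intro h0
      rw [h0, mul_zero] at hdetrel
      exact hGdet hdetrel.symm
    have hMWu : IsUnit (MW.map φ).det := isUnit_iff_ne_zero.mpr hMWdet
    have hGu : IsUnit G.det := isUnit_iff_ne_zero.mpr hGdet
    have h1 : MCᵀ = G * (MW.map φ)⁻¹ * G⁻¹ := by
      have h2 : MCᵀ * G = G * (MW.map φ)⁻¹ := by
        have h3 : MCᵀ * G * MW.map φ * (MW.map φ)⁻¹ = G * (MW.map φ)⁻¹ := by rw [key]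
        rw [Matrix.mul_assoc (MCᵀ * G), Matrix.mul_nonsing_inv _ hMWu, Matrix.mul_one] at h3
        exact h3
      rw [← h2, Matrix.mul_assoc, Matrix.mul_nonsing_inv _ hGu, Matrix.mul_one]
    have h2 : MC.charpoly = (MW.map φ)⁻¹.charpoly := by
      rw [← Matrix.charpoly_transpose, h1, Matrix.mul_assoc, Matrix.charpoly_mul_comm,
        Matrix.mul_assoc, Matrix.nonsing_inv_mul _ hGu, Matrix.mul_one]
    have h3 : (MW.map φ)⁻¹.charpoly = rstar φ MW.charpoly := by
      rw [Cfsg.Agent.Lib.Helper40.SpTI.charpoly_inv_eq (MW.map φ) (MW.map φ)⁻¹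
        (Matrix.mul_nonsing_inv _ hMWu), Matrix.charpoly_map, pstar_map]
    rw [← LinearMap.charpoly_toMatrix (res X' Cc hC) bC, ← LinearMap.charpoly_toMatrix
      (res X' W hW) bW, ← hMW, ← hMC, h2, h3]
  rw [← hstar]
  exact hdvd

theorem hasT_of_ti (φ : K →+* K) (hφ : ∀ x, φ (φ x) = x) {n : ℕ}
    (A : Matrix (Fin n) (Fin n) K) (hA : adj φ A * A = 1)
    (hs : Module.End.IsSemisimple (Matrix.toLin' A)) (W : Submodule K (Fin n → K))
    (hti : TI φ W) (hinv : W.map (Matrix.toLin' A) ≤ W) :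
    HasT φ (finrank K W) A.charpoly := by
  have hW : W ∈ Module.End.invtSubmodule (Matrix.toLin' A) := by
    rw [Module.End.mem_invtSubmodule]
    exact Submodule.map_le_iff_le_comap.mp hinv
  have hiso : ∀ u v, hB φ (Matrix.toLin' A u) (Matrix.toLin' A v) = hB φ u v := by
    intro u v
    rw [Matrix.toLin'_apply, Matrix.toLin'_apply]
    exact hB_isom φ hφ A hA u v
  have h := dvd_of_ti φ hφ (Matrix.toLin' A) hiso hs W hW hti
  rw [Matrix.charpoly_toLin'] at h
  exact ⟨_, LinearMap.charpoly_monic _, LinearMap.charpoly_natDegree _, h⟩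

/-- Block matrices on `Fin (m + m)`. -/
def blk {m : ℕ} (A B C D : Matrix (Fin m) (Fin m) K) : Matrix (Fin (m + m)) (Fin (m + m)) K :=
  (Matrix.fromBlocks A B C D).submatrix finSumFinEquiv.symm finSumFinEquiv.symm

theorem blk_mul {m : ℕ} (A B C D A' B' C' D' : Matrix (Fin m) (Fin m) K) :
    blk A B C D * blk A' B' C' D' =
      blk (A * A' + B * C') (A * B' + B * D') (C * A' + D * C') (C * B' + D * D') := by
  unfold blk
  rw [Matrix.submatrix_mul_equiv, Matrix.fromBlocks_multiply]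

theorem blk_adj (φ : K →+* K) {m : ℕ} (A B C D : Matrix (Fin m) (Fin m) K) :
    adj φ (blk A B C D) = blk (adj φ A) (adj φ C) (adj φ B) (adj φ D) := by
  unfold blk adj
  ext i j
  simp only [Matrix.transpose_apply, Matrix.map_apply, Matrix.submatrix_apply]
  generalize finSumFinEquiv.symm i = a
  generalize finSumFinEquiv.symm j = b
  rcases a with a | a <;> rcases b with b | b <;> simp

theorem blk_eq_bsum {m : ℕ} (A D : Matrix (Fin m) (Fin m) K) : blk A 0 0 D = bsum A D := rfl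

theorem J_mulVec_iota {m : ℕ} (b : Fin m → K) :
    blk (0 : Matrix (Fin m) (Fin m) K) 1 1 0 *ᵥ iota m m b =
      (Sum.elim (0 : Fin m → K) b) ∘ finSumFinEquiv.symm := by
  unfold blk
  rw [Matrix.submatrix_mulVec_equiv, iota_apply]
  congr 1
  have h1 : ((Sum.elim b (0 : Fin m → K)) ∘ finSumFinEquiv.symm) ∘
      (finSumFinEquiv (m := m) (n := m)).symm.symm = Sum.elim b (0 : Fin m → K) := by
    funext x
    simp
  rw [h1, Matrix.fromBlocks_mulVec, Sum.elim_comp_inl, Sum.elim_comp_inr]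
  simp

theorem hB_iota_J (φ : K →+* K) {m : ℕ} (a b : Fin m → K) :
    hB φ (iota m m a) (blk (0 : Matrix (Fin m) (Fin m) K) 1 1 0 *ᵥ iota m m b) = 0 := by
  rw [J_mulVec_iota]
  unfold hB
  rw [iota_apply]
  have h1 : φ ∘ (Sum.elim (0 : Fin m → K) b ∘ finSumFinEquiv.symm) =
      (Sum.elim (0 : Fin m → K) (φ ∘ b)) ∘ finSumFinEquiv.symm := by
    funext x
    simp only [Function.comp_apply]
    generalize finSumFinEquiv.symm x = y
    rcases y with (a | b) <;> simp
  rw [h1, comp_equiv_symm_dotProduct]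
  have h2 : ((Sum.elim (0 : Fin m → K) (φ ∘ b)) ∘ finSumFinEquiv.symm) ∘
      (finSumFinEquiv (m := m) (n := m)) = Sum.elim (0 : Fin m → K) (φ ∘ b) := by
    funext x
    simp
  rw [h2]
  simp

/-- **Hyperbolic model.** A semisimple unitary matrix with characteristic polynomial `D * D^*`
fixing a totally isotropic subspace of dimension `deg D`. -/
theorem hyp_model [Finite K] (φ : K →+* K) (hφ : ∀ x, φ (φ x) = x) (l : K) (hl : φ l ≠ l)
    (p : ℕ) [Fact p.Prime] [CharP K p] {m : ℕ} (D : K[X]) (hDm : D.Monic)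
    (hDd : D.natDegree = m) (hD0 : D.coeff 0 ≠ 0) :
    ∃ y : Matrix (Fin (m + m)) (Fin (m + m)) K, adj φ y * y = 1 ∧
      y.charpoly = D * rstar φ D ∧ (∃ N : ℕ, 0 < N ∧ N.Coprime p ∧ y ^ N = 1) ∧
      ∃ W : Submodule K (Fin (m + m) → K), finrank K W = m ∧ TI φ W ∧
        W.map (Matrix.toLin' y) ≤ W := by
  classical
  obtain ⟨s, hsc, N, hNpos, hNcop, hsN⟩ :=
    Cfsg.Agent.Lib.Helper40.SSCount.exists_charpoly p m D hDm hDd hD0
  obtain ⟨si, hsi⟩ : ∃ si, si = s ^ (N - 1) := ⟨_, rfl⟩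
  have hs1 : s * si = 1 := by
    rw [hsi, ← pow_succ', Nat.sub_add_cancel hNpos, hsN]
  have hs2 : si * s = 1 := mul_eq_one_comm.mp hs1
  have hsiN : si ^ N = 1 := by
    rw [hsi, ← pow_mul, mul_comm, pow_mul, hsN, one_pow]
  obtain ⟨B, hB'⟩ : ∃ B, B = adj φ si := ⟨_, rfl⟩
  obtain ⟨J, hJ⟩ : ∃ J : Matrix (Fin (m + m)) (Fin (m + m)) K, J = blk 0 1 1 0 := ⟨_, rfl⟩
  obtain ⟨M, hM⟩ : ∃ M : Matrix (Fin (m + m)) (Fin (m + m)) K, M = blk s 0 0 B := ⟨_, rfl⟩
  have hJadj : adj φ J = J := by rw [hJ, blk_adj, adj_zero, adj_one]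
  have hJJ : J * J = 1 := by
    rw [hJ, blk_mul]
    simp only [Matrix.mul_zero, Matrix.zero_mul, Matrix.mul_one, add_zero, zero_add]
    exact bsum_one
  have hMJ : adj φ M * J * M = J := by
    rw [hM, hJ, blk_adj, blk_mul, blk_mul]
    simp only [Matrix.mul_zero, Matrix.zero_mul, Matrix.mul_one, Matrix.one_mul, add_zero,
      zero_add, adj_zero]
    rw [hB', ← adj_mul, hs2, adj_one, adj_adj φ hφ, hs2]
  obtain ⟨z, hzu, hz⟩ := Cfsg.Agent.Lib.Helper40.HermDiag.herm_std φ hφ l hl J hJadj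
    (IsUnit.of_mul_eq_one J hJJ)
  obtain ⟨zi, hzi1⟩ := hzu.exists_right_inv
  have hzi2 : zi * z = 1 := mul_eq_one_comm.mp hzi1
  have hpow : ∀ k : ℕ, (z * M * zi) ^ k = z * M ^ k * zi := by
    intro k
    induction k with
    | zero => rw [pow_zero, pow_zero, mul_one, hzi1]
    | succ k ih =>
      rw [pow_succ, ih, pow_succ]
      calc z * M ^ k * zi * (z * M * zi) = z * M ^ k * (zi * z) * M * zi := by
            simp only [mul_assoc]
        _ = z * (M ^ k * M) * zi := by rw [hzi2, mul_one, mul_assoc z]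
  have hMN : M ^ N = 1 := by
    rw [hM, blk_eq_bsum, bsum_pow, hsN, hB', ← adj_pow, hsiN, adj_one, bsum_one]
  have hMc : M.charpoly = D * rstar φ D := by
    rw [hM, blk_eq_bsum, bsum_charpoly, hsc, hB', charpoly_adj,
      Cfsg.Agent.Lib.Helper40.SpTI.charpoly_inv_eq s si hs1, hsc]
    congr 1
    rw [Cfsg.Agent.Lib.Helper40.SpTI.pstar_eq, Polynomial.map_mul, Polynomial.map_C, map_inv₀]
    rfl
  have hzM : z * M * zi * z = z * M := by
    rw [mul_assoc, hzi2, mul_one]
  refine ⟨z * M * zi, ?_, ?_, ⟨N, hNpos, hNcop, ?_⟩,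
    (LinearMap.range (iota (K := K) m m)).map (Matrix.toLin' z), ?_, ?_, ?_⟩
  · rw [adj_mul, adj_mul]
    calc adj φ zi * (adj φ M * adj φ z) * (z * M * zi)
        = adj φ zi * (adj φ M * (adj φ z * z) * M) * zi := by simp only [mul_assoc]
      _ = adj φ zi * adj φ z * (z * zi) := by
          rw [hz, hMJ, ← hz]
          simp only [mul_assoc]
      _ = 1 := by rw [hzi1, mul_one, ← adj_mul, hzi1, adj_one]
  · rw [Matrix.charpoly_mul_comm, ← mul_assoc, hzi2, one_mul]
    exact hMc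
  · rw [hpow, hMN, mul_one, hzi1]
  · have hzinj : Function.Injective (Matrix.toLin' z) := by
      intro u v huv
      have h1 := congrArg (Matrix.toLin' zi) huv
      rw [Matrix.toLin'_apply, Matrix.toLin'_apply, Matrix.toLin'_apply, Matrix.toLin'_apply,
        Matrix.mulVec_mulVec, Matrix.mulVec_mulVec, hzi2, Matrix.one_mulVec,
        Matrix.one_mulVec] at h1
      exact h1
    rw [← LinearEquiv.finrank_eq (Submodule.equivMapOfInjective _ hzinj _),
      LinearMap.finrank_range_of_inj (iota_injective (K := K) m m), Module.finrank_fin_fun]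
  · intro u hu v hv
    obtain ⟨u', hu', rfl⟩ := Submodule.mem_map.mp hu
    obtain ⟨a, rfl⟩ := LinearMap.mem_range.mp hu'
    obtain ⟨v', hv', rfl⟩ := Submodule.mem_map.mp hv
    obtain ⟨b, rfl⟩ := LinearMap.mem_range.mp hv'
    rw [Matrix.toLin'_apply, Matrix.toLin'_apply, hB_mulVec φ hφ, Matrix.mulVec_mulVec, hz, hJ]
    exact hB_iota_J φ a b
  · intro w hw
    obtain ⟨w', hw', rfl⟩ := Submodule.mem_map.mp hw
    obtain ⟨u', hu', rfl⟩ := Submodule.mem_map.mp hw'
    obtain ⟨a, rfl⟩ := LinearMap.mem_range.mp hu'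
    rw [Matrix.toLin'_apply, Matrix.toLin'_apply, Matrix.mulVec_mulVec, hzM,
      ← Matrix.mulVec_mulVec, hM, blk_eq_bsum, bsum_mulVec_iota]
    exact Submodule.mem_map.mpr ⟨_, LinearMap.mem_range.mpr ⟨_, rfl⟩, Matrix.toLin'_apply _ _⟩

/-- **Model lemma.** A divisor `D` with `D * D^*` dividing the characteristic polynomial of a
unitary matrix `x` of order prime to the characteristic gives an `x`-invariant totally isotropic
subspace of dimension `deg D`. -/
theorem exists_ti_of_hasT [Fintype K] (φ : K →+* K) (hφ : ∀ x, φ (φ x) = x) (l : K)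
    (hl : φ l ≠ l) (p : ℕ) [Fact p.Prime] [CharP K p] {n : ℕ}
    (x : Matrix (Fin n) (Fin n) K) (hx : adj φ x * x = 1) (N : ℕ) (hN : (N : K) ≠ 0)
    (hxN : x ^ N = 1) (m : ℕ) (h : HasT φ m x.charpoly) :
    ∃ W : Submodule K (Fin n → K), finrank K W = m ∧ TI φ W ∧ W.map (Matrix.toLin' x) ≤ W := by
  classical
  obtain ⟨D, hDm, hDd, hdvd⟩ := h
  have hpp : p.Prime := Fact.out
  have hxd : x.charpoly.natDegree = n := by
    rw [Matrix.charpoly_natDegree_eq_dim, Fintype.card_fin]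
  have hx0 := charpoly_coeff_zero_ne φ x hx
  have hD0 : D.coeff 0 ≠ 0 := coeff0_of_dvd ((Dvd.intro _ rfl).trans hdvd) hx0
  have hDsm : (rstar φ D).Monic := rstar_monic φ D hD0
  have hDsd : (rstar φ D).natDegree = m := by rw [rstar_natDegree φ D hD0, hDd]
  obtain ⟨χ₀, hχ₀⟩ := hdvd
  have hDDm : (D * rstar φ D).Monic := hDm.mul hDsm
  have hχm : χ₀.Monic := Monic.of_mul_monic_left hDDm (hχ₀ ▸ Matrix.charpoly_monic x)
  have hdeg : n = m + m + χ₀.natDegree := by
    rw [← hxd, hχ₀, hDDm.natDegree_mul hχm, hDm.natDegree_mul hDsm, hDd, hDsd]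
  obtain ⟨k, rfl⟩ : ∃ k, n = m + m + k := ⟨n - (m + m), by omega⟩
  have hχd : χ₀.natDegree = k := by omega
  have hχ0 : χ₀.coeff 0 ≠ 0 := coeff0_of_dvd ⟨D * rstar φ D, by rw [hχ₀, mul_comm]⟩ hx0
  have hχr : rstar φ χ₀ = χ₀ := by
    have h1 := rstar_charpoly_of_unitary φ hφ x hx
    rw [hχ₀, rstar_mul, rstar_mul, rstar_star φ hφ D hDm hD0, mul_comm (rstar φ D) D] at h1
    exact mul_left_cancel₀ hDDm.ne_zero h1
  obtain ⟨y₁, hy₁u, hy₁c, ⟨N₁, hN₁pos, hN₁cop, hy₁N⟩, W₁, hW₁d, hW₁ti, hW₁inv⟩ :=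
    hyp_model φ hφ l hl p D hDm hDd hD0
  obtain ⟨y₀, hy₀u, hy₀c, N₂, hN₂pos, hN₂cop, hy₀N⟩ :=
    exists_gu_charpoly φ hφ l hl p χ₀ hχm hχd hχ0 hχr
  obtain ⟨y, hy⟩ : ∃ y, y = bsum y₁ y₀ := ⟨_, rfl⟩
  have hyu : adj φ y * y = 1 := by rw [hy, bsum_adj, bsum_mul, hy₁u, hy₀u, bsum_one]
  have hyc : y.charpoly = x.charpoly := by rw [hy, bsum_charpoly, hy₁c, hy₀c, hχ₀]
  obtain ⟨M, hM⟩ : ∃ M, M = N * (N₁ * N₂) := ⟨_, rfl⟩
  have hMF : (M : K) ≠ 0 := by
    rw [hM, Nat.cast_mul, Nat.cast_mul]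
    exact mul_ne_zero hN (mul_ne_zero (cast_ne_zero_of_coprime p N₁ hN₁cop)
      (cast_ne_zero_of_coprime p N₂ hN₂cop))
  have hxM : x ^ M = 1 := by rw [hM, pow_mul, hxN, one_pow]
  have hyM : y ^ M = 1 := by
    rw [hM, mul_comm, pow_mul, hy, bsum_pow, pow_mul, hy₁N, one_pow, mul_comm, pow_mul, hy₀N,
      one_pow, bsum_one, one_pow]
  obtain ⟨P, Q, hPQ, hQP, hPA⟩ := Cfsg.Agent.Lib.Helper40.SSConj.matrix_conj y x M hMF hyM hxM
    hyc
  obtain ⟨G, hGu, hGA⟩ := Cfsg.Agent.Lib.Helper40.SURegUnip.unitary_conj_of_conj φ hφ l hl y x P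
    hyu hx (IsUnit.of_mul_eq_one Q hPQ) hPA
  have hGiso : ∀ u v, hB φ (Matrix.toLin' G u) (Matrix.toLin' G v) = hB φ u v := by
    intro u v
    rw [Matrix.toLin'_apply, Matrix.toLin'_apply]
    exact hB_isom φ hφ G hGu u v
  have hGinj : Function.Injective (Matrix.toLin' G) :=
    iso_injective φ (Matrix.toLin' G) hφ hGiso
  refine ⟨(W₁.map (iota (K := K) (m + m) k)).map (Matrix.toLin' G), ?_, ?_, ?_⟩
  · rw [← LinearEquiv.finrank_eq (Submodule.equivMapOfInjective _ hGinj _),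
      ← LinearEquiv.finrank_eq (Submodule.equivMapOfInjective _
        (iota_injective (K := K) (m + m) k) _), hW₁d]
  · intro u hu v hv
    obtain ⟨u', hu', rfl⟩ := Submodule.mem_map.mp hu
    obtain ⟨a, ha, rfl⟩ := Submodule.mem_map.mp hu'
    obtain ⟨v', hv', rfl⟩ := Submodule.mem_map.mp hv
    obtain ⟨b, hb, rfl⟩ := Submodule.mem_map.mp hv'
    rw [hGiso, hB_iota]
    exact hW₁ti a ha b hb
  · intro w hw
    obtain ⟨w', hw', rfl⟩ := Submodule.mem_map.mp hw
    obtain ⟨u', hu', rfl⟩ := Submodule.mem_map.mp hw'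
    obtain ⟨a, ha, rfl⟩ := Submodule.mem_map.mp hu'
    rw [Matrix.toLin'_apply, Matrix.toLin'_apply, Matrix.mulVec_mulVec, ← hGA,
      ← Matrix.mulVec_mulVec, hy, bsum_mulVec_iota]
    refine Submodule.mem_map.mpr ⟨_, Submodule.mem_map.mpr ⟨y₁ *ᵥ a, ?_, rfl⟩,
      Matrix.toLin'_apply _ _⟩
    have h1 := hW₁inv (Submodule.mem_map.mpr ⟨a, ha, rfl⟩)
    rwa [Matrix.toLin'_apply] at h1

/-- The criterion: a unitary matrix of order prime to the characteristic fixes a totally
isotropic `m`-space iff its characteristic polynomial is divisible by `D * D^*` for some monic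
`D` of degree `m`. -/
theorem ti_iff [Fintype K] (φ : K →+* K) (hφ : ∀ x, φ (φ x) = x) (l : K)
    (hl : φ l ≠ l) (p : ℕ) [Fact p.Prime] [CharP K p] {n : ℕ}
    (x : Matrix (Fin n) (Fin n) K) (hx : adj φ x * x = 1) (N : ℕ) (hN : (N : K) ≠ 0)
    (hxN : x ^ N = 1) (m : ℕ) :
    (∃ W : Submodule K (Fin n → K), finrank K W = m ∧ TI φ W ∧ W.map (Matrix.toLin' x) ≤ W) ↔
      HasT φ m x.charpoly := by
  constructor
  · rintro ⟨W, hW1, hW2, hW3⟩
    rw [← hW1]
    exact hasT_of_ti φ hφ x hx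
      (Cfsg.Agent.Lib.Helper40.SSConj.isSemisimple_toLin' x N hN hxN) W hW2 hW3
  · exact exists_ti_of_hasT φ hφ l hl p x hx N hN hxN m

end ti

end Cfsg.Agent.Lib.Helper40.TGeo
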