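import Mathlib
import Cfsg.Agent.Lib.Helper40.HCount
import Cfsg.Agent.Lib.Helper40.TGeo
import Cfsg.Agent.Lib.Helper40.SubspCount
import Cfsg.Agent.Lib.Helper40.HSemi2

set_option autoImplicit false

namespace Cfsg.Agent.Lib.Helper40.TCount

open Module Matrix Cfsg.Agent.Lib.Helper40.UnitDet Cfsg.Agent.Lib.Helper40.HermAdj
  Cfsg.Agent.Lib.Helper40.HGeo Cfsg.Agent.Lib.Helper40.HCount Cfsg.Agent.Lib.Helper40.TGeo
  Cfsg.Agent.Lib.Helper40.SubspCount Cfsg.Agent.Lib.Helper5.HermCount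
  Cfsg.Agent.Lib.Helper40.SURegUnip

universe u

/-- Totally isotropic frames. -/
abbrev TF {K : Type u} [Field K] (φ : K →+* K) (n m : ℕ) : Type _ :=
  {s : Fin m → Fin n → K // LinearIndependent K s ∧ ∀ a b, hB φ (s a) (s b) = 0}

section
variable {K : Type u} [Field K] (φ : K →+* K) {n : ℕ}

theorem finrank_perp (hφ : ∀ x, φ (φ x) = x) (W : Submodule K (Fin n → K)) :
    finrank K (perp φ W) + finrank K W = n := by
  classical
  obtain ⟨k, hk⟩ : ∃ k, k = finrank K W := ⟨_, rfl⟩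
  let bW : Basis (Fin k) K W := Module.finBasisOfFinrankEq K W hk.symm
  obtain ⟨M, hM⟩ : ∃ M : Matrix (Fin k) (Fin n) K,
      M = Matrix.of (fun a i => φ ((bW a : Fin n → K) i)) := ⟨_, rfl⟩
  have hrow : ∀ (y : Fin n → K) (a : Fin k), (M *ᵥ y) a = hB φ y (bW a : Fin n → K) := by
    intro y a
    rw [hM]
    unfold hB
    simp only [Matrix.mulVec, dotProduct, Matrix.of_apply, Function.comp_apply]
    apply Finset.sum_congr rfl
    intro i _
    ring
  have hker : perp φ W = LinearMap.ker M.mulVecLin := by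
    ext y
    rw [mem_perp, LinearMap.mem_ker, Matrix.mulVecLin_apply]
    constructor
    · intro h
      funext a
      rw [hrow y a, Pi.zero_apply]
      exact (hB_eq_zero_comm φ hφ _ _).mp (h _ (bW a).2)
    · intro h x hx
      apply (hB_eq_zero_comm φ hφ _ _).mp
      apply hB_basis_right φ W bW y _ x hx
      intro a
      rw [← hrow y a, h, Pi.zero_apply]
  have hli : LinearIndependent K (fun a => M a) := by
    rw [Fintype.linearIndependent_iff]
    intro g hg a
    have h1 : ∑ a, φ (g a) • bW a = 0 := by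
      apply Subtype.ext
      rw [AddSubmonoidClass.coe_finsetSum, ZeroMemClass.coe_zero]
      funext i
      have h2 := congrFun hg i
      rw [Finset.sum_apply] at h2 ⊢
      have h3 := congrArg φ h2
      rw [map_sum, Pi.zero_apply, map_zero] at h3
      rw [Pi.zero_apply, ← h3]
      apply Finset.sum_congr rfl
      intro a _
      simp only [Submodule.coe_smul, Pi.smul_apply, smul_eq_mul, map_mul, hM, Matrix.of_apply, hφ]
    have h4 := (Fintype.linearIndependent_iff.mp bW.linearIndependent) (fun a => φ (g a)) h1 a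
    have h5 := congrArg φ h4
    rwa [hφ, map_zero] at h5
  have hrank : M.rank = k := by
    rw [Matrix.rank_eq_finrank_span_row]
    have h1 := finrank_span_eq_card hli
    rw [Fintype.card_fin] at h1
    exact h1
  have h1 := LinearMap.finrank_range_add_finrank_ker M.mulVecLin
  rw [Module.finrank_fin_fun] at h1
  rw [hker, ← hk]
  have h2 : finrank K (LinearMap.range M.mulVecLin) = k := hrank
  omega

theorem perp_perp (hφ : ∀ x, φ (φ x) = x) (W : Submodule K (Fin n → K)) :
    perp φ (perp φ W) = W := by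
  symm
  apply Submodule.eq_of_le_of_finrank_eq
  · intro w hw
    rw [mem_perp]
    intro y hy
    exact (hB_eq_zero_comm φ hφ _ _).mp ((mem_perp φ W y).mp hy w hw)
  · have h1 := finrank_perp φ hφ W
    have h2 := finrank_perp φ hφ (perp φ W)
    omega

theorem span_ti {ι : Type*} [Fintype ι] (s : ι → Fin n → K)
    (h : ∀ a b, hB φ (s a) (s b) = 0) : TI φ (Submodule.span K (Set.range s)) := by
  intro u hu v hv
  obtain ⟨c, rfl⟩ := (Submodule.mem_span_range_iff_exists_fun K).mp hu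
  obtain ⟨d, rfl⟩ := (Submodule.mem_span_range_iff_exists_fun K).mp hv
  rw [hB_sum_left]
  apply Finset.sum_eq_zero
  intro a _
  rw [hB_sum_right]
  apply Finset.sum_eq_zero
  intro b _
  rw [hB_smul_left, hB_smul_right, h a b, mul_zero, mul_zero]

/-- The number of isotropic vectors of a nondegenerate subspace. -/
theorem card_iso_nd [Fintype K] {q : ℕ}
    (hφq : ∀ x, φ x = x ^ q) (hφ : ∀ x, φ (φ x) = x) (l : K) (hl : φ l ≠ l)
    (U : Submodule K (Fin n → K)) (hU : ND φ U) :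
    Nat.card {v : Fin n → K // v ∈ U ∧ hB φ v v = 0} = A q (finrank K U) (0 : K) := by
  classical
  obtain ⟨b, hbU, hb⟩ := exists_onb φ hφ l hl U hU
  have hspan := on_span φ b hb U hbU rfl
  have e : {c : Fin (finrank K U) → K // Cfsg.hermForm (finrank K U) K q c c = 0} ≃
      {v : Fin n → K // v ∈ U ∧ hB φ v v = 0} :=
    { toFun := fun c => ⟨∑ i, c.1 i • b i,
        Submodule.sum_mem _ (fun i _ => Submodule.smul_mem _ _ (hbU i)), by
          rw [on_norm φ b hb, ← herm_hB φ hφq]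
          exact c.2⟩
      invFun := fun v => ⟨fun i => hB φ v.1 (b i), by
          have h1 := on_expand φ b hb v.1 (by rw [hspan]; exact v.2.1)
          have h2 : hB φ (∑ i, hB φ v.1 (b i) • b i) (∑ i, hB φ v.1 (b i) • b i) = 0 := by
            rw [← h1]
            exact v.2.2
          rw [on_norm φ b hb] at h2
          rw [herm_hB φ hφq]
          exact h2⟩
      left_inv := fun c => by
        apply Subtype.ext
        funext j
        exact on_coeff φ b hb c.1 j
      right_inv := fun v => by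
        apply Subtype.ext
        exact (on_expand φ b hb v.1 (by rw [hspan]; exact v.2.1)).symm }
  rw [← Nat.card_congr e]
  rfl

/-- A frame of length `m + 1` is a frame of length `m` and a vector. -/
noncomputable def stepEquiv (hφ : ∀ x, φ (φ x) = x) (m : ℕ) :
    TF φ n (m + 1) ≃ {t : TF φ n m × (Fin n → K) // (∀ a, hB φ (t.1.1 a) t.2 = 0) ∧
      hB φ t.2 t.2 = 0 ∧ t.2 ∉ Submodule.span K (Set.range t.1.1)} where
  toFun s := ⟨(⟨Fin.init s.1,
      (linearIndependent_finSnoc.mp (by rw [Fin.snoc_init_self]; exact s.2.1)).1,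
      fun a b => s.2.2 _ _⟩, s.1 (Fin.last m)),
    fun a => s.2.2 _ _, s.2.2 _ _,
    (linearIndependent_finSnoc.mp (by rw [Fin.snoc_init_self]; exact s.2.1)).2⟩
  invFun t := ⟨(Fin.snoc t.1.1.1 t.1.2 : Fin (m + 1) → Fin n → K),
    linearIndependent_finSnoc.mpr ⟨t.1.1.2.1, t.2.2.2⟩, by
    intro a b
    induction a using Fin.lastCases with
    | last =>
      induction b using Fin.lastCases with
      | last =>
        rw [Fin.snoc_last]
        exact t.2.2.1
      | cast b =>
        rw [Fin.snoc_last, Fin.snoc_castSucc]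
        exact (hB_eq_zero_comm φ hφ _ _).mp (t.2.1 b)
    | cast a =>
      induction b using Fin.lastCases with
      | last =>
        rw [Fin.snoc_last, Fin.snoc_castSucc]
        exact t.2.1 a
      | cast b =>
        rw [Fin.snoc_castSucc, Fin.snoc_castSucc]
        exact t.1.1.2.2 a b⟩
  left_inv s := by
    apply Subtype.ext
    exact Fin.snoc_init_self s.1
  right_inv t := by
    apply Subtype.ext
    apply Prod.ext
    · apply Subtype.ext
      exact Fin.init_snoc (α := fun _ => Fin n → K) t.1.2 t.1.1.1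
    · exact Fin.snoc_last (α := fun _ => Fin n → K) t.1.2 t.1.1.1

theorem card_fiber [Fintype K] {q : ℕ} (hK : Fintype.card K = q ^ 2)
    (hφq : ∀ x, φ x = x ^ q) (hφ : ∀ x, φ (φ x) = x) (l : K) (hl : φ l ≠ l) (m : ℕ)
    (s : TF φ n m) :
    Nat.card {v : Fin n → K // (∀ a, hB φ (s.1 a) v = 0) ∧ hB φ v v = 0 ∧
      v ∉ Submodule.span K (Set.range s.1)} =
      q ^ (2 * m) * (A q (n - 2 * m) (0 : K) - 1) := by
  classical
  obtain ⟨W, hW⟩ : ∃ W, W = Submodule.span K (Set.range s.1) := ⟨_, rfl⟩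
  have hWd : finrank K W = m := by
    rw [hW, finrank_span_eq_card s.2.1, Fintype.card_fin]
  have hWti : TI φ W := by
    rw [hW]
    exact span_ti φ s.1 s.2.2
  have hWP : W ≤ perp φ W := fun u hu => (mem_perp φ W u).mpr (fun w hw => hWti w hw u hu)
  have hPd := finrank_perp φ hφ W
  obtain ⟨Q, hQ⟩ := Submodule.exists_isCompl W
  obtain ⟨U, hU⟩ : ∃ U, U = Q ⊓ perp φ W := ⟨_, rfl⟩
  have hWU : W ⊓ U = ⊥ := by
    apply le_antisymm _ bot_le
    rw [← hQ.inf_eq_bot, hU]
    exact inf_le_inf_left _ inf_le_left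
  have hsup : W ⊔ U = perp φ W := by
    rw [hU, ← sup_inf_assoc_of_le Q hWP, hQ.sup_eq_top, top_inf_eq]
  have hUP : U ≤ perp φ W := by
    rw [hU]
    exact inf_le_right
  have hUd : finrank K U = n - 2 * m := by
    have h1 := Submodule.finrank_sup_add_finrank_inf_eq W U
    rw [hsup, hWU, finrank_bot] at h1
    omega
  have hUnd : ND φ U := by
    intro u hu hu0
    by_contra hcon
    push Not at hcon
    apply hu0
    have h1 : u ∈ perp φ (perp φ W) := by
      rw [mem_perp]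
      intro x hx
      rw [← hsup] at hx
      obtain ⟨w, hw, u', hu', rfl⟩ := Submodule.mem_sup.mp hx
      rw [hB_add_left, (mem_perp φ W u).mp (hUP hu) w hw, zero_add]
      exact (hB_eq_zero_comm φ hφ _ _).mp (hcon u' hu')
    rw [perp_perp φ hφ] at h1
    have h2 : u ∈ W ⊓ U := Submodule.mem_inf.mpr ⟨h1, hu⟩
    rw [hWU] at h2
    exact (Submodule.mem_bot K).mp h2
  have hnorm : ∀ w ∈ W, ∀ u ∈ perp φ W, hB φ (w + u) (w + u) = hB φ u u := by
    intro w hw u hu
    have h1 : hB φ w u = 0 := (mem_perp φ W u).mp hu w hw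
    have h2 : hB φ u w = 0 := (hB_eq_zero_comm φ hφ _ _).mp h1
    rw [hB_add_left, hB_add_right, hB_add_right, hWti w hw w hw, h1, h2]
    ring
  have hmemP : ∀ v : Fin n → K, (∀ a, hB φ (s.1 a) v = 0) ↔ v ∈ perp φ W := by
    intro v
    rw [hW, mem_perp_span_iff]
  let f : W × {u : Fin n → K // u ∈ U ∧ hB φ u u = 0 ∧ u ≠ 0} →
      {v : Fin n → K // (∀ a, hB φ (s.1 a) v = 0) ∧ hB φ v v = 0 ∧
        v ∉ Submodule.span K (Set.range s.1)} :=
    fun t => ⟨(t.1 : Fin n → K) + t.2.1, by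
      refine ⟨?_, ?_, ?_⟩
      · rw [hmemP]
        exact Submodule.add_mem _ (hWP t.1.2) (hUP t.2.2.1)
      · rw [hnorm _ t.1.2 _ (hUP t.2.2.1)]
        exact t.2.2.2.1
      · rw [← hW]
        intro h
        have h1 : t.2.1 ∈ W := by
          have h0 := W.sub_mem h t.1.2
          rwa [add_sub_cancel_left] at h0
        have h2 : t.2.1 ∈ W ⊓ U := Submodule.mem_inf.mpr ⟨h1, t.2.2.1⟩
        rw [hWU] at h2
        exact t.2.2.2.2 ((Submodule.mem_bot K).mp h2)⟩
  have hf : Function.Bijective f := by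
    constructor
    · rintro ⟨w, u⟩ ⟨w', u'⟩ h
      have h1 : (w : Fin n → K) + u.1 = w' + u'.1 := congrArg Subtype.val h
      have h2 : (w : Fin n → K) - w' = u'.1 - u.1 := by
        rw [sub_eq_sub_iff_add_eq_add, h1, add_comm]
      have h3 : (w : Fin n → K) - w' ∈ W ⊓ U :=
        Submodule.mem_inf.mpr ⟨W.sub_mem w.2 w'.2, by rw [h2]; exact U.sub_mem u'.2.1 u.2.1⟩
      rw [hWU, Submodule.mem_bot, sub_eq_zero] at h3
      have h4 : u.1 = u'.1 := by
        rw [h3] at h1
        exact add_left_cancel h1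
      exact Prod.ext (Subtype.ext h3) (Subtype.ext h4)
    · rintro ⟨v, hv1, hv2, hv3⟩
      have hvP : v ∈ perp φ W := (hmemP v).mp hv1
      rw [← hsup] at hvP
      obtain ⟨w, hw, u, hu, rfl⟩ := Submodule.mem_sup.mp hvP
      refine ⟨(⟨w, hw⟩, ⟨u, hu, ?_, ?_⟩), rfl⟩
      · rw [hnorm w hw u (hUP hu)] at hv2
        exact hv2
      · rintro rfl
        rw [add_zero, ← hW] at hv3
        exact hv3 hw
  rw [← Nat.card_congr (Equiv.ofBijective f hf), Nat.card_prod]
  congr 1
  · rw [Module.natCard_eq_pow_finrank (K := K), hWd, Nat.card_eq_fintype_card, hK, ← pow_mul]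
  · have h1 := card_iso_nd φ hφq hφ l hl U hUnd
    rw [hUd] at h1
    rw [← h1]
    have hset : {u : Fin n → K | u ∈ U ∧ hB φ u u = 0 ∧ u ≠ 0} =
        {u : Fin n → K | u ∈ U ∧ hB φ u u = 0} \ {0} := by
      ext u
      simp only [Set.mem_setOf_eq, Set.mem_diff, Set.mem_singleton_iff]
      tauto
    show Nat.card ↥{u : Fin n → K | u ∈ U ∧ hB φ u u = 0 ∧ u ≠ 0} =
      Nat.card ↥{u : Fin n → K | u ∈ U ∧ hB φ u u = 0} - 1
    rw [hset, Nat.card_coe_set_eq, Nat.card_coe_set_eq, Set.ncard_diff_singleton_of_mem]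
    exact ⟨U.zero_mem, hB_zero_left φ 0⟩

theorem card_frames [Fintype K] {q : ℕ} (hK : Fintype.card K = q ^ 2)
    (hφq : ∀ x, φ x = x ^ q) (hφ : ∀ x, φ (φ x) = x) (l : K) (hl : φ l ≠ l) :
    ∀ m : ℕ, Nat.card (TF φ n m) =
      ∏ j ∈ Finset.range m, (q ^ (2 * j) * (A q (n - 2 * j) (0 : K) - 1)) := by
  classical
  intro m
  induction m with
  | zero =>
    rw [Finset.prod_range_zero]
    have : Unique (TF φ n 0) :=
      { default := ⟨fun a => a.elim0, linearIndependent_empty_type, fun a => a.elim0⟩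
        uniq := fun s => Subtype.ext (funext fun a => a.elim0) }
    exact Nat.card_unique
  | succ m ih =>
    have : Finite (TF φ n m) := by
      unfold TF
      infer_instance
    have : Fintype (TF φ n m) := Fintype.ofFinite _
    rw [Nat.card_congr ((stepEquiv φ hφ m).trans (Equiv.subtypeProdEquivSigmaSubtype
      (fun (s : TF φ n m) (v : Fin n → K) => (∀ a, hB φ (s.1 a) v = 0) ∧ hB φ v v = 0 ∧
        v ∉ Submodule.span K (Set.range s.1)))), Nat.card_sigma,
      Finset.sum_congr rfl (fun s _ => card_fiber φ hK hφq hφ l hl m s), Finset.sum_const,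
      Finset.card_univ, smul_eq_mul, ← Nat.card_eq_fintype_card, ih, Finset.prod_range_succ]

/-- The frames spanning a given totally isotropic subspace. -/
noncomputable def frameFiberEquiv (m : ℕ) (W : Submodule K (Fin n → K))
    (hti : TI φ W) :
    {s : TF φ n m // Submodule.span K (Set.range s.1) = W} ≃
    {s : {s : Fin m → Fin n → K // LinearIndependent K s} //
      Submodule.span K (Set.range s.1) = W} where
  toFun s := ⟨⟨s.1.1, s.1.2.1⟩, s.2⟩
  invFun s := ⟨⟨s.1.1, s.1.2, fun a b => hti _ (by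
    have h := Submodule.subset_span (R := K) (Set.mem_range_self (f := s.1.1) a)
    rw [s.2] at h
    exact h) _ (by
    have h := Submodule.subset_span (R := K) (Set.mem_range_self (f := s.1.1) b)
    rw [s.2] at h
    exact h)⟩, s.2⟩
  left_inv s := rfl
  right_inv s := rfl

theorem card_ti_mul [Fintype K] {q : ℕ} (hK : Fintype.card K = q ^ 2)
    (hφq : ∀ x, φ x = x ^ q) (hφ : ∀ x, φ (φ x) = x) (l : K) (hl : φ l ≠ l) (m : ℕ) :
    Nat.card {W : Submodule K (Fin n → K) // finrank K W = m ∧ TI φ W} *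
      ∏ i : Fin m, (Fintype.card K ^ m - Fintype.card K ^ (i : ℕ)) =
    ∏ j ∈ Finset.range m, (q ^ (2 * j) * (A q (n - 2 * j) (0 : K) - 1)) := by
  classical
  rw [← card_frames φ hK hφq hφ l hl m]
  let f : TF φ n m → {W : Submodule K (Fin n → K) // finrank K W = m ∧ TI φ W} :=
    fun s => ⟨Submodule.span K (Set.range s.1),
      by rw [finrank_span_eq_card s.2.1, Fintype.card_fin], span_ti φ s.1 s.2.2⟩
  rw [← Nat.card_congr (Equiv.sigmaFiberEquiv f)]
  have : Fintype {W : Submodule K (Fin n → K) // finrank K W = m ∧ TI φ W} :=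
    Fintype.ofFinite _
  rw [Nat.card_sigma]
  have h : ∀ W : {W : Submodule K (Fin n → K) // finrank K W = m ∧ TI φ W},
      Nat.card {s // f s = W} =
      ∏ i : Fin m, (Fintype.card K ^ m - Fintype.card K ^ (i : ℕ)) := by
    intro W
    have e : {s // f s = W} ≃ {s : TF φ n m // Submodule.span K (Set.range s.1) = W.1} :=
      Equiv.subtypeEquivRight (fun s => Subtype.ext_iff)
    rw [Nat.card_congr ((e.trans (frameFiberEquiv φ m W.1 W.2.2)).trans
      (fiberEquiv m W.1 W.2.1)), card_linearIndependent (le_of_eq W.2.1.symm), W.2.1]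
  rw [Finset.sum_congr rfl (fun W _ => h W), Finset.sum_const, Finset.card_univ, smul_eq_mul,
    Nat.card_eq_fintype_card]

end

section final
variable {K : Type u} [Field K] [Fintype K]

/-- A prime dividing the number of totally isotropic `m`-spaces of the standard Hermitian space
divides the number of nonzero isotropic vectors of a nondegenerate space of dimension
`n - 2j`, for some `j < m`. -/
theorem exists_dvd_of_dvd_card_ti {q : ℕ} (hK : Fintype.card K = q ^ 2) (n m r : ℕ)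
    (hr : r.Prime)
    (h : r ∣ Nat.card {W : Submodule K (Fin n → K) // finrank K W = m ∧
      ∀ u ∈ W, ∀ v ∈ W, Cfsg.hermForm n K q u v = 0}) :
    ∃ j < m, r ∣ A q (n - 2 * j) (0 : K) - 1 := by
  obtain ⟨φ, hφq, hφ, l, hl⟩ := exists_phi hK
  have e : Nat.card {W : Submodule K (Fin n → K) // finrank K W = m ∧ TI φ W} =
      Nat.card {W : Submodule K (Fin n → K) // finrank K W = m ∧
        ∀ u ∈ W, ∀ v ∈ W, Cfsg.hermForm n K q u v = 0} := by
    apply Nat.card_congr
    apply Equiv.subtypeEquivRight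
    intro W
    unfold TI
    simp only [herm_hB φ hφq]
  rw [← e] at h
  have h1 := card_ti_mul φ hK hφq hφ l hl (n := n) m
  rw [hK, prod_pow_sub (q ^ 2) m m le_rfl, Finset.prod_mul_distrib] at h1
  have h2 : ∏ i ∈ Finset.range m, (q ^ 2) ^ i = ∏ j ∈ Finset.range m, q ^ (2 * j) :=
    Finset.prod_congr rfl (fun i _ => (pow_mul q 2 i).symm)
  rw [h2] at h1
  have hq := two_le_q hK
  have hpos : 0 < ∏ j ∈ Finset.range m, q ^ (2 * j) :=
    Finset.prod_pos (fun i _ => pow_pos (by omega) _)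
  have h3 : Nat.card {W : Submodule K (Fin n → K) // finrank K W = m ∧ TI φ W} *
      bfun (q ^ 2) m m = ∏ j ∈ Finset.range m, (A q (n - 2 * j) (0 : K) - 1) := by
    apply Nat.eq_of_mul_eq_mul_left hpos
    rw [← h1]
    ring
  have h4 : r ∣ ∏ j ∈ Finset.range m, (A q (n - 2 * j) (0 : K) - 1) := by
    rw [← h3]
    exact Dvd.dvd.mul_right h _
  obtain ⟨j, hj, hd⟩ := (Prime.dvd_finsetProd_iff hr.prime _).mp h4
  exact ⟨j, Finset.mem_range.mp hj, hd⟩

theorem A_pos (q k : ℕ) : 1 ≤ A q k (0 : K) := by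
  unfold A
  have : Nonempty {v : Fin k → K // ∑ i, v i * v i ^ q = 0} := ⟨⟨0, by simp⟩⟩
  exact Nat.card_pos

theorem iz_not_dvd {q : ℕ} (hK : Fintype.card K = q ^ 2) (k : ℕ) (hk : 2 ≤ k) (r : ℕ)
    (hr : r.Prime) (hrq : r ∣ q) : ¬ r ∣ A q k (0 : K) - 1 := by
  have hq := two_le_q hK
  obtain ⟨k', rfl⟩ : ∃ k', k = k' + 2 := ⟨k - 2, by omega⟩
  have hmain := (main hK (k' + 2)).1
  have hApos := A_pos (K := K) q (k' + 2)
  have hq0 : (q : ℤ) ≠ 0 := by exact_mod_cast (by omega : q ≠ 0)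
  have h1 : (A q (k' + 2) (0 : K) : ℤ) = q * (q ^ (2 * k' + 2) +
      (-1) ^ (k' + 2) * q ^ (k' + 1) - (-1) ^ (k' + 2) * q ^ k') := by
    apply mul_left_cancel₀ hq0
    rw [hmain]
    ring
  have h2 : (q : ℤ) ∣ (A q (k' + 2) (0 : K) : ℤ) := ⟨_, h1⟩
  have h3 : q ∣ A q (k' + 2) (0 : K) := Int.natCast_dvd_natCast.mp h2
  intro h
  have h4 : r ∣ A q (k' + 2) (0 : K) := hrq.trans h3
  have h5 : r ∣ A q (k' + 2) (0 : K) - (A q (k' + 2) (0 : K) - 1) := Nat.dvd_sub h4 h
  have h6 : A q (k' + 2) (0 : K) - (A q (k' + 2) (0 : K) - 1) = 1 := by omega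
  rw [h6] at h5
  exact hr.one_lt.ne' (Nat.dvd_one.mp h5)

theorem iz_pow {q : ℕ} (hK : Fintype.card K = q ^ 2) (k : ℕ) (hk : 1 ≤ k) (r : ℕ)
    [Fact r.Prime] (hrq : ¬ r ∣ q) (h : r ∣ A q k (0 : K) - 1) :
    (q : ZMod r) ^ k = (-1) ^ k ∨ (q : ZMod r) ^ (k - 1) = (-1) ^ (k - 1) := by
  obtain ⟨k', rfl⟩ : ∃ k', k = k' + 1 := ⟨k - 1, by omega⟩
  have hmain := (main hK (k' + 1)).1
  have hApos := A_pos (K := K) q (k' + 1)
  have hA1 : ((A q (k' + 1) (0 : K) : ℕ) : ZMod r) = 1 := by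
    have h1 : (((A q (k' + 1) (0 : K) - 1 : ℕ)) : ZMod r) = 0 :=
      (ZMod.natCast_eq_zero_iff _ _).mpr h
    rw [Nat.cast_sub hApos, Nat.cast_one, sub_eq_zero] at h1
    exact h1
  have hx0 : (q : ZMod r) ≠ 0 := by
    rw [Ne, ZMod.natCast_eq_zero_iff]
    exact hrq
  have h2 := congrArg (Int.cast : ℤ → ZMod r) hmain
  push_cast at h2
  rw [hA1] at h2
  have hε : ((-1 : ZMod r) ^ (k' + 1)) ^ 2 = 1 := by
    rw [← pow_mul, mul_comm, pow_mul, neg_one_sq, one_pow]
  have h3 : ((q : ZMod r) ^ (k' + 1) - (-1) ^ (k' + 1)) * ((q : ZMod r) ^ k' - (-1) ^ k') *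
      (q : ZMod r) = 0 := by
    have e1 : (-1 : ZMod r) ^ k' = -(-1) ^ (k' + 1) := by
      rw [pow_succ]
      ring
    rw [e1]
    linear_combination -h2 - (q : ZMod r) * hε
  rcases mul_eq_zero.mp h3 with h4 | h4
  · rcases mul_eq_zero.mp h4 with h5 | h5
    · left
      exact sub_eq_zero.mp h5
    · right
      rw [Nat.add_sub_cancel]
      exact sub_eq_zero.mp h5
  · exact absurd h4 hx0

omit [Fintype K] in
theorem acnt_of_pow_eq (q r k : ℕ) [Fact r.Prime] (hq : 1 ≤ q)
    (h : (q : ZMod r) ^ k = (-1) ^ k) : r ∣ Acnt q k := by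
  unfold Acnt
  by_cases hk : Even k
  · rw [if_pos hk]
    rw [hk.neg_one_pow] at h
    apply Dvd.dvd.mul_left
    rw [← ZMod.natCast_eq_zero_iff, Nat.cast_sub (Nat.one_le_pow _ _ hq), Nat.cast_pow,
      Nat.cast_one, h, sub_self]
  · rw [if_neg hk]
    rw [(Nat.not_even_iff_odd.mp hk).neg_one_pow] at h
    apply Dvd.dvd.mul_left
    rw [← ZMod.natCast_eq_zero_iff, Nat.cast_add, Nat.cast_pow, Nat.cast_one, h]
    ring

/-- Consequences of the counting hypothesis for an odd prime `r` not dividing `q`. -/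
theorem c_facts {q : ℕ} (hK : Fintype.card K = q ^ 2) (n m : ℕ) (hmn : 2 * m ≤ n) (r : ℕ)
    [Fact r.Prime] (hr2 : r ≠ 2) (hrq : ¬ r ∣ q) (j : ℕ) (hj : j < m)
    (h : r ∣ A q (n - 2 * j) (0 : K) - 1) (i c : ℕ) (hi : i = orderOf (q : ZMod r))
    (hc : c = if i % 4 = 0 then i else if i % 4 = 2 then i / 2 else 2 * i) :
    c ≤ n ∧ n % c < 2 * m := by
  have hr : r.Prime := Fact.out
  have hq := two_le_q hK
  obtain ⟨k, hk⟩ : ∃ k, k = n - 2 * j := ⟨_, rfl⟩
  rw [← hk] at h
  have hk2 : 2 ≤ k := by omega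
  have hn : n = 2 * j + k := by omega
  rcases iz_pow hK k (by omega) r hrq h with h1 | h1
  · have h2 := Cfsg.Agent.Lib.Helper40.HSemi2.c_dvd_of_dvd_acnt q r hr hr2 (by omega) hrq i c hi
      hc k (acnt_of_pow_eq q r k (by omega) h1)
    have h3 := Nat.le_of_dvd (by omega) h2
    refine ⟨by omega, ?_⟩
    obtain ⟨t, ht⟩ := h2
    rw [hn, ht, Nat.add_mul_mod_self_left]
    have h4 := Nat.mod_le (2 * j) c
    omega
  · have h2 := Cfsg.Agent.Lib.Helper40.HSemi2.c_dvd_of_dvd_acnt q r hr hr2 (by omega) hrq i c hi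
      hc (k - 1) (acnt_of_pow_eq q r (k - 1) (by omega) h1)
    have h3 := Nat.le_of_dvd (by omega) h2
    refine ⟨by omega, ?_⟩
    obtain ⟨t, ht⟩ := h2
    have hn' : n = 2 * j + 1 + c * t := by omega
    rw [hn', Nat.add_mul_mod_self_left]
    have h4 := Nat.mod_le (2 * j + 1) c
    omega

end final

end Cfsg.Agent.Lib.Helper40.TCount
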