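import Mathlib
import Cfsg.Agent.Lib.Helper40.TGeo
import Cfsg.Agent.Lib.Helper40.HSemi2

set_option autoImplicit false

namespace Cfsg.Agent.Lib.Helper40.TPoly

open Module Polynomial UniqueFactorizationMonoid Matrix Cfsg.Agent.Lib.Helper40.UnitDet
  Cfsg.Agent.Lib.Helper40.HermAdj Cfsg.Agent.Lib.Helper40.HGeo Cfsg.Agent.Lib.Helper40.RecipPoly
  Cfsg.Agent.Lib.Helper40.GUReal Cfsg.Agent.Lib.Helper40.HCrit Cfsg.Agent.Lib.Helper40.HPoly
  Cfsg.Agent.Lib.Helper40.HSemi Cfsg.Agent.Lib.Helper40.HSemi2 Cfsg.Agent.Lib.Helper40.TGeo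

universe u

section poly
variable {K : Type u} [Field K]

theorem rstar_dvd (φ : K →+* K) {A B : K[X]} (h : A ∣ B) : rstar φ A ∣ rstar φ B := by
  obtain ⟨C', rfl⟩ := h
  rw [rstar_mul]
  exact Dvd.intro _ rfl

theorem sq_of_monic_sq [DecidableEq K] (R : K[X]) (hR : R ≠ 0)
    (h : ∀ P : K[X], Irreducible P → P.Monic → ¬ P * P ∣ R) : Squarefree R := by
  rw [squarefree_iff_irreducible_sq_not_dvd_of_ne_zero hR]
  intro x hx hxx
  apply h (normalize x) ((normalize_associated x).symm.irreducible hx)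
    (monic_normalize hx.ne_zero)
  exact (mul_dvd_mul (normalize_associated x).dvd (normalize_associated x).dvd).trans hxx

/-- Every self-dual monic polynomial is `D₁ * D₁^* * R` with `R` squarefree with self-dual
irreducible factors. -/
theorem decompT [DecidableEq K] (φ : K →+* K) (hφ : ∀ x, φ (φ x) = x) :
    ∀ (d : ℕ) (χ : K[X]), χ.Monic → rstar φ χ = χ → χ.coeff 0 ≠ 0 → χ.natDegree = d →
      ∃ D₁ R : K[X], D₁.Monic ∧ R.Monic ∧ χ = D₁ * rstar φ D₁ * R ∧
        (∀ P : K[X], Irreducible P → P.Monic → P ∣ R → rstar φ P = P) ∧ Squarefree R := by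
  intro d
  induction d using Nat.strong_induction_on with
  | _ d ih =>
    intro χ hχm hχs hχ0 hχd
    by_cases hex : ∃ P : K[X], Irreducible P ∧ P.Monic ∧ P ∣ χ ∧ (rstar φ P ≠ P ∨ P * P ∣ χ)
    · obtain ⟨P, hPirr, hPm, hPdvd, hcase⟩ := hex
      have hP0 : P.coeff 0 ≠ 0 := coeff0_of_dvd hPdvd hχ0
      have hPdeg : 0 < P.natDegree := hPirr.natDegree_pos
      have hsm : (rstar φ P).Monic := rstar_monic φ P hP0
      have hQdvd : P * rstar φ P ∣ χ := by
        by_cases h1 : rstar φ P = P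
        · rw [h1]
          exact hcase.resolve_left (fun h => h h1)
        · have hsirr : Irreducible (rstar φ P) := rstar_irreducible φ hφ P hPirr hPm hP0
          have hsdvd : rstar φ P ∣ χ := by
            have h3 := rstar_dvd φ hPdvd
            rwa [hχs] at h3
          have hcop : IsCoprime P (rstar φ P) := by
            apply (Irreducible.coprime_iff_not_dvd hPirr).mpr
            intro hdvd
            exact h1 (eq_of_monic_of_associated hPm hsm
              (hPirr.associated_of_dvd hsirr hdvd)).symm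
          exact hcop.mul_dvd hPdvd hsdvd
      have hQm : (P * rstar φ P).Monic := hPm.mul hsm
      have hQs : rstar φ (P * rstar φ P) = P * rstar φ P := by
        rw [rstar_mul, rstar_star φ hφ P hPm hP0, mul_comm]
      obtain ⟨χ', hχ'⟩ := hQdvd
      have hχ'm : χ'.Monic := Monic.of_mul_monic_left hQm (hχ' ▸ hχm)
      have hQχ : χ' ∣ χ := ⟨P * rstar φ P, by rw [hχ', mul_comm]⟩
      have hχ'0 : χ'.coeff 0 ≠ 0 := coeff0_of_dvd hQχ hχ0
      have hχ's : rstar φ χ' = χ' := by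
        have h1 := hχs
        rw [hχ', rstar_mul, hQs] at h1
        exact mul_left_cancel₀ hQm.ne_zero h1
      have hdeg : d = (P * rstar φ P).natDegree + χ'.natDegree := by
        rw [← hχd, hχ', hQm.natDegree_mul hχ'm]
      have hQpos : 0 < (P * rstar φ P).natDegree := by
        rw [hPm.natDegree_mul hsm]
        omega
      obtain ⟨D₁, R, hD₁m, hRm, hχ'eq, hRs, hRsq⟩ :=
        ih χ'.natDegree (by omega) χ' hχ'm hχ's hχ'0 rfl
      refine ⟨P * D₁, R, hPm.mul hD₁m, hRm, ?_, hRs, hRsq⟩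
      rw [hχ', hχ'eq, rstar_mul]
      ring
    · refine ⟨1, χ, monic_one, hχm, by rw [rstar_one, one_mul, one_mul], ?_, ?_⟩
      · intro P hPirr hPm hPdvd
        by_contra h
        exact hex ⟨P, hPirr, hPm, hPdvd, Or.inl h⟩
      · apply sq_of_monic_sq χ hχm.ne_zero
        intro P hPirr hPm hPP
        exact hex ⟨P, hPirr, hPm, (Dvd.intro _ rfl).trans hPP, Or.inr hPP⟩

/-- Divisors of all admissible degrees of a polynomial whose irreducible factors all have
degree `b`. -/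
theorem chainD [DecidableEq K] (b : ℕ) (D : K[X]) (hDm : D.Monic)
    (h : ∀ P : K[X], Irreducible P → P.Monic → P ∣ D → P.natDegree = b) :
    ∃ j, D.natDegree = j * b ∧
      ∀ j' ≤ j, ∃ D' : K[X], D'.Monic ∧ D' ∣ D ∧ D'.natDegree = j' * b := by
  obtain ⟨M, hM⟩ : ∃ M, M = normalizedFactors D := ⟨_, rfl⟩
  have hprod : M.prod = D := by
    rw [hM]
    exact Cfsg.Agent.S2568.prod_nf D hDm
  have hdeg : ∀ M' : Multiset K[X], M' ≤ M →
      M'.prod.natDegree = Multiset.card M' * b ∧ M'.prod.Monic := by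
    intro M' hM'
    have hmem : ∀ P ∈ M', P.Monic ∧ P.natDegree = b := by
      intro P hP
      have hP' : P ∈ normalizedFactors D := hM ▸ Multiset.mem_of_le hM' hP
      exact ⟨Cfsg.Agent.S2568.monic_of_mem_nf D P hP',
        h P (irreducible_of_normalized_factor P hP') (Cfsg.Agent.S2568.monic_of_mem_nf D P hP')
          (dvd_of_mem_normalizedFactors hP')⟩
    constructor
    · rw [natDegree_multiset_prod_of_monic _ (fun P hP => (hmem P hP).1)]
      have h1 : M'.map natDegree = Multiset.replicate (Multiset.card M') b := by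
        rw [Multiset.eq_replicate]
        refine ⟨Multiset.card_map _ _, fun x hx => ?_⟩
        obtain ⟨P, hP, rfl⟩ := Multiset.mem_map.mp hx
        exact (hmem P hP).2
      rw [h1, Multiset.sum_replicate, smul_eq_mul]
    · have h1 := monic_multiset_prod_of_monic M' id (fun P hP => (hmem P hP).1)
      rwa [Multiset.map_id] at h1
  refine ⟨Multiset.card M, ?_, ?_⟩
  · rw [← hprod]
    exact (hdeg M le_rfl).1
  · intro j' hj'
    obtain ⟨M', hM', hcard⟩ := Cfsg.Agent.Lib.Helper40.InvDims.exists_le_card M j' hj'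
    refine ⟨M'.prod, (hdeg M' hM').2, ?_, ?_⟩
    · rw [← hprod]
      exact Multiset.prod_dvd_prod_of_le hM'
    · rw [(hdeg M' hM').1, hcard]

theorem hasT_of_decomp (φ : K →+* K) (χ D₁ R : K[X]) (hχ : χ = D₁ * rstar φ D₁ * R)
    (D' : K[X]) (hD'm : D'.Monic) (hdvd : D' ∣ D₁) : HasT φ D'.natDegree χ := by
  refine ⟨D', hD'm, rfl, ?_⟩
  rw [hχ]
  exact (mul_dvd_mul hdvd (rstar_dvd φ hdvd)).trans (Dvd.intro _ rfl)

theorem X_sub_one_dvd (r : ℕ) : (X - C (1 : K)) ∣ X ^ r - C 1 := by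
  have h := sub_dvd_pow_sub_pow (X : K[X]) (C 1) r
  rwa [← C_pow, one_pow] at h

/-- The numbers attached to a self-dual polynomial whose irreducible factors other than `X - 1`
have degree `b` and divide `X^r - 1`. -/
theorem suff_numbers [DecidableEq K] (φ : K →+* K) (hφ : ∀ x, φ (φ x) = x) (r b : ℕ)
    (hb : 0 < b) (hr : 0 < r)
    (χ : K[X]) (hχm : χ.Monic) (hχs : rstar φ χ = χ) (hχ0 : χ.coeff 0 ≠ 0) (n : ℕ)
    (hχd : χ.natDegree = n)
    (hfac : ∀ P : K[X], Irreducible P → P.Monic → P ∣ χ → P ≠ X - C 1 →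
      P.natDegree = b ∧ P ∣ X ^ r - C 1) :
    ∃ a₁ ρ j o, n = 2 * a₁ + ρ + 2 * (j * b) + o * b ∧ ρ ≤ 1 ∧ o * b ≤ r - 1 ∧
      ((∀ P : K[X], Irreducible P → P.Monic → P ∣ χ → P ≠ X - C 1 → rstar φ P ≠ P) → o = 0) ∧
      ∀ a' ≤ a₁, ∀ j' ≤ j, HasT φ (a' + j' * b) χ := by
  obtain ⟨D₁, R, hD₁m, hRm, hχeq, hRs, hRsq⟩ := decompT φ hφ n χ hχm hχs hχ0 hχd
  have hD₁χ : D₁ ∣ χ := by
    rw [hχeq, mul_assoc]
    exact Dvd.intro _ rfl
  have hRχ : R ∣ χ := by
    rw [hχeq]
    exact Dvd.intro_left _ rfl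
  have hD₁0 : D₁.coeff 0 ≠ 0 := coeff0_of_dvd hD₁χ hχ0
  have hL1 : (X - C (1 : K)).Monic := monic_X_sub_C 1
  have hLirr : Irreducible (X - C (1 : K)) := irreducible_X_sub_C 1
  obtain ⟨D₂, hD₂, hnd₂⟩ := exists_eq_pow_rootMultiplicity_mul_and_not_dvd D₁ hD₁m.ne_zero 1
  obtain ⟨a₁, ha₁⟩ : ∃ a₁, a₁ = rootMultiplicity 1 D₁ := ⟨_, rfl⟩
  rw [← ha₁] at hD₂
  have hD₂m : D₂.Monic := by
    apply (hL1.pow a₁).of_mul_monic_left
    rw [← hD₂]
    exact hD₁m
  have hD₂D₁ : D₂ ∣ D₁ := Dvd.intro_left _ hD₂.symm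
  obtain ⟨j, hj, hjD⟩ := chainD b D₂ hD₂m (fun P hPirr hPm hPdvd =>
    (hfac P hPirr hPm ((hPdvd.trans hD₂D₁).trans hD₁χ) (by rintro rfl; exact hnd₂ hPdvd)).1)
  obtain ⟨R', hR', hndR⟩ := exists_eq_pow_rootMultiplicity_mul_and_not_dvd R hRm.ne_zero 1
  obtain ⟨ρ, hρ⟩ : ∃ ρ, ρ = rootMultiplicity 1 R := ⟨_, rfl⟩
  rw [← hρ] at hR'
  have hR'm : R'.Monic := by
    apply (hL1.pow ρ).of_mul_monic_left
    rw [← hR']
    exact hRm
  have hR'R : R' ∣ R := Dvd.intro_left _ hR'.symm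
  have hρ1 : ρ ≤ 1 := by
    by_contra hlt
    have h2 : (X - C (1 : K)) * (X - C 1) ∣ R := by
      have h3 : (X - C (1 : K)) * (X - C 1) ∣ (X - C 1) ^ ρ := by
        rw [← sq]
        exact pow_dvd_pow _ (by omega)
      exact h3.trans (Dvd.intro _ hR'.symm)
    exact hLirr.not_isUnit (hRsq _ h2)
  obtain ⟨o, ho, -⟩ := chainD b R' hR'm (fun P hPirr hPm hPdvd =>
    (hfac P hPirr hPm ((hPdvd.trans hR'R).trans hRχ) (by rintro rfl; exact hndR hPdvd)).1)
  have hR'sq : Squarefree R' := Squarefree.squarefree_of_dvd hR'R hRsq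
  have hR'dvd : R' ∣ X ^ r - C 1 := by
    have h1 : R' ∣ (X ^ r - C (1 : K)) ^ Multiset.card (normalizedFactors R') := by
      have h2 := Cfsg.Agent.S2568.prod_dvd_pow (normalizedFactors R') (X ^ r - C (1 : K))
        (fun P hP =>
          (hfac P (irreducible_of_normalized_factor P hP)
            (Cfsg.Agent.S2568.monic_of_mem_nf R' P hP)
            (((dvd_of_mem_normalizedFactors hP).trans hR'R).trans hRχ)
            (by rintro rfl; exact hndR (dvd_of_mem_normalizedFactors hP))).2)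
      rwa [Cfsg.Agent.S2568.prod_nf R' hR'm] at h2
    exact hR'sq.isRadical _ _ h1
  have hob : o * b ≤ r - 1 := by
    have hcop : IsCoprime (X - C (1 : K)) R' := (hLirr.coprime_iff_not_dvd).mpr hndR
    have h1 : (X - C (1 : K)) * R' ∣ X ^ r - C 1 := hcop.mul_dvd (X_sub_one_dvd r) hR'dvd
    have h2 := natDegree_le_of_dvd h1 (monic_X_pow_sub_C (1 : K) hr.ne').ne_zero
    rw [hL1.natDegree_mul hR'm, natDegree_X_sub_C, natDegree_X_pow_sub_C, ho] at h2
    omega
  refine ⟨a₁, ρ, j, o, ?_, hρ1, hob, ?_, ?_⟩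
  · have h1 : χ.natDegree = D₁.natDegree + D₁.natDegree + R.natDegree := by
      conv_lhs => rw [hχeq]
      rw [(hD₁m.mul (rstar_monic φ D₁ hD₁0)).natDegree_mul hRm,
        hD₁m.natDegree_mul (rstar_monic φ D₁ hD₁0), rstar_natDegree φ D₁ hD₁0]
    have h2 : D₁.natDegree = a₁ + j * b := by
      conv_lhs => rw [hD₂]
      rw [(hL1.pow a₁).natDegree_mul hD₂m, hL1.natDegree_pow, natDegree_X_sub_C, mul_one, hj]
    have h3 : R.natDegree = ρ + o * b := by
      conv_lhs => rw [hR']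
      rw [(hL1.pow ρ).natDegree_mul hR'm, hL1.natDegree_pow, natDegree_X_sub_C, mul_one, ho]
    rw [← hχd, h1, h2, h3]
    ring
  · intro hpairs
    by_contra ho0
    have hdegpos : 0 < R'.natDegree := by
      rw [ho]
      exact Nat.mul_pos (Nat.pos_of_ne_zero ho0) hb
    have hne : normalizedFactors R' ≠ 0 := by
      intro h0
      have h1 := Cfsg.Agent.S2568.prod_nf R' hR'm
      rw [h0, Multiset.prod_zero] at h1
      rw [← h1, natDegree_one] at hdegpos
      omega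
    obtain ⟨P, hP⟩ := Multiset.exists_mem_of_ne_zero hne
    have hPirr := irreducible_of_normalized_factor P hP
    have hPm := Cfsg.Agent.S2568.monic_of_mem_nf R' P hP
    have hPdvd := dvd_of_mem_normalizedFactors hP
    exact hpairs P hPirr hPm ((hPdvd.trans hR'R).trans hRχ) (by rintro rfl; exact hndR hPdvd)
      (hRs P hPirr hPm (hPdvd.trans hR'R))
  · intro a' ha' j' hj'
    obtain ⟨D'', hD''m, hD''dvd, hD''d⟩ := hjD j' hj'
    have hdvd : (X - C (1 : K)) ^ a' * D'' ∣ D₁ := by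
      rw [hD₂]
      exact mul_dvd_mul (pow_dvd_pow _ ha') hD''dvd
    have h := hasT_of_decomp φ χ D₁ R hχeq _ ((hL1.pow a').mul hD''m) hdvd
    rwa [(hL1.pow a').natDegree_mul hD''m, hL1.natDegree_pow, natDegree_X_sub_C, mul_one,
      hD''d] at h

theorem arithT (b n m a₁ ρ j o : ℕ) (hn : n = 2 * a₁ + ρ + 2 * (j * b) + o * b)
    (hρ : ρ ≤ 1) (h1 : 2 * (m % b) ≤ 2 * a₁ + ρ) (h2 : 2 * m + o * b ≤ n) :
    ∃ a' ≤ a₁, ∃ j' ≤ j, a' + j' * b = m := by
  by_cases hmj : m / b ≤ j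
  · exact ⟨m % b, by omega, m / b, hmj, Nat.mod_add_div' m b⟩
  · refine ⟨m - j * b, ?_, j, le_rfl, ?_⟩
    · omega
    · have h3 : (j + 1) * b ≤ m / b * b := Nat.mul_le_mul_right b (by omega)
      have h4 : m / b * b ≤ m := Nat.div_mul_le_self m b
      have h5 : (j + 1) * b = j * b + b := by ring
      omega

/-- Splitting off the `X - 1` part of a divisor `D` with `D * D^* ∣ (X - 1)^a * E`. -/
theorem split_one (φ : K →+* K) (hφ : ∀ x, φ (φ x) = x) (a : ℕ) (E χ : K[X])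
    (hχ : χ = (X - C 1) ^ a * E) (hE : ¬ (X - C (1 : K)) ∣ E) (hχ0 : χ.coeff 0 ≠ 0)
    (D : K[X]) (hDm : D.Monic) (hD : D * rstar φ D ∣ χ) :
    ∃ (a' : ℕ) (D₂ : K[X]), D₂.Monic ∧ D.natDegree = a' + D₂.natDegree ∧ 2 * a' ≤ a ∧
      D₂ * rstar φ D₂ ∣ E := by
  have hL1 : (X - C (1 : K)).Monic := monic_X_sub_C 1
  have hLirr : Irreducible (X - C (1 : K)) := irreducible_X_sub_C 1
  have hD0 : D.coeff 0 ≠ 0 := coeff0_of_dvd ((Dvd.intro _ rfl).trans hD) hχ0
  obtain ⟨D₂, hD₂, hnd⟩ := exists_eq_pow_rootMultiplicity_mul_and_not_dvd D hDm.ne_zero 1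
  obtain ⟨a', ha'⟩ : ∃ a', a' = rootMultiplicity 1 D := ⟨_, rfl⟩
  rw [← ha'] at hD₂
  have hD₂m : D₂.Monic := by
    apply (hL1.pow a').of_mul_monic_left
    rw [← hD₂]
    exact hDm
  have hD₂0 : D₂.coeff 0 ≠ 0 := coeff0_of_dvd (Dvd.intro_left _ hD₂.symm) hD0
  have hnd' : ¬ (X - C (1 : K)) ∣ rstar φ D₂ := by
    intro h
    have h1 := rstar_dvd φ h
    rw [rstar_X_sub_one, rstar_star φ hφ D₂ hD₂m hD₂0] at h1
    exact hnd h1
  have hprod : D * rstar φ D = (X - C 1) ^ (2 * a') * (D₂ * rstar φ D₂) := by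
    have h1 : rstar φ D = (X - C 1) ^ a' * rstar φ D₂ := by
      conv_lhs => rw [hD₂]
      rw [rstar_mul, rstar_pow, rstar_X_sub_one]
    rw [h1]
    conv_lhs => rw [hD₂]
    ring
  have hcop : IsCoprime (X - C (1 : K)) (D₂ * rstar φ D₂) :=
    (hLirr.coprime_iff_not_dvd).mpr (fun h => (hLirr.prime.dvd_or_dvd h).elim hnd hnd')
  have hcopE : IsCoprime (X - C (1 : K)) E := (hLirr.coprime_iff_not_dvd).mpr hE
  rw [hprod, hχ] at hD
  refine ⟨a', D₂, hD₂m, ?_, ?_, ?_⟩
  · conv_lhs => rw [hD₂]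
    rw [(hL1.pow a').natDegree_mul hD₂m, hL1.natDegree_pow, natDegree_X_sub_C, mul_one]
  · have h1 : (X - C (1 : K)) ^ (2 * a') ∣ (X - C 1) ^ a := by
      apply (hcopE.pow_left (m := 2 * a')).dvd_of_dvd_mul_right
      exact (Dvd.intro _ rfl).trans hD
    have h2 := natDegree_le_of_dvd h1 (hL1.pow _).ne_zero
    rwa [hL1.natDegree_pow, hL1.natDegree_pow, natDegree_X_sub_C, mul_one, mul_one] at h2
  · apply (hcop.symm.pow_right (n := a)).dvd_of_dvd_mul_left
    exact (Dvd.intro_left _ rfl).trans hD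

/-- If `D * D^* ∣ E`, where the irreducible factors of `E` are self-dual and `B` is the only one
that can occur to a square, then `D` is a power of `B`. -/
theorem sd_core [DecidableEq K] (φ : K →+* K) (B E : K[X])
    (hE : ∀ P : K[X], Irreducible P → P.Monic → P * P ∣ E → P = B)
    (hs : ∀ P : K[X], Irreducible P → P.Monic → P ∣ E → rstar φ P = P)
    (D : K[X]) (hDm : D.Monic) (hD : D * rstar φ D ∣ E) : ∃ f, D = B ^ f := by
  have hall : ∀ P ∈ normalizedFactors D, P = B := by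
    intro P hP
    have hPirr := irreducible_of_normalized_factor P hP
    have hPm := Cfsg.Agent.S2568.monic_of_mem_nf D P hP
    have hPdvd := dvd_of_mem_normalizedFactors hP
    have hPE : P ∣ E := (hPdvd.trans (Dvd.intro _ rfl)).trans hD
    have h1 : P ∣ rstar φ D := by
      have h2 := rstar_dvd φ hPdvd
      rwa [hs P hPirr hPm hPE] at h2
    exact hE P hPirr hPm ((mul_dvd_mul hPdvd h1).trans hD)
  refine ⟨Multiset.card (normalizedFactors D), ?_⟩
  have h1 := Cfsg.Agent.S2568.prod_nf D hDm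
  have h2 := Multiset.eq_replicate_card.mpr hall
  rw [h2, Multiset.prod_replicate] at h1
  exact h1.symm

theorem pow_le_of_dvd (B R : K[X]) (hB : Irreducible B) (hBR : ¬ B ∣ R) (f e : ℕ)
    (h : B ^ f ∣ B ^ e * R) : f ≤ e := by
  have hcop : IsCoprime (B ^ f) R := ((hB.coprime_iff_not_dvd).mpr hBR).pow_left
  have h1 := hcop.dvd_of_dvd_mul_right h
  exact (pow_dvd_pow_iff hB.ne_zero hB.not_isUnit).mp h1

end poly

end Cfsg.Agent.Lib.Helper40.TPoly
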