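import Mathlib
import Cfsg.Agent.Lib.Helper40.TPoly
import Cfsg.Agent.Lib.Helper40.TCount

set_option autoImplicit false

namespace Cfsg.Agent.Lib.Helper40.TSemi

open Module Polynomial UniqueFactorizationMonoid Matrix Cfsg.Agent.Lib.Helper40.UnitDet
  Cfsg.Agent.Lib.Helper40.HermAdj Cfsg.Agent.Lib.Helper40.HGeo Cfsg.Agent.Lib.Helper40.RecipPoly
  Cfsg.Agent.Lib.Helper40.GUReal Cfsg.Agent.Lib.Helper40.HCrit Cfsg.Agent.Lib.Helper40.HPoly
  Cfsg.Agent.Lib.Helper40.SURegUnip Cfsg.Agent.Lib.Helper40.SUCount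
  Cfsg.Agent.Lib.Helper40.HSemi Cfsg.Agent.Lib.Helper40.HSemi2
  Cfsg.Agent.Lib.Helper40.TGeo Cfsg.Agent.Lib.Helper40.TPoly

universe u

section setup
variable {K : Type u} [Field K]

/-- `A` fixes a totally isotropic `m`-space. -/
def FixT (φ : K →+* K) {n : ℕ} (A : Matrix (Fin n) (Fin n) K) (m : ℕ) : Prop :=
  ∃ W : Submodule K (Fin n → K), finrank K W = m ∧ TI φ W ∧ W.map (Matrix.toLin' A) ≤ W

theorem fixT_smul (φ : K →+* K) {n : ℕ} (A : Matrix (Fin n) (Fin n) K) (m : ℕ) (a : K)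
    (h : FixT φ A m) : FixT φ (a • A) m := by
  obtain ⟨W, h1, h2, h3⟩ := h
  refine ⟨W, h1, h2, ?_⟩
  rintro _ ⟨w, hw, rfl⟩
  rw [map_smul, LinearMap.smul_apply]
  apply W.smul_mem
  apply h3
  exact ⟨w, hw, rfl⟩

theorem eq_pow_of_factors [DecidableEq K] (B D : K[X]) (hDm : D.Monic)
    (h : ∀ P : K[X], Irreducible P → P.Monic → P ∣ D → P = B) : ∃ f, D = B ^ f := by
  have hall : ∀ P ∈ normalizedFactors D, P = B := fun P hP =>
    h P (irreducible_of_normalized_factor P hP) (Cfsg.Agent.S2568.monic_of_mem_nf D P hP)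
      (dvd_of_mem_normalizedFactors hP)
  refine ⟨Multiset.card (normalizedFactors D), ?_⟩
  have h1 := Cfsg.Agent.S2568.prod_nf D hDm
  have h2 := Multiset.eq_replicate_card.mpr hall
  rw [h2, Multiset.prod_replicate] at h1
  exact h1.symm

theorem two_root_decomp [DecidableEq K] (u v : K) (D : K[X]) (hDm : D.Monic)
    (h : ∀ P : K[X], Irreducible P → P.Monic → P ∣ D → P = X - C u ∨ P = X - C v) :
    ∃ a e, D = (X - C u) ^ a * (X - C v) ^ e := by
  obtain ⟨E, hE, hnd⟩ := exists_eq_pow_rootMultiplicity_mul_and_not_dvd D hDm.ne_zero u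
  obtain ⟨a, ha⟩ : ∃ a, a = rootMultiplicity u D := ⟨_, rfl⟩
  rw [← ha] at hE
  have hLm : ((X - C u) ^ a).Monic := (monic_X_sub_C u).pow a
  have hEm : E.Monic := by
    apply hLm.of_mul_monic_left
    rw [← hE]
    exact hDm
  have hED : E ∣ D := Dvd.intro_left _ hE.symm
  obtain ⟨e, he⟩ := eq_pow_of_factors (X - C v) E hEm (by
    intro P hPirr hPm hPdvd
    rcases h P hPirr hPm (hPdvd.trans hED) with h1 | h1
    · rw [h1] at hPdvd
      exact absurd hPdvd hnd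
    · exact h1)
  exact ⟨a, e, by rw [← he]; exact hE⟩

theorem lin_ne (u v : K) (huv : u ≠ v) : (X - C u : K[X]) ≠ X - C v :=
  fun h' => huv (C_injective (sub_right_injective h'))

theorem lin_not_dvd_pow (u v : K) (huv : u ≠ v) (k : ℕ) : ¬ (X - C u : K[X]) ∣ (X - C v) ^ k := by
  intro hk
  have h2 := (irreducible_X_sub_C u).prime.dvd_of_dvd_pow hk
  exact lin_ne u v huv (eq_of_dvd_irr _ _ (irreducible_X_sub_C u) (monic_X_sub_C u)
    (irreducible_X_sub_C v) (monic_X_sub_C v) h2)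

theorem two_root_le (u v : K) (huv : u ≠ v) (a e a' e' : ℕ)
    (h : (X - C u) ^ a * (X - C v) ^ e ∣ (X - C u) ^ a' * (X - C v) ^ e') :
    a ≤ a' ∧ e ≤ e' := by
  constructor
  · exact pow_le_of_dvd _ _ (irreducible_X_sub_C u) (lin_not_dvd_pow u v huv e') a a'
      ((Dvd.intro _ rfl).trans h)
  · apply pow_le_of_dvd _ _ (irreducible_X_sub_C v) (lin_not_dvd_pow v u huv.symm a') e e'
    rw [mul_comm]
    exact (Dvd.intro_left _ rfl).trans h

theorem two_adic (lam : K) (q n : ℕ) (hn0 : n ≠ 0) (h2 : (2 : K) ≠ 0)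
    (hq : lam ^ (q + 1) = 1) (hn : lam ^ n = -1)
    (hv : padicValNat 2 (q + 1) ≤ padicValNat 2 n) : False := by
  obtain ⟨w, hw⟩ : ∃ w, w = padicValNat 2 (q + 1) := ⟨_, rfl⟩
  have h1 : 2 ^ w ∣ q + 1 := by
    rw [hw]
    exact pow_padicValNat_dvd
  have h3 : 2 ^ w ∣ n := (padicValNat_dvd_iff_le hn0).mpr (by rw [hw]; exact hv)
  obtain ⟨t, ht⟩ := h1
  obtain ⟨n', hn'⟩ := h3
  have htodd : Odd t := by
    rw [← Nat.not_even_iff_odd]
    rintro ⟨t', ht'⟩
    have h4 : 2 ^ (w + 1) ∣ q + 1 := ⟨t', by rw [ht, ht']; ring⟩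
    have h5 := (padicValNat_dvd_iff_le (by omega : q + 1 ≠ 0)).mp h4
    omega
  have h6 : (lam ^ n) ^ t = 1 := by
    rw [hn', ← pow_mul, mul_assoc, mul_comm n' t, ← mul_assoc, ← ht, pow_mul, hq, one_pow]
  rw [hn, htodd.neg_one_pow] at h6
  exact h2 (by linear_combination -h6)

theorem det_facts (φ : K →+* K) {q : ℕ} (hφq : ∀ x, φ x = x ^ q) {n : ℕ}
    (U : Matrix (Fin n) (Fin n) K) (hU : adj φ U * U = 1) (r : ℕ)
    (hUr : U ^ r = (1 : K) • (1 : Matrix (Fin n) (Fin n) K)) :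
    U.det ^ r = 1 ∧ U.det ^ (q + 1) = 1 := by
  constructor
  · rw [← Matrix.det_pow, hUr, one_smul, Matrix.det_one]
  · have h3 := congrArg Matrix.det hU
    rw [Matrix.det_mul, det_adj, Matrix.det_one, hφq, ← pow_succ] at h3
    exact h3

theorem det_one_of_not_dvd (φ : K →+* K) {q : ℕ} (hφq : ∀ x, φ x = x ^ q) {n : ℕ}
    (U : Matrix (Fin n) (Fin n) K) (hU : adj φ U * U = 1) (r : ℕ) (hr : r.Prime)
    (hrq : ¬ r ∣ q + 1) (hUr : U ^ r = (1 : K) • (1 : Matrix (Fin n) (Fin n) K)) :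
    U.det = 1 := by
  obtain ⟨h1, h2⟩ := det_facts φ hφq U hU r hUr
  have h4 : orderOf U.det ∣ Nat.gcd r (q + 1) :=
    Nat.dvd_gcd (orderOf_dvd_of_pow_eq_one h1) (orderOf_dvd_of_pow_eq_one h2)
  rw [(Nat.Prime.coprime_iff_not_dvd hr).mpr hrq, Nat.dvd_one, orderOf_eq_one_iff] at h4
  exact h4

theorem fix_of_root (φ : K →+* K) {n : ℕ} (m r : ℕ)
    (H : ∀ A : Matrix (Fin n) (Fin n) K, adj φ A * A = 1 → A.det = 1 →
      (∃ z : K, A ^ r = z • (1 : Matrix (Fin n) (Fin n) K)) →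
      (∀ z : K, A ≠ z • (1 : Matrix (Fin n) (Fin n) K)) → FixT φ A m)
    (U : Matrix (Fin n) (Fin n) K) (hU : adj φ U * U = 1) (z : K)
    (hUr : U ^ r = z • (1 : Matrix (Fin n) (Fin n) K))
    (hUns : ∀ w : K, U ≠ w • (1 : Matrix (Fin n) (Fin n) K)) (ν : K) (hν : φ ν * ν = 1)
    (hνn : ν ^ n = U.det) : FixT φ U m := by
  have hν0 : ν ≠ 0 := right_ne_zero_of_mul_eq_one hν
  have hx1 := unit_scale φ ν hν U hU
  have hx2 : (ν⁻¹ • U).det = 1 := by
    rw [Matrix.det_smul, Fintype.card_fin, ← hνn, inv_pow, inv_mul_cancel₀ (pow_ne_zero n hν0)]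
  have hx3 : (ν⁻¹ • U) ^ r = ((ν⁻¹) ^ r * z) • (1 : Matrix (Fin n) (Fin n) K) := by
    rw [_root_.smul_pow, hUr, smul_smul]
  have hx4 : ∀ w : K, ν⁻¹ • U ≠ w • (1 : Matrix (Fin n) (Fin n) K) := by
    intro w hw
    apply hUns (ν * w)
    have h1 : ν • (ν⁻¹ • U) = ν • (w • (1 : Matrix (Fin n) (Fin n) K)) := by rw [hw]
    rwa [smul_smul, mul_inv_cancel₀ hν0, one_smul, smul_smul] at h1
  have h := fixT_smul φ _ m ν (H _ hx1 hx2 ⟨_, hx3⟩ hx4)
  rwa [smul_smul, mul_inv_cancel₀ hν0, one_smul] at h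

theorem rstar_of_factors [DecidableEq K] (φ : K →+* K) (E : K[X]) (hEm : E.Monic)
    (h : ∀ P : K[X], Irreducible P → P.Monic → P ∣ E → rstar φ P = P) : rstar φ E = E := by
  have h1 := Cfsg.Agent.S2568.prod_nf E hEm
  have h2 : (normalizedFactors E).map (rstar φ) = (normalizedFactors E).map id :=
    Multiset.map_congr rfl (fun P hP => h P (irreducible_of_normalized_factor P hP)
      (Cfsg.Agent.S2568.monic_of_mem_nf E P hP) (dvd_of_mem_normalizedFactors hP))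
  conv_lhs => rw [← h1]
  rw [rstar_multiset_prod, h2, Multiset.map_id, h1]

/-- The criterion for a normalised semisimple element. -/
theorem norm_suff [DecidableEq K] (φ : K →+* K) (hφ : ∀ x, φ (φ x) = x) (r b c : ℕ)
    (hb : 0 < b) (hr : 0 < r) (χ : K[X]) (hχm : χ.Monic) (hχs : rstar φ χ = χ)
    (hχ0 : χ.coeff 0 ≠ 0) (n : ℕ) (hχd : χ.natDegree = n)
    (hfac : ∀ P : K[X], Irreducible P → P.Monic → P ∣ χ → P ≠ X - C 1 →
      P.natDegree = b ∧ P ∣ X ^ r - C 1) (m : ℕ)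
    (hbc : (c = b ∧ (r - 1) / b + 2 * (m / b) ≤ n / b) ∨
      (c = 2 * b ∧ ∀ P : K[X], Irreducible P → P.Monic → P ∣ χ → P ≠ X - C 1 →
        rstar φ P ≠ P))
    (hmn : 2 * m ≤ n) (h1 : 2 * (m % b) ≤ n % c) : HasT φ m χ := by
  obtain ⟨a₁, ρ, j, o, hn, hρ, ho, hns, hT⟩ :=
    suff_numbers φ hφ r b hb hr χ hχm hχs hχ0 n hχd hfac
  have key : ∃ a' ≤ a₁, ∃ j' ≤ j, a' + j' * b = m := by
    rcases hbc with ⟨hcb, hs⟩ | ⟨hcb, hnsd⟩
    · apply arithT b n m a₁ ρ j o hn hρ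
      · have h2 : n % b ≤ 2 * a₁ + ρ := by
          have e1 : n = 2 * a₁ + ρ + (2 * j + o) * b := by rw [hn]; ring
          rw [e1, Nat.add_mul_mod_self_right]
          exact Nat.mod_le _ _
        rw [hcb] at h1
        omega
      · have h3 : o ≤ (r - 1) / b := (Nat.le_div_iff_mul_le hb).mpr ho
        have h4 : (o + 2 * (m / b)) * b ≤ n / b * b :=
          Nat.mul_le_mul_right b (by omega)
        have h5 : (o + 2 * (m / b)) * b = o * b + 2 * (m / b * b) := by ring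
        have h6 := Nat.div_add_mod' m b
        have h7 := Nat.div_add_mod' n b
        rw [hcb] at h1
        omega
    · have ho0 : o = 0 := hns hnsd
      apply arithT b n m a₁ ρ j o hn hρ
      · have h2 : n % c ≤ 2 * a₁ + ρ := by
          have e1 : n = 2 * a₁ + ρ + j * c := by rw [hn, ho0, hcb]; ring
          rw [e1, Nat.add_mul_mod_self_right]
          exact Nat.mod_le _ _
        omega
      · rw [ho0]
        omega
  obtain ⟨a', ha', j', hj', hm⟩ := key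
  rw [← hm]
  exact hT a' ha' j' hj'

end setup

section finite
variable {K : Type u} [Field K] [Fintype K] [DecidableEq K] {p q : ℕ} [Fact p.Prime] [CharP K p]

omit [DecidableEq K] in
theorem fixT_iff (hK : Fintype.card K = q ^ 2) (φ : K →+* K) (hφ : ∀ x, φ (φ x) = x) (l : K)
    (hl : φ l ≠ l) {n : ℕ} (hn : 0 < n) (A : Matrix (Fin n) (Fin n) K) (hA : adj φ A * A = 1)
    (r : ℕ) (hr : r.Prime) (hrp : r ≠ p) (z : K)
    (hAr : A ^ r = z • (1 : Matrix (Fin n) (Fin n) K)) (m : ℕ) :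
    FixT φ A m ↔ HasT φ m A.charpoly := by
  have hp : p.Prime := Fact.out
  have hz := scalar_unit φ hn A hA r z hAr
  have hz0 : z ≠ 0 := right_ne_zero_of_mul_eq_one hz
  have hcop : (r * (q ^ 2 - 1)).Coprime p :=
    (Nat.Coprime.mul_right ((Nat.coprime_primes hr hp).mpr hrp).symm
      (coprime_card_sub_one hK).symm).symm
  have hN : ((r * (q ^ 2 - 1) : ℕ) : K) ≠ 0 := cast_ne_zero_of_coprime p _ hcop
  have hAN : A ^ (r * (q ^ 2 - 1)) = 1 := by
    rw [pow_mul, hAr, _root_.smul_pow, one_pow, pow_card_sub_one hK z hz0, one_smul]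
  exact ti_iff φ hφ l hl p A hA _ hN hAN m

/-- Sufficiency for an element whose scalar has an `r`-th root of norm one. -/
theorem root_suff (hK : Fintype.card K = q ^ 2) (φ : K →+* K)
    (hφ : ∀ x, φ (φ x) = x) (l : K) (hl : φ l ≠ l) (r : ℕ) (hr : r.Prime) (hrp : r ≠ p)
    (b c : ℕ) (hb : 0 < b)
    (hfacS : ∀ P : K[X], Irreducible P → P.Monic → P ∣ X ^ r - C 1 → P ≠ X - C 1 →
      P.natDegree = b)
    {n : ℕ} (hn : 0 < n) (m : ℕ) (hmn : 2 * m ≤ n) (h1 : 2 * (m % b) ≤ n % c)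
    (hbc : (c = b ∧ (r - 1) / b + 2 * (m / b) ≤ n / b) ∨
      (c = 2 * b ∧ ∀ P : K[X], Irreducible P → P.Monic → P ∣ X ^ r - C 1 → P ≠ X - C 1 →
        rstar φ P ≠ P))
    (A : Matrix (Fin n) (Fin n) K) (hA : adj φ A * A = 1) (z : K)
    (hAz : A ^ r = z • (1 : Matrix (Fin n) (Fin n) K)) (lam : K) (hlamφ : φ lam * lam = 1)
    (hlam : lam ^ r = z) : FixT φ A m := by
  have hlam0 : lam ≠ 0 := right_ne_zero_of_mul_eq_one hlamφ
  obtain ⟨y, hy⟩ : ∃ y, y = lam⁻¹ • A := ⟨_, rfl⟩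
  have hyu : adj φ y * y = 1 := by
    rw [hy]
    exact unit_scale φ lam hlamφ A hA
  have hyr : y ^ r = (1 : K) • (1 : Matrix (Fin n) (Fin n) K) := by
    rw [hy, _root_.smul_pow, hAz, smul_smul, ← hlam, inv_pow,
      inv_mul_cancel₀ (pow_ne_zero r hlam0)]
  have hfix : FixT φ y m := by
    rw [fixT_iff hK φ hφ l hl hn y hyu r hr hrp 1 hyr m]
    have hχm := Matrix.charpoly_monic y
    have hχs := rstar_charpoly_of_unitary φ hφ y hyu
    have hχ0 := charpoly_coeff_zero_ne φ y hyu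
    have hχd : y.charpoly.natDegree = n := by
      rw [Matrix.charpoly_natDegree_eq_dim, Fintype.card_fin]
    have hfd : ∀ P : K[X], Irreducible P → P.Monic → P ∣ y.charpoly → P ∣ X ^ r - C 1 :=
      fun P hPirr hPm hPdvd => factor_dvd y r 1 hyr P hPirr hPm hPdvd
    apply norm_suff φ hφ r b c hb hr.pos y.charpoly hχm hχs hχ0 n hχd
      (fun P hPirr hPm hPdvd hP1 =>
        ⟨hfacS P hPirr hPm (hfd P hPirr hPm hPdvd) hP1, hfd P hPirr hPm hPdvd⟩) m ?_ hmn h1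
    rcases hbc with h | ⟨h, h'⟩
    · exact Or.inl h
    · exact Or.inr ⟨h, fun P hPirr hPm hPdvd hP1 =>
        h' P hPirr hPm (hfd P hPirr hPm hPdvd) hP1⟩
  have h := fixT_smul φ y m lam hfix
  rwa [hy, smul_smul, mul_inv_cancel₀ hlam0, one_smul] at h

/-- Sufficiency for `r = 2`. -/
theorem two_suffT (hK : Fintype.card K = q ^ 2) (φ : K →+* K) (hφq : ∀ x, φ x = x ^ q)
    (hφ : ∀ x, φ (φ x) = x) (l : K) (hl : φ l ≠ l) (hp2 : p ≠ 2) {n : ℕ} (hn : 0 < n) (m : ℕ)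
    (hmn : 2 * m ≤ n) (hcond : 2 * m < n ∨ padicValNat 2 (q + 1) ≤ padicValNat 2 n)
    (A : Matrix (Fin n) (Fin n) K) (hA : adj φ A * A = 1) (hdet : A.det = 1) (z : K)
    (hAz : A ^ 2 = z • (1 : Matrix (Fin n) (Fin n) K)) : FixT φ A m := by
  have hp : p.Prime := Fact.out
  rw [fixT_iff hK φ hφ l hl hn A hA 2 Nat.prime_two (Ne.symm hp2) z hAz m]
  have hz := scalar_unit φ hn A hA 2 z hAz
  have hz0 : z ≠ 0 := right_ne_zero_of_mul_eq_one hz
  obtain ⟨lam, hlam⟩ := exists_sqrt hK hp2 φ hφq z hz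
  have h2K := two_ne_zero' (K := K) hp2
  have hlam0 : lam ≠ 0 := by
    rintro rfl
    rw [zero_pow two_ne_zero] at hlam
    exact hz0 hlam.symm
  have hne : lam ≠ -lam := by
    intro h
    have h5 : (2 : K) * lam = 0 := by linear_combination h
    rcases mul_eq_zero.mp h5 with h' | h'
    · exact h2K h'
    · exact hlam0 h'
  have hχm := Matrix.charpoly_monic A
  have hχs := rstar_charpoly_of_unitary φ hφ A hA
  have hχd : A.charpoly.natDegree = n := by
    rw [Matrix.charpoly_natDegree_eq_dim, Fintype.card_fin]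
  have hfacL : ∀ P : K[X], Irreducible P → P.Monic → P ∣ A.charpoly →
      P = X - C lam ∨ P = X - C (-lam) := fun P hPirr hPm hPdvd =>
    lin_factor z lam hlam P hPirr hPm (factor_dvd A 2 z hAz P hPirr hPm hPdvd)
  obtain ⟨a, e, hχ⟩ := two_root_decomp lam (-lam) A.charpoly hχm hfacL
  have hL1 : (X - C lam : K[X]).Monic := monic_X_sub_C lam
  have hL2 : (X - C (-lam) : K[X]).Monic := monic_X_sub_C (-lam)
  have hnae : n = a + e := by
    rw [← hχd, hχ, (hL1.pow a).natDegree_mul (hL2.pow e), hL1.natDegree_pow, hL2.natDegree_pow,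
      natDegree_X_sub_C, natDegree_X_sub_C, mul_one, mul_one]
  rcases sq_cases φ z lam hz hlam with hε | hε
  · have hs1 : rstar φ (X - C lam) = X - C lam := by
      have h3 := rstar_X_pow_sub_C_fix φ 1 one_pos lam hε
      rwa [pow_one] at h3
    have hs2 : rstar φ (X - C (-lam)) = X - C (-lam) := by
      have h3 : φ (-lam) * (-lam) = 1 := by
        rw [map_neg]
        linear_combination hε
      have h4 := rstar_X_pow_sub_C_fix φ 1 one_pos (-lam) h3
      rwa [pow_one] at h4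
    by_cases hle : m ≤ a / 2 + e / 2
    · obtain ⟨a', e', ha', he', hm'⟩ : ∃ a' e', a' ≤ a / 2 ∧ e' ≤ e / 2 ∧ a' + e' = m := by
        by_cases h : m ≤ a / 2
        · exact ⟨m, 0, h, Nat.zero_le _, by omega⟩
        · exact ⟨a / 2, m - a / 2, le_rfl, by omega, by omega⟩
      refine ⟨(X - C lam) ^ a' * (X - C (-lam)) ^ e', (hL1.pow a').mul (hL2.pow e'), ?_, ?_⟩
      · rw [(hL1.pow a').natDegree_mul (hL2.pow e'), hL1.natDegree_pow, hL2.natDegree_pow,
          natDegree_X_sub_C, natDegree_X_sub_C, mul_one, mul_one, hm']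
      · rw [rstar_mul, rstar_pow, rstar_pow, hs1, hs2, hχ]
        have e1 : (X - C lam) ^ a' * (X - C (-lam)) ^ e' *
            ((X - C lam) ^ a' * (X - C (-lam)) ^ e') =
            (X - C lam) ^ (2 * a') * (X - C (-lam)) ^ (2 * e') := by ring
        rw [e1]
        exact mul_dvd_mul (pow_dvd_pow _ (by omega)) (pow_dvd_pow _ (by omega))
    · exfalso
      have ha1 : a % 2 = 1 := by omega
      have he1 : e % 2 = 1 := by omega
      have hn2 : n = 2 * m := by omega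
      have hv : padicValNat 2 (q + 1) ≤ padicValNat 2 n := by
        rcases hcond with h | h
        · omega
        · exact h
      have hlamq : lam ^ (q + 1) = 1 := by
        rw [pow_succ, ← hφq]
        exact hε
      have hc0 : A.charpoly.coeff 0 = (-lam) ^ a * lam ^ e := by
        rw [hχ, mul_coeff_zero, coeff0_pow, coeff0_pow, coeff_sub, coeff_sub, coeff_X_zero,
          coeff_C_zero, coeff_C_zero, zero_sub, zero_sub, neg_neg]
      have hdet' : lam ^ n = -1 := by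
        have h5 := det_eq A
        rw [hdet, hc0, (Nat.odd_iff.mpr ha1).neg_pow,
          (show Even n from ⟨m, by omega⟩).neg_one_pow, mul_one] at h5
        rw [hnae, pow_add]
        linear_combination h5
      exact two_adic lam q n hn.ne' h2K hlamq hdet' hv
  · obtain ⟨hs1, hs2, hL12⟩ := swap_facts φ hp2 lam hε
    have hχs' : (X - C (-lam)) ^ a * (X - C lam) ^ e =
        (X - C lam) ^ a * (X - C (-lam)) ^ e := by
      have h3 := hχs
      rw [hχ, rstar_mul, rstar_pow, rstar_pow, hs1, hs2] at h3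
      exact h3
    have hea : e ≤ a := by
      apply pow_le_of_dvd (X - C lam) ((X - C (-lam)) ^ e) (irreducible_X_sub_C lam)
        (lin_not_dvd_pow lam (-lam) hne e) e a
      rw [← hχs']
      exact Dvd.intro_left _ rfl
    have hae : a ≤ e := by
      apply pow_le_of_dvd (X - C (-lam)) ((X - C lam) ^ a) (irreducible_X_sub_C (-lam))
        (lin_not_dvd_pow (-lam) lam hne.symm a) a e
      rw [mul_comm ((X - C (-lam)) ^ e), ← hχs']
      exact Dvd.intro _ rfl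
    have hma : m ≤ a := by omega
    refine ⟨(X - C lam) ^ m, hL1.pow m, ?_, ?_⟩
    · rw [hL1.natDegree_pow, natDegree_X_sub_C, mul_one]
    · rw [rstar_pow, hs1, hχ]
      exact mul_dvd_mul (pow_dvd_pow _ hma) (pow_dvd_pow _ (by omega))

/-- Necessity for `r = 2`. -/
theorem two_necT (hK : Fintype.card K = q ^ 2) (φ : K →+* K) (hφq : ∀ x, φ x = x ^ q)
    (hφ : ∀ x, φ (φ x) = x) (l : K) (hl : φ l ≠ l) (hp2 : p ≠ 2) {n : ℕ} (hn : 3 ≤ n) (m : ℕ)
    (hmn : 2 * m ≤ n)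
    (H : ∀ A : Matrix (Fin n) (Fin n) K, adj φ A * A = 1 → A.det = 1 →
      (∃ z : K, A ^ 2 = z • (1 : Matrix (Fin n) (Fin n) K)) →
      (∀ z : K, A ≠ z • (1 : Matrix (Fin n) (Fin n) K)) → FixT φ A m) :
    2 * m < n ∨ padicValNat 2 (q + 1) ≤ padicValNat 2 n := by
  by_contra hcon
  have hn2 : n = 2 * m := by
    by_contra h
    exact hcon (Or.inl (by omega))
  have hvlt : padicValNat 2 n < padicValNat 2 (q + 1) := by
    by_contra h
    exact hcon (Or.inr (by omega))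
  have hp : p.Prime := Fact.out
  have hn0 : 0 < n := by omega
  have h2K := two_ne_zero' (K := K) hp2
  obtain ⟨v, hvdef⟩ : ∃ v, v = padicValNat 2 n := ⟨_, rfl⟩
  rw [← hvdef] at hvlt
  obtain ⟨ζ₀, hζ₀⟩ := exists_primitive hK
  have hdv : 2 ^ (v + 1) ∣ q + 1 :=
    (padicValNat_dvd_iff_le (by omega : q + 1 ≠ 0)).mpr (by omega)
  obtain ⟨lam, hlamdef⟩ : ∃ lam, lam = ζ₀ ^ ((q + 1) / 2 ^ (v + 1)) := ⟨_, rfl⟩
  have hlamprim : IsPrimitiveRoot lam (2 ^ (v + 1)) := by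
    rw [hlamdef]
    exact hζ₀.pow (Nat.succ_pos q) (Nat.div_mul_cancel hdv).symm
  have hlamq : lam ^ (q + 1) = 1 := by
    obtain ⟨t, ht⟩ := hdv
    rw [ht, pow_mul, hlamprim.pow_eq_one, one_pow]
  have hε : φ lam * lam = 1 := by
    rw [hφq, ← pow_succ]
    exact hlamq
  have hlam0 : lam ≠ 0 := right_ne_zero_of_mul_eq_one hε
  have hlamv : lam ^ (2 ^ v) = -1 := by
    have h1 : IsPrimitiveRoot (lam ^ (2 ^ v)) 2 :=
      hlamprim.pow (by positivity) (by rw [pow_succ])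
    exact h1.eq_neg_one_of_two_right
  have hdvn : 2 ^ v ∣ n := by
    rw [hvdef]
    exact pow_padicValNat_dvd
  obtain ⟨n', hn'⟩ := hdvn
  have hn'odd : Odd n' := by
    rw [← Nat.not_even_iff_odd]
    rintro ⟨t', ht'⟩
    have h4 : 2 ^ (v + 1) ∣ n := ⟨t', by rw [hn', ht']; ring⟩
    have h5 := (padicValNat_dvd_iff_le hn0.ne').mp h4
    omega
  have hlamn : lam ^ n = -1 := by
    rw [hn', pow_mul, hlamv, hn'odd.neg_one_pow]
  have hne : lam ≠ -lam := by
    intro h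
    have h5 : (2 : K) * lam = 0 := by linear_combination h
    rcases mul_eq_zero.mp h5 with h' | h'
    · exact h2K h'
    · exact hlam0 h'
  have hL1 : (X - C lam : K[X]).Monic := monic_X_sub_C lam
  have hL2 : (X - C (-lam) : K[X]).Monic := monic_X_sub_C (-lam)
  have hs1 : rstar φ (X - C lam) = X - C lam := by
    have h3 := rstar_X_pow_sub_C_fix φ 1 one_pos lam hε
    rwa [pow_one] at h3
  have hs2 : rstar φ (X - C (-lam)) = X - C (-lam) := by
    have h3 : φ (-lam) * (-lam) = 1 := by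
      rw [map_neg]
      linear_combination hε
    have h4 := rstar_X_pow_sub_C_fix φ 1 one_pos (-lam) h3
    rwa [pow_one] at h4
  obtain ⟨χ, hχdef⟩ : ∃ χ : K[X], χ = (X - C lam) ^ (n - 1) * (X - C (-lam)) ^ 1 := ⟨_, rfl⟩
  have hχm : χ.Monic := by
    rw [hχdef]
    exact (hL1.pow _).mul (hL2.pow _)
  have hχd : χ.natDegree = n := by
    rw [hχdef, (hL1.pow _).natDegree_mul (hL2.pow _), hL1.natDegree_pow, hL2.natDegree_pow,
      natDegree_X_sub_C, natDegree_X_sub_C, mul_one, mul_one]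
    omega
  have hχs : rstar φ χ = χ := by
    rw [hχdef, rstar_mul, rstar_pow, rstar_pow, hs1, hs2]
  have hχc : χ.coeff 0 = (-lam) ^ (n - 1) * lam := by
    rw [hχdef, mul_coeff_zero, coeff0_pow, coeff0_pow, coeff_sub, coeff_sub, coeff_X_zero,
      coeff_C_zero, coeff_C_zero, zero_sub, zero_sub, neg_neg, pow_one]
  have hχ0 : χ.coeff 0 ≠ 0 := by
    rw [hχc]
    exact mul_ne_zero (pow_ne_zero _ (neg_ne_zero.mpr hlam0)) hlam0
  have hfacχ : ∀ P : K[X], Irreducible P → P.Monic → P ∣ χ → P ∣ X ^ 2 - C (lam ^ 2) := by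
    intro P hPirr _ hPdvd
    have h2 : X ^ 2 - C (lam ^ 2) = (X - C lam) * (X - C (-lam)) := by
      rw [C_pow, C_neg]
      ring
    rw [h2]
    rw [hχdef] at hPdvd
    rcases hPirr.prime.dvd_or_dvd hPdvd with h | h
    · exact (hPirr.prime.dvd_of_dvd_pow h).trans (Dvd.intro _ rfl)
    · exact (hPirr.prime.dvd_of_dvd_pow h).trans (Dvd.intro_left _ rfl)
  obtain ⟨U, hU1, hU2, hU3⟩ := exists_elt hK hp φ hφ l hl χ hχm hχd hχ0 hχs 2 (lam ^ 2)
    (pow_ne_zero 2 hlam0) hfacχ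
  have hUdet : U.det = 1 := by
    have hodd : Odd (n - 1) := ⟨m - 1, by omega⟩
    have hev : Even n := ⟨m, by omega⟩
    rw [det_eq U, hU2, hχc, hodd.neg_pow, hev.neg_one_pow, mul_one, neg_mul, ← pow_succ,
      (by omega : n - 1 + 1 = n), hlamn, neg_neg]
  have hUns : ∀ w : K, U ≠ w • (1 : Matrix (Fin n) (Fin n) K) := by
    intro w hw
    have hann : aeval U (X - C w) = 0 := by
      rw [map_sub, aeval_X, aeval_C, Algebra.algebraMap_eq_smul_one, ← hw, sub_self]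
    have h1 : (X - C lam) ∣ U.charpoly := by
      rw [hU2, hχdef]
      exact (dvd_pow_self _ (by omega : n - 1 ≠ 0)).trans (Dvd.intro _ rfl)
    have h2 : (X - C (-lam)) ∣ U.charpoly := by
      rw [hU2, hχdef, pow_one]
      exact Dvd.intro_left _ rfl
    have h3 := eq_of_dvd_X_sub_C _ (irreducible_X_sub_C lam) hL1 w
      (dvd_ann U _ hann _ (irreducible_X_sub_C lam) hL1 h1)
    have h4 := eq_of_dvd_X_sub_C _ (irreducible_X_sub_C (-lam)) hL2 w
      (dvd_ann U _ hann _ (irreducible_X_sub_C (-lam)) hL2 h2)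
    exact lin_ne lam (-lam) hne (h3.trans h4.symm)
  have hfix := H U hU1 hUdet ⟨_, hU3⟩ hUns
  rw [fixT_iff hK φ hφ l hl hn0 U hU1 2 Nat.prime_two (Ne.symm hp2) _ hU3 m, hU2] at hfix
  obtain ⟨D, hDm, hDd, hDdvd⟩ := hfix
  have hDχ : D ∣ χ := (Dvd.intro _ rfl).trans hDdvd
  obtain ⟨a', e', hD⟩ := two_root_decomp lam (-lam) D hDm (by
    intro P hPirr hPm hPdvd
    exact lin_factor (lam ^ 2) lam rfl P hPirr hPm (hfacχ P hPirr hPm (hPdvd.trans hDχ)))
  have hDs : rstar φ D = D := by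
    rw [hD, rstar_mul, rstar_pow, rstar_pow, hs1, hs2]
  rw [hDs, hχdef, hD] at hDdvd
  have e1 : (X - C lam) ^ a' * (X - C (-lam)) ^ e' *
      ((X - C lam) ^ a' * (X - C (-lam)) ^ e') =
      (X - C lam) ^ (2 * a') * (X - C (-lam)) ^ (2 * e') := by ring
  rw [e1] at hDdvd
  obtain ⟨h5, h6⟩ := two_root_le lam (-lam) hne _ _ _ _ hDdvd
  have hm' : m = a' + e' := by
    rw [← hDd, hD, (hL1.pow _).natDegree_mul (hL2.pow _), hL1.natDegree_pow,
      hL2.natDegree_pow, natDegree_X_sub_C, natDegree_X_sub_C, mul_one, mul_one]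
  omega

/-- Sufficiency for `r` odd, `r ∣ q + 1`. -/
theorem odd_two_suffT (hK : Fintype.card K = q ^ 2) (φ : K →+* K) (hφq : ∀ x, φ x = x ^ q)
    (hφ : ∀ x, φ (φ x) = x) (l : K) (hl : φ l ≠ l) (r : ℕ) [Fact r.Prime] (hr2 : r ≠ 2)
    (hrp : r ≠ p) (hrq : r ∣ q + 1)
    (hfacS : ∀ P : K[X], Irreducible P → P.Monic → P ∣ X ^ r - C 1 → P ≠ X - C 1 →
      P.natDegree = 1)
    {n : ℕ} (hn : 0 < n) (m : ℕ) (hmn : r - 1 + 2 * m ≤ n)
    (hcond : r ∣ m ∨ padicValNat r n ≤ padicValNat r (q + 1))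
    (A : Matrix (Fin n) (Fin n) K) (hA : adj φ A * A = 1) (hdet : A.det = 1) (z : K)
    (hAz : A ^ r = z • (1 : Matrix (Fin n) (Fin n) K)) : FixT φ A m := by
  have hr : r.Prime := Fact.out
  have hz := scalar_unit φ hn A hA r z hAz
  have hz0 : z ≠ 0 := right_ne_zero_of_mul_eq_one hz
  have hzq : z ^ (q + 1) = 1 := by
    rw [pow_succ, ← hφq]
    exact hz
  by_cases hroot : ∃ lam : K, lam ^ r = z
  · obtain ⟨lam, hlam⟩ := hroot
    have hlamφ := norm_one_of_root hK φ hφq r hr hr2 hrq z lam hz hlam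
    exact root_suff hK φ hφ l hl r hr hrp 1 1 one_pos hfacS hn m (by omega)
      (by rw [Nat.mod_one, Nat.mod_one])
      (Or.inl ⟨rfl, by rw [Nat.div_one, Nat.div_one, Nat.div_one]; exact hmn⟩)
      A hA z hAz lam hlamφ hlam
  · rw [fixT_iff hK φ hφ l hl hn A hA r hr hrp z hAz m]
    have hχm := Matrix.charpoly_monic A
    have hχd : A.charpoly.natDegree = n := by
      rw [Matrix.charpoly_natDegree_eq_dim, Fintype.card_fin]
    obtain ⟨ζ₀, hζ₀⟩ := exists_primitive hK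
    have hroot' : ∀ b : K, b ^ r ≠ z := fun b hb => hroot ⟨b, hb⟩
    have hQirr : Irreducible (X ^ r - C z) := X_pow_sub_C_irreducible_of_prime hr hroot'
    have hQm : (X ^ r - C z).Monic := monic_X_pow_sub_C z hr.ne_zero
    have hQs : rstar φ (X ^ r - C z) = X ^ r - C z := rstar_X_pow_sub_C_fix φ r hr.pos z hz
    have hfac : ∀ P : K[X], Irreducible P → P.Monic → P ∣ A.charpoly → P = X ^ r - C z :=
      fun P hPirr hPm hPdvd =>
        eq_of_dvd_irr P _ hPirr hPm hQirr hQm (factor_dvd A r z hAz P hPirr hPm hPdvd)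
    obtain ⟨k, hχk⟩ := eq_pow_of_factors (X ^ r - C z) A.charpoly hχm hfac
    have hnk : n = k * r := by
      rw [← hχd, hχk, hQm.natDegree_pow, natDegree_X_pow_sub_C]
    by_cases hrm : r ∣ m
    · obtain ⟨m', hm'⟩ := hrm
      have h2m : 2 * m' ≤ k := by
        have h1 : (2 * m') * r ≤ k * r := by
          rw [← hnk]
          have h2 : 2 * m' * r = 2 * m := by rw [hm']; ring
          omega
        exact Nat.le_of_mul_le_mul_right h1 hr.pos
      refine ⟨(X ^ r - C z) ^ m', hQm.pow m', ?_, ?_⟩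
      · rw [hQm.natDegree_pow, natDegree_X_pow_sub_C, hm', mul_comm]
      · rw [rstar_pow, hQs, hχk, ← pow_add]
        exact pow_dvd_pow _ (by omega)
    · exfalso
      have hv : padicValNat r n ≤ padicValNat r (q + 1) := hcond.resolve_left hrm
      have hrodd : Odd r := hr.odd_of_ne_two hr2
      have hdet' : z ^ k = 1 := by
        have h5 := det_eq A
        rw [hdet, hχk, coeff0_pow, coeff_sub, coeff_X_pow, coeff_C_zero,
          if_neg hr.ne_zero.symm, zero_sub, hnk, mul_comm k r, pow_mul, hrodd.neg_one_pow,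
          ← mul_pow, neg_mul_neg, mul_one] at h5
        exact h5.symm
      have hk0 : k ≠ 0 := by
        rintro rfl
        rw [zero_mul] at hnk
        omega
      have hv' : padicValNat r k < padicValNat r (q + 1) := by
        have h6 : padicValNat r n = padicValNat r k + 1 := by
          rw [hnk, padicValNat.mul hk0 hr.ne_zero, padicValNat_self]
        omega
      have h7 := pow_div_eq_one r z k (q + 1) hk0 (Nat.succ_ne_zero q) hdet' hzq hv'
      have hgcd : Nat.gcd r (q + 1) = r := Nat.gcd_eq_left hrq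
      obtain ⟨a, -, ha⟩ := exists_nth_root_of (n := r) ζ₀ hζ₀ z hzq (by rw [hgcd]; exact h7)
      exact hroot' a ha.symm

/-- Necessity of the second condition for `r` odd, `r ∣ q + 1`. -/
theorem odd_two_necT (hK : Fintype.card K = q ^ 2) (φ : K →+* K) (hφq : ∀ x, φ x = x ^ q)
    (hφ : ∀ x, φ (φ x) = x) (l : K) (hl : φ l ≠ l) (r : ℕ) [Fact r.Prime] (hr2 : r ≠ 2)
    (hrp : r ≠ p) (hrq : r ∣ q + 1) {n : ℕ} (hn : 0 < n) (m : ℕ)
    (H : ∀ A : Matrix (Fin n) (Fin n) K, adj φ A * A = 1 → A.det = 1 →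
      (∃ z : K, A ^ r = z • (1 : Matrix (Fin n) (Fin n) K)) →
      (∀ z : K, A ≠ z • (1 : Matrix (Fin n) (Fin n) K)) → FixT φ A m) :
    r ∣ m ∨ padicValNat r n ≤ padicValNat r (q + 1) := by
  have hr : r.Prime := Fact.out
  have hp : p.Prime := Fact.out
  by_contra hcon
  have hrm : ¬ r ∣ m := fun h => hcon (Or.inl h)
  have hvlt : padicValNat r (q + 1) < padicValNat r n := by
    by_contra h
    exact hcon (Or.inr (by omega))
  obtain ⟨v, hvdef⟩ : ∃ v, v = padicValNat r (q + 1) := ⟨_, rfl⟩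
  rw [← hvdef] at hvlt
  have hq := two_le_q hK
  obtain ⟨ζ₀, hζ₀⟩ := exists_primitive hK
  have hdv : r ^ v ∣ q + 1 := by
    rw [hvdef]
    exact pow_padicValNat_dvd
  obtain ⟨z, hzdef⟩ : ∃ z, z = ζ₀ ^ ((q + 1) / r ^ v) := ⟨_, rfl⟩
  have hzprim : IsPrimitiveRoot z (r ^ v) := by
    rw [hzdef]
    exact hζ₀.pow (Nat.succ_pos q) (Nat.div_mul_cancel hdv).symm
  have hzq : z ^ (q + 1) = 1 := by
    obtain ⟨t, ht⟩ := hdv
    rw [ht, pow_mul, hzprim.pow_eq_one, one_pow]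
  have hz1 : φ z * z = 1 := by
    rw [hφq, ← pow_succ]
    exact hzq
  have hz0 : z ≠ 0 := right_ne_zero_of_mul_eq_one hz1
  have h1 : r ^ (v + 1) ∣ n := by
    rw [padicValNat_dvd_iff_le hn.ne']
    omega
  obtain ⟨k, hk⟩ : ∃ k, n = k * r := by
    obtain ⟨t, ht⟩ := h1
    exact ⟨r ^ v * t, by rw [ht]; ring⟩
  have hzk : z ^ k = 1 := by
    have h2 : r ^ v ∣ k := by
      obtain ⟨t, ht⟩ := h1
      refine ⟨t, ?_⟩
      have h3 : k * r = r ^ v * t * r := by
        rw [← hk, ht]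
        ring
      exact Nat.eq_of_mul_eq_mul_right hr.pos h3
    obtain ⟨t, ht⟩ := h2
    rw [ht, pow_mul, hzprim.pow_eq_one, one_pow]
  have hroot' : ∀ b : K, b ^ r ≠ z := by
    intro b hb
    have hbφ := norm_one_of_root hK φ hφq r hr hr2 hrq z b hz1 hb
    have hbq : b ^ (q + 1) = 1 := by
      rw [pow_succ, ← hφq]
      exact hbφ
    have h4 : z ^ ((q + 1) / r) = 1 := by
      rw [← hb, ← pow_mul, Nat.mul_div_cancel' hrq]
      exact hbq
    have h5 := hzprim.dvd_of_pow_eq_one _ h4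
    have h6 : r ^ (v + 1) ∣ q + 1 := by
      obtain ⟨t, ht⟩ := h5
      refine ⟨t, ?_⟩
      have h7 : q + 1 = r * ((q + 1) / r) := (Nat.mul_div_cancel' hrq).symm
      rw [h7, ht]
      ring
    have h7 : v + 1 ≤ padicValNat r (q + 1) :=
      (padicValNat_dvd_iff_le (Nat.succ_ne_zero q)).mp h6
    rw [← hvdef] at h7
    omega
  have hQirr : Irreducible (X ^ r - C z) := X_pow_sub_C_irreducible_of_prime hr hroot'
  have hQm : (X ^ r - C z).Monic := monic_X_pow_sub_C z hr.ne_zero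
  have hQs : rstar φ (X ^ r - C z) = X ^ r - C z := rstar_X_pow_sub_C_fix φ r hr.pos z hz1
  obtain ⟨χ, hχdef⟩ : ∃ χ : K[X], χ = (X ^ r - C z) ^ k := ⟨_, rfl⟩
  have hχm : χ.Monic := by
    rw [hχdef]
    exact hQm.pow k
  have hχd : χ.natDegree = n := by
    rw [hχdef, hQm.natDegree_pow, natDegree_X_pow_sub_C, hk]
  have hχs : rstar φ χ = χ := by rw [hχdef, rstar_pow, hQs]
  have hχc : χ.coeff 0 = (-z) ^ k := by
    rw [hχdef, coeff0_pow, coeff_sub, coeff_X_pow, coeff_C_zero, if_neg hr.ne_zero.symm,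
      zero_sub]
  have hχ0 : χ.coeff 0 ≠ 0 := by
    rw [hχc]
    exact pow_ne_zero k (neg_ne_zero.mpr hz0)
  have hfacχ : ∀ P : K[X], Irreducible P → P.Monic → P ∣ χ → P ∣ X ^ r - C z := by
    intro P hPirr _ hPdvd
    rw [hχdef] at hPdvd
    exact hPirr.prime.dvd_of_dvd_pow hPdvd
  obtain ⟨U, hU1, hU2, hU3⟩ := exists_elt hK hp φ hφ l hl χ hχm hχd hχ0 hχs r z hz0 hfacχ
  have hrodd : Odd r := hr.odd_of_ne_two hr2
  have hUdet : U.det = 1 := by
    rw [det_eq U, hU2, hχc, hk, mul_comm k r, pow_mul, hrodd.neg_one_pow, ← mul_pow,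
      neg_mul_neg, mul_one, hzk]
  have hUns : ∀ w : K, U ≠ w • (1 : Matrix (Fin n) (Fin n) K) := by
    intro w hw
    have h3 := hU3
    rw [hw, _root_.smul_pow, one_pow] at h3
    have h4 := congrFun (congrFun h3 ⟨0, hn⟩) ⟨0, hn⟩
    rw [Matrix.smul_apply, Matrix.smul_apply, Matrix.one_apply_eq, smul_eq_mul, smul_eq_mul,
      mul_one, mul_one] at h4
    exact hroot' w h4
  have hfix := H U hU1 hUdet ⟨z, hU3⟩ hUns
  rw [fixT_iff hK φ hφ l hl hn U hU1 r hr hrp z hU3 m, hU2] at hfix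
  obtain ⟨D, hDm, hDd, hDdvd⟩ := hfix
  have hDχ : D ∣ χ := (Dvd.intro _ rfl).trans hDdvd
  obtain ⟨f, hf⟩ := eq_pow_of_factors (X ^ r - C z) D hDm (fun P hPirr hPm hPdvd =>
    eq_of_dvd_irr P _ hPirr hPm hQirr hQm (hfacχ P hPirr hPm (hPdvd.trans hDχ)))
  apply hrm
  refine ⟨f, ?_⟩
  rw [← hDd, hf, hQm.natDegree_pow, natDegree_X_pow_sub_C, mul_comm]

/-- A test element whose characteristic polynomial is `(X - 1)^a * E`, with `E` squarefree with
self-dual irreducible factors. -/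
theorem sd_test (hK : Fintype.card K = q ^ 2) (φ : K →+* K)
    (hφ : ∀ x, φ (φ x) = x) (l : K) (hl : φ l ≠ l) (r : ℕ) (hr : r.Prime) (hrp : r ≠ p)
    {n : ℕ} (hn : 0 < n) (E : K[X]) (hEm : E.Monic) (hEr : E ∣ X ^ r - C 1)
    (hE1 : ¬ (X - C 1) ∣ E)
    (hEs : ∀ P : K[X], Irreducible P → P.Monic → P ∣ E → rstar φ P = P) (a : ℕ)
    (hna : n = a + E.natDegree) (hE2 : 2 ≤ E.natDegree) :
    ∃ U : Matrix (Fin n) (Fin n) K, adj φ U * U = 1 ∧
      U ^ r = (1 : K) • (1 : Matrix (Fin n) (Fin n) K) ∧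
      U.charpoly = (X - C 1) ^ a * E ∧ (∀ w : K, U ≠ w • (1 : Matrix (Fin n) (Fin n) K)) ∧
      ∀ m, FixT φ U m → 2 * m ≤ a := by
  have hp : p.Prime := Fact.out
  have hr0 : (r : K) ≠ 0 := by
    rw [Ne, CharP.cast_eq_zero_iff K p]
    intro h
    exact hrp ((Nat.prime_dvd_prime_iff_eq hp hr).mp h).symm
  have hsqX : Squarefree (X ^ r - C (1 : K)) :=
    (separable_X_pow_sub_C 1 hr0 one_ne_zero).squarefree
  have hEsq : Squarefree E := Squarefree.squarefree_of_dvd hEr hsqX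
  have hLm : (X - C (1 : K)).Monic := monic_X_sub_C 1
  have hXr0 : (X ^ r - C (1 : K)).coeff 0 ≠ 0 := by
    rw [coeff_sub, coeff_X_pow, coeff_C_zero, if_neg hr.ne_zero.symm, zero_sub]
    exact neg_ne_zero.mpr one_ne_zero
  have hE0 : E.coeff 0 ≠ 0 := coeff0_of_dvd hEr hXr0
  have hEself : rstar φ E = E := rstar_of_factors φ E hEm hEs
  obtain ⟨χ, hχdef⟩ : ∃ χ : K[X], χ = (X - C 1) ^ a * E := ⟨_, rfl⟩
  have hχm : χ.Monic := by
    rw [hχdef]
    exact (hLm.pow _).mul hEm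
  have hχd : χ.natDegree = n := by
    rw [hχdef, (hLm.pow _).natDegree_mul hEm, hLm.natDegree_pow, natDegree_X_sub_C, mul_one,
      hna]
  have hχs : rstar φ χ = χ := by
    rw [hχdef, rstar_mul, rstar_pow, rstar_X_sub_one, hEself]
  have hχ0 : χ.coeff 0 ≠ 0 := by
    rw [hχdef, mul_coeff_zero, coeff0_pow]
    apply mul_ne_zero
    · apply pow_ne_zero
      rw [coeff_sub, coeff_X_zero, coeff_C_zero, zero_sub]
      exact neg_ne_zero.mpr one_ne_zero
    · exact hE0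
  have hfacχ : ∀ P : K[X], Irreducible P → P.Monic → P ∣ χ → P ∣ X ^ r - C 1 := by
    intro P hPirr hPm hPdvd
    rw [hχdef] at hPdvd
    rcases hPirr.prime.dvd_or_dvd hPdvd with h | h
    · exact (hPirr.prime.dvd_of_dvd_pow h).trans (X_sub_one_dvd r)
    · exact h.trans hEr
  obtain ⟨U, hU1, hU2, hU3⟩ :=
    exists_elt hK hp φ hφ l hl χ hχm hχd hχ0 hχs r 1 one_ne_zero hfacχ
  refine ⟨U, hU1, hU3, by rw [hU2, hχdef], ?_, ?_⟩
  · intro w hw
    have hann : aeval U (X - C w) = 0 := by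
      rw [map_sub, aeval_X, aeval_C, Algebra.algebraMap_eq_smul_one, ← hw, sub_self]
    obtain ⟨f, hf⟩ := eq_pow_of_factors (X - C w) E hEm (fun P hPirr hPm hPdvd =>
      eq_of_dvd_X_sub_C P hPirr hPm w (dvd_ann U _ hann P hPirr hPm
        (by rw [hU2, hχdef]; exact hPdvd.trans (Dvd.intro_left _ rfl))))
    have hf2 : 2 ≤ f := by
      rw [hf, (monic_X_sub_C w).natDegree_pow, natDegree_X_sub_C, mul_one] at hE2
      exact hE2
    have h1 : (X - C w) * (X - C w) ∣ E := by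
      rw [hf, ← sq]
      exact pow_dvd_pow _ hf2
    exact (irreducible_X_sub_C w).not_isUnit (hEsq _ h1)
  · intro m hfix
    rw [fixT_iff hK φ hφ l hl hn U hU1 r hr hrp 1 hU3 m, hU2] at hfix
    obtain ⟨D, hDm, hDd, hDdvd⟩ := hfix
    obtain ⟨a', D₂, hD₂m, hdeg, ha', hD₂⟩ := split_one φ hφ a E χ hχdef hE1 hχ0 D hDm hDdvd
    obtain ⟨f, hf⟩ := sd_core φ 1 E
      (fun P hPirr _ hPP => absurd (hEsq P hPP) hPirr.not_isUnit)
      hEs D₂ hD₂m hD₂
    rw [one_pow] at hf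
    rw [hf, natDegree_one, add_zero] at hdeg
    omega

/-- Test elements built from divisors of the cyclotomic part of `X^r - 1`, in the case where
all its irreducible factors are self-dual. -/
theorem sd_elts (hK : Fintype.card K = q ^ 2) (φ : K →+* K)
    (hφ : ∀ x, φ (φ x) = x) (l : K) (hl : φ l ≠ l) (r : ℕ) (hr : r.Prime) (hrp : r ≠ p)
    (b : ℕ)
    (hfacS : ∀ P : K[X], Irreducible P → P.Monic → P ∣ X ^ r - C 1 → P ≠ X - C 1 →
      P.natDegree = b ∧ rstar φ P = P)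
    {n : ℕ} (hn : 0 < n) (Φ : K[X]) (hΦ : X ^ r - C 1 = (X - C 1) * Φ) :
    ∃ j, r - 1 = j * b ∧ ∀ τ ≤ j, τ * b ≤ n → 2 ≤ τ * b →
      ∃ (E : K[X]) (U : Matrix (Fin n) (Fin n) K), (τ = j → E = Φ) ∧
        adj φ U * U = 1 ∧ U ^ r = (1 : K) • (1 : Matrix (Fin n) (Fin n) K) ∧
        U.charpoly = (X - C 1) ^ (n - τ * b) * E ∧
        (∀ w : K, U ≠ w • (1 : Matrix (Fin n) (Fin n) K)) ∧
        ∀ m, FixT φ U m → 2 * m ≤ n - τ * b := by
  have hp : p.Prime := Fact.out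
  have hr0 : (r : K) ≠ 0 := by
    rw [Ne, CharP.cast_eq_zero_iff K p]
    intro h
    exact hrp ((Nat.prime_dvd_prime_iff_eq hp hr).mp h).symm
  have hsqX : Squarefree (X ^ r - C (1 : K)) :=
    (separable_X_pow_sub_C 1 hr0 one_ne_zero).squarefree
  have hLm : (X - C (1 : K)).Monic := monic_X_sub_C 1
  have hXm : (X ^ r - C (1 : K)).Monic := monic_X_pow_sub_C 1 hr.ne_zero
  have hΦm : Φ.Monic := by
    apply hLm.of_mul_monic_left
    rw [← hΦ]
    exact hXm
  have hΦd : Φ.natDegree = r - 1 := by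
    have h1 : (X ^ r - C (1 : K)).natDegree = r := natDegree_X_pow_sub_C
    rw [hΦ, hLm.natDegree_mul hΦm, natDegree_X_sub_C] at h1
    omega
  have hΦr : Φ ∣ X ^ r - C 1 := Dvd.intro_left _ hΦ.symm
  have hΦ1 : ¬ (X - C 1) ∣ Φ := by
    intro h
    have h1 : (X - C (1 : K)) * (X - C 1) ∣ X ^ r - C 1 := by
      rw [hΦ]
      exact mul_dvd_mul_left _ h
    exact (irreducible_X_sub_C (1 : K)).not_isUnit (hsqX _ h1)
  have hΦf : ∀ P : K[X], Irreducible P → P.Monic → P ∣ Φ →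
      P.natDegree = b ∧ rstar φ P = P := by
    intro P hPirr hPm hPdvd
    exact hfacS P hPirr hPm (hPdvd.trans hΦr) (by rintro rfl; exact hΦ1 hPdvd)
  obtain ⟨j, hj, hjD⟩ := chainD b Φ hΦm (fun P hPirr hPm hPdvd => (hΦf P hPirr hPm hPdvd).1)
  refine ⟨j, by rw [← hΦd, hj], ?_⟩
  intro τ hτ hτn hτ2
  obtain ⟨E, hEm, hEΦ, hEd⟩ := hjD τ hτ
  obtain ⟨U, hU1, hU2, hU3, hU4, hU5⟩ := sd_test hK φ hφ l hl r hr hrp hn E hEm
    (hEΦ.trans hΦr) (fun h => hΦ1 (h.trans hEΦ))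
    (fun P hPirr hPm hPdvd => (hΦf P hPirr hPm (hPdvd.trans hEΦ)).2) (n - τ * b)
    (by rw [hEd]; omega) (by rw [hEd]; exact hτ2)
  refine ⟨E, U, ?_, hU1, hU2, hU3, hU4, hU5⟩
  intro hτj
  exact (eq_of_monic_of_dvd_of_natDegree_le hEm hΦm hEΦ (by rw [hEd, hj, hτj])).symm

/-- Necessity of `k ≥ 2ℓ` for `r` odd, `r ∤ q + 1`. -/
theorem nec_one (hK : Fintype.card K = q ^ 2) (φ : K →+* K) (hφq : ∀ x, φ x = x ^ q)
    (hφ : ∀ x, φ (φ x) = x) (l : K) (hl : φ l ≠ l) (r : ℕ) (hr : r.Prime) (hrp : r ≠ p)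
    (hrq : ¬ r ∣ q + 1) (b c : ℕ) (hcb : c ≤ 2 * b)
    (hfacS : ∀ P : K[X], Irreducible P → P.Monic → P ∣ X ^ r - C 1 → P ≠ X - C 1 →
      P.natDegree = b)
    (Q : K[X]) (hQm : Q.Monic) (hQs : rstar φ Q = Q) (hQd : Q.natDegree = c)
    (hQ0 : Q.coeff 0 ≠ 0) (hQ1 : ¬ (X - C 1) ∣ Q)
    (hQf : ∀ P : K[X], Irreducible P → P.Monic → P ∣ Q → P ∣ X ^ r - C 1)
    (hQns : ∀ w : K, ∃ P : K[X], Irreducible P ∧ P.Monic ∧ P ∣ Q ∧ P ≠ X - C w)
    {n : ℕ} (hn : 0 < n) (m : ℕ) (hc0 : 0 < c) (hcn : c ≤ n)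
    (H : ∀ A : Matrix (Fin n) (Fin n) K, adj φ A * A = 1 → A.det = 1 →
      (∃ z : K, A ^ r = z • (1 : Matrix (Fin n) (Fin n) K)) →
      (∀ z : K, A ≠ z • (1 : Matrix (Fin n) (Fin n) K)) → FixT φ A m) :
    2 * (m % b) ≤ n % c := by
  have hp : p.Prime := Fact.out
  have hLm : (X - C (1 : K)).Monic := monic_X_sub_C 1
  obtain ⟨χ, hχdef⟩ : ∃ χ : K[X], χ = (X - C 1) ^ (n % c) * Q ^ (n / c) := ⟨_, rfl⟩
  have hχm : χ.Monic := by
    rw [hχdef]
    exact (hLm.pow _).mul (hQm.pow _)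
  have hχd : χ.natDegree = n := by
    rw [hχdef, (hLm.pow _).natDegree_mul (hQm.pow _), hLm.natDegree_pow, hQm.natDegree_pow,
      natDegree_X_sub_C, hQd, mul_one]
    exact Nat.mod_add_div' n c
  have hχs : rstar φ χ = χ := by
    rw [hχdef, rstar_mul, rstar_pow, rstar_pow, rstar_X_sub_one, hQs]
  have hχ0 : χ.coeff 0 ≠ 0 := by
    rw [hχdef, mul_coeff_zero, coeff0_pow, coeff0_pow]
    apply mul_ne_zero
    · apply pow_ne_zero
      rw [coeff_sub, coeff_X_zero, coeff_C_zero, zero_sub]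
      exact neg_ne_zero.mpr one_ne_zero
    · exact pow_ne_zero _ hQ0
  have hfacχ : ∀ P : K[X], Irreducible P → P.Monic → P ∣ χ → P ∣ X ^ r - C 1 := by
    intro P hPirr hPm hPdvd
    rw [hχdef] at hPdvd
    rcases hPirr.prime.dvd_or_dvd hPdvd with h | h
    · exact (hPirr.prime.dvd_of_dvd_pow h).trans (X_sub_one_dvd r)
    · exact hQf P hPirr hPm (hPirr.prime.dvd_of_dvd_pow h)
  obtain ⟨U, hU1, hU2, hU3⟩ :=
    exists_elt hK hp φ hφ l hl χ hχm hχd hχ0 hχs r 1 one_ne_zero hfacχ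
  have hUdet : U.det = 1 := det_one_of_not_dvd φ hφq U hU1 r hr hrq hU3
  have hn0 : n / c ≠ 0 := by
    have : 0 < n / c := Nat.div_pos hcn hc0
    omega
  have hUns : ∀ w : K, U ≠ w • (1 : Matrix (Fin n) (Fin n) K) := by
    intro w hw
    obtain ⟨P, hPirr, hPm, hPdvd, hPne⟩ := hQns w
    have h1 : P ∣ U.charpoly := by
      rw [hU2, hχdef]
      exact (hPdvd.trans (dvd_pow_self Q hn0)).trans (dvd_mul_left _ _)
    have h2 : P ∣ X - C w := by
      apply dvd_ann U _ _ P hPirr hPm h1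
      rw [map_sub, aeval_X, aeval_C, Algebra.algebraMap_eq_smul_one, ← hw, sub_self]
    exact hPne (eq_of_dvd_X_sub_C P hPirr hPm w h2)
  have hfix := H U hU1 hUdet ⟨1, hU3⟩ hUns
  rw [fixT_iff hK φ hφ l hl hn U hU1 r hr hrp 1 hU3 m, hU2] at hfix
  obtain ⟨D, hDm, hDd, hDdvd⟩ := hfix
  have hE1 : ¬ (X - C (1 : K)) ∣ Q ^ (n / c) :=
    fun h => hQ1 ((irreducible_X_sub_C (1 : K)).prime.dvd_of_dvd_pow h)
  obtain ⟨a', D₂, hD₂m, hdeg, ha', hD₂⟩ :=
    split_one φ hφ (n % c) (Q ^ (n / c)) χ hχdef hE1 hχ0 D hDm hDdvd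
  obtain ⟨t, ht, -⟩ := chainD b D₂ hD₂m (by
    intro P hPirr hPm hPdvd
    have h1 : P ∣ Q := hPirr.prime.dvd_of_dvd_pow ((hPdvd.trans (Dvd.intro _ rfl)).trans hD₂)
    exact hfacS P hPirr hPm (hQf P hPirr hPm h1) (by rintro rfl; exact hQ1 h1))
  have hm' : m = a' + t * b := by rw [← hDd, hdeg, ht]
  have h8 : n % c < c := Nat.mod_lt n hc0
  rw [hm', Nat.add_mul_mod_self_right, Nat.mod_eq_of_lt (by omega)]
  exact ha'

/-- Necessity of `n' - 2m' ≥ s` for `i ≡ 2 (mod 4)`, `i ≠ 2`. -/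
theorem nec_sd_ne (hK : Fintype.card K = q ^ 2) (φ : K →+* K) (hφq : ∀ x, φ x = x ^ q)
    (hφ : ∀ x, φ (φ x) = x) (l : K) (hl : φ l ≠ l) (r : ℕ) (hr : r.Prime) (hrp : r ≠ p)
    (hrq : ¬ r ∣ q + 1) (hr3 : 2 < r) (b : ℕ) (hb : 2 ≤ b)
    (hfacS : ∀ P : K[X], Irreducible P → P.Monic → P ∣ X ^ r - C 1 → P ≠ X - C 1 →
      P.natDegree = b ∧ rstar φ P = P)
    {n : ℕ} (hn : 0 < n) (m : ℕ) (hbn : b ≤ n) (hnm : n % b < 2 * m)
    (H : ∀ A : Matrix (Fin n) (Fin n) K, adj φ A * A = 1 → A.det = 1 →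
      (∃ z : K, A ^ r = z • (1 : Matrix (Fin n) (Fin n) K)) →
      (∀ z : K, A ≠ z • (1 : Matrix (Fin n) (Fin n) K)) → FixT φ A m) :
    (r - 1) / b + 2 * (m / b) ≤ n / b := by
  obtain ⟨Φ, hΦ⟩ := X_sub_one_dvd (K := K) r
  obtain ⟨j, hj, hU⟩ := sd_elts hK φ hφ l hl r hr hrp b hfacS hn Φ hΦ
  have hb0 : 0 < b := by omega
  have hs : (r - 1) / b = j := Nat.div_eq_of_eq_mul_left hb0 hj
  have hj1 : 1 ≤ j := by
    rcases Nat.eq_zero_or_pos j with h | h
    · rw [h, zero_mul] at hj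
      omega
    · exact h
  have hnb1 : 1 ≤ n / b := (Nat.le_div_iff_mul_le hb0).mpr (by omega)
  have hdm := Nat.div_add_mod' n b
  rw [hs]
  by_cases hle : n / b ≤ j
  · exfalso
    have h0 : b ≤ n / b * b := Nat.le_mul_of_pos_left b (by omega)
    obtain ⟨E, U, -, hU1, hU2, -, hU4, hU5⟩ := hU (n / b) hle (by omega) (by omega)
    have hdet := det_one_of_not_dvd φ hφq U hU1 r hr hrq hU2
    have h1 := hU5 m (H U hU1 hdet ⟨1, hU2⟩ hU4)
    omega
  · have h0 : j * b ≤ n / b * b := Nat.mul_le_mul_right b (by omega)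
    have h0' : b ≤ j * b := Nat.le_mul_of_pos_left b (by omega)
    obtain ⟨E, U, -, hU1, hU2, -, hU4, hU5⟩ := hU j le_rfl (by omega) (by omega)
    have hdet := det_one_of_not_dvd φ hφq U hU1 r hr hrq hU2
    have h1 := hU5 m (H U hU1 hdet ⟨1, hU2⟩ hU4)
    rw [Nat.le_div_iff_mul_le hb0]
    have h2 : (j + 2 * (m / b)) * b = j * b + 2 * (m / b * b) := by ring
    have h3 := Nat.div_add_mod' m b
    omega

/-- Necessity of `n - 2m ≥ r - 1` for `r` odd, `r ∣ q + 1`. -/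
theorem nec_sd_two (hK : Fintype.card K = q ^ 2) (φ : K →+* K) (hφq : ∀ x, φ x = x ^ q)
    (hφ : ∀ x, φ (φ x) = x) (l : K) (hl : φ l ≠ l) (r : ℕ) (hr : r.Prime) (hrp : r ≠ p)
    (hr3 : 2 < r)
    (hfacS : ∀ P : K[X], Irreducible P → P.Monic → P ∣ X ^ r - C 1 → P ≠ X - C 1 →
      P.natDegree = 1 ∧ rstar φ P = P)
    {n : ℕ} (hn : 3 ≤ n) (m : ℕ) (hm : 1 ≤ m)
    (H : ∀ A : Matrix (Fin n) (Fin n) K, adj φ A * A = 1 → A.det = 1 →
      (∃ z : K, A ^ r = z • (1 : Matrix (Fin n) (Fin n) K)) →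
      (∀ z : K, A ≠ z • (1 : Matrix (Fin n) (Fin n) K)) → FixT φ A m) :
    r - 1 + 2 * m ≤ n := by
  have hn0 : 0 < n := by omega
  obtain ⟨Φ, hΦ⟩ := X_sub_one_dvd (K := K) r
  obtain ⟨j, hj, hU⟩ := sd_elts hK φ hφ l hl r hr hrp 1 hfacS hn0 Φ hΦ
  rw [mul_one] at hj
  have hrodd : r % 2 = 1 := by
    rcases hr.eq_two_or_odd with h | h
    · omega
    · exact h
  by_cases hrn : r ∣ n
  · have hrn' : r ≤ n := Nat.le_of_dvd hn0 hrn
    obtain ⟨E, U, hEΦ, hU1, hU2, hU3, hU4, hU5⟩ := hU j le_rfl (by omega) (by omega)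
    have hΦ0 : Φ.coeff 0 = 1 := by
      have h1 := congrArg (fun P : K[X] => P.coeff 0) hΦ
      simp only [coeff_sub, coeff_X_pow, coeff_C_zero, mul_coeff_zero, coeff_X_zero] at h1
      rw [if_neg hr.ne_zero.symm] at h1
      linear_combination h1
    have hdet : U.det = 1 := by
      rw [det_eq U, hU3, hEΦ rfl, mul_coeff_zero, coeff0_pow, coeff_sub, coeff_X_zero,
        coeff_C_zero, zero_sub, hΦ0, mul_one, ← pow_add]
      exact Even.neg_one_pow ⟨n - j / 2, by omega⟩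
    have h1 := hU5 m (H U hU1 hdet ⟨1, hU2⟩ hU4)
    omega
  · have key : ∀ U : Matrix (Fin n) (Fin n) K, adj φ U * U = 1 →
        U ^ r = (1 : K) • (1 : Matrix (Fin n) (Fin n) K) →
        (∀ w : K, U ≠ w • (1 : Matrix (Fin n) (Fin n) K)) → FixT φ U m := by
      intro U hU1 hU2 hU4
      obtain ⟨hδr, hδq⟩ := det_facts φ hφq U hU1 r hU2
      have hcop : Nat.Coprime n r :=
        Nat.Coprime.symm ((Nat.Prime.coprime_iff_not_dvd hr).mpr hrn)
      obtain ⟨u, -, hu⟩ := Nat.exists_mul_mod_eq_one_of_coprime hcop hr.one_lt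
      apply fix_of_root φ m r H U hU1 1 hU2 hU4 (U.det ^ u)
      · rw [hφq, ← pow_succ, ← pow_mul, mul_comm, pow_mul, hδq, one_pow]
      · rw [← pow_mul, mul_comm]
        have h1 : n * u = r * (n * u / r) + 1 := by
          have h2 := Nat.div_add_mod (n * u) r
          omega
        rw [h1, pow_succ, pow_mul, hδr, one_pow, one_mul]
    by_cases hle : n ≤ j
    · exfalso
      obtain ⟨E, U, -, hU1, hU2, -, hU4, hU5⟩ := hU n hle (by omega) (by omega)
      have h1 := hU5 m (key U hU1 hU2 hU4)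
      omega
    · obtain ⟨E, U, -, hU1, hU2, -, hU4, hU5⟩ := hU j le_rfl (by omega) (by omega)
      have h1 := hU5 m (key U hU1 hU2 hU4)
      omega

/-- The matrix form of the elusivity criterion for totally isotropic `m`-spaces of the unitary
group. -/
theorem main (hK : Fintype.card K = q ^ 2) (φ : K →+* K) (hφq : ∀ x, φ x = x ^ q)
    (hφ : ∀ x, φ (φ x) = x) (l : K) (hl : φ l ≠ l) (n m : ℕ) (hn : 3 ≤ n) (hm : 1 ≤ m)
    (hmn : 2 * m ≤ n) (r : ℕ) [Fact r.Prime]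
    (hrΩ : ∃ j < m, r ∣ Cfsg.Agent.Lib.Helper5.HermCount.A q (n - 2 * j) (0 : K) - 1)
    (i b c : ℕ) (hi : i = orderOf (q : ZMod r)) (hb : b = if Even i then i / 2 else i)
    (hc : c = if i % 4 = 0 then i else if i % 4 = 2 then i / 2 else 2 * i) :
    (∀ A : Matrix (Fin n) (Fin n) K, adj φ A * A = 1 → A.det = 1 →
      (∃ z : K, A ^ r = z • (1 : Matrix (Fin n) (Fin n) K)) →
      (∀ z : K, A ≠ z • (1 : Matrix (Fin n) (Fin n) K)) → FixT φ A m) ↔
    ((r = 2 ∧ p ≠ 2 ∧ (2 * m < n ∨ padicValNat 2 (q + 1) ≤ padicValNat 2 n)) ∨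
     (r ≠ p ∧ 2 < r ∧ b ≤ m ∧ 2 * (m % b) ≤ n % c ∧
       (i % 4 ≠ 2 ∨ (i % 4 = 2 ∧ (r - 1) / b + 2 * (m / b) ≤ n / b ∧
         (2 < i ∨ (i = 2 ∧ (r ∣ m ∨ padicValNat r n ≤ padicValNat r (q + 1)))))))) := by
  have hp : p.Prime := Fact.out
  have hr : r.Prime := Fact.out
  have hn0 : 0 < n := by omega
  have hq := two_le_q hK
  obtain ⟨j, hj, hjd⟩ := hrΩ
  have hrq : ¬ r ∣ q := fun h =>
    Cfsg.Agent.Lib.Helper40.TCount.iz_not_dvd hK (n - 2 * j) (by omega) r hr h hjd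
  have hpq : p ∣ q := by
    obtain ⟨f, -, hf⟩ := FiniteField.card K p
    have h1 : p ∣ q ^ 2 := by
      rw [← hK, hf]
      exact dvd_pow_self p (PNat.ne_zero f)
    exact hp.dvd_of_dvd_pow h1
  have hrp : r ≠ p := fun h => hrq (h ▸ hpq)
  by_cases hr2 : r = 2
  · have hp2 : p ≠ 2 := fun h => hrp (hr2.trans h.symm)
    constructor
    · intro H
      left
      rw [hr2] at H
      exact ⟨hr2, hp2, two_necT hK φ hφq hφ l hl hp2 hn m hmn H⟩
    · rintro (⟨-, -, hcond⟩ | ⟨-, h, -⟩)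
      · intro A hA hdet ⟨z, hz⟩ _
        rw [hr2] at hz
        exact two_suffT hK φ hφq hφ l hl hp2 hn0 m hmn hcond A hA hdet z hz
      · omega
  · have h2r : 2 < r := by
      have := hr.two_le
      omega
    obtain ⟨b₀, S, hi0, hb₀, hSne, h1S, hS, hSiff, hSstar, hSfix⟩ :=
      gu_cyclo_facts hK φ hφq hφ r hr hr2 hrp i hi
    have hbb : b₀ = b := by
      rw [hb, hb₀]
      by_cases he : Even i
      · rw [if_pos he, if_neg (Nat.not_odd_iff_even.mpr he)]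
      · rw [if_neg he, if_pos (Nat.not_even_iff_odd.mp he)]
    have hb' : b = if i % 2 = 0 then i / 2 else i := by
      rw [hb]
      by_cases he : Even i
      · rw [if_pos he, if_pos (Nat.even_iff.mp he)]
      · rw [if_neg he, if_neg (fun h => he (Nat.even_iff.mpr h))]
    have hbpos : 0 < b := by
      rw [hb']
      split_ifs <;> omega
    have hbc : (i % 4 = 2 ∧ c = b) ∨ (i % 4 ≠ 2 ∧ c = 2 * b) := by
      rw [hb', hc]
      split_ifs <;> omega
    have hdegS : ∀ P : K[X], Irreducible P → P.Monic → P ∣ X ^ r - C 1 → P ≠ X - C 1 →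
        P.natDegree = b ∧ (rstar φ P = P ↔ i % 4 = 2) := by
      intro P hPirr hPm hPdvd hP1
      rcases (hSiff P hPirr hPm).mp hPdvd with h | h
      · exact absurd h hP1
      · exact ⟨by rw [← hbb]; exact (hS P h).2.2.1, hSfix P h⟩
    by_cases hi2 : i = 2
    · have hrq1 : r ∣ q + 1 := (order_two_iff q r hr hr2).mp (hi.symm.trans hi2)
      have hb1 : b = 1 := by
        rw [hb', hi2]
        norm_num
      have hc1 : c = 1 := by
        rw [hc, hi2]
        norm_num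
      have hdeg1 : ∀ P : K[X], Irreducible P → P.Monic → P ∣ X ^ r - C 1 → P ≠ X - C 1 →
          P.natDegree = 1 ∧ rstar φ P = P := by
        intro P a1 a2 a3 a4
        obtain ⟨h1, h2⟩ := hdegS P a1 a2 a3 a4
        exact ⟨by rw [h1, hb1], h2.mpr (by omega)⟩
      constructor
      · intro H
        right
        have hfirst : r - 1 + 2 * m ≤ n :=
          nec_sd_two hK φ hφq hφ l hl r hr hrp h2r hdeg1 hn m hm H
        refine ⟨hrp, h2r, by omega, by rw [hb1, hc1]; omega,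
          Or.inr ⟨by omega, by rw [hb1]; omega,
            Or.inr ⟨hi2, odd_two_necT hK φ hφq hφ l hl r hr2 hrp hrq1 hn0 m H⟩⟩⟩
      · rintro (⟨h, -⟩ | ⟨-, -, -, -, h⟩)
        · exact absurd h hr2
        · rcases h with h | ⟨-, h1, h2⟩
          · omega
          · rw [hb1] at h1
            have hfirst : r - 1 + 2 * m ≤ n := by omega
            have hcond : r ∣ m ∨ padicValNat r n ≤ padicValNat r (q + 1) := by
              rcases h2 with h2 | ⟨-, h2⟩
              · omega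
              · exact h2
            intro A hA hdet ⟨z, hz⟩ _
            exact odd_two_suffT hK φ hφq hφ l hl r hr2 hrp hrq1
              (fun P a1 a2 a3 a4 => (hdeg1 P a1 a2 a3 a4).1) hn0 m hfirst hcond A hA hdet z hz
    · have hrq1 : ¬ r ∣ q + 1 := fun h => hi2 (hi.trans ((order_two_iff q r hr hr2).mpr h))
      obtain ⟨hc2, -, Q, hQm, hQs, hQd, hQ0, hQ1, hQf, hQns⟩ :=
        atom_facts hK φ hφq hφ r hr hr2 hrp i c hi hi2 hc
      obtain ⟨hcn, hnc⟩ :=
        Cfsg.Agent.Lib.Helper40.TCount.c_facts hK n m hmn r hr2 hrq j hj hjd i c hi hc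
      constructor
      · intro H
        right
        have h1 := nec_one hK φ hφq hφ l hl r hr hrp hrq1 b c
          (by rcases hbc with ⟨-, h⟩ | ⟨-, h⟩ <;> omega)
          (fun P a1 a2 a3 a4 => (hdegS P a1 a2 a3 a4).1) Q hQm hQs hQd hQ0 hQ1 hQf hQns hn0 m
          (by omega) hcn H
        have hbm : b ≤ m := by
          by_contra hlt
          rw [Nat.mod_eq_of_lt (by omega)] at h1
          omega
        refine ⟨hrp, h2r, hbm, h1, ?_⟩
        by_cases h4 : i % 4 = 2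
        · right
          refine ⟨h4, ?_, Or.inl (by omega)⟩
          have hcb : c = b := by
            rcases hbc with ⟨-, h⟩ | ⟨h, -⟩
            · exact h
            · exact absurd h4 h
          have hb2 : 2 ≤ b := by
            rw [hb']
            split_ifs <;> omega
          exact nec_sd_ne hK φ hφq hφ l hl r hr hrp hrq1 h2r b hb2
            (fun P a1 a2 a3 a4 => ⟨(hdegS P a1 a2 a3 a4).1, ((hdegS P a1 a2 a3 a4).2).mpr h4⟩)
            hn0 m (by omega) (by rw [← hcb]; exact hnc) H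
        · exact Or.inl h4
      · rintro (⟨h, -⟩ | ⟨-, -, hbm, h1, h⟩)
        · exact absurd h hr2
        · intro A hA _ ⟨z, hz⟩ _
          have hzn := scalar_unit φ hn0 A hA r z hz
          have hzq : z ^ (q + 1) = 1 := by
            rw [pow_succ, ← hφq]
            exact hzn
          obtain ⟨ζ, hζ⟩ := exists_primitive hK
          have hgcd : Nat.gcd r (q + 1) = 1 := (Nat.Prime.coprime_iff_not_dvd hr).mpr hrq1
          obtain ⟨lam, hlam1, hlam2⟩ := exists_nth_root_of (n := r) ζ hζ z hzq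
            (by rw [hgcd, Nat.div_one]; exact hzq)
          have hlamφ : φ lam * lam = 1 := by
            rw [hφq, ← pow_succ]
            exact hlam1
          apply root_suff hK φ hφ l hl r hr hrp b c hbpos
            (fun P a1 a2 a3 a4 => (hdegS P a1 a2 a3 a4).1) hn0 m hmn h1 ?_ A hA z hz lam hlamφ
            hlam2.symm
          rcases hbc with ⟨h4, hcb⟩ | ⟨h4, hcb⟩
          · left
            refine ⟨hcb, ?_⟩
            rcases h with h | ⟨-, h, -⟩
            · exact absurd h4 h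
            · exact h
          · right
            exact ⟨hcb, fun P a1 a2 a3 a4 h' => h4 (((hdegS P a1 a2 a3 a4).2).mp h')⟩

end finite

end Cfsg.Agent.Lib.Helper40.TSemi
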