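import Mathlib
import Cfsg.Agent.Lib.Helper40.TSemi

set_option autoImplicit false

namespace Cfsg.Agent.Lib.Helper40.PPFrame

open Module Matrix Cfsg.Agent.Lib.Helper40.UnitDet Cfsg.Agent.Lib.Helper40.HermAdj
  Cfsg.Agent.Lib.Helper40.HGeo Cfsg.Agent.Lib.Helper40.HCrit Cfsg.Agent.Lib.Helper40.TGeo

universe u

section frame
variable {K : Type u} [Field K]

/-- The Gram matrix of a hyperbolic frame. -/
def Jm (m : ℕ) : Matrix (Fin (m + m)) (Fin (m + m)) K := blk 0 1 1 0

theorem Jm_mul_Jm (m : ℕ) : Jm (K := K) m * Jm m = 1 := by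
  unfold Jm
  rw [blk_mul]
  simp only [Matrix.mul_zero, Matrix.mul_one, zero_add, add_zero]
  rw [blk_eq_bsum, bsum_one]

theorem adj_Jm (φ : K →+* K) (m : ℕ) : adj φ (Jm (K := K) m) = Jm m := by
  unfold Jm
  rw [blk_adj, adj_zero, adj_one]

theorem bsum_mul_Jm {m : ℕ} (A B : Matrix (Fin m) (Fin m) K) :
    bsum A B * Jm m = Jm m * bsum B A := by
  unfold Jm
  rw [← blk_eq_bsum, ← blk_eq_bsum, blk_mul, blk_mul]
  simp

theorem bsum_det {m k : ℕ} (A : Matrix (Fin m) (Fin m) K) (B : Matrix (Fin k) (Fin k) K) :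
    (bsum A B).det = A.det * B.det := by
  have h1 : bsum A B = Matrix.reindex finSumFinEquiv finSumFinEquiv
      (Matrix.fromBlocks A 0 0 B) := rfl
  rw [h1, Matrix.det_reindex_self, Matrix.det_fromBlocks_zero₁₂]

/-- The matrix whose columns are the vectors of a family indexed by `Fin m ⊕ Fin m`. -/
def colMat {m : ℕ} (g : Fin m ⊕ Fin m → Fin (m + m) → K) :
    Matrix (Fin (m + m)) (Fin (m + m)) K :=
  Matrix.of fun i c => g (finSumFinEquiv.symm c) i

theorem colMat_mulVec {m : ℕ} (g : Fin m ⊕ Fin m → Fin (m + m) → K) (u w : Fin m → K) :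
    colMat g *ᵥ ((Sum.elim u w) ∘ finSumFinEquiv.symm) =
      ∑ a, u a • g (Sum.inl a) + ∑ a, w a • g (Sum.inr a) := by
  funext i
  simp only [Matrix.mulVec, dotProduct, colMat, Matrix.of_apply, Function.comp_apply]
  rw [← Equiv.sum_comp finSumFinEquiv, Fintype.sum_sum_type]
  simp only [Equiv.symm_apply_apply, Sum.elim_inl, Sum.elim_inr, Pi.add_apply,
    Finset.sum_apply, Pi.smul_apply, smul_eq_mul]
  congr 1 <;> exact Finset.sum_congr rfl (fun a _ => mul_comm _ _)

theorem colMat_gram (φ : K →+* K) {m : ℕ} (g : Fin m ⊕ Fin m → Fin (m + m) → K)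
    (c c' : Fin (m + m)) :
    (adj φ (colMat g) * colMat g) c c' =
      hB φ (g (finSumFinEquiv.symm c')) (g (finSumFinEquiv.symm c)) := by
  simp only [Matrix.mul_apply, hB, dotProduct, Function.comp_apply, adj_apply, colMat,
    Matrix.of_apply]
  exact Finset.sum_congr rfl (fun i _ => mul_comm _ _)

theorem map_range_eq {m : ℕ} (M Mi : Matrix (Fin (m + m)) (Fin (m + m)) K) (hMi : Mi * M = 1)
    (W : Submodule K (Fin (m + m) → K)) (hW : finrank K W = m)
    (h : ∀ u : Fin m → K, M *ᵥ iota m m u ∈ W) :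
    W = (LinearMap.range (iota (K := K) m m)).map (Matrix.toLin' M) := by
  have hinj : Function.Injective (Matrix.toLin' M) := by
    intro u v huv
    have h1 := congrArg (Matrix.toLin' Mi) huv
    rw [Matrix.toLin'_apply, Matrix.toLin'_apply, Matrix.toLin'_apply, Matrix.toLin'_apply,
      Matrix.mulVec_mulVec, Matrix.mulVec_mulVec, hMi, Matrix.one_mulVec,
      Matrix.one_mulVec] at h1
    exact h1
  symm
  apply Submodule.eq_of_le_of_finrank_eq
  · rintro _ ⟨_, ⟨u, rfl⟩, rfl⟩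
    rw [Matrix.toLin'_apply]
    exact h u
  · rw [← LinearEquiv.finrank_eq (Submodule.equivMapOfInjective _ hinj _),
      LinearMap.finrank_range_of_inj (iota_injective (K := K) m m), Module.finrank_fin_fun, hW]

/-- A hyperbolic frame adapted to a pair of complementary totally isotropic subspaces. -/
theorem exists_frame (φ : K →+* K) (hφ : ∀ x, φ (φ x) = x) {m : ℕ}
    (D0 D1 : Submodule K (Fin (m + m) → K)) (h0 : finrank K D0 = m) (h1 : finrank K D1 = m)
    (ht0 : TI φ D0) (ht1 : TI φ D1) (hsup : D0 ⊔ D1 = ⊤) :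
    ∃ G : Matrix (Fin (m + m)) (Fin (m + m)) K, adj φ G * G = Jm m ∧
      D0 = (LinearMap.range (iota (K := K) m m)).map (Matrix.toLin' G) ∧
      D1 = (LinearMap.range (iota (K := K) m m)).map (Matrix.toLin' (G * Jm m)) := by
  classical
  let b₀ : Basis (Fin m) K D0 := Module.finBasisOfFinrankEq K D0 h0
  let T : D1 →ₗ[K] (Fin m → K) :=
    { toFun := fun w a => hB φ (w : Fin (m + m) → K) (b₀ a : Fin (m + m) → K)
      map_add' := fun w w' => by
        funext a
        simp [hB_add_left]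
      map_smul' := fun c w => by
        funext a
        simp [hB_smul_left] }
  have hTinj : Function.Injective T := by
    rw [← LinearMap.ker_eq_bot, LinearMap.ker_eq_bot']
    intro w hw
    have hw0 : ∀ a, hB φ (w : Fin (m + m) → K) (b₀ a : Fin (m + m) → K) = 0 :=
      fun a => congrFun hw a
    have h2 : ∀ u ∈ D0, hB φ (w : Fin (m + m) → K) u = 0 := hB_basis_right φ D0 b₀ _ hw0
    have h3 : (w : Fin (m + m) → K) = 0 := by
      apply hB_nondeg φ hφ
      intro v
      have hv : v ∈ D0 ⊔ D1 := by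
        rw [hsup]
        exact Submodule.mem_top
      obtain ⟨v0, hv0, v1, hv1, rfl⟩ := Submodule.mem_sup.mp hv
      rw [hB_add_right, h2 v0 hv0, ht1 _ w.2 v1 hv1, add_zero]
    exact Subtype.ext h3
  have hTsurj : Function.Surjective T :=
    (LinearMap.injective_iff_surjective_of_finrank_eq_finrank
      (by rw [h1, Module.finrank_fin_fun])).mp hTinj
  choose f hf using fun a : Fin m => hTsurj (Pi.single a 1)
  have hfb : ∀ a a', hB φ (f a : Fin (m + m) → K) (b₀ a' : Fin (m + m) → K) =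
      if a' = a then 1 else 0 := by
    intro a a'
    have h := congrFun (hf a) a'
    rw [Pi.single_apply] at h
    exact h
  obtain ⟨g, hg⟩ : ∃ g : Fin m ⊕ Fin m → Fin (m + m) → K,
      g = Sum.elim (fun a => (b₀ a : Fin (m + m) → K)) (fun a => (f a : Fin (m + m) → K)) :=
    ⟨_, rfl⟩
  have hgram : adj φ (colMat g) * colMat g = Jm m := by
    ext c c'
    rw [colMat_gram]
    unfold Jm blk
    rw [Matrix.submatrix_apply, hg]
    generalize finSumFinEquiv.symm c = s
    generalize finSumFinEquiv.symm c' = s'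
    rcases s with a | a <;> rcases s' with a' | a'
    · simp only [Sum.elim_inl, Matrix.fromBlocks_apply₁₁, Matrix.zero_apply]
      exact ht0 _ (b₀ a').2 _ (b₀ a).2
    · simp only [Sum.elim_inl, Sum.elim_inr, Matrix.fromBlocks_apply₁₂, Matrix.one_apply]
      rw [hfb a' a]
    · simp only [Sum.elim_inl, Sum.elim_inr, Matrix.fromBlocks_apply₂₁, Matrix.one_apply]
      rw [hB_symm φ hφ, hfb a a']
      by_cases h : a = a'
      · rw [if_pos h, if_pos h.symm, map_one]
      · rw [if_neg h, if_neg (fun h' => h h'.symm), map_zero]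
    · simp only [Sum.elim_inr, Matrix.fromBlocks_apply₂₂, Matrix.zero_apply]
      exact ht1 _ (f a').2 _ (f a).2
  have hGi : Jm m * adj φ (colMat g) * colMat g = 1 := by
    rw [Matrix.mul_assoc, hgram, Jm_mul_Jm]
  refine ⟨colMat g, hgram, ?_, ?_⟩
  · apply map_range_eq (colMat g) (Jm m * adj φ (colMat g)) hGi D0 h0
    intro u
    rw [iota_apply, colMat_mulVec, hg]
    simp only [Sum.elim_inl, Sum.elim_inr, Pi.zero_apply, zero_smul, Finset.sum_const_zero,
      add_zero]
    exact Submodule.sum_mem _ (fun a _ => Submodule.smul_mem _ _ (b₀ a).2)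
  · apply map_range_eq (colMat g * Jm m) (Jm m * (Jm m * adj φ (colMat g))) ?_ D1 h1
    · intro u
      rw [← Matrix.mulVec_mulVec]
      unfold Jm
      rw [J_mulVec_iota, colMat_mulVec, hg]
      simp only [Sum.elim_inl, Sum.elim_inr, Pi.zero_apply, zero_smul, Finset.sum_const_zero,
        zero_add]
      exact Submodule.sum_mem _ (fun a _ => Submodule.smul_mem _ _ (f a).2)
    · calc Jm m * (Jm m * adj φ (colMat g)) * (colMat g * Jm m)
          = Jm m * (Jm m * adj φ (colMat g) * colMat g) * Jm m := by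
            simp only [Matrix.mul_assoc]
        _ = 1 := by rw [hGi, Matrix.mul_one, Jm_mul_Jm]

end frame

section levi
variable {K : Type u} [Field K] (φ : K →+* K) {m : ℕ} (G : Matrix (Fin (m + m)) (Fin (m + m)) K)

/-- The inverse of a frame matrix. -/
def Gi : Matrix (Fin (m + m)) (Fin (m + m)) K := Jm m * adj φ G

theorem Gi_mul (hG : adj φ G * G = Jm m) : Gi φ G * G = 1 := by
  unfold Gi
  rw [Matrix.mul_assoc, hG, Jm_mul_Jm]

theorem mul_Gi (hG : adj φ G * G = Jm m) : G * Gi φ G = 1 :=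
  mul_eq_one_comm.mp (Gi_mul φ G hG)

theorem adj_Gi (hφ : ∀ x, φ (φ x) = x) : adj φ (Gi φ G) = G * Jm m := by
  unfold Gi
  rw [adj_mul, adj_adj φ hφ, adj_Jm]

/-- The Levi element attached to an invertible `A`: it acts as `A` on the first member of the
pair and as the inverse conjugate transpose on the second. -/
def levi (A Ai : Matrix (Fin m) (Fin m) K) : Matrix (Fin (m + m)) (Fin (m + m)) K :=
  G * bsum A (adj φ Ai) * Gi φ G

theorem levi_mul (hG : adj φ G * G = Jm m) (A Ai B Bi : Matrix (Fin m) (Fin m) K) :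
    levi φ G A Ai * levi φ G B Bi = levi φ G (A * B) (Bi * Ai) := by
  unfold levi
  calc G * bsum A (adj φ Ai) * Gi φ G * (G * bsum B (adj φ Bi) * Gi φ G)
      = G * bsum A (adj φ Ai) * (Gi φ G * G) * bsum B (adj φ Bi) * Gi φ G := by
        simp only [Matrix.mul_assoc]
    _ = G * bsum (A * B) (adj φ (Bi * Ai)) * Gi φ G := by
        rw [Gi_mul φ G hG, Matrix.mul_one, Matrix.mul_assoc G, bsum_mul, adj_mul]

theorem levi_one (hG : adj φ G * G = Jm m) : levi φ G 1 1 = 1 := by
  unfold levi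
  rw [adj_one, bsum_one, Matrix.mul_one, mul_Gi φ G hG]

theorem levi_unitary (hφ : ∀ x, φ (φ x) = x) (hG : adj φ G * G = Jm m)
    (A Ai : Matrix (Fin m) (Fin m) K) (h2 : Ai * A = 1) :
    adj φ (levi φ G A Ai) * levi φ G A Ai = 1 := by
  unfold levi
  rw [adj_mul, adj_mul, adj_Gi φ G hφ, bsum_adj, adj_adj φ hφ]
  calc G * Jm m * (bsum (adj φ A) Ai * adj φ G) * (G * bsum A (adj φ Ai) * Gi φ G)
      = G * (Jm m * bsum (adj φ A) Ai) * (adj φ G * G) * bsum A (adj φ Ai) * Gi φ G := by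
        simp only [Matrix.mul_assoc]
    _ = G * (bsum Ai (adj φ A) * Jm m) * Jm m * bsum A (adj φ Ai) * Gi φ G := by
        rw [hG, bsum_mul_Jm]
    _ = G * (bsum Ai (adj φ A) * (Jm m * Jm m) * bsum A (adj φ Ai)) * Gi φ G := by
        simp only [Matrix.mul_assoc]
    _ = 1 := by
        rw [Jm_mul_Jm, Matrix.mul_one, bsum_mul, h2, ← adj_mul, h2, adj_one, bsum_one,
          Matrix.mul_one, mul_Gi φ G hG]

theorem levi_mul_G (hG : adj φ G * G = Jm m) (A Ai : Matrix (Fin m) (Fin m) K) :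
    levi φ G A Ai * G = G * bsum A (adj φ Ai) := by
  unfold levi
  rw [Matrix.mul_assoc, Gi_mul φ G hG, Matrix.mul_one]

theorem levi_mulVec₁ (hG : adj φ G * G = Jm m) (A Ai : Matrix (Fin m) (Fin m) K)
    (u : Fin m → K) :
    levi φ G A Ai *ᵥ (G *ᵥ iota m m u) = G *ᵥ iota m m (A *ᵥ u) := by
  rw [Matrix.mulVec_mulVec, levi_mul_G φ G hG, ← Matrix.mulVec_mulVec, bsum_mulVec_iota]

theorem levi_mulVec₂ (hG : adj φ G * G = Jm m) (A Ai : Matrix (Fin m) (Fin m) K)
    (u : Fin m → K) :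
    levi φ G A Ai *ᵥ ((G * Jm m) *ᵥ iota m m u) = (G * Jm m) *ᵥ iota m m (adj φ Ai *ᵥ u) := by
  rw [Matrix.mulVec_mulVec, ← Matrix.mul_assoc, levi_mul_G φ G hG, Matrix.mul_assoc,
    bsum_mul_Jm, ← Matrix.mul_assoc, ← Matrix.mulVec_mulVec, bsum_mulVec_iota]

theorem levi_det (hG : adj φ G * G = Jm m) (A Ai : Matrix (Fin m) (Fin m) K) :
    (levi φ G A Ai).det = A.det * φ Ai.det := by
  unfold levi
  rw [Matrix.det_mul, Matrix.det_mul, bsum_det, det_adj, mul_comm G.det, mul_assoc,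
    ← Matrix.det_mul, mul_Gi φ G hG, Matrix.det_one, mul_one]

theorem map_eq_of_le {n : ℕ} (x xi : Matrix (Fin n) (Fin n) K) (h : xi * x = 1)
    (W : Submodule K (Fin n → K)) (hle : W.map (Matrix.toLin' x) ≤ W) :
    W.map (Matrix.toLin' x) = W := by
  have hinj : Function.Injective (Matrix.toLin' x) := by
    intro u v huv
    have h1 := congrArg (Matrix.toLin' xi) huv
    rw [Matrix.toLin'_apply, Matrix.toLin'_apply, Matrix.toLin'_apply, Matrix.toLin'_apply,
      Matrix.mulVec_mulVec, Matrix.mulVec_mulVec, h, Matrix.one_mulVec,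
      Matrix.one_mulVec] at h1
    exact h1
  apply Submodule.eq_of_le_of_finrank_eq hle
  exact (LinearEquiv.finrank_eq (Submodule.equivMapOfInjective _ hinj _)).symm

theorem levi_map₁ (hG : adj φ G * G = Jm m) (A Ai : Matrix (Fin m) (Fin m) K)
    (h2 : Ai * A = 1) (D0 : Submodule K (Fin (m + m) → K))
    (hD0 : D0 = (LinearMap.range (iota (K := K) m m)).map (Matrix.toLin' G)) :
    D0.map (Matrix.toLin' (levi φ G A Ai)) = D0 := by
  apply map_eq_of_le (levi φ G A Ai) (levi φ G Ai A)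
    (by rw [levi_mul φ G hG, h2, levi_one φ G hG])
  rw [hD0]
  rintro _ ⟨_, ⟨_, ⟨u, rfl⟩, rfl⟩, rfl⟩
  rw [Matrix.toLin'_apply, Matrix.toLin'_apply, levi_mulVec₁ φ G hG]
  exact ⟨_, ⟨_, rfl⟩, Matrix.toLin'_apply _ _⟩

theorem levi_map₂ (hG : adj φ G * G = Jm m) (A Ai : Matrix (Fin m) (Fin m) K)
    (h2 : Ai * A = 1) (D1 : Submodule K (Fin (m + m) → K))
    (hD1 : D1 = (LinearMap.range (iota (K := K) m m)).map (Matrix.toLin' (G * Jm m))) :
    D1.map (Matrix.toLin' (levi φ G A Ai)) = D1 := by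
  apply map_eq_of_le (levi φ G A Ai) (levi φ G Ai A)
    (by rw [levi_mul φ G hG, h2, levi_one φ G hG])
  rw [hD1]
  rintro _ ⟨_, ⟨_, ⟨u, rfl⟩, rfl⟩, rfl⟩
  rw [Matrix.toLin'_apply, Matrix.toLin'_apply, levi_mulVec₂ φ G hG]
  exact ⟨_, ⟨_, rfl⟩, Matrix.toLin'_apply _ _⟩

theorem levi_injective (hG : adj φ G * G = Jm m) (A Ai B Bi : Matrix (Fin m) (Fin m) K)
    (h : levi φ G A Ai = levi φ G B Bi) : A = B := by
  have h1 : G * bsum A (adj φ Ai) = G * bsum B (adj φ Bi) := by
    rw [← levi_mul_G φ G hG, ← levi_mul_G φ G hG, h]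
  have h2 : bsum A (adj φ Ai) = bsum B (adj φ Bi) := by
    have h3 := congrArg (fun M => Gi φ G * M) h1
    simp only [← Matrix.mul_assoc, Gi_mul φ G hG, Matrix.one_mul] at h3
    exact h3
  apply Matrix.toLin'.injective
  apply LinearMap.ext
  intro u
  rw [Matrix.toLin'_apply, Matrix.toLin'_apply]
  apply iota_injective (K := K) m m
  rw [← bsum_mulVec_iota A (adj φ Ai), ← bsum_mulVec_iota B (adj φ Bi), h2]

end levi

end Cfsg.Agent.Lib.Helper40.PPFrame
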