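import Mathlib
import Cfsg.Agent.Lib.Helper40.TSemi
import Cfsg.Agent.Lib.Helper40.PPFrame

set_option autoImplicit false

namespace Cfsg.Agent.Lib.Helper40.PPElts

open Module Polynomial Matrix Cfsg.Agent.Lib.Helper40.UnitDet
  Cfsg.Agent.Lib.Helper40.HermAdj Cfsg.Agent.Lib.Helper40.HGeo Cfsg.Agent.Lib.Helper40.RecipPoly
  Cfsg.Agent.Lib.Helper40.GUReal Cfsg.Agent.Lib.Helper40.HCrit Cfsg.Agent.Lib.Helper40.HPoly
  Cfsg.Agent.Lib.Helper40.SURegUnip Cfsg.Agent.Lib.Helper40.SUCount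
  Cfsg.Agent.Lib.Helper40.HSemi Cfsg.Agent.Lib.Helper40.HSemi2
  Cfsg.Agent.Lib.Helper40.TGeo Cfsg.Agent.Lib.Helper40.TPoly Cfsg.Agent.Lib.Helper40.TSemi
  Cfsg.Agent.Lib.Helper40.PPFrame

universe u

section arith

theorem order_facts (q r : ℕ) (hr : r.Prime) (hr2 : r ≠ 2) (k : ℕ) (hk : k % 2 = 1)
    (h : r ∣ q ^ k + 1) (i : ℕ) (hi : i = orderOf (q : ZMod r)) :
    i % 4 = 2 ∧ i / 2 ∣ k ∧ i ∣ r - 1 := by
  have : Fact r.Prime := ⟨hr⟩
  have h2 : (2 : ZMod r) ≠ 0 := by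
    intro h'
    have h1 : ((2 : ℕ) : ZMod r) = 0 := by
      rw [Nat.cast_ofNat]
      exact h'
    rw [ZMod.natCast_eq_zero_iff] at h1
    exact hr2 ((Nat.prime_dvd_prime_iff_eq hr Nat.prime_two).mp h1)
  have hqk : (q : ZMod r) ^ k = -1 := by
    have h1 : ((q ^ k + 1 : ℕ) : ZMod r) = 0 := (ZMod.natCast_eq_zero_iff _ _).mpr h
    rw [Nat.cast_add, Nat.cast_pow, Nat.cast_one] at h1
    exact eq_neg_of_add_eq_zero_left h1
  have hq0 : (q : ZMod r) ≠ 0 := by
    intro h0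
    rw [h0, zero_pow (by omega)] at hqk
    have h1 : (1 : ZMod r) = 0 := by linear_combination hqk
    exact one_ne_zero h1
  have h2k : i ∣ 2 * k := by
    rw [hi]
    apply orderOf_dvd_of_pow_eq_one
    rw [mul_comm, pow_mul, hqk, neg_one_sq]
  have hnk : ¬ i ∣ k := by
    intro hd
    rw [hi] at hd
    have h1 := orderOf_dvd_iff_pow_eq_one.mp hd
    rw [hqk] at h1
    apply h2
    linear_combination -h1
  have hr1 : i ∣ r - 1 := by
    rw [hi]
    apply orderOf_dvd_of_pow_eq_one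
    exact ZMod.pow_card_sub_one_eq_one hq0
  have hieven : i % 2 = 0 := by
    by_contra hodd
    have hcop : Nat.Coprime i 2 :=
      Nat.Coprime.symm ((Nat.Prime.coprime_iff_not_dvd Nat.prime_two).mpr
        (fun h => hodd (Nat.mod_eq_zero_of_dvd h)))
    exact hnk (hcop.dvd_of_dvd_mul_left h2k)
  obtain ⟨b, hb⟩ : ∃ b, i = 2 * b := ⟨i / 2, by omega⟩
  have hbk : b ∣ k := by
    rw [hb] at h2k
    exact Nat.dvd_of_mul_dvd_mul_left two_pos h2k
  have hbodd : b % 2 = 1 := by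
    obtain ⟨c, hc⟩ := hbk
    by_contra h'
    have h3 : b % 2 = 0 := by omega
    have h4 : k % 2 = 0 := by
      rw [hc, Nat.mul_mod, h3, zero_mul, Nat.zero_mod]
    omega
  refine ⟨by omega, ?_, hr1⟩
  have h5 : i / 2 = b := by omega
  rw [h5]
  exact hbk

end arith

section pair
variable {K : Type u} [Field K]

/-- `x` stabilises (fixes or swaps) a pair of totally isotropic `m`-spaces meeting trivially. -/
def PairStab (φ : K →+* K) {n : ℕ} (x : Matrix (Fin n) (Fin n) K) (m : ℕ) : Prop :=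
  ∃ U0 U1 : Submodule K (Fin n → K), finrank K U0 = m ∧ finrank K U1 = m ∧ TI φ U0 ∧
    TI φ U1 ∧ U0 ⊓ U1 = ⊥ ∧
    ((U0.map (Matrix.toLin' x) ≤ U0 ∧ U1.map (Matrix.toLin' x) ≤ U1) ∨
      (U0.map (Matrix.toLin' x) ≤ U1 ∧ U1.map (Matrix.toLin' x) ≤ U0))

theorem fixT_of_pairStab_odd (φ : K →+* K) {n : ℕ} (x : Matrix (Fin n) (Fin n) K) (m : ℕ)
    (hm : 1 ≤ m) (r : ℕ) (hr : r % 2 = 1) (z : K) (hz : z ≠ 0)
    (hxr : x ^ r = z • (1 : Matrix (Fin n) (Fin n) K)) (h : PairStab φ x m) : FixT φ x m := by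
  obtain ⟨U0, U1, h0, h1, ht0, ht1, hinf, hc | hc⟩ := h
  · exact ⟨U0, h0, ht0, hc.1⟩
  · exfalso
    have key : ∀ k : ℕ, ∀ u ∈ U0, (x ^ (2 * k + 1)) *ᵥ u ∈ U1 := by
      intro k
      induction k with
      | zero =>
        intro u hu
        rw [mul_zero, zero_add, pow_one]
        exact hc.1 ⟨u, hu, Matrix.toLin'_apply _ _⟩
      | succ k ih =>
        intro u hu
        have e : 2 * (k + 1) + 1 = (2 * k + 1) + 1 + 1 := by ring
        rw [e, pow_succ', pow_succ', ← Matrix.mulVec_mulVec, ← Matrix.mulVec_mulVec]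
        apply hc.1
        refine ⟨_, ?_, Matrix.toLin'_apply _ _⟩
        apply hc.2
        exact ⟨_, ih u hu, Matrix.toLin'_apply _ _⟩
    have hU0 : U0 = ⊥ := by
      rw [eq_bot_iff]
      intro u hu
      have h2 := key (r / 2) u hu
      rw [(by omega : 2 * (r / 2) + 1 = r), hxr, Matrix.smul_mulVec, Matrix.one_mulVec] at h2
      have h3 : u ∈ U1 := by
        have h4 := U1.smul_mem z⁻¹ h2
        rwa [smul_smul, inv_mul_cancel₀ hz, one_smul] at h4
      rw [← hinf]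
      exact ⟨hu, h3⟩
    rw [hU0, finrank_bot] at h0
    omega

end pair

section transv
variable {K : Type u} [Field K]

/-- The unitary transvection along an isotropic vector. -/
def tv (φ : K →+* K) {n : ℕ} (w : Fin n → K) (c : K) : Matrix (Fin n) (Fin n) K :=
  1 + c • Matrix.vecMulVec w (φ ∘ w)

theorem tv_mulVec (φ : K →+* K) {n : ℕ} (w : Fin n → K) (c : K) (v : Fin n → K) :
    tv φ w c *ᵥ v = v + (c * hB φ v w) • w := by
  rw [tv, Matrix.add_mulVec, Matrix.one_mulVec, Matrix.smul_mulVec, Matrix.vecMulVec_mulVec]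
  funext i
  simp only [Pi.add_apply, Pi.smul_apply, smul_eq_mul, MulOpposite.smul_eq_mul_unop,
    MulOpposite.unop_op, hB]
  rw [dotProduct_comm]
  ring

theorem vmv_sq (φ : K →+* K) {n : ℕ} (w : Fin n → K) (hww : hB φ w w = 0) :
    Matrix.vecMulVec w (φ ∘ w) * Matrix.vecMulVec w (φ ∘ w) = 0 := by
  ext i j
  rw [Matrix.mul_apply]
  simp only [Matrix.vecMulVec_apply, Function.comp_apply, Matrix.zero_apply]
  have h1 : ∑ k, w i * φ (w k) * (w k * φ (w j)) = w i * φ (w j) * hB φ w w := by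
    unfold hB
    rw [dotProduct, Finset.mul_sum]
    apply Finset.sum_congr rfl
    intro k _
    simp only [Function.comp_apply]
    ring
  rw [h1, hww, mul_zero]

theorem vmv_adj (φ : K →+* K) (hφ : ∀ x, φ (φ x) = x) {n : ℕ} (w : Fin n → K) :
    adj φ (Matrix.vecMulVec w (φ ∘ w)) = Matrix.vecMulVec w (φ ∘ w) := by
  ext i j
  rw [adj_apply]
  simp only [Matrix.vecMulVec_apply, Function.comp_apply, map_mul, hφ]
  ring

theorem tv_unitary (φ : K →+* K) (hφ : ∀ x, φ (φ x) = x) {n : ℕ} (w : Fin n → K) (c : K)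
    (hc : c + φ c = 0) (hww : hB φ w w = 0) : adj φ (tv φ w c) * tv φ w c = 1 := by
  unfold tv
  rw [adj_add, adj_one, adj_smul, vmv_adj φ hφ w]
  obtain ⟨N, hN⟩ : ∃ N, N = Matrix.vecMulVec w (φ ∘ w) := ⟨_, rfl⟩
  have hNN : N * N = 0 := by
    rw [hN]
    exact vmv_sq φ w hww
  rw [← hN]
  calc (1 + φ c • N) * (1 + c • N) = 1 + (c + φ c) • N + (c * φ c) • (N * N) := by
        simp only [add_mul, mul_add, one_mul, mul_one, Matrix.smul_mul, Matrix.mul_smul,
          smul_smul, add_smul]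
        abel
    _ = 1 := by rw [hc, zero_smul, hNN, smul_zero, add_zero, add_zero]

theorem tv_sub_sq (φ : K →+* K) {n : ℕ} (w : Fin n → K) (c : K) (hww : hB φ w w = 0) :
    (tv φ w c - 1) ^ 2 = 0 := by
  unfold tv
  rw [add_sub_cancel_left, sq, Matrix.smul_mul, Matrix.mul_smul, vmv_sq φ w hww, smul_zero,
    smul_zero]

theorem tv_pow_p (φ : K →+* K) {p : ℕ} [Fact p.Prime] [CharP K p] {n : ℕ} (hn : 0 < n)
    (w : Fin n → K) (c : K) (hww : hB φ w w = 0) : tv φ w c ^ p = 1 := by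
  have hp : p.Prime := Fact.out
  have : Nonempty (Fin n) := ⟨⟨0, hn⟩⟩
  have h := sub_pow_char_of_commute p (Commute.one_right (tv φ w c))
  rw [one_pow, pow_eq_zero_of_le hp.two_le (tv_sub_sq φ w c hww)] at h
  exact (sub_eq_zero.mp h.symm)

theorem tv_det (φ : K →+* K) {p : ℕ} [Fact p.Prime] [CharP K p] {n : ℕ} (hn : 0 < n)
    (w : Fin n → K) (c : K) (hww : hB φ w w = 0) : (tv φ w c).det = 1 := by
  have h1 := congrArg Matrix.det (tv_pow_p (p := p) φ hn w c hww)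
  rw [Matrix.det_pow, Matrix.det_one] at h1
  have h2 : ((tv φ w c).det - 1) ^ p = 0 := by
    rw [sub_pow_char, one_pow, h1, sub_self]
  exact sub_eq_zero.mp (pow_eq_zero_iff (Fact.out : p.Prime).ne_zero |>.mp h2)

theorem tv_nonscalar (φ : K →+* K) {n : ℕ} (w : Fin n → K) (hw0 : w ≠ 0) (c : K) (hc0 : c ≠ 0)
    (hww : hB φ w w = 0) (z : K) : tv φ w c ≠ z • (1 : Matrix (Fin n) (Fin n) K) := by
  intro h
  have h1 := congrArg (fun M : Matrix (Fin n) (Fin n) K => M *ᵥ w) h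
  simp only [tv_mulVec, hww, mul_zero, zero_smul, add_zero, Matrix.smul_mulVec,
    Matrix.one_mulVec] at h1
  have hz : z = 1 := by
    by_contra hz
    apply hw0
    have h2 : (1 - z) • w = 0 := by
      rw [sub_smul, one_smul, ← h1, sub_self]
    rcases smul_eq_zero.mp h2 with h3 | h3
    · exact absurd (sub_eq_zero.mp h3).symm hz
    · exact h3
  rw [hz, one_smul] at h
  have hN : Matrix.vecMulVec w (φ ∘ w) = 0 := by
    unfold tv at h
    have h2 : c • Matrix.vecMulVec w (φ ∘ w) = 0 := by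
      have h3 := congrArg (fun M : Matrix (Fin n) (Fin n) K => M - 1) h
      simpa using h3
    rcases smul_eq_zero.mp h2 with h3 | h3
    · exact absurd h3 hc0
    · exact h3
  obtain ⟨i, hi⟩ : ∃ i, w i ≠ 0 := by
    by_contra hcon
    push Not at hcon
    exact hw0 (funext hcon)
  have h4 := congrFun (congrFun hN i) i
  rw [Matrix.vecMulVec_apply, Function.comp_apply, Matrix.zero_apply] at h4
  rcases mul_eq_zero.mp h4 with h5 | h5
  · exact hi h5
  · exact hi ((map_eq_zero φ).mp h5)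

theorem perp_eq_of_ti (φ : K →+* K) (hφ : ∀ x, φ (φ x) = x) {m : ℕ}
    (U : Submodule K (Fin (m + m) → K)) (hU : finrank K U = m) (ht : TI φ U) :
    perp φ U = U := by
  symm
  apply Submodule.eq_of_le_of_finrank_eq
  · intro u hu
    rw [mem_perp]
    intro x hx
    exact ht x hx u hu
  · have h1 := Cfsg.Agent.Lib.Helper40.TCount.finrank_perp φ hφ U
    omega

theorem tv_mem (φ : K →+* K) (hφ : ∀ x, φ (φ x) = x) {m : ℕ} (w : Fin (m + m) → K) (c : K)
    (hc0 : c ≠ 0) (U : Submodule K (Fin (m + m) → K)) (hU : finrank K U = m) (ht : TI φ U)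
    (hfix : U.map (Matrix.toLin' (tv φ w c)) ≤ U) : w ∈ U := by
  by_cases h : ∀ u ∈ U, hB φ u w = 0
  · rw [← perp_eq_of_ti φ hφ U hU ht, mem_perp]
    exact h
  · push Not at h
    obtain ⟨u, hu, hne⟩ := h
    have h1 : tv φ w c *ᵥ u ∈ U := hfix ⟨u, hu, Matrix.toLin'_apply _ _⟩
    rw [tv_mulVec] at h1
    have h2 : (c * hB φ u w) • w ∈ U := by
      have h3 := U.sub_mem h1 hu
      rwa [add_sub_cancel_left] at h3
    have h3 := U.smul_mem (c * hB φ u w)⁻¹ h2
    rwa [smul_smul, inv_mul_cancel₀ (mul_ne_zero hc0 hne), one_smul] at h3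

theorem tv_not_pairStab (φ : K →+* K) (hφ : ∀ x, φ (φ x) = x) {m : ℕ} (hm : 2 ≤ m)
    (w : Fin (m + m) → K) (hw0 : w ≠ 0) (c : K) (hc0 : c ≠ 0) :
    ¬ PairStab φ (tv φ w c) m := by
  rintro ⟨U0, U1, h0, h1, ht0, ht1, hinf, hc | hc⟩
  · have hw : w ∈ U0 ⊓ U1 :=
      ⟨tv_mem φ hφ w c hc0 U0 h0 ht0 hc.1, tv_mem φ hφ w c hc0 U1 h1 ht1 hc.2⟩
    rw [hinf] at hw
    exact hw0 ((Submodule.mem_bot K).mp hw)
  · obtain ⟨u, hu, hu0, huw⟩ : ∃ u ∈ U0, u ≠ 0 ∧ hB φ u w = 0 := by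
      by_contra hcon
      push Not at hcon
      have hinj : Function.Injective ((hBl φ w).domRestrict U0) := by
        rw [← LinearMap.ker_eq_bot, LinearMap.ker_eq_bot']
        intro u hu
        by_contra hne
        exact hcon u.1 u.2 (fun h => hne (Subtype.ext h)) hu
      have hle := LinearMap.finrank_le_finrank_of_injective hinj
      rw [h0, Module.finrank_self] at hle
      omega
    have h2 : tv φ w c *ᵥ u ∈ U1 := hc.1 ⟨u, hu, Matrix.toLin'_apply _ _⟩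
    rw [tv_mulVec, huw, mul_zero, zero_smul, add_zero] at h2
    have h3 : u ∈ U0 ⊓ U1 := ⟨hu, h2⟩
    rw [hinf] at h3
    exact hu0 ((Submodule.mem_bot K).mp h3)

theorem exists_transv (φ : K →+* K) (hφ : ∀ x, φ (φ x) = x) (l : K) (hl : φ l ≠ l) (p : ℕ)
    [Fact p.Prime] [CharP K p] {m : ℕ} (hm : 2 ≤ m) (w : Fin (m + m) → K) (hw0 : w ≠ 0)
    (hww : hB φ w w = 0) :
    ∃ x : Matrix (Fin (m + m)) (Fin (m + m)) K, adj φ x * x = 1 ∧ x.det = 1 ∧
      x ^ p = (1 : K) • (1 : Matrix (Fin (m + m)) (Fin (m + m)) K) ∧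
      (∀ z : K, x ≠ z • (1 : Matrix (Fin (m + m)) (Fin (m + m)) K)) ∧ ¬ PairStab φ x m := by
  have hc0 : l - φ l ≠ 0 := sub_ne_zero.mpr (Ne.symm hl)
  have hc : (l - φ l) + φ (l - φ l) = 0 := by
    rw [map_sub, hφ]
    ring
  refine ⟨tv φ w (l - φ l), tv_unitary φ hφ w _ hc hww, tv_det (p := p) φ (by omega) w _ hww,
    ?_, tv_nonscalar φ w hw0 _ hc0 hww, tv_not_pairStab φ hφ hm w hw0 _ hc0⟩
  rw [one_smul]
  exact tv_pow_p φ (by omega) w _ hww

end transv

section finite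
variable {K : Type u} [Field K] [Fintype K] [DecidableEq K] {p q : ℕ} [Fact p.Prime] [CharP K p]

/-- A witness for the necessity of the `2`-adic condition. -/
theorem two_witness (hK : Fintype.card K = q ^ 2) (φ : K →+* K) (hφq : ∀ x, φ x = x ^ q)
    (hφ : ∀ x, φ (φ x) = x) (l : K) (hl : φ l ≠ l) (hp2 : p ≠ 2) {n : ℕ} (m : ℕ) (hm : 2 ≤ m)
    (hn2 : n = 2 * m) (hvlt : padicValNat 2 n < padicValNat 2 (q + 1)) :
    ∃ (U : Matrix (Fin n) (Fin n) K) (lam : K), adj φ U * U = 1 ∧ U.det = 1 ∧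
      U ^ 2 = (lam ^ 2) • (1 : Matrix (Fin n) (Fin n) K) ∧
      (∀ w : K, U ≠ w • (1 : Matrix (Fin n) (Fin n) K)) ∧
      U.charpoly = (X - C lam) ^ (n - 1) * (X - C (-lam)) ^ 1 ∧ lam ≠ -lam ∧ ¬ FixT φ U m := by
  have hp : p.Prime := Fact.out
  have hn0 : 0 < n := by omega
  have h2K := two_ne_zero' (K := K) hp2
  obtain ⟨v, hvdef⟩ : ∃ v, v = padicValNat 2 n := ⟨_, rfl⟩
  rw [← hvdef] at hvlt
  obtain ⟨ζ₀, hζ₀⟩ := exists_primitive hK
  have hdv : 2 ^ (v + 1) ∣ q + 1 :=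
    (padicValNat_dvd_iff_le (by omega : q + 1 ≠ 0)).mpr (by omega)
  obtain ⟨lam, hlamdef⟩ : ∃ lam, lam = ζ₀ ^ ((q + 1) / 2 ^ (v + 1)) := ⟨_, rfl⟩
  have hlamprim : IsPrimitiveRoot lam (2 ^ (v + 1)) := by
    rw [hlamdef]
    exact hζ₀.pow (Nat.succ_pos q) (Nat.div_mul_cancel hdv).symm
  have hlamq : lam ^ (q + 1) = 1 := by
    obtain ⟨t, ht⟩ := hdv
    rw [ht, pow_mul, hlamprim.pow_eq_one, one_pow]
  have hε : φ lam * lam = 1 := by
    rw [hφq, ← pow_succ]
    exact hlamq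
  have hlam0 : lam ≠ 0 := right_ne_zero_of_mul_eq_one hε
  have hlamv : lam ^ (2 ^ v) = -1 := by
    have h1 : IsPrimitiveRoot (lam ^ (2 ^ v)) 2 :=
      hlamprim.pow (by positivity) (by rw [pow_succ])
    exact h1.eq_neg_one_of_two_right
  have hdvn : 2 ^ v ∣ n := by
    rw [hvdef]
    exact pow_padicValNat_dvd
  obtain ⟨n', hn'⟩ := hdvn
  have hn'odd : Odd n' := by
    rw [← Nat.not_even_iff_odd]
    rintro ⟨t', ht'⟩
    have h4 : 2 ^ (v + 1) ∣ n := ⟨t', by rw [hn', ht']; ring⟩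
    have h5 := (padicValNat_dvd_iff_le hn0.ne').mp h4
    omega
  have hlamn : lam ^ n = -1 := by
    rw [hn', pow_mul, hlamv, hn'odd.neg_one_pow]
  have hne : lam ≠ -lam := by
    intro h
    have h5 : (2 : K) * lam = 0 := by linear_combination h
    rcases mul_eq_zero.mp h5 with h' | h'
    · exact h2K h'
    · exact hlam0 h'
  have hL1 : (X - C lam : K[X]).Monic := monic_X_sub_C lam
  have hL2 : (X - C (-lam) : K[X]).Monic := monic_X_sub_C (-lam)
  have hs1 : rstar φ (X - C lam) = X - C lam := by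
    have h3 := rstar_X_pow_sub_C_fix φ 1 one_pos lam hε
    rwa [pow_one] at h3
  have hs2 : rstar φ (X - C (-lam)) = X - C (-lam) := by
    have h3 : φ (-lam) * (-lam) = 1 := by
      rw [map_neg]
      linear_combination hε
    have h4 := rstar_X_pow_sub_C_fix φ 1 one_pos (-lam) h3
    rwa [pow_one] at h4
  obtain ⟨χ, hχdef⟩ : ∃ χ : K[X], χ = (X - C lam) ^ (n - 1) * (X - C (-lam)) ^ 1 := ⟨_, rfl⟩
  have hχm : χ.Monic := by
    rw [hχdef]
    exact (hL1.pow _).mul (hL2.pow _)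
  have hχd : χ.natDegree = n := by
    rw [hχdef, (hL1.pow _).natDegree_mul (hL2.pow _), hL1.natDegree_pow, hL2.natDegree_pow,
      natDegree_X_sub_C, natDegree_X_sub_C, mul_one, mul_one]
    omega
  have hχs : rstar φ χ = χ := by
    rw [hχdef, rstar_mul, rstar_pow, rstar_pow, hs1, hs2]
  have hχc : χ.coeff 0 = (-lam) ^ (n - 1) * lam := by
    rw [hχdef, mul_coeff_zero, coeff0_pow, coeff0_pow, coeff_sub, coeff_sub, coeff_X_zero,
      coeff_C_zero, coeff_C_zero, zero_sub, zero_sub, neg_neg, pow_one]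
  have hχ0 : χ.coeff 0 ≠ 0 := by
    rw [hχc]
    exact mul_ne_zero (pow_ne_zero _ (neg_ne_zero.mpr hlam0)) hlam0
  have hfacχ : ∀ P : K[X], Irreducible P → P.Monic → P ∣ χ → P ∣ X ^ 2 - C (lam ^ 2) := by
    intro P hPirr _ hPdvd
    have h2 : X ^ 2 - C (lam ^ 2) = (X - C lam) * (X - C (-lam)) := by
      rw [C_pow, C_neg]
      ring
    rw [h2]
    rw [hχdef] at hPdvd
    rcases hPirr.prime.dvd_or_dvd hPdvd with h | h
    · exact (hPirr.prime.dvd_of_dvd_pow h).trans (Dvd.intro _ rfl)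
    · exact (hPirr.prime.dvd_of_dvd_pow h).trans (Dvd.intro_left _ rfl)
  obtain ⟨U, hU1, hU2, hU3⟩ := exists_elt hK hp φ hφ l hl χ hχm hχd hχ0 hχs 2 (lam ^ 2)
    (pow_ne_zero 2 hlam0) hfacχ
  have hUdet : U.det = 1 := by
    have hodd : Odd (n - 1) := ⟨m - 1, by omega⟩
    have hev : Even n := ⟨m, by omega⟩
    rw [det_eq U, hU2, hχc, hodd.neg_pow, hev.neg_one_pow, mul_one, neg_mul, ← pow_succ,
      (by omega : n - 1 + 1 = n), hlamn, neg_neg]
  have hUns : ∀ w : K, U ≠ w • (1 : Matrix (Fin n) (Fin n) K) := by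
    intro w hw
    have hann : aeval U (X - C w) = 0 := by
      rw [map_sub, aeval_X, aeval_C, Algebra.algebraMap_eq_smul_one, ← hw, sub_self]
    have h1 : (X - C lam) ∣ U.charpoly := by
      rw [hU2, hχdef]
      exact (dvd_pow_self _ (by omega : n - 1 ≠ 0)).trans (Dvd.intro _ rfl)
    have h2 : (X - C (-lam)) ∣ U.charpoly := by
      rw [hU2, hχdef, pow_one]
      exact Dvd.intro_left _ rfl
    have h3 := eq_of_dvd_X_sub_C _ (irreducible_X_sub_C lam) hL1 w
      (dvd_ann U _ hann _ (irreducible_X_sub_C lam) hL1 h1)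
    have h4 := eq_of_dvd_X_sub_C _ (irreducible_X_sub_C (-lam)) hL2 w
      (dvd_ann U _ hann _ (irreducible_X_sub_C (-lam)) hL2 h2)
    exact lin_ne lam (-lam) hne (h3.trans h4.symm)
  refine ⟨U, lam, hU1, hUdet, hU3, hUns, by rw [hU2, hχdef], hne, ?_⟩
  intro hfix
  rw [fixT_iff hK φ hφ l hl hn0 U hU1 2 Nat.prime_two (Ne.symm hp2) _ hU3 m, hU2] at hfix
  obtain ⟨D, hDm, hDd, hDdvd⟩ := hfix
  have hDχ : D ∣ χ := (Dvd.intro _ rfl).trans hDdvd
  obtain ⟨a', e', hD⟩ := two_root_decomp lam (-lam) D hDm (by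
    intro P hPirr hPm hPdvd
    exact lin_factor (lam ^ 2) lam rfl P hPirr hPm (hfacχ P hPirr hPm (hPdvd.trans hDχ)))
  have hDs : rstar φ D = D := by
    rw [hD, rstar_mul, rstar_pow, rstar_pow, hs1, hs2]
  rw [hDs, hχdef, hD] at hDdvd
  have e1 : (X - C lam) ^ a' * (X - C (-lam)) ^ e' *
      ((X - C lam) ^ a' * (X - C (-lam)) ^ e') =
      (X - C lam) ^ (2 * a') * (X - C (-lam)) ^ (2 * e') := by ring
  rw [e1] at hDdvd
  obtain ⟨h5, h6⟩ := two_root_le lam (-lam) hne _ _ _ _ hDdvd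
  have hm' : m = a' + e' := by
    rw [← hDd, hD, (hL1.pow _).natDegree_mul (hL2.pow _), hL1.natDegree_pow,
      hL2.natDegree_pow, natDegree_X_sub_C, natDegree_X_sub_C, mul_one, mul_one]
  omega

omit [Fintype K] [DecidableEq K] in
/-- An element with eigenvalue `-lam` of multiplicity one cannot swap two spaces of dimension
at least two meeting trivially when its square is `lam²`. -/
theorem two_swap_false {n : ℕ} (U : Matrix (Fin n) (Fin n) K) (lam : K) (hne : lam ≠ -lam)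
    (hU3 : U ^ 2 = (lam ^ 2) • (1 : Matrix (Fin n) (Fin n) K))
    (hχ : U.charpoly = (X - C lam) ^ (n - 1) * (X - C (-lam)) ^ 1)
    (U0 U1 : Submodule K (Fin n → K)) (h0 : 2 ≤ finrank K U0) (hinf : U0 ⊓ U1 = ⊥)
    (h01 : U0.map (Matrix.toLin' U) ≤ U1) : False := by
  have hlam0 : lam ≠ 0 := by
    rintro rfl
    exact hne (by rw [neg_zero])
  obtain ⟨g, hg⟩ : ∃ g : U0 →ₗ[K] (Fin n → K),
      ∀ u : U0, g u = U *ᵥ (u : Fin n → K) - lam • (u : Fin n → K) :=
    ⟨(Matrix.toLin' U - lam • LinearMap.id).domRestrict U0, fun u => by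
      simp [Matrix.toLin'_apply]⟩
  have hmem : ∀ u : U0, g u ∈ Module.End.eigenspace (Matrix.toLin' U) (-lam) := by
    intro u
    rw [Module.End.mem_eigenspace_iff, hg, Matrix.toLin'_apply, Matrix.mulVec_sub,
      Matrix.mulVec_smul, Matrix.mulVec_mulVec, ← sq, hU3, Matrix.smul_mulVec,
      Matrix.one_mulVec, smul_sub, smul_smul]
    have e1 : -lam * lam = -(lam ^ 2) := by ring
    rw [e1, neg_smul, neg_smul]
    abel
  have hinj : Function.Injective (LinearMap.codRestrict _ g hmem) := by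
    rw [← LinearMap.ker_eq_bot, LinearMap.ker_eq_bot']
    intro u hu
    have h1 : g u = 0 := congrArg Subtype.val hu
    rw [hg, sub_eq_zero] at h1
    have h2 : U *ᵥ (u : Fin n → K) ∈ U1 := h01 ⟨u, u.2, Matrix.toLin'_apply _ _⟩
    have h3 : lam • (u : Fin n → K) ∈ U0 ⊓ U1 := ⟨U0.smul_mem lam u.2, h1 ▸ h2⟩
    rw [hinf, Submodule.mem_bot] at h3
    rcases smul_eq_zero.mp h3 with h4 | h4
    · exact absurd h4 hlam0
    · exact Subtype.ext h4
  have hle := LinearMap.finrank_le_finrank_of_injective hinj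
  have hle2 := LinearMap.finrank_eigenspace_le (Matrix.toLin' U) (-lam)
  rw [Matrix.charpoly_toLin', hχ] at hle2
  have hχ0 : (X - C lam) ^ (n - 1) * (X - C (-lam)) ^ 1 ≠ 0 :=
    (((monic_X_sub_C lam).pow _).mul ((monic_X_sub_C (-lam)).pow _)).ne_zero
  have h2le : 2 ≤ rootMultiplicity (-lam) ((X - C lam) ^ (n - 1) * (X - C (-lam)) ^ 1) := by
    omega
  rw [le_rootMultiplicity_iff hχ0] at h2le
  have h5 := two_root_le lam (-lam) hne 0 2 (n - 1) 1 (by rw [pow_zero, one_mul]; exact h2le)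
  omega

/-- **Necessity.** -/
theorem nec (hK : Fintype.card K = q ^ 2) (φ : K →+* K) (hφq : ∀ x, φ x = x ^ q)
    (hφ : ∀ x, φ (φ x) = x) (l : K) (hl : φ l ≠ l) (hp : p.Prime) {m : ℕ} (hm : 2 ≤ m) (r : ℕ)
    (hr : r.Prime)
    (hidx : ¬ r ∣ q → ∃ t < m, r ∣ q ^ (2 * t + 1) + 1)
    (w : Fin (m + m) → K) (hw0 : w ≠ 0) (hww : hB φ w w = 0)
    (H : ∀ x : Matrix (Fin (m + m)) (Fin (m + m)) K, adj φ x * x = 1 → x.det = 1 →
      (∃ z : K, x ^ r = z • (1 : Matrix (Fin (m + m)) (Fin (m + m)) K)) →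
      (∀ z : K, x ≠ z • (1 : Matrix (Fin (m + m)) (Fin (m + m)) K)) → PairStab φ x m) :
    r = 2 ∧ q % 2 = 1 ∧ padicValNat 2 (q + 1) ≤ padicValNat 2 (m + m) := by
  have hn0 : 0 < m + m := by omega
  by_cases hrp : r = p
  · exfalso
    obtain ⟨x, hx1, hx2, hx3, hx4, hx5⟩ := exists_transv φ hφ l hl p hm w hw0 hww
    exact hx5 (H x hx1 hx2 ⟨1, by rw [hrp]; exact hx3⟩ hx4)
  · have hrq : ¬ r ∣ q := by
      intro h
      obtain ⟨f, -, hf⟩ := FiniteField.card K p
      have h1 : r ∣ p ^ (f : ℕ) := by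
        rw [← hf, hK]
        exact h.trans (dvd_pow_self q two_ne_zero)
      exact hrp ((Nat.prime_dvd_prime_iff_eq hr hp).mp (hr.dvd_of_dvd_pow h1))
    by_cases hr2 : r = 2
    · have hp2 : p ≠ 2 := fun h => hrp (hr2.trans h.symm)
      refine ⟨hr2, q_odd hK hp2, ?_⟩
      by_contra hv
      have hvlt : padicValNat 2 (m + m) < padicValNat 2 (q + 1) := by omega
      obtain ⟨U, lam, hU1, hUdet, hU3, hUns, hUχ, hne, hnf⟩ :=
        two_witness hK φ hφq hφ l hl hp2 m hm (by ring) hvlt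
      obtain ⟨U0, U1, h0, h1, ht0, ht1, hinf, hc | hc⟩ :=
        H U hU1 hUdet ⟨_, by rw [hr2]; exact hU3⟩ hUns
      · exact hnf ⟨U0, h0, ht0, hc.1⟩
      · exact two_swap_false U lam hne hU3 hUχ U0 U1 (by omega) hinf hc.1
    · exfalso
      have h2r : 2 < r := by
        have := hr.two_le
        omega
      have hrodd : r % 2 = 1 := by
        rcases hr.eq_two_or_odd with h | h
        · exact absurd h hr2
        · exact h
      have H' : ∀ A : Matrix (Fin (m + m)) (Fin (m + m)) K, adj φ A * A = 1 → A.det = 1 →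
          (∃ z : K, A ^ r = z • (1 : Matrix (Fin (m + m)) (Fin (m + m)) K)) →
          (∀ z : K, A ≠ z • (1 : Matrix (Fin (m + m)) (Fin (m + m)) K)) → FixT φ A m := by
        intro A hA hdet ⟨z, hz⟩ hns
        have hzu := scalar_unit φ hn0 A hA r z hz
        exact fixT_of_pairStab_odd φ A m (by omega) r hrodd z (right_ne_zero_of_mul_eq_one hzu)
          hz (H A hA hdet ⟨z, hz⟩ hns)
      obtain ⟨t, ht, hd⟩ := hidx hrq
      obtain ⟨i, hi⟩ : ∃ i, i = orderOf (q : ZMod r) := ⟨_, rfl⟩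
      obtain ⟨hi4, hbk, hir⟩ := order_facts q r hr hr2 (2 * t + 1) (by omega) hd i hi
      obtain ⟨b₀, S, hi0, hb₀, hSne, h1S, hS, hSiff, hSstar, hSfix⟩ :=
        gu_cyclo_facts hK φ hφq hφ r hr hr2 hrp i hi
      have hbb : b₀ = i / 2 := by
        rw [hb₀, if_neg]
        rw [Nat.not_odd_iff_even, Nat.even_iff]
        omega
      have hdegS : ∀ P : K[X], Irreducible P → P.Monic → P ∣ X ^ r - C 1 → P ≠ X - C 1 →
          P.natDegree = i / 2 ∧ rstar φ P = P := by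
        intro P hPirr hPm hPdvd hP1
        rcases (hSiff P hPirr hPm).mp hPdvd with h | h
        · exact absurd h hP1
        · exact ⟨by rw [← hbb]; exact (hS P h).2.2.1, (hSfix P h).mpr hi4⟩
      by_cases hi2 : i = 2
      · have hdeg1 : ∀ P : K[X], Irreducible P → P.Monic → P ∣ X ^ r - C 1 → P ≠ X - C 1 →
            P.natDegree = 1 ∧ rstar φ P = P := by
          intro P a1 a2 a3 a4
          have h3 := hdegS P a1 a2 a3 a4
          rw [hi2] at h3
          exact h3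
        have h1 := nec_sd_two hK φ hφq hφ l hl r hr hrp h2r hdeg1 (by omega : 3 ≤ m + m) m
          (by omega) H'
        omega
      · have hrq1 : ¬ r ∣ q + 1 := fun h => hi2 (hi.trans ((order_two_iff q r hr hr2).mpr h))
        obtain ⟨b, hb⟩ : ∃ b, b = i / 2 := ⟨_, rfl⟩
        rw [← hb] at hdegS hbk
        have hb2 : 2 ≤ b := by omega
        have hbt : b ≤ 2 * t + 1 := Nat.le_of_dvd (by omega) hbk
        have hmodlt : (m + m) % b < b := Nat.mod_lt _ (by omega)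
        have h1 := nec_sd_ne hK φ hφq hφ l hl r hr hrp hrq1 h2r b hb2 hdegS hn0 m (by omega)
          (by omega) H'
        obtain ⟨e, he⟩ := hir
        have he1 : 1 ≤ e := by
          rcases Nat.eq_zero_or_pos e with h | h
          · rw [h, mul_zero] at he
            omega
          · exact h
        have hrb : 2 ≤ (r - 1) / b := by
          rw [Nat.le_div_iff_mul_le (by omega)]
          have h3 : i = 2 * b := by omega
          rw [he, h3]
          nlinarith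
        have hmm : (m + m) / b < 2 * (m / b) + 1 + 1 := by
          rw [Nat.div_lt_iff_lt_mul (by omega)]
          have h3 := Nat.div_add_mod m b
          have h4 := Nat.mod_lt m (by omega : b > 0)
          have h5 : (2 * (m / b) + 1 + 1) * b = 2 * (b * (m / b)) + 2 * b := by ring
          omega
        omega

/-- **Sufficiency.** -/
theorem suff (hK : Fintype.card K = q ^ 2) (φ : K →+* K) (hφq : ∀ x, φ x = x ^ q)
    (hφ : ∀ x, φ (φ x) = x) (l : K) (hl : φ l ≠ l) (hp2 : p ≠ 2) {m : ℕ} (hm : 1 ≤ m)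
    (hv : padicValNat 2 (q + 1) ≤ padicValNat 2 (m + m))
    (G : Matrix (Fin (m + m)) (Fin (m + m)) K) (hG : adj φ G * G = Jm m)
    (D0 D1 : Submodule K (Fin (m + m) → K))
    (hD0 : D0 = (LinearMap.range (iota (K := K) m m)).map (Matrix.toLin' G))
    (hD1 : D1 = (LinearMap.range (iota (K := K) m m)).map (Matrix.toLin' (G * Jm m)))
    (x : Matrix (Fin (m + m)) (Fin (m + m)) K) (hx : adj φ x * x = 1) (hdet : x.det = 1) (z : K)
    (hxz : x ^ 2 = z • (1 : Matrix (Fin (m + m)) (Fin (m + m)) K)) :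
    ∃ g : Matrix (Fin (m + m)) (Fin (m + m)) K, adj φ g * g = 1 ∧ g.det = 1 ∧
      D0.map (Matrix.toLin' (adj φ g * x * g)) = D0 ∧
      D1.map (Matrix.toLin' (adj φ g * x * g)) = D1 := by
  have hp : p.Prime := Fact.out
  have hn0 : 0 < m + m := by omega
  have hfix := two_suffT hK φ hφq hφ l hl hp2 hn0 m (by omega) (Or.inr hv) x hx hdet z hxz
  rw [fixT_iff hK φ hφ l hl hn0 x hx 2 Nat.prime_two (Ne.symm hp2) z hxz m] at hfix
  obtain ⟨D, hDm, hDd, hDdvd⟩ := hfix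
  have hχ0 := charpoly_coeff_zero_ne φ x hx
  have hD0' : D.coeff 0 ≠ 0 := coeff0_of_dvd ((Dvd.intro _ rfl).trans hDdvd) hχ0
  have hDs_m := rstar_monic φ D hD0'
  have hDs_d := rstar_natDegree φ D hD0'
  have hχeq : x.charpoly = D * rstar φ D := by
    apply eq_of_monic_of_dvd_of_natDegree_le (hDm.mul hDs_m) (Matrix.charpoly_monic x) hDdvd
    rw [Matrix.charpoly_natDegree_eq_dim, Fintype.card_fin, hDm.natDegree_mul hDs_m, hDs_d, hDd]
  obtain ⟨s, hsc, N, hNpos, hNcop, hsN⟩ :=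
    Cfsg.Agent.Lib.Helper40.SSCount.exists_charpoly p m D hDm hDd hD0'
  obtain ⟨si, hsi⟩ : ∃ si, si = s ^ (N - 1) := ⟨_, rfl⟩
  have hs1 : s * si = 1 := by
    rw [hsi, ← pow_succ', Nat.sub_add_cancel hNpos, hsN]
  have hs2 : si * s = 1 := mul_eq_one_comm.mp hs1
  have hsiN : si ^ N = 1 := by
    rw [hsi, ← pow_mul, mul_comm, pow_mul, hsN, one_pow]
  obtain ⟨y, hy⟩ : ∃ y, y = levi φ G s si := ⟨_, rfl⟩
  have hy1 : adj φ y * y = 1 := by
    rw [hy]
    exact levi_unitary φ G hφ hG s si hs2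
  have hpow : ∀ k : ℕ, y ^ k = levi φ G (s ^ k) (si ^ k) := by
    intro k
    induction k with
    | zero => rw [pow_zero, pow_zero, pow_zero, levi_one φ G hG]
    | succ k ih => rw [pow_succ, ih, hy, levi_mul φ G hG, ← pow_succ, ← pow_succ']
  have hyN : y ^ N = 1 := by
    rw [hpow, hsN, hsiN, levi_one φ G hG]
  have hyc : y.charpoly = D * rstar φ D := by
    rw [hy]
    unfold levi
    rw [Matrix.charpoly_mul_comm, ← Matrix.mul_assoc, Gi_mul φ G hG, Matrix.one_mul,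
      bsum_charpoly, hsc, charpoly_adj,
      Cfsg.Agent.Lib.Helper40.SpTI.charpoly_inv_eq s si hs1, hsc]
    congr 1
    rw [Cfsg.Agent.Lib.Helper40.SpTI.pstar_eq, Polynomial.map_mul, Polynomial.map_C, map_inv₀]
    rfl
  have hz := scalar_unit φ hn0 x hx 2 z hxz
  have hz0 : z ≠ 0 := right_ne_zero_of_mul_eq_one hz
  obtain ⟨M, hM⟩ : ∃ M, M = N * (2 * (q ^ 2 - 1)) := ⟨_, rfl⟩
  have hcop : M.Coprime p := by
    rw [hM]
    exact Nat.Coprime.mul_left hNcop (Nat.Coprime.mul_left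
      ((Nat.coprime_primes Nat.prime_two hp).mpr (Ne.symm hp2)) (coprime_card_sub_one hK))
  have hMK : ((M : ℕ) : K) ≠ 0 := cast_ne_zero_of_coprime p _ hcop
  have hxM : x ^ M = 1 := by
    rw [hM, mul_comm N, pow_mul, pow_mul, hxz, _root_.smul_pow, one_pow,
      pow_card_sub_one hK z hz0, one_smul, one_pow]
  have hyM : y ^ M = 1 := by
    rw [hM, pow_mul, hyN, one_pow]
  obtain ⟨g, hg1, hg2, hg3⟩ := su_conj_core φ hφ l hl y x hy1 hx M hMK hyM hxM
    (by rw [hyc, hχeq])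
  have hconj : adj φ g * x * g = y := by
    rw [Matrix.mul_assoc, ← hg3, ← Matrix.mul_assoc, hg1, Matrix.one_mul]
  refine ⟨g, hg1, hg2, ?_, ?_⟩
  · rw [hconj, hy]
    exact levi_map₁ φ G hG s si hs2 D0 hD0
  · rw [hconj, hy]
    exact levi_map₂ φ G hG s si hs2 D1 hD1

end finite

section conj
variable {K : Type u} [Field K]

/-- A unitary conjugate of `x` stabilising a pair gives a pair stabilised by `x`. -/
theorem pairStab_of_conj (φ : K →+* K) (hφ : ∀ x, φ (φ x) = x) {n : ℕ} (m : ℕ)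
    (D0 D1 : Submodule K (Fin n → K)) (h0 : finrank K D0 = m) (h1 : finrank K D1 = m)
    (ht0 : TI φ D0) (ht1 : TI φ D1) (hinf : D0 ⊓ D1 = ⊥)
    (x g gi : Matrix (Fin n) (Fin n) K) (hg : adj φ g * g = 1) (hgi : g * gi = 1)
    (hc : (D0.map (Matrix.toLin' (gi * x * g)) ≤ D0 ∧
        D1.map (Matrix.toLin' (gi * x * g)) ≤ D1) ∨
      (D0.map (Matrix.toLin' (gi * x * g)) ≤ D1 ∧
        D1.map (Matrix.toLin' (gi * x * g)) ≤ D0)) :
    PairStab φ x m := by
  have hinj : Function.Injective (Matrix.toLin' g) := by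
    intro u v huv
    have h1 := congrArg (Matrix.toLin' (adj φ g)) huv
    rw [Matrix.toLin'_apply, Matrix.toLin'_apply, Matrix.toLin'_apply, Matrix.toLin'_apply,
      Matrix.mulVec_mulVec, Matrix.mulVec_mulVec, hg, Matrix.one_mulVec,
      Matrix.one_mulVec] at h1
    exact h1
  have hfr : ∀ W : Submodule K (Fin n → K),
      finrank K (W.map (Matrix.toLin' g)) = finrank K W := fun W =>
    (LinearEquiv.finrank_eq (Submodule.equivMapOfInjective _ hinj W)).symm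
  have hti : ∀ W : Submodule K (Fin n → K), TI φ W → TI φ (W.map (Matrix.toLin' g)) := by
    intro W hW u hu v hv
    obtain ⟨u', hu', rfl⟩ := Submodule.mem_map.mp hu
    obtain ⟨v', hv', rfl⟩ := Submodule.mem_map.mp hv
    rw [Matrix.toLin'_apply, Matrix.toLin'_apply, hB_isom φ hφ g hg]
    exact hW u' hu' v' hv'
  have hmv : ∀ (A B : Submodule K (Fin n → K)), A.map (Matrix.toLin' (gi * x * g)) ≤ B →
      (A.map (Matrix.toLin' g)).map (Matrix.toLin' x) ≤ B.map (Matrix.toLin' g) := by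
    intro A B hAB
    rintro _ ⟨_, ⟨u, hu, rfl⟩, rfl⟩
    refine ⟨(gi * x * g) *ᵥ u, hAB ⟨u, hu, Matrix.toLin'_apply _ _⟩, ?_⟩
    rw [Matrix.toLin'_apply, Matrix.toLin'_apply, Matrix.toLin'_apply, Matrix.mulVec_mulVec,
      Matrix.mulVec_mulVec]
    congr 1
    rw [← Matrix.mul_assoc, ← Matrix.mul_assoc, hgi, Matrix.one_mul]
  refine ⟨D0.map (Matrix.toLin' g), D1.map (Matrix.toLin' g), by rw [hfr, h0],
    by rw [hfr, h1], hti D0 ht0, hti D1 ht1, ?_, ?_⟩
  · rw [← Submodule.map_inf _ hinj, hinf, Submodule.map_bot]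
  · rcases hc with hc | hc
    · exact Or.inl ⟨hmv D0 D0 hc.1, hmv D1 D1 hc.2⟩
    · exact Or.inr ⟨hmv D0 D1 hc.1, hmv D1 D0 hc.2⟩

end conj

end Cfsg.Agent.Lib.Helper40.PPElts
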