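import Mathlib
import Cfsg.Prelude.Def_Classical
import Cfsg.Prelude.Def_LieClassical
import Cfsg.Prelude.Def_GeometricClasses
import Cfsg.Agent.Lib.Helper40.PPFrame
import Cfsg.Agent.Lib.Helper45.GUCard

set_option autoImplicit false

namespace Cfsg.Agent.Lib.Helper40.PPIndex

open Module Matrix Cfsg.Agent.Lib.Helper40.UnitDet Cfsg.Agent.Lib.Helper40.HermAdj
  Cfsg.Agent.Lib.Helper40.HGeo Cfsg.Agent.Lib.Helper40.HCrit Cfsg.Agent.Lib.Helper40.TGeo
  Cfsg.Agent.Lib.Helper40.PPFrame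

universe u

section arith

theorem gu_prod (q m : ℕ) :
    ∏ i ∈ Finset.range (m + m), (if Even i then q ^ (i + 1) + 1 else q ^ (i + 1) - 1) =
      (∏ t ∈ Finset.range m, (q ^ (2 * t + 1) + 1)) *
        ∏ t ∈ Finset.range m, ((q ^ 2) ^ (t + 1) - 1) := by
  induction m with
  | zero => simp
  | succ m ih =>
    have e : m + 1 + (m + 1) = (m + m) + 1 + 1 := by ring
    rw [e, Finset.prod_range_succ, Finset.prod_range_succ, ih, Finset.prod_range_succ,
      Finset.prod_range_succ]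
    have h1 : Even (m + m) := ⟨m, rfl⟩
    have h2 : ¬ Even (m + m + 1) := by
      rw [Nat.not_even_iff_odd]
      exact ⟨m, by ring⟩
    rw [if_pos h1, if_neg h2]
    have e1 : m + m + 1 = 2 * m + 1 := by ring
    have e2 : q ^ (m + m + 1 + 1) = (q ^ 2) ^ (m + 1) := by
      rw [← pow_mul]
      congr 1
      ring
    rw [e2, e1]
    ring

theorem gl_prod (q m : ℕ) :
    ∏ i : Fin m, ((q ^ 2) ^ m - (q ^ 2) ^ (i : ℕ)) =
      (∏ i ∈ Finset.range m, (q ^ 2) ^ i) * ∏ t ∈ Finset.range m, ((q ^ 2) ^ (t + 1) - 1) := by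
  rw [Cfsg.Agent.Lib.Helper40.SubspCount.prod_pow_sub (q ^ 2) m m le_rfl]
  congr 1
  unfold Cfsg.Agent.Lib.Helper40.SubspCount.bfun
  rw [← Finset.prod_range_reflect (fun t => (q ^ 2) ^ (t + 1) - 1) m]
  apply Finset.prod_congr rfl
  intro i hi
  have hi' := Finset.mem_range.mp hi
  have e : m - i = m - 1 - i + 1 := by omega
  rw [e]

theorem arith (q m O : ℕ) (hq : 2 ≤ q) (hm : 1 ≤ m) (r : ℕ) (hr : r.Prime) (hrq : ¬ r ∣ q)
    (hO : r ∣ O)
    (h : O * ∏ i : Fin m, ((q ^ 2) ^ m - (q ^ 2) ^ (i : ℕ)) ∣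
      (q ^ ((m + m) * (m + m - 1) / 2) * ∏ i ∈ Finset.range (m + m),
        (if Even i then q ^ (i + 1) + 1 else q ^ (i + 1) - 1)) * (q + 1)) :
    ∃ t < m, r ∣ q ^ (2 * t + 1) + 1 := by
  rw [gu_prod, gl_prod] at h
  obtain ⟨P1, hP1⟩ : ∃ P1, P1 = ∏ t ∈ Finset.range m, (q ^ (2 * t + 1) + 1) := ⟨_, rfl⟩
  obtain ⟨P2, hP2⟩ : ∃ P2, P2 = ∏ t ∈ Finset.range m, ((q ^ 2) ^ (t + 1) - 1) := ⟨_, rfl⟩
  obtain ⟨Q, hQ⟩ : ∃ Q, Q = ∏ i ∈ Finset.range m, (q ^ 2) ^ i := ⟨_, rfl⟩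
  obtain ⟨N, hN⟩ : ∃ N, N = (m + m) * (m + m - 1) / 2 := ⟨_, rfl⟩
  rw [← hP1, ← hP2, ← hQ, ← hN] at h
  have hP2pos : 0 < P2 := by
    rw [hP2]
    apply Finset.prod_pos
    intro t _
    have h1 : 1 < q ^ 2 := Nat.one_lt_pow two_ne_zero (by omega)
    have h2 : 1 < (q ^ 2) ^ (t + 1) := Nat.one_lt_pow (Nat.succ_ne_zero t) h1
    omega
  have h' : (O * Q) * P2 ∣ (q ^ N * P1 * (q + 1)) * P2 := by
    have e1 : O * Q * P2 = O * (Q * P2) := by ring
    have e2 : q ^ N * P1 * (q + 1) * P2 = q ^ N * (P1 * P2) * (q + 1) := by ring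
    rw [e1, e2]
    exact h
  have h'' : O * Q ∣ q ^ N * P1 * (q + 1) := Nat.dvd_of_mul_dvd_mul_right hP2pos h'
  have h3 : r ∣ q ^ N * P1 * (q + 1) := (hO.trans (Dvd.intro _ rfl)).trans h''
  rcases (Nat.Prime.dvd_mul hr).mp h3 with h4 | h4
  · rcases (Nat.Prime.dvd_mul hr).mp h4 with h5 | h5
    · exact absurd (hr.dvd_of_dvd_pow h5) hrq
    · rw [hP1] at h5
      obtain ⟨t, ht, hd⟩ := (Prime.dvd_finsetProd_iff hr.prime _).mp h5
      exact ⟨t, Finset.mem_range.mp ht, hd⟩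
  · exact ⟨0, by omega, by simpa using h4⟩

end arith

section index
variable {K : Type u} [Field K]

/-- The Levi embedding as a group homomorphism. -/
noncomputable def leviHom (φ : K →+* K) {m : ℕ} (G : Matrix (Fin (m + m)) (Fin (m + m)) K)
    (hG : adj φ G * G = Jm m) : GL (Fin m) K →* GL (Fin (m + m)) K :=
  MonoidHom.mk' (fun A => ⟨levi φ G (A : Matrix (Fin m) (Fin m) K)
      ((A⁻¹ : GL (Fin m) K) : Matrix (Fin m) (Fin m) K),
      levi φ G ((A⁻¹ : GL (Fin m) K) : Matrix (Fin m) (Fin m) K)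
        (A : Matrix (Fin m) (Fin m) K),
      by rw [levi_mul φ G hG, Units.mul_inv, levi_one φ G hG],
      by rw [levi_mul φ G hG, Units.inv_mul, levi_one φ G hG]⟩)
    (by
      intro A B
      apply Units.ext
      show levi φ G ((A * B : GL (Fin m) K) : Matrix (Fin m) (Fin m) K)
          (((A * B)⁻¹ : GL (Fin m) K) : Matrix (Fin m) (Fin m) K) =
        levi φ G (A : Matrix (Fin m) (Fin m) K)
            ((A⁻¹ : GL (Fin m) K) : Matrix (Fin m) (Fin m) K) *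
          levi φ G (B : Matrix (Fin m) (Fin m) K)
            ((B⁻¹ : GL (Fin m) K) : Matrix (Fin m) (Fin m) K)
      rw [levi_mul φ G hG, _root_.mul_inv_rev, Units.val_mul, Units.val_mul])

theorem leviHom_val (φ : K →+* K) {m : ℕ} (G : Matrix (Fin (m + m)) (Fin (m + m)) K)
    (hG : adj φ G * G = Jm m) (A : GL (Fin m) K) :
    ((leviHom φ G hG A : GL (Fin (m + m)) K) : Matrix (Fin (m + m)) (Fin (m + m)) K) =
      levi φ G (A : Matrix (Fin m) (Fin m) K)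
        ((A⁻¹ : GL (Fin m) K) : Matrix (Fin m) (Fin m) K) := rfl

/-- A prime not dividing `q` which divides the index of the stabiliser of a pair of complementary
totally isotropic subspaces in the special unitary group divides `q^i + 1` for some odd
`i < n`. -/
theorem dvd_of_dvd_index [Fintype K] {q : ℕ} (hK : Fintype.card K = q ^ 2) (φ : K →+* K)
    (hφq : ∀ x, φ x = x ^ q) (hφ : ∀ x, φ (φ x) = x) {m : ℕ} (hm : 1 ≤ m)
    (D : Fin 2 → Submodule K (Fin (m + m) → K))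
    (G : Matrix (Fin (m + m)) (Fin (m + m)) K) (hG : adj φ G * G = Jm m)
    (hD0 : D 0 = (LinearMap.range (iota (K := K) m m)).map (Matrix.toLin' G))
    (hD1 : D 1 = (LinearMap.range (iota (K := K) m m)).map (Matrix.toLin' (G * Jm m)))
    (r : ℕ) (hr : r.Prime) (hrq : ¬ r ∣ q)
    (hΩ : r ∣ (Cfsg.Geo.decompositionStabilizer D).relIndex
      (Cfsg.GU (m + m) K q ⊓ Cfsg.Geo.specialLinear (Fin (m + m)) K)) :
    ∃ t < m, r ∣ q ^ (2 * t + 1) + 1 := by
  classical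
  have hq := Cfsg.Agent.Lib.Helper40.SURegUnip.two_le_q hK
  obtain ⟨H, hH⟩ : ∃ H, H = Cfsg.Geo.decompositionStabilizer D := ⟨_, rfl⟩
  obtain ⟨U, hU⟩ : ∃ U, U = Cfsg.GU (m + m) K q := ⟨_, rfl⟩
  obtain ⟨S, hS⟩ : ∃ S, S = Cfsg.Geo.specialLinear (Fin (m + m)) K := ⟨_, rfl⟩
  rw [← hH, ← hU, ← hS] at hΩ
  have e1 : H.relIndex (U ⊓ S) * Nat.card ↥(H ⊓ (U ⊓ S)) = Nat.card ↥(U ⊓ S) := by
    have h := Subgroup.relIndex_mul_relIndex (⊥ : Subgroup (GL (Fin (m + m)) K))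
      (H ⊓ (U ⊓ S)) (U ⊓ S) bot_le inf_le_right
    rw [Subgroup.relIndex_bot_left, Subgroup.relIndex_bot_left,
      Subgroup.inf_relIndex_right] at h
    rw [mul_comm]
    exact h
  have e2 : Nat.card ↥(U ⊓ S) ∣ Nat.card ↥U := Subgroup.card_dvd_of_le inf_le_left
  have hmem : ∀ A : GL (Fin m) K, leviHom φ G hG A ∈ H ⊓ U := by
    intro A
    refine ⟨?_, ?_⟩
    · rw [hH]
      refine ⟨1, ?_⟩
      rw [Fin.forall_fin_two]
      exact ⟨levi_map₁ φ G hG _ _ (Units.inv_mul A) (D 0) hD0,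
        levi_map₂ φ G hG _ _ (Units.inv_mul A) (D 1) hD1⟩
    · rw [hU]
      exact (preserves_iff φ hφq _).mpr (levi_unitary φ G hφ hG _ _ (Units.inv_mul A))
  have hinj : Function.Injective (leviHom φ G hG) := by
    intro A B hAB
    apply Units.ext
    exact levi_injective φ G hG _ _ _ _ (congrArg Units.val hAB)
  have e3 : Nat.card (GL (Fin m) K) ∣ Nat.card ↥(H ⊓ U) :=
    Subgroup.card_dvd_of_injective (α := GL (Fin m) K) (H := ↥(H ⊓ U))
      ((leviHom φ G hG).codRestrict (H ⊓ U) hmem)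
      ((MonoidHom.injective_codRestrict (leviHom φ G hG) (H ⊓ U) hmem).mpr hinj)
  have e4 : Nat.card ↥(H ⊓ U) = Nat.card ↥(H ⊓ (U ⊓ S)) *
      Nat.card ↥((H ⊓ U).map Matrix.GeneralLinearGroup.det) := by
    have h := Subgroup.relIndex_mul_relIndex (⊥ : Subgroup (GL (Fin (m + m)) K))
      (S ⊓ (H ⊓ U)) (H ⊓ U) bot_le inf_le_right
    rw [Subgroup.relIndex_bot_left, Subgroup.relIndex_bot_left,
      Subgroup.inf_relIndex_right] at h
    have h2 : S.relIndex (H ⊓ U) = Nat.card ↥((H ⊓ U).map Matrix.GeneralLinearGroup.det) := by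
      rw [hS]
      exact Subgroup.relIndex_ker (H ⊓ U)
        (Matrix.GeneralLinearGroup.det : GL (Fin (m + m)) K →* Kˣ)
    have h3 : S ⊓ (H ⊓ U) = H ⊓ (U ⊓ S) := by rw [inf_comm, inf_assoc]
    rw [h2, h3] at h
    exact h.symm
  have e5 : Nat.card ↥((H ⊓ U).map Matrix.GeneralLinearGroup.det) ∣ q + 1 := by
    obtain ⟨T, hT⟩ : ∃ T : Subgroup Kˣ, T = (H ⊓ U).map Matrix.GeneralLinearGroup.det :=
      ⟨_, rfl⟩
    rw [← hT]
    have hpow : ∀ d ∈ T, d ^ (q + 1) = 1 := by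
      intro d hd
      rw [hT] at hd
      obtain ⟨g, hg, rfl⟩ := Subgroup.mem_map.mp hd
      have hgU : g ∈ U := hg.2
      rw [hU] at hgU
      have h1 : adj φ (g : Matrix (Fin (m + m)) (Fin (m + m)) K) *
          (g : Matrix (Fin (m + m)) (Fin (m + m)) K) = 1 := (preserves_iff φ hφq _).mp hgU
      have h2 := congrArg Matrix.det h1
      rw [Matrix.det_mul, det_adj, Matrix.det_one, hφq, ← pow_succ] at h2
      apply Units.ext
      rw [Units.val_pow_eq_pow_val, Matrix.GeneralLinearGroup.val_det_apply, Units.val_one]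
      exact h2
    obtain ⟨g₀, hg₀⟩ := IsCyclic.exists_generator (α := ↥T)
    have hord : orderOf g₀ = Nat.card ↥T := orderOf_eq_card_of_forall_mem_zpowers hg₀
    rw [← hord]
    apply orderOf_dvd_of_pow_eq_one
    apply Subtype.ext
    rw [SubmonoidClass.coe_pow, OneMemClass.coe_one]
    exact hpow _ g₀.2
  have hGL := Matrix.card_GL_field (𝔽 := K) m
  rw [hK] at hGL
  have hGU := Cfsg.Agent.Lib.Helper45.GUCard.card_GU hK (m + m)
  obtain ⟨d', hd'⟩ := e5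
  obtain ⟨e', he'⟩ := e2
  obtain ⟨f', hf'⟩ := e3
  apply arith q m (H.relIndex (U ⊓ S)) hq hm r hr hrq hΩ
  rw [← hGL, ← hGU, ← hU]
  refine ⟨f' * e' * d', ?_⟩
  calc Nat.card ↥U * (q + 1)
      = (Nat.card ↥(U ⊓ S) * e') *
          (Nat.card ↥((H ⊓ U).map Matrix.GeneralLinearGroup.det) * d') := by rw [he', hd']
    _ = (H.relIndex (U ⊓ S) * Nat.card ↥(H ⊓ (U ⊓ S)) * e') *
          (Nat.card ↥((H ⊓ U).map Matrix.GeneralLinearGroup.det) * d') := by rw [e1]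
    _ = H.relIndex (U ⊓ S) * (Nat.card ↥(H ⊓ (U ⊓ S)) *
          Nat.card ↥((H ⊓ U).map Matrix.GeneralLinearGroup.det)) * (e' * d') := by ring
    _ = H.relIndex (U ⊓ S) * (Nat.card (GL (Fin m) K) * f') * (e' * d') := by rw [← e4, hf']
    _ = H.relIndex (U ⊓ S) * Nat.card (GL (Fin m) K) * (f' * e' * d') := by ring

end index

end Cfsg.Agent.Lib.Helper40.PPIndex
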