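import Mathlib
import Cfsg.Agent.Lib.Helper40.SFStmt

set_option autoImplicit false

namespace Cfsg.Agent.Lib.Helper40.SFAbs

open Cfsg.Agent.Lib.Helper40.SFStmt

universe u

/-- the abstract main theorem: a subgroup of `f`-isometries containing the `L`-linear
`B`-isometries and an element that is not `L`-semilinear contains every `F`-transvection -/
def Abs : Prop :=
  ∀ (F L : Type u) [Field F] [Finite F] [Field L] [Finite L] [Algebra F L] (n : ℕ)
    (c : Ctx F L n), 1 ≤ n → (Module.finrank F L).Prime →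
    (n = 1 → (2 : F) = 0 → 3 ≤ Module.finrank F L) →
    (∃ g ∈ c.M, ¬ ∀ a : L, ∃ a' : L, ∀ x : W n L, g (a • x) = a' • g x) →
    ∀ (d : W n L) (s : F), ∃ k ∈ c.M, IsTv c.τ k d s

theorem abs_main (hSpread : Spread.{u}) (hStart : Start.{u}) (hReduce : Reduce.{u})
    (hNF : NF.{u}) (hCommB : CommB.{u}) (hTvOdd : TvOdd.{u}) (hTvBig : TvBig.{u})
    (hTvEven1 : TvEven1.{u}) (hAllTv : AllTv.{u}) : Abs.{u} := by
  intro F L _ _ _ _ _ n c hn hr hcase hex
  obtain ⟨g, hgM, hg⟩ := hex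
  have hfd : FiniteDimensional F L := Module.Finite.of_finite
  have h1 : ¬ ∀ (x : W n L) (a : L), ∃ a' : L, g (a • x) = a' • g x :=
    fun h => hg (hSpread F L n hn g h)
  obtain ⟨v, u, hrk1, hrk2⟩ := hStart F L n g h1
  have key : ∀ k : ℕ, ∀ g ∈ c.M, ∀ v u : W n L, rk g v u = k → 1 ≤ k →
      k + 1 ≤ Module.finrank F L → ∃ g' ∈ c.M, ∃ v' u' : W n L, rk g' v' u' = 1 := by
    intro k
    induction k using Nat.strong_induction_on with
    | _ k ih =>
      intro g hg v u hk h1 h2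
      by_cases hk1 : k = 1
      · exact ⟨g, hg, v, u, hk.trans hk1⟩
      · obtain ⟨g', hg', v', u', h3, h4⟩ :=
          hReduce F L n c hr g hg v u (by omega) (by omega)
        exact ih (rk g' v' u') (by omega) g' hg' v' u' rfl h3 (by omega)
  obtain ⟨g₁, hg₁, v₁, u₁, hrk⟩ := key _ g hgM v u rfl hrk1 hrk2
  obtain ⟨γ, hγ, ϑ, κ, hϑ, hκ, hfix, hform⟩ := hNF F L n c g₁ hg₁ v₁ u₁ hrk
  obtain ⟨e, he, d, w, c₀, hd, hfwd, hBwd, hS⟩ :=
    hCommB F L n c hr.two_le γ hγ v₁ ϑ κ hϑ hκ hfix hform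
  have htv : ∃ k ∈ c.M, ∃ (d' : W n L) (s : F), d' ≠ 0 ∧ s ≠ 0 ∧ IsTv c.τ k d' s := by
    by_cases hn2 : 2 ≤ n
    · exact hTvBig F L n c hn2 e he d w c₀ hS hd hfwd hBwd
    · by_cases h2 : (2 : F) = 0
      · exact hTvEven1 F L n c h2 (hcase (by omega) h2) e he d w c₀ hS hd hfwd hBwd
      · exact hTvOdd F L n c h2 e he d w c₀ hS hd hfwd hBwd
  exact hAllTv F L n c htv

end Cfsg.Agent.Lib.Helper40.SFAbs
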