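import Mathlib
import Cfsg.Prelude.Def_GeometricClasses
import Cfsg.Agent.Lib.Helper40.SFStmt
import Cfsg.Agent.Lib.Helper40.SFAbs
import Cfsg.Agent.Lib.Helper40.KStr
import Cfsg.Agent.Lib.Helper40.KWit
import Cfsg.Agent.Lib.Helper94.SympStd

set_option autoImplicit false

namespace Cfsg.Agent.Lib.Helper40.SFTop

open Cfsg.Agent.Lib.Helper40.SFStmt Cfsg.Agent.Lib.Helper40.SFAbs
open Cfsg.Agent.Lib.Helper94.Basic
open scoped Matrix

universe u

section transfer
variable {F L : Type u} [Field F] [Field L] [Algebra F L] {m n : ℕ}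

/-- transfer of a matrix over `F` to an `F`-linear automorphism of `W n L` -/
noncomputable def tr (Φ : (Fin m ⊕ Fin m → F) ≃ₗ[F] W n L) (g : GL (Fin m ⊕ Fin m) F) :
    W n L ≃ₗ[F] W n L :=
  LinearEquiv.ofLinear
    (Φ.toLinearMap ∘ₗ Matrix.toLin' g.val ∘ₗ Φ.symm.toLinearMap)
    (Φ.toLinearMap ∘ₗ Matrix.toLin' (g⁻¹).val ∘ₗ Φ.symm.toLinearMap)
    (by
      apply LinearMap.ext
      intro x
      simp only [LinearMap.comp_apply, LinearEquiv.coe_coe, Matrix.toLin'_apply,
        LinearEquiv.symm_apply_apply, Matrix.mulVec_mulVec, Units.mul_inv, Matrix.one_mulVec,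
        LinearEquiv.apply_symm_apply, LinearMap.id_apply])
    (by
      apply LinearMap.ext
      intro x
      simp only [LinearMap.comp_apply, LinearEquiv.coe_coe, Matrix.toLin'_apply,
        LinearEquiv.symm_apply_apply, Matrix.mulVec_mulVec, Units.inv_mul, Matrix.one_mulVec,
        LinearEquiv.apply_symm_apply, LinearMap.id_apply])

theorem tr_apply (Φ : (Fin m ⊕ Fin m → F) ≃ₗ[F] W n L) (g : GL (Fin m ⊕ Fin m) F) (x : W n L) :
    tr Φ g x = Φ (g.val *ᵥ Φ.symm x) := rfl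

/-- the transfer as a group homomorphism -/
noncomputable def trHom (Φ : (Fin m ⊕ Fin m → F) ≃ₗ[F] W n L) :
    GL (Fin m ⊕ Fin m) F →* (W n L ≃ₗ[F] W n L) where
  toFun := tr Φ
  map_one' := by
    apply LinearEquiv.ext
    intro x
    rw [tr_apply, Units.val_one, Matrix.one_mulVec, LinearEquiv.apply_symm_apply]
    rfl
  map_mul' g h := by
    apply LinearEquiv.ext
    intro x
    rw [LinearEquiv.mul_apply, tr_apply, tr_apply, tr_apply, LinearEquiv.symm_apply_apply,
      Units.val_mul, Matrix.mulVec_mulVec]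

theorem trHom_apply (Φ : (Fin m ⊕ Fin m → F) ≃ₗ[F] W n L) (g : GL (Fin m ⊕ Fin m) F) (x : W n L) :
    trHom Φ g x = Φ (g.val *ᵥ Φ.symm x) := rfl

end transfer

theorem top (hAbs : Abs.{u}) {F : Type u} [Field F] [Fintype F] (m : ℕ) (hm : 7 ≤ m) (r : ℕ)
    (hr : r.Prime) (K : Subalgebra F (Matrix (Fin m ⊕ Fin m) (Fin m ⊕ Fin m) F))
    (hK : Cfsg.Geo.IsFieldSubalgebra r K)
    (hsa : Cfsg.Geo.IsSelfAdjointFor (Cfsg.sympForm m F) K)
    (halt : ∀ k ∈ K, ∀ v : (Fin m ⊕ Fin m → F), Cfsg.sympForm m F (Matrix.mulVec k v) v = 0) :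
    Cfsg.Geo.IsMaximalIn (Cfsg.spGL m F)
      (Cfsg.Geo.subalgebraNormalizer K ⊓ Cfsg.spGL m F) := by
  classical
  obtain ⟨L, instL, instA, ι, hιK, hKι, hinj, hfr⟩ :=
    Cfsg.Agent.Lib.Helper40.KStr.exists_field r hr.two_le K hK
  have hfd : FiniteDimensional F L := Module.finite_of_finrank_pos (by rw [hfr]; exact hr.pos)
  have hfin : Finite L := Module.finite_of_finite F
  have hsa' : ∀ a u v, Cfsg.sympForm m F (ι a *ᵥ u) v = Cfsg.sympForm m F u (ι a *ᵥ v) :=
    fun a u v => hsa (ι a) (hιK a) u v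
  have halt' : ∀ a v, Cfsg.sympForm m F (ι a *ᵥ v) v = 0 := fun a v => halt (ι a) (hιK a) v
  obtain ⟨a₁, ha₁⟩ := Algebra.trace_surjective F L (1 : F)
  have hτ : Algebra.trace F L ≠ 0 := by
    intro h
    rw [h] at ha₁
    simp at ha₁
  obtain ⟨n, Φ, hΦ, hf⟩ :=
    Cfsg.Agent.Lib.Helper40.KStr.exists_coords ι hsa' halt' (Algebra.trace F L) hτ
  have hf1 : ∀ u v, Cfsg.sympForm m F u v =
      Algebra.trace F L (Cfsg.sympForm n L (Φ u) (Φ v)) := by
    intro u v
    have h := hf 1 u v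
    rwa [map_one, Matrix.one_mulVec, one_mul] at h
  have hdim : m = r * n := by
    have h3 := LinearEquiv.finrank_eq Φ
    rw [Module.finrank_fintype_fun_eq_card, Fintype.card_sum, Fintype.card_fin,
      Module.finrank_pi_fintype, Finset.sum_const, Finset.card_univ, Fintype.card_sum,
      Fintype.card_fin, smul_eq_mul, hfr] at h3
    have h5 : (n + n) * r = r * n + r * n := by ring
    omega
  have hn1 : 1 ≤ n := by
    rcases Nat.eq_zero_or_pos n with h | h
    · rw [h, mul_zero] at hdim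
      omega
    · exact h
  -- elements of `K` as `ι a`
  -- strictness
  have hlt : Cfsg.Geo.subalgebraNormalizer K ⊓ Cfsg.spGL m F < Cfsg.spGL m F := by
    refine lt_of_le_of_ne inf_le_right ?_
    intro heq
    have hle : Cfsg.spGL m F ≤ Cfsg.Geo.subalgebraNormalizer K := by
      rw [← heq]
      exact inf_le_left
    obtain ⟨d, hd⟩ : ∃ d : Fin m ⊕ Fin m → F, d ≠ 0 :=
      ⟨Pi.single (Sum.inl ⟨0, by omega⟩) 1, by
        intro h
        have := congrFun h (Sum.inl ⟨0, by omega⟩)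
        simp at this⟩
    have hT := hle (sympTv_mem_spGL d 1)
    have hval : (sympTv d (1 : F)).val =
        1 + Matrix.vecMulVec d (Matrix.J (Fin m) F *ᵥ d) := by
      apply Cfsg.Agent.Lib.Helper40.KStr.ext_mulVec
      intro x
      rw [sympTv_mulVec, Matrix.add_mulVec, Matrix.one_mulVec, Matrix.vecMulVec_mulVec, one_mul]
      congr 1
      unfold Cfsg.sympForm
      rw [dotProduct_comm]
      funext i
      simp [mul_comm]
    have hJd : Matrix.J (Fin m) F *ᵥ d ≠ 0 := by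
      intro h0
      have hnd := (Cfsg.Agent.Lib.Helper94.SympStd.sympForm_isSymplectic (F := F) (m := m)).nondegenerate d hd
      obtain ⟨x, hx⟩ := hnd.1
      apply hx
      unfold Cfsg.sympForm
      rw [h0, dotProduct_zero]
    have hcard : 3 ≤ Fintype.card (Fin m ⊕ Fin m) := by
      rw [Fintype.card_sum, Fintype.card_fin]
      omega
    have hsc := Cfsg.Agent.Lib.Helper40.KWit.transv_no_norm hcard K
      (fun x hx hx0 => by
        obtain ⟨y, -, hy⟩ := hK.inv x hx hx0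
        exact ⟨y, hy⟩)
      d (Matrix.J (Fin m) F *ᵥ d) hd hJd ((sympTv d (1 : F))⁻¹).val
      (by rw [← hval]; exact Units.mul_inv _)
      (fun a ha => by rw [← hval]; exact (hT a).mp ha)
    have h1 : ∀ w : L, ∃ c : F, c • (1 : L) = w := by
      intro a
      obtain ⟨l, hl⟩ := hsc (ι a) (hιK a)
      refine ⟨l, hinj ?_⟩
      rw [hl, map_smul, map_one]
    have h2 : Module.finrank F L = 1 :=
      (finrank_eq_one_iff_of_nonzero' (1 : L) one_ne_zero).mpr h1
    rw [hfr] at h2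
    exact hr.one_lt.ne' h2
  refine ⟨hlt, ?_⟩
  intro M hHM hMS
  by_cases hMH : M = Cfsg.Geo.subalgebraNormalizer K ⊓ Cfsg.spGL m F
  · exact Or.inl hMH
  right
  -- an element of `M` outside the normalizer
  obtain ⟨g₀, hg₀M, hg₀N⟩ : ∃ g ∈ M, g ∉ Cfsg.Geo.subalgebraNormalizer K := by
    by_contra hcon
    push Not at hcon
    apply hMH
    apply le_antisymm
    · intro g hg
      exact ⟨hcon g hg, hMS hg⟩
    · exact hHM
  -- the context
  have hisom : ∀ g ∈ M.map (trHom Φ), ∀ x y : W n L,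
      ff (Algebra.trace F L) (g x) (g y) = ff (Algebra.trace F L) x y := by
    rintro _ ⟨g, hg, rfl⟩ x y
    have hgS := (mem_spGL_iff g).mp (hMS hg) (Φ.symm x) (Φ.symm y)
    rw [hf1, hf1, LinearEquiv.apply_symm_apply, LinearEquiv.apply_symm_apply] at hgS
    exact hgS
  have hsub : ∀ h : W n L ≃ₗ[L] W n L,
      (∀ x y : W n L, Cfsg.sympForm n L (h x) (h y) = Cfsg.sympForm n L x y) →
        h.restrictScalars F ∈ M.map (trHom Φ) := by
    intro h hh
    obtain ⟨φ, hφ⟩ : ∃ φ : (Fin m ⊕ Fin m → F) →ₗ[F] (Fin m ⊕ Fin m → F),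
        φ = Φ.symm.toLinearMap ∘ₗ (h.restrictScalars F).toLinearMap ∘ₗ Φ.toLinearMap := ⟨_, rfl⟩
    obtain ⟨ψ, hψ⟩ : ∃ ψ : (Fin m ⊕ Fin m → F) →ₗ[F] (Fin m ⊕ Fin m → F),
        ψ = Φ.symm.toLinearMap ∘ₗ (h.symm.restrictScalars F).toLinearMap ∘ₗ Φ.toLinearMap :=
      ⟨_, rfl⟩
    have hφa : ∀ v, φ v = Φ.symm (h (Φ v)) := fun v => by rw [hφ]; rfl
    have hψa : ∀ v, ψ v = Φ.symm (h.symm (Φ v)) := fun v => by rw [hψ]; rfl
    have h1 : φ ∘ₗ ψ = LinearMap.id := by
      apply LinearMap.ext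
      intro v
      rw [LinearMap.comp_apply, hφa, hψa, LinearEquiv.apply_symm_apply,
        LinearEquiv.apply_symm_apply, LinearEquiv.symm_apply_apply, LinearMap.id_apply]
    have h2 : ψ ∘ₗ φ = LinearMap.id := by
      apply LinearMap.ext
      intro v
      rw [LinearMap.comp_apply, hφa, hψa, LinearEquiv.apply_symm_apply,
        LinearEquiv.symm_apply_apply, LinearEquiv.symm_apply_apply, LinearMap.id_apply]
    have hgv : ∀ v, (glOfLin φ ψ h1 h2).val *ᵥ v = Φ.symm (h (Φ v)) := by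
      intro v
      rw [← Matrix.toLin'_apply, glOfLin_toLin', hφa]
    have hmemS : glOfLin φ ψ h1 h2 ∈ Cfsg.spGL m F := by
      rw [mem_spGL_iff]
      intro u v
      rw [hgv, hgv, hf1, hf1, LinearEquiv.apply_symm_apply, LinearEquiv.apply_symm_apply, hh]
    have hmemN : glOfLin φ ψ h1 h2 ∈ Cfsg.Geo.subalgebraNormalizer K := by
      apply Cfsg.Agent.Lib.Helper40.KStr.mem_normalizer_of_comm
      intro x hx
      obtain ⟨a, rfl⟩ := hKι x hx
      apply Cfsg.Agent.Lib.Helper40.KStr.ext_mulVec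
      intro v
      rw [← Matrix.mulVec_mulVec, ← Matrix.mulVec_mulVec, hgv, hgv]
      apply Φ.injective
      rw [LinearEquiv.apply_symm_apply, hΦ, hΦ, LinearEquiv.apply_symm_apply, map_smul]
    refine ⟨glOfLin φ ψ h1 h2, hHM ⟨hmemN, hmemS⟩, ?_⟩
    apply LinearEquiv.ext
    intro x
    rw [trHom_apply, hgv, LinearEquiv.apply_symm_apply, LinearEquiv.apply_symm_apply]
    rfl
  obtain ⟨c, hcτ, hcM⟩ : ∃ c : Ctx F L n, c.τ = Algebra.trace F L ∧ c.M = M.map (trHom Φ) :=
    ⟨⟨Algebra.trace F L, M.map (trHom Φ), hτ, hisom, hsub⟩, rfl, rfl⟩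
  -- the non-semilinear element
  have hnon : ∃ g ∈ c.M, ¬ ∀ a : L, ∃ a' : L, ∀ x : W n L, g (a • x) = a' • g x := by
    refine ⟨trHom Φ g₀, by rw [hcM]; exact ⟨g₀, hg₀M, rfl⟩, ?_⟩
    intro hall
    apply hg₀N
    choose t ht using hall
    have hcomm : ∀ a, g₀.val * ι a = ι (t a) * g₀.val := by
      intro a
      apply Cfsg.Agent.Lib.Helper40.KStr.ext_mulVec
      intro v
      rw [← Matrix.mulVec_mulVec, ← Matrix.mulVec_mulVec]
      apply Φ.injective
      have h1 := ht a (Φ v)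
      rw [trHom_apply, trHom_apply, ← hΦ, LinearEquiv.symm_apply_apply,
        LinearEquiv.symm_apply_apply] at h1
      rw [h1, hΦ]
    have hconj : ∀ a, g₀.val * ι a * (g₀⁻¹).val = ι (t a) := by
      intro a
      rw [hcomm, Matrix.mul_assoc, Units.mul_inv, Matrix.mul_one]
    have htinj : Function.Injective t := by
      intro a b hab
      apply hinj
      have h1 := hconj a
      rw [hab, ← hconj b] at h1
      have h2 : (g₀⁻¹).val * (g₀.val * ι a * (g₀⁻¹).val) * g₀.val =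
          (g₀⁻¹).val * (g₀.val * ι b * (g₀⁻¹).val) * g₀.val := by rw [h1]
      simp only [Matrix.mul_assoc, Units.inv_mul, Matrix.mul_one] at h2
      simp only [← Matrix.mul_assoc, Units.inv_mul, Matrix.one_mul] at h2
      exact h2
    have htsurj : Function.Surjective t := Finite.injective_iff_surjective.mp htinj
    show ∀ k : Matrix (Fin m ⊕ Fin m) (Fin m ⊕ Fin m) F,
      k ∈ K ↔ g₀.val * k * (g₀⁻¹).val ∈ K
    intro k
    constructor
    · intro hk
      obtain ⟨a, rfl⟩ := hKι k hk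
      rw [hconj]
      exact hιK _
    · intro hk
      obtain ⟨b, hb⟩ := hKι _ hk
      obtain ⟨a, rfl⟩ := htsurj b
      rw [← hconj a] at hb
      have h2 : (g₀⁻¹).val * (g₀.val * ι a * (g₀⁻¹).val) * g₀.val =
          (g₀⁻¹).val * (g₀.val * k * (g₀⁻¹).val) * g₀.val := by rw [hb]
      simp only [Matrix.mul_assoc, Units.inv_mul, Matrix.mul_one] at h2
      simp only [← Matrix.mul_assoc, Units.inv_mul, Matrix.one_mul] at h2
      rw [← h2]
      exact hιK a
  have hcase : n = 1 → (2 : F) = 0 → 3 ≤ Module.finrank F L := by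
    intro h1 _
    rw [hfr]
    rw [h1, mul_one] at hdim
    omega
  have hall := hAbs F L n c hn1 (by rw [hfr]; exact hr) hcase hnon
  -- all transvections lie in `M`
  apply le_antisymm hMS
  apply Cfsg.Agent.Lib.Helper94.SympStd.spGL_le_of_sympTv
  intro a s
  obtain ⟨k, hk, hkT⟩ := hall (Φ a) s
  rw [hcM] at hk
  obtain ⟨g, hg, rfl⟩ := hk
  have heq : g = sympTv a s := by
    apply Cfsg.Agent.Lib.Helper94.Tv.gl_ext
    intro x
    rw [sympTv_mulVec]
    apply Φ.injective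
    have h1 := hkT (Φ x)
    rw [trHom_apply, LinearEquiv.symm_apply_apply] at h1
    rw [h1, map_add, map_smul]
    congr 2
    unfold ff
    rw [hcτ, ← hf1]
  rw [← heq]
  exact hg

end Cfsg.Agent.Lib.Helper40.SFTop
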