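import Mathlib
import Cfsg.Prelude.Def_ClassicalGeometry
import Cfsg.Agent.Lib.Helper13.SympMat
import Cfsg.Agent.Lib.Helper40.SubspCount

set_option autoImplicit false

namespace Cfsg.Agent.Lib.Helper40.TICount

open Module Cfsg.Agent.Lib.Helper13.SympMat Cfsg.Agent.Lib.Helper40.SubspCount

section
variable {F : Type*} [Field F] [Fintype F] {V : Type*} [AddCommGroup V] [Module F V] [Finite V]

/-- Totally isotropic frames. -/
abbrev Frames (B : LinearMap.BilinForm F V) (m : ℕ) : Type _ :=
  {s : Fin m → V // LinearIndependent F s ∧ ∀ a b, B (s a) (s b) = 0}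

omit [Fintype F] [Finite V] in
theorem span_isotropic (B : LinearMap.BilinForm F V) {ι : Type*} (s : ι → V)
    (h : ∀ a b, B (s a) (s b) = 0) :
    ∀ u ∈ Submodule.span F (Set.range s), ∀ v ∈ Submodule.span F (Set.range s), B u v = 0 := by
  have h1 : ∀ b, ∀ u ∈ Submodule.span F (Set.range s), B u (s b) = 0 := by
    intro b u hu
    have h2 : Submodule.span F (Set.range s) ≤ LinearMap.ker (B.flip (s b)) := by
      rw [Submodule.span_le]
      rintro _ ⟨a, rfl⟩
      exact h a b
    exact h2 hu
  intro u hu v hv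
  have h2 : Submodule.span F (Set.range s) ≤ LinearMap.ker (B u) := by
    rw [Submodule.span_le]
    rintro _ ⟨b, rfl⟩
    exact h1 b u hu
  exact h2 hv

/-- A frame of length `m + 1` is a frame of length `m` and a vector. -/
noncomputable def stepEquiv (B : LinearMap.BilinForm F V) (hA : B.IsAlt) (m : ℕ) :
    Frames B (m + 1) ≃ {t : Frames B m × V // (∀ a, B (t.1.1 a) t.2 = 0) ∧
      t.2 ∉ Submodule.span F (Set.range t.1.1)} where
  toFun s := ⟨(⟨Fin.init s.1,
      (linearIndependent_finSnoc.mp (by rw [Fin.snoc_init_self]; exact s.2.1)).1,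
      fun a b => s.2.2 _ _⟩, s.1 (Fin.last m)),
    fun a => s.2.2 _ _,
    (linearIndependent_finSnoc.mp (by rw [Fin.snoc_init_self]; exact s.2.1)).2⟩
  invFun t := ⟨(Fin.snoc t.1.1.1 t.1.2 : Fin (m + 1) → V),
    linearIndependent_finSnoc.mpr ⟨t.1.1.2.1, t.2.2⟩, by
    intro a b
    induction a using Fin.lastCases with
    | last =>
      induction b using Fin.lastCases with
      | last =>
        rw [Fin.snoc_last]
        exact hA _
      | cast b =>
        rw [Fin.snoc_last, Fin.snoc_castSucc, ← hA.neg_eq, t.2.1 b, neg_zero]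
    | cast a =>
      induction b using Fin.lastCases with
      | last =>
        rw [Fin.snoc_last, Fin.snoc_castSucc]
        exact t.2.1 a
      | cast b =>
        rw [Fin.snoc_castSucc, Fin.snoc_castSucc]
        exact t.1.1.2.2 a b⟩
  left_inv s := by
    apply Subtype.ext
    exact Fin.snoc_init_self s.1
  right_inv t := by
    apply Subtype.ext
    apply Prod.ext
    · apply Subtype.ext
      exact Fin.init_snoc (α := fun _ => V) t.1.2 t.1.1.1
    · exact Fin.snoc_last (α := fun _ => V) t.1.2 t.1.1.1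

theorem card_fiber (B : LinearMap.BilinForm F V) (hB : B.Nondegenerate) (m : ℕ)
    (s : Frames B m) :
    Nat.card {v : V // (∀ a, B (s.1 a) v = 0) ∧ v ∉ Submodule.span F (Set.range s.1)} =
      Fintype.card F ^ (finrank F V - m) - Fintype.card F ^ m := by
  classical
  obtain ⟨W, hW⟩ : ∃ W, W = Submodule.span F (Set.range s.1) := ⟨_, rfl⟩
  have hWd : finrank F W = m := by
    rw [hW, finrank_span_eq_card s.2.1, Fintype.card_fin]
  have hOd : finrank F (B.orthogonal W) = finrank F V - m := by
    rw [LinearMap.BilinForm.finrank_orthogonal hB W, hWd]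
  have hWO : (W : Set V) ⊆ (B.orthogonal W : Set V) := by
    intro u hu
    rw [SetLike.mem_coe, LinearMap.BilinForm.mem_orthogonal_iff]
    intro w hw
    rw [hW] at hu hw
    exact span_isotropic B s.1 s.2.2 w hw u hu
  have hset : {v : V | (∀ a, B (s.1 a) v = 0) ∧ v ∉ Submodule.span F (Set.range s.1)} =
      (B.orthogonal W : Set V) \ (W : Set V) := by
    ext v
    rw [Set.mem_ofPred_eq, Set.mem_sdiff, SetLike.mem_coe, SetLike.mem_coe,
      LinearMap.BilinForm.mem_orthogonal_iff, ← hW]
    constructor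
    · rintro ⟨h1, h2⟩
      refine ⟨?_, h2⟩
      intro w hw
      have h3 : W ≤ LinearMap.ker (B.flip v) := by
        rw [hW, Submodule.span_le]
        rintro _ ⟨a, rfl⟩
        exact h1 a
      exact h3 hw
    · rintro ⟨h1, h2⟩
      refine ⟨fun a => h1 _ ?_, h2⟩
      rw [hW]
      exact Submodule.subset_span (Set.mem_range_self a)
  have hc1 : (B.orthogonal W : Set V).ncard = Fintype.card F ^ (finrank F V - m) := by
    rw [← Nat.card_coe_set_eq]
    show Nat.card ↥(B.orthogonal W) = _
    rw [Module.natCard_eq_pow_finrank (K := F), hOd, Nat.card_eq_fintype_card]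
  have hc2 : (W : Set V).ncard = Fintype.card F ^ m := by
    rw [← Nat.card_coe_set_eq]
    show Nat.card ↥W = _
    rw [Module.natCard_eq_pow_finrank (K := F), hWd, Nat.card_eq_fintype_card]
  show Nat.card ↥{v : V | (∀ a, B (s.1 a) v = 0) ∧ v ∉ Submodule.span F (Set.range s.1)} = _
  rw [hset, Nat.card_coe_set_eq, Set.ncard_sdiff hWO (Set.toFinite _), hc1, hc2]

theorem card_frames (B : LinearMap.BilinForm F V) (hB : B.Nondegenerate) (hA : B.IsAlt) :
    ∀ m : ℕ, Nat.card (Frames B m) =
      ∏ j ∈ Finset.range m, (Fintype.card F ^ (finrank F V - j) - Fintype.card F ^ j) := by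
  classical
  intro m
  induction m with
  | zero =>
    rw [Finset.prod_range_zero]
    have : Unique (Frames B 0) :=
      { default := ⟨fun a => a.elim0, linearIndependent_empty_type, fun a => a.elim0⟩
        uniq := fun s => Subtype.ext (funext fun a => a.elim0) }
    exact Nat.card_unique
  | succ m ih =>
    have : Finite (Frames B m) := by
      unfold Frames
      infer_instance
    have : Fintype (Frames B m) := Fintype.ofFinite _
    rw [Nat.card_congr ((stepEquiv B hA m).trans (Equiv.subtypeProdEquivSigmaSubtype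
      (fun (s : Frames B m) (v : V) => (∀ a, B (s.1 a) v = 0) ∧
        v ∉ Submodule.span F (Set.range s.1)))), Nat.card_sigma,
      Finset.sum_congr rfl (fun s _ => card_fiber B hB m s), Finset.sum_const, Finset.card_univ,
      smul_eq_mul, ← Nat.card_eq_fintype_card, ih, Finset.prod_range_succ]

/-- The frames spanning a given totally isotropic subspace. -/
noncomputable def frameFiberEquiv (B : LinearMap.BilinForm F V) (m : ℕ) (W : Submodule F V)
    (hW : finrank F W = m) (hti : ∀ u ∈ W, ∀ v ∈ W, B u v = 0) :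
    {s : Frames B m // Submodule.span F (Set.range s.1) = W} ≃
    {s : {s : Fin m → V // LinearIndependent F s} // Submodule.span F (Set.range s.1) = W} where
  toFun s := ⟨⟨s.1.1, s.1.2.1⟩, s.2⟩
  invFun s := ⟨⟨s.1.1, s.1.2, fun a b => hti _ (by
    have h := Submodule.subset_span (R := F) (Set.mem_range_self (f := s.1.1) a)
    rw [s.2] at h
    exact h) _ (by
    have h := Submodule.subset_span (R := F) (Set.mem_range_self (f := s.1.1) b)
    rw [s.2] at h
    exact h)⟩, s.2⟩
  left_inv s := rfl
  right_inv s := rfl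

theorem card_ti_mul (B : LinearMap.BilinForm F V) (hB : B.Nondegenerate) (hA : B.IsAlt) (m : ℕ) :
    Nat.card {W : Submodule F V // finrank F W = m ∧ ∀ u ∈ W, ∀ v ∈ W, B u v = 0} *
      ∏ i : Fin m, (Fintype.card F ^ m - Fintype.card F ^ (i : ℕ)) =
    ∏ j ∈ Finset.range m, (Fintype.card F ^ (finrank F V - j) - Fintype.card F ^ j) := by
  classical
  rw [← card_frames B hB hA m]
  let f : Frames B m → {W : Submodule F V // finrank F W = m ∧ ∀ u ∈ W, ∀ v ∈ W, B u v = 0} :=
    fun s => ⟨Submodule.span F (Set.range s.1),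
      by rw [finrank_span_eq_card s.2.1, Fintype.card_fin], span_isotropic B s.1 s.2.2⟩
  rw [← Nat.card_congr (Equiv.sigmaFiberEquiv f)]
  have : Fintype {W : Submodule F V // finrank F W = m ∧ ∀ u ∈ W, ∀ v ∈ W, B u v = 0} :=
    Fintype.ofFinite _
  rw [Nat.card_sigma]
  have h : ∀ W : {W : Submodule F V // finrank F W = m ∧ ∀ u ∈ W, ∀ v ∈ W, B u v = 0},
      Nat.card {s // f s = W} =
      ∏ i : Fin m, (Fintype.card F ^ m - Fintype.card F ^ (i : ℕ)) := by
    intro W
    have e : {s // f s = W} ≃ {s : Frames B m // Submodule.span F (Set.range s.1) = W.1} :=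
      Equiv.subtypeEquivRight (fun s => Subtype.ext_iff)
    rw [Nat.card_congr ((e.trans (frameFiberEquiv B m W.1 W.2.1 W.2.2)).trans
      (fiberEquiv m W.1 W.2.1)), card_linearIndependent (le_of_eq W.2.1.symm), W.2.1]
  rw [Finset.sum_congr rfl (fun W _ => h W), Finset.sum_const, Finset.card_univ, smul_eq_mul,
    Nat.card_eq_fintype_card]

end

section
variable {F : Type*} [Field F] [Fintype F]

/-- The number of totally isotropic `m`-spaces of the symplectic space of dimension `2d`. -/
theorem card_ti_symp (d m : ℕ) (hm : m ≤ d) :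
    Nat.card {W : Submodule F (Fin d ⊕ Fin d → F) // finrank F W = m ∧
      ∀ u ∈ W, ∀ v ∈ W, Cfsg.sympForm d F u v = 0} * bfun (Fintype.card F) m m =
    ∏ j ∈ Finset.range m, (Fintype.card F ^ (2 * (d - j)) - 1) := by
  have h := card_ti_mul (form d F) (form_nondeg (F := F) d) (form_alt (F := F) d) m
  have hfin : finrank F (Fin d ⊕ Fin d → F) = 2 * d := by
    rw [Module.finrank_pi, Fintype.card_sum, Fintype.card_fin]
    ring
  rw [hfin, prod_pow_sub _ _ _ le_rfl] at h
  have hq : 0 < Fintype.card F := Fintype.card_pos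
  have hpos : 0 < ∏ i ∈ Finset.range m, Fintype.card F ^ i :=
    Finset.prod_pos (fun i _ => pow_pos hq i)
  have h2 : ∏ j ∈ Finset.range m, (Fintype.card F ^ (2 * d - j) - Fintype.card F ^ j) =
      (∏ i ∈ Finset.range m, Fintype.card F ^ i) *
        ∏ j ∈ Finset.range m, (Fintype.card F ^ (2 * (d - j)) - 1) := by
    rw [← Finset.prod_mul_distrib]
    apply Finset.prod_congr rfl
    intro j hj
    have hj' : j < m := Finset.mem_range.mp hj
    rw [Nat.mul_sub, mul_one, ← pow_add]
    congr 2
    omega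
  rw [h2] at h
  apply Nat.eq_of_mul_eq_mul_left hpos
  rw [← h]
  have e2 : Nat.card {W : Submodule F (Fin d ⊕ Fin d → F) // finrank F W = m ∧
      ∀ u ∈ W, ∀ v ∈ W, Cfsg.sympForm d F u v = 0} =
      Nat.card {W : Submodule F (Fin d ⊕ Fin d → F) // finrank F W = m ∧
      ∀ u ∈ W, ∀ v ∈ W, form d F u v = 0} := by
    apply Nat.card_congr
    apply Equiv.subtypeEquivRight
    intro W
    simp only [form_apply]
  rw [e2]
  ring

/-- A prime dividing the number of totally isotropic `m`-spaces divides some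
`q^(2(d-j)) - 1`, `j < m`. -/
theorem exists_dvd_of_dvd_card_ti (d m : ℕ) (hm : m ≤ d) (r : ℕ) (hr : r.Prime)
    (h : r ∣ Nat.card {W : Submodule F (Fin d ⊕ Fin d → F) // finrank F W = m ∧
      ∀ u ∈ W, ∀ v ∈ W, Cfsg.sympForm d F u v = 0}) :
    ∃ j < m, r ∣ Fintype.card F ^ (2 * (d - j)) - 1 := by
  have h1 : r ∣ ∏ j ∈ Finset.range m, (Fintype.card F ^ (2 * (d - j)) - 1) := by
    rw [← card_ti_symp d m hm]
    exact Dvd.dvd.mul_right h _
  obtain ⟨j, hj, hd⟩ := (Prime.dvd_finsetProd_iff hr.prime _).mp h1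
  exact ⟨j, Finset.mem_range.mp hj, hd⟩

end

end Cfsg.Agent.Lib.Helper40.TICount
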